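import Cfsg.Statements.S0080
import Mathlib
-- import your own Cfsg.Agent.* helpers here

set_option autoImplicit false
open Cfsg

namespace Cfsg.Agent.S0080

open scoped commutatorElement
open scoped IsMulCommutative

/-- When the index of H is prime to the order of H/H', the focal subgroup of H is G' ∩ H, and H/(G' ∩ H) has a normal complement. -/
theorem result {G : Type*} [Group G] [Finite G] (H : Subgroup G) (h : Nat.Coprime H.index (⁅H, H⁆.relIndex H)) : Subgroup.focalSubgroup H = commutator G ⊓ H ∧ ∃ N : Subgroup G, N.Normal ∧ N ⊓ H = commutator G ⊓ H ∧ N ⊔ H = ⊤ := by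
  classical
  have hidx : (Subgroup.focalSubgroupOf H).index ∣ ⁅H, H⁆.relIndex H := by
    have h1 : (⁅H, H⁆).subgroupOf H = commutator H := by
      rw [← Subgroup.map_subtype_commutator, Subgroup.subgroupOf,
        Subgroup.comap_map_eq_self_of_injective (Subgroup.subtype_injective H)]
    rw [Subgroup.relIndex, h1]
    exact Subgroup.index_dvd_of_le (Subgroup.commutator_le_focalSubgroupOf H)
  have hcop : (Nat.card (H ⧸ Subgroup.focalSubgroupOf H)).Coprime H.index := by
    rw [← Subgroup.index_eq_card]
    exact (Nat.Coprime.coprime_dvd_right hidx h).symm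
  have hsurj : Function.Surjective fun y : H ⧸ Subgroup.focalSubgroupOf H ↦ y ^ H.index :=
    (powCoprime hcop).surjective
  have hinj : Function.Injective fun y : H ⧸ Subgroup.focalSubgroupOf H ↦ y ^ H.index :=
    (powCoprime hcop).injective
  have hker : (Subgroup.transferFocal H).ker ⊓ H = Subgroup.focalSubgroup H := by
    ext g
    constructor
    · rintro ⟨hg1, hg2⟩
      replace hg1 : Subgroup.transferFocal H g = 1 := hg1
      replace hg2 : g ∈ H := hg2
      have h2 := Subgroup.transferFocal_eq_pow H ⟨g, hg2⟩
      rw [hg1] at h2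
      have h3 : ((⟨g, hg2⟩ : H) : H ⧸ Subgroup.focalSubgroupOf H) = 1 :=
        hinj (by simpa using h2.symm)
      rw [QuotientGroup.eq_one_iff] at h3
      exact h3
    · intro hg
      have hgH := Subgroup.focalSubgroup_le H hg
      refine ⟨?_, hgH⟩
      show Subgroup.transferFocal H g = 1
      have h2 := Subgroup.transferFocal_eq_pow H ⟨g, hgH⟩
      have h3 : ((⟨g, hgH⟩ : H) : H ⧸ Subgroup.focalSubgroupOf H) = 1 :=
        (QuotientGroup.eq_one_iff _).mpr hg
      rw [h3, one_pow] at h2
      exact h2
  have hfocal : Subgroup.focalSubgroup H = commutator G ⊓ H := by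
    apply le_antisymm
    · exact le_inf (Subgroup.focalSubgroup_le_commutator H) (Subgroup.focalSubgroup_le H)
    · rw [← hker]
      exact inf_le_inf_right _ (Abelianization.commutator_subset_ker (Subgroup.transferFocal H))
  refine ⟨hfocal, (Subgroup.transferFocal H).ker, inferInstance, by rw [hker, hfocal], ?_⟩
  rw [eq_top_iff]
  intro g _
  obtain ⟨y, hy⟩ := hsurj (Subgroup.transferFocal H g)
  obtain ⟨x, rfl⟩ := QuotientGroup.mk'_surjective _ y
  have hx : Subgroup.transferFocal H (x : G) = Subgroup.transferFocal H g := by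
    rw [Subgroup.transferFocal_eq_pow]; exact hy
  have hk : g * (x : G)⁻¹ ∈ (Subgroup.transferFocal H).ker := by
    rw [MonoidHom.mem_ker, map_mul, map_inv, hx, mul_inv_cancel]
  have : g = g * (x : G)⁻¹ * x := by group
  rw [this]
  exact Subgroup.mul_mem_sup hk x.2

end Cfsg.Agent.S0080
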