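import Cfsg.Statements.S0041
import Mathlib
import Cfsg.Statements.S0041
import Cfsg.Agent.S0058
import Cfsg.Agent.Lib.Helper1.FrobAct
import Cfsg.Agent.Lib.Lead.Frob5
import Cfsg.Agent.Lib.Lead.Nilpotent
import Cfsg.Agent.Lib.Lead.Charac
import Cfsg.Agent.Lib.Lead.Basic
import Cfsg.Agent.Lib.Helper8.Syl
import Cfsg.Agent.Lib.Helper2.Comp7

set_option autoImplicit false
open Cfsg
open scoped commutatorElement

namespace Cfsg.Agent.S0041

open Cfsg.Agent.Lib Cfsg.Agent.Lib.Helper8
open scoped commutatorElement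
open scoped Pointwise

theorem coprime41 {G : Type*} [Group G] [Finite G] (A V : Subgroup G)
    (hAV : A ≤ Subgroup.normalizer (V : Set G))
    (hfpf : ∀ a ∈ A, a ≠ 1 → V ⊓ Subgroup.centralizer {a} = ⊥) :
    (Nat.card A).Coprime (Nat.card V) := by
  by_contra hcon
  obtain ⟨r, hr, hrA, hrV⟩ := Nat.Prime.not_coprime_iff_dvd.mp hcon
  haveI : Fact r.Prime := ⟨hr⟩
  obtain ⟨a, ha⟩ := exists_prime_orderOf_dvd_card' r hrA
  have haG : orderOf (a : G) = r := by rw [Subgroup.orderOf_coe]; exact ha
  have ha1 : (a : G) ≠ 1 := by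
    intro h
    rw [h, orderOf_one] at haG
    exact hr.one_lt.ne haG
  have hzp : IsPGroup r ↥(Subgroup.zpowers (a : G)) :=
    IsPGroup.of_card (n := 1) (by rw [Nat.card_zpowers, haG, pow_one])
  obtain ⟨T, hT, haT⟩ := exists_sylIn_ge (p := r) hzp
    (le_sup_right : Subgroup.zpowers (a : G) ≤ V ⊔ Subgroup.zpowers (a : G))
  have hKN : V ⊔ Subgroup.zpowers (a : G) ≤ Subgroup.normalizer (V : Set G) :=
    sup_le Subgroup.le_normalizer ((Subgroup.zpowers_le).mpr (hAV a.2))
  have hTV : SylIn r (T ⊓ V) V := hT.inf_of_normal le_sup_left hKN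
  have hne : T ⊓ V ≠ ⊥ := by
    intro h
    obtain ⟨R, hR⟩ := (sylIn_iff hTV.1).mp hTV
    have h2 := R.ne_bot_of_dvd_card hrV
    rw [hR, h, Subgroup.bot_subgroupOf] at h2
    exact h2 rfl
  have hTn : T ≤ Subgroup.normalizer ((T ⊓ V : Subgroup G) : Set G) :=
    Helper2.Comp.le_normalizer_inf Subgroup.le_normalizer (hT.1.trans hKN)
  haveI hnorm : ((T ⊓ V).subgroupOf T).Normal :=
    (Subgroup.normal_subgroupOf_iff_le_normalizer inf_le_left).mpr hTn
  haveI : Group.IsNilpotent ↥T := hT.2.1.isNilpotent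
  have hne' : (T ⊓ V).subgroupOf T ≠ ⊥ := by
    intro h
    apply hne
    rw [Subgroup.subgroupOf_eq_bot] at h
    rw [eq_bot_iff]
    intro x hx
    have := h.le_bot ⟨hx, hx.1⟩
    exact this
  have hmeet := Lead.normal_inf_center_ne_bot ((T ⊓ V).subgroupOf T) hne'
  obtain ⟨⟨u, hu⟩, hu1⟩ := Subgroup.ne_bot_iff_exists_ne_one.mp hmeet
  have huV : (u : G) ∈ V := (Subgroup.mem_subgroupOf.mp hu.1).2
  have hcomm := Subgroup.mem_center_iff.mp hu.2 ⟨(a : G), haT (Subgroup.mem_zpowers _)⟩
  have hcomm' : (a : G) * (u : G) = (u : G) * (a : G) := congrArg Subtype.val hcomm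
  have hmem : (u : G) ∈ V ⊓ Subgroup.centralizer {(a : G)} := by
    refine ⟨huV, ?_⟩
    show (u : G) ∈ Subgroup.centralizer {(a : G)}
    rw [Subgroup.mem_centralizer_iff]
    intro h hh
    rw [Set.mem_singleton_iff] at hh
    rw [hh]; exact hcomm'
  rw [hfpf (a : G) a.2 ha1, Subgroup.mem_bot] at hmem
  apply hu1
  apply Subtype.ext
  apply Subtype.ext
  exact hmem

theorem frob_of_prime41 {F : Type*} [Group F] [Finite F] (H₀ : Subgroup F) (r s : ℕ) (hr : r.Prime)
    (hs : s.Prime) (hc : Nat.card H₀ = r) (hF : Nat.card F = r * s) (hnn : ¬ H₀.Normal) :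
    Cfsg.IsFrobeniusComplement H₀ := by
  refine ⟨?_, ?_, ?_⟩
  · intro h
    rw [h, Subgroup.card_bot] at hc
    exact hr.one_lt.ne hc
  · intro h
    rw [h, Subgroup.card_top, hF] at hc
    have h2 := hs.two_le
    have h3 := hr.pos
    nlinarith
  · intro g hg
    have hdvd : Nat.card ↥(H₀ ⊓ MulAut.conj g • H₀) ∣ r := by
      rw [← hc]; exact Subgroup.card_dvd_of_le inf_le_left
    rcases (Nat.dvd_prime hr).mp hdvd with h1 | h1
    · exact Subgroup.card_eq_one.mp h1
    · exfalso
      have e1 : H₀ ⊓ MulAut.conj g • H₀ = H₀ :=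
        Subgroup.eq_of_le_of_card_ge inf_le_left (by rw [h1, hc])
      have e2 : H₀ ≤ MulAut.conj g • H₀ := by
        have : H₀ ⊓ MulAut.conj g • H₀ ≤ MulAut.conj g • H₀ := inf_le_right
        rwa [e1] at this
      have e3 : MulAut.conj g • H₀ = H₀ :=
        (Subgroup.eq_of_le_of_card_ge e2 (by rw [Lead.card_conj_smul])).symm
      have hgN : g ∈ Subgroup.normalizer (H₀ : Set F) := Lead.mem_normalizer_of_conj_smul_eq e3
      have hd1 : r ∣ Nat.card ↥(Subgroup.normalizer (H₀ : Set F)) := by
        rw [← hc]; exact Subgroup.card_dvd_of_le Subgroup.le_normalizer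
      have hd2 : Nat.card ↥(Subgroup.normalizer (H₀ : Set F)) ∣ r * s := by
        rw [← hF]; exact Subgroup.card_subgroup_dvd_card _
      obtain ⟨t, ht⟩ := hd1
      have ht1 : t ∣ s := by
        rw [ht] at hd2
        exact (Nat.mul_dvd_mul_iff_left hr.pos).mp hd2
      rcases (Nat.dvd_prime hs).mp ht1 with h2 | h2
      · rw [h2, mul_one] at ht
        have e4 : H₀ = Subgroup.normalizer (H₀ : Set F) :=
          Subgroup.eq_of_le_of_card_ge Subgroup.le_normalizer (by rw [ht, hc])
        apply hg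
        rw [e4]; exact hgN
      · rw [h2, ← hF] at ht
        have e5 : Subgroup.normalizer (H₀ : Set F) = ⊤ := Subgroup.eq_top_of_card_eq _ ht
        exact hnn (Subgroup.normalizer_eq_top_iff.mp e5)

/-- A group acting on a nontrivial abelian group so that no nonidentity element has a nonidentity fixed point is cyclic, provided it is abelian or its order is a product of two (possibly equal) primes. -/
theorem result {G : Type*} [Group G] [Finite G] (A V : Subgroup G) [IsMulCommutative V]
    (hV : V ≠ ⊥) (hAV : A ≤ Subgroup.normalizer (V : Set G)) (hfpf : ∀ a ∈ A, a ≠ 1 → V ⊓ Subgroup.centralizer {a} = ⊥)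
    (hA : IsMulCommutative A ∨ ∃ p q : ℕ, p.Prime ∧ q.Prime ∧ Nat.card A = p * q) : IsCyclic A := by
  have hcop := coprime41 A V hAV hfpf
  have habel : IsMulCommutative ↥A → IsCyclic ↥A := by
    intro hc
    by_contra hnc
    haveI := hc
    have h58 := Cfsg.Agent.S0058.result A V hnc hAV hcop
    apply hV
    rw [← h58, eq_bot_iff]
    exact iSup₂_le (fun a ha => (hfpf a ha.1 ha.2).le)
  rcases hA with hc | ⟨p, q, hp, hq, hcard⟩
  · exact habel hc
  by_cases hcomm : ∀ x y : ↥A, x * y = y * x
  · exact habel ⟨⟨hcomm⟩⟩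
  exfalso
  haveI : Fact p.Prime := ⟨hp⟩
  haveI : Fact q.Prime := ⟨hq⟩
  have hpq : p ≠ q := by
    intro h
    rw [← h, ← sq] at hcard
    exact hcomm (IsPGroup.commutative_of_card_eq_prime_sq hcard)
  obtain ⟨Pp, hPp⟩ := Sylow.exists_subgroup_card_pow_prime p (G := ↥A) (n := 1) (by rw [hcard, pow_one]; exact dvd_mul_right p q)
  obtain ⟨Pq, hPq⟩ := Sylow.exists_subgroup_card_pow_prime q (G := ↥A) (n := 1) (by rw [hcard, pow_one]; exact dvd_mul_left q p)
  rw [pow_one] at hPp hPq
  have final : ∀ (H₀ : Subgroup ↥A) (r s : ℕ), r.Prime → s.Prime → Nat.card H₀ = r → Nat.card ↥A = r * s →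
      ¬ H₀.Normal → False := by
    intro H₀ r s hr hs hc hF hnn
    have hfrob := frob_of_prime41 H₀ r s hr hs hc hF hnn
    obtain ⟨N, hNset, hNn, hNc⟩ := Lead.frobenius_kernel_subgroup H₀ hfrob
    have hNcard : Nat.card N = s := by
      have h1 := hNc.card_mul_card
      rw [hc, hF, mul_comm] at h1
      exact (Nat.mul_right_inj hr.ne_zero).mp h1
    let φ : ↥A →* MulAut ↥V := MonoidHom.mk' (fun a => Lead.conjNormalizer V (a : G) (hAV a.2)) (by
      intro a b
      ext x
      simp [Lead.conjNormalizer_coe, mul_assoc])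
    have hφ : ∀ (a : ↥A) (v : ↥V), ((φ a v : ↥V) : G) = (a : G) * (v : G) * (a : G)⁻¹ := fun a v => rfl
    have hfix : ∀ (S : Subgroup ↥A), S ≠ ⊥ → ∀ v : ↥V, (∀ n ∈ S, φ n v = v) → v = 1 := by
      intro S hS v hv
      obtain ⟨⟨n, hn⟩, hn1⟩ := Subgroup.ne_bot_iff_exists_ne_one.mp hS
      have hn1' : (n : G) ≠ 1 := by
        intro h
        apply hn1
        apply Subtype.ext
        apply Subtype.ext
        exact h
      have h1 := congrArg Subtype.val (hv n hn)
      rw [hφ] at h1
      have hmem : (v : G) ∈ V ⊓ Subgroup.centralizer {(n : G)} := by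
        refine ⟨v.2, ?_⟩
        show (v : G) ∈ Subgroup.centralizer {(n : G)}
        rw [Subgroup.mem_centralizer_iff]
        intro h hh
        rw [Set.mem_singleton_iff] at hh
        rw [hh]
        calc (n : G) * (v : G) = (n : G) * (v : G) * (n : G)⁻¹ * (n : G) := by group
          _ = (v : G) * (n : G) := by rw [h1]
      rw [hfpf (n : G) n.2 hn1', Subgroup.mem_bot] at hmem
      exact Subtype.ext hmem
    have hNne : N ≠ ⊥ := by
      intro h
      rw [h, Subgroup.card_bot] at hNcard
      exact hs.one_lt.ne hNcard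
    have hcopVN : (Nat.card ↥V).Coprime (Nat.card ↥N) :=
      (Nat.Coprime.coprime_dvd_left (Subgroup.card_subgroup_dvd_card N) hcop).symm
    apply hV
    rw [eq_bot_iff]
    intro v hv
    have := Cfsg.Agent.Lib.Helper1.frob_action_trivial φ H₀ N hfrob hNset hNn hNc hcopVN
      (hfix N hNne) (hfix H₀ hfrob.1) ⟨v, hv⟩
    rw [Subgroup.mem_bot]
    exact congrArg Subtype.val this
  by_cases hPn : Pp.Normal
  · by_cases hQn : Pq.Normal
    · apply hcomm
      have hdis : Disjoint Pp Pq := Subgroup.disjoint_of_coprime_natCard (by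
        rw [hPp, hPq]; exact (Nat.coprime_primes hp hq).mpr hpq)
      have hPc : ∀ x y : ↥Pp, x * y = y * x := by
        haveI := isCyclic_of_prime_card (α := ↥Pp) hPp
        intro x y
        exact (IsCyclic.commGroup (α := ↥Pp)).mul_comm x y
      have hQc : ∀ x y : ↥Pq, x * y = y * x := by
        haveI := isCyclic_of_prime_card (α := ↥Pq) hPq
        intro x y
        exact (IsCyclic.commGroup (α := ↥Pq)).mul_comm x y
      have hsup : Pp ⊔ Pq = ⊤ := by
        apply Subgroup.eq_top_of_card_eq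
        apply Nat.dvd_antisymm (Subgroup.card_subgroup_dvd_card _)
        rw [hcard]
        apply Nat.Coprime.mul_dvd_of_dvd_of_dvd ((Nat.coprime_primes hp hq).mpr hpq)
        · rw [← hPp]; exact Subgroup.card_dvd_of_le le_sup_left
        · rw [← hPq]; exact Subgroup.card_dvd_of_le le_sup_right
      have hcen : ∀ x : ↥A, (x ∈ Pp ∨ x ∈ Pq) → x ∈ Subgroup.center ↥A := by
        intro x hx
        have h1 : Pp ⊔ Pq ≤ Subgroup.centralizer {x} := by
          apply sup_le
          · intro y hy
            rw [Subgroup.mem_centralizer_iff]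
            intro h hh
            rw [Set.mem_singleton_iff] at hh
            rw [hh]
            rcases hx with hx | hx
            · exact congrArg Subtype.val (hPc ⟨x, hx⟩ ⟨y, hy⟩)
            · exact ((Subgroup.commute_of_normal_of_disjoint Pp Pq hPn hQn hdis y x hy hx).eq).symm
          · intro y hy
            rw [Subgroup.mem_centralizer_iff]
            intro h hh
            rw [Set.mem_singleton_iff] at hh
            rw [hh]
            rcases hx with hx | hx
            · exact (Subgroup.commute_of_normal_of_disjoint Pp Pq hPn hQn hdis x y hx hy).eq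
            · exact congrArg Subtype.val (hQc ⟨x, hx⟩ ⟨y, hy⟩)
        rw [hsup] at h1
        rw [Subgroup.mem_center_iff]
        intro g
        have := Subgroup.mem_centralizer_iff.mp (h1 (Subgroup.mem_top g)) x rfl
        exact this.symm
      have htop : (⊤ : Subgroup ↥A) ≤ Subgroup.center ↥A := by
        rw [← hsup]
        exact sup_le (fun x hx => hcen x (Or.inl hx)) (fun x hx => hcen x (Or.inr hx))
      intro x y
      exact (Subgroup.mem_center_iff.mp (htop (Subgroup.mem_top y)) x)
    · exact final Pq q p hq hp hPq (by rw [hcard, mul_comm]) hQn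
  · exact final Pp p q hp hq hPp hcard hPn

end Cfsg.Agent.S0041
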