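import Cfsg.Statements.S1473
import Mathlib
import Cfsg.Agent.Lib.Lead.Nilpotent
import Cfsg.Agent.Lib.Lead.PResidual
import Cfsg.Agent.Lib.Lead.Coprime
import Cfsg.Agent.Lib.Helper6.NilpComm
import Cfsg.Agent.Lib.Helper6.CycSylow
import Cfsg.Agent.Lib.Helper6.NormGrow
import Cfsg.Agent.Lib.Helper6.PSub
import Cfsg.Agent.Lib.Helper6.Primary

set_option autoImplicit false
open Cfsg
open scoped commutatorElement

namespace Cfsg.Agent.S1473

universe u

theorem nilp_of_le {X : Type*} [Group X] {T K : Subgroup X} (hT : Group.IsNilpotent T)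
    (hK : K ≤ T) : Group.IsNilpotent K := by
  haveI := hT
  exact Group.nilpotent_of_mulEquiv (Subgroup.subgroupOfEquivOfLe hK)

theorem nilp_of_le_map {X Y : Type*} [Group X] [Group Y] (f : X →* Y) (T : Subgroup X)
    (hT : Group.IsNilpotent T) (K : Subgroup Y) (hK : K ≤ T.map f) : Group.IsNilpotent K := by
  haveI := hT
  have h1 : Group.IsNilpotent ↥(T.map f) :=
    Group.nilpotent_of_surjective (f.subgroupMap T) (f.subgroupMap_surjective T)
  exact nilp_of_le h1 hK

theorem cn_of_equiv {X Y : Type*} [Group X] [Group Y] (e : X ≃* Y) (h : Cfsg.IsCNGroup X) :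
    Cfsg.IsCNGroup Y := by
  intro y hy
  have hx : e.symm y ≠ 1 := by
    intro h1
    apply hy
    have := congrArg e h1
    simpa using this
  apply nilp_of_le_map e.toMonoidHom _ (h _ hx)
  intro c hc
  refine ⟨e.symm c, ?_, by simp⟩
  have hc' : c ∈ Subgroup.centralizer ({y} : Set Y) := hc
  rw [Subgroup.mem_centralizer_iff] at hc'
  show e.symm c ∈ Subgroup.centralizer ({e.symm y} : Set X)
  rw [Subgroup.mem_centralizer_iff]
  intro z hz
  rw [Set.mem_singleton_iff] at hz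
  rw [hz]
  have h2 := hc' y rfl
  rw [← map_mul, ← map_mul, h2]

theorem cn_sub {X : Type*} [Group X] (h : Cfsg.IsCNGroup X) (C : Subgroup X) :
    Cfsg.IsCNGroup C := by
  intro x hx
  have hx1 : (x : X) ≠ 1 := fun h1 => hx (Subtype.ext h1)
  have h1 : (Subgroup.centralizer ({x} : Set C)).map C.subtype ≤
      Subgroup.centralizer ({(x : X)} : Set X) := by
    rintro _ ⟨c, hc, rfl⟩
    have hc' : c ∈ Subgroup.centralizer ({x} : Set C) := hc
    rw [Subgroup.mem_centralizer_iff] at hc' ⊢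
    intro z hz
    rw [Set.mem_singleton_iff] at hz
    rw [hz]
    exact congrArg Subtype.val (hc' x rfl)
  have h2 := nilp_of_le (h _ hx1) h1
  haveI := h2
  exact Group.nilpotent_of_mulEquiv
    (Subgroup.equivMapOfInjective _ C.subtype C.subtype_injective).symm

theorem commute_in_nilp {X : Type*} [Group X] [Finite X] {T : Subgroup X}
    (hT : Group.IsNilpotent T) {p : ℕ} [Fact p.Prime] {u v : X} (hu : u ∈ T) (hv : v ∈ T)
    {i : ℕ} (hou : orderOf u = p ^ i) (hov : (orderOf v).Coprime p) : u * v = v * u := by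
  have h1 := Cfsg.Agent.Lib.Helper6.commute_of_pelt_of_coprime hT (u := ⟨u, hu⟩) (v := ⟨v, hv⟩)
    (i := i) (by rw [Subgroup.orderOf_mk]; exact hou) (by rw [Subgroup.orderOf_mk]; exact hov)
  exact congrArg Subtype.val h1.eq

theorem exists_abelian_normal_le : ∀ (n : ℕ) (G : Type u) [Group G] [Finite G] (K : Subgroup G),
    K.Normal → K ≠ ⊥ → Group.IsSolvable K → Nat.card K = n →
    ∃ A : Subgroup G, A ≤ K ∧ A.Normal ∧ A ≠ ⊥ ∧ ∀ a ∈ A, ∀ b ∈ A, a * b = b * a := by
  intro n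
  induction n using Nat.strong_induction_on with
  | _ n ih =>
  intro G _ _ K hKn hK hKs hn
  haveI := hKn
  by_cases hc : ⁅K, K⁆ = ⊥
  · refine ⟨K, le_rfl, hKn, hK, ?_⟩
    intro a ha b hb
    have h1 : ⁅a, b⁆ ∈ ⁅K, K⁆ := Subgroup.commutator_mem_commutator ha hb
    rw [hc, Subgroup.mem_bot] at h1
    exact commutatorElement_eq_one_iff_mul_comm.mp h1
  · haveI := hKs
    haveI : Nontrivial K := (Subgroup.nontrivial_iff_ne_bot K).mpr hK
    have hlt : ⁅K, K⁆ < K := by
      have h1 := Group.IsSolvable.commutator_lt_top_of_nontrivial (G := K)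
      have h2 := Subgroup.map_subtype_commutator K
      rw [← h2]
      have h3 : (commutator K).map K.subtype < (⊤ : Subgroup K).map K.subtype :=
        (Subgroup.map_lt_map_iff_of_injective K.subtype_injective).mpr h1
      rwa [← MonoidHom.range_eq_map, Subgroup.range_subtype] at h3
    have hcard : Nat.card ↥⁅K, K⁆ < n := hn ▸ Cfsg.Agent.Lib.Helper6.card_lt_card_of_lt hlt
    have hsolv : Group.IsSolvable ↥⁅K, K⁆ :=
      Group.isSolvable_of_isSolvable_injective (f := Subgroup.inclusion hlt.le)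
        (Subgroup.inclusion_injective hlt.le)
    obtain ⟨A, hA, hAn, hA1, hAc⟩ := ih _ hcard G ⁅K, K⁆ inferInstance hc hsolv rfl
    exact ⟨A, hA.trans hlt.le, hAn, hA1, hAc⟩

theorem exists_elem_ab_le {G : Type*} [Group G] [Finite G] (A : Subgroup G) (hAn : A.Normal)
    (hA : A ≠ ⊥) (hAc : ∀ a ∈ A, ∀ b ∈ A, a * b = b * a) :
    ∃ (p : ℕ) (N : Subgroup G), p.Prime ∧ N ≤ A ∧ N.Normal ∧ N ≠ ⊥ ∧ (∀ x ∈ N, x ^ p = 1) ∧
      (∀ a ∈ N, ∀ b ∈ N, a * b = b * a) := by
  have hcard : Nat.card A ≠ 1 := fun h => hA (Subgroup.eq_bot_of_card_eq A h)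
  obtain ⟨s, hs, hsd⟩ := Nat.exists_prime_and_dvd hcard
  haveI : Fact s.Prime := ⟨hs⟩
  obtain ⟨a, ha⟩ := exists_prime_orderOf_dvd_card' s hsd
  let M : Subgroup G :=
    { carrier := {x | x ∈ A ∧ x ^ s = 1}
      mul_mem' := by
        rintro x y ⟨hx, hx1⟩ ⟨hy, hy1⟩
        refine ⟨A.mul_mem hx hy, ?_⟩
        rw [(show Commute x y from hAc x hx y hy).mul_pow, hx1, hy1, one_mul]
      one_mem' := ⟨A.one_mem, one_pow _⟩
      inv_mem' := by
        rintro x ⟨hx, hx1⟩
        exact ⟨A.inv_mem hx, by rw [inv_pow, hx1, inv_one]⟩ }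
  refine ⟨s, M, hs, fun x hx => hx.1, ⟨?_⟩, ?_, fun x hx => hx.2,
    fun a ha b hb => hAc a ha.1 b hb.1⟩
  · rintro n ⟨hn, hn1⟩ g
    refine ⟨hAn.conj_mem n hn g, ?_⟩
    rw [conj_pow, hn1, mul_one, mul_inv_cancel]
  · intro hM
    have h1 : (a : G) ∈ M := by
      refine ⟨a.2, ?_⟩
      rw [← Subgroup.coe_pow, ← ha, pow_orderOf_eq_one]; rfl
    rw [hM, Subgroup.mem_bot] at h1
    have h2 : a = 1 := Subtype.ext h1
    rw [h2, orderOf_one] at ha
    exact hs.one_lt.ne ha

open Cfsg.Agent.Lib.Lead Cfsg.Agent.Lib.Helper6 in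
open scoped Pointwise in
theorem nilp_of_central_mod {X : Type u} [Group X] [Finite X] (hCN : Cfsg.IsCNGroup X) {p : ℕ}
    [Fact p.Prime] (N : Subgroup X) [N.Normal] (hNc : ∀ a ∈ N, ∀ b ∈ N, a * b = b * a)
    (hNp : ∀ x ∈ N, x ^ p = 1) (g : X) (hg : ∀ c : X, c * g * c⁻¹ * g⁻¹ ∈ N) (hgN : g ∉ N)
    (hgp : g ^ p ∈ N) : Group.IsNilpotent X := by
  classical
  have hp : p.Prime := Fact.out
  have hg1 : g ≠ 1 := fun h => hgN (h ▸ N.one_mem)
  by_cases hN : N = ⊥
  · have htop : Subgroup.centralizer ({g} : Set X) = ⊤ := by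
      rw [eq_top_iff]
      intro c _
      rw [Subgroup.mem_centralizer_iff]
      intro z hz
      rw [Set.mem_singleton_iff] at hz
      rw [hz]
      have h1 := hg c
      rw [hN, Subgroup.mem_bot] at h1
      calc g * c = (c * g * c⁻¹ * g⁻¹)⁻¹ * (c * g) := by group
        _ = c * g := by rw [h1, inv_one, one_mul]
    have h2 := hCN g hg1
    rw [htop] at h2
    haveI := h2
    exact Group.nilpotent_of_mulEquiv Subgroup.topEquiv
  have hNpg : IsPGroup p N := fun x => ⟨1, by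
    rw [pow_one]; exact Subtype.ext (by simpa using hNp x x.2)⟩
  obtain ⟨j, hj⟩ := IsPGroup.iff_card.mp hNpg
  have hNord : ∀ v ∈ N, ∃ i, orderOf v = p ^ i := by
    intro v hv
    have h1 : orderOf v ∣ p ^ 1 := by
      rw [pow_one]; exact orderOf_dvd_of_pow_eq_one (hNp v hv)
    obtain ⟨i, _, hi⟩ := (Nat.dvd_prime_pow hp).mp h1
    exact ⟨i, hi⟩
  have hA : ∀ (y : X) (r b : ℕ), r.Prime → r ≠ p → orderOf y = r ^ b →
      ∀ n ∈ N, n * y = y * n := by
    intro y r b hr hrp hy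
    have hycop : (orderOf y).Coprime p := by
      rw [hy]; exact Nat.Coprime.pow_left b ((Nat.coprime_primes hr hp).mpr hrp)
    have hYcard : Nat.card (Subgroup.zpowers y) = r ^ b := by rw [Nat.card_zpowers, hy]
    have hcop : (Nat.card N).Coprime (Nat.card (Subgroup.zpowers y)) := by
      rw [hj, hYcard]; exact Nat.Coprime.pow _ _ ((Nat.coprime_primes hp hr).mpr (Ne.symm hrp))
    have hNY : N ⊓ Subgroup.zpowers y = ⊥ := (Subgroup.disjoint_of_coprime_natCard hcop).eq_bot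
    have hg' : ∀ c : X, g * c * g⁻¹ * c⁻¹ ∈ N := by
      intro c
      have h1 := N.inv_mem (hg c)
      have h2 : (c * g * c⁻¹ * g⁻¹)⁻¹ = g * c * g⁻¹ * c⁻¹ := by group
      rwa [h2] at h1
    have hconjle : MulAut.conj g • Subgroup.zpowers y ≤ N ⊔ Subgroup.zpowers y := by
      intro w hw
      rw [mem_conj_smul] at hw
      have h1 : w = (g * (g⁻¹ * w * g) * g⁻¹ * (g⁻¹ * w * g)⁻¹) * (g⁻¹ * w * g) := by group
      rw [h1]
      exact Subgroup.mul_mem_sup (hg' _) hw
    haveI := hNpg.isNilpotent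
    obtain ⟨n, hn, hnY⟩ := sz_conj N (Subgroup.zpowers y) (MulAut.conj g • Subgroup.zpowers y)
      (by rw [Subgroup.normalizer_eq_top]; exact le_top) hconjle
      (card_conj_smul g (Subgroup.zpowers y)) hcop (Or.inl inferInstance)
    have hmy : (n⁻¹ * g) * y * (n⁻¹ * g)⁻¹ ∈ Subgroup.zpowers y := by
      have h1 : g * y * g⁻¹ ∈ MulAut.conj g • Subgroup.zpowers y :=
        conj_mem_conj_smul (Subgroup.mem_zpowers y)
      rw [← hnY, mem_conj_smul] at h1
      have h2 : (n⁻¹ * g) * y * (n⁻¹ * g)⁻¹ = n⁻¹ * (g * y * g⁻¹) * n := by group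
      rw [h2]; exact h1
    have hmyN : (n⁻¹ * g) * y * (n⁻¹ * g)⁻¹ * y⁻¹ ∈ N := by
      have h2 : (n⁻¹ * g) * y * (n⁻¹ * g)⁻¹ * y⁻¹ =
          n⁻¹ * (g * y * g⁻¹ * y⁻¹) * (y * n * y⁻¹) := by group
      rw [h2]
      exact N.mul_mem (N.mul_mem (N.inv_mem hn) (hg' y))
        (Subgroup.Normal.conj_mem inferInstance n hn y)
    have hmy1 : (n⁻¹ * g) * y * (n⁻¹ * g)⁻¹ * y⁻¹ = 1 := by
      have h1 : (n⁻¹ * g) * y * (n⁻¹ * g)⁻¹ * y⁻¹ ∈ N ⊓ Subgroup.zpowers y :=
        ⟨hmyN, Subgroup.mul_mem _ hmy (Subgroup.inv_mem _ (Subgroup.mem_zpowers y))⟩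
      rwa [hNY, Subgroup.mem_bot] at h1
    have hmycomm : (n⁻¹ * g) * y = y * (n⁻¹ * g) := by
      calc (n⁻¹ * g) * y = ((n⁻¹ * g) * y * (n⁻¹ * g)⁻¹ * y⁻¹) * (y * (n⁻¹ * g)) := by group
        _ = y * (n⁻¹ * g) := by rw [hmy1, one_mul]
    have hm1 : n⁻¹ * g ≠ 1 := by
      intro h1
      apply hgN
      have h2 : g = n := by
        calc g = n * (n⁻¹ * g) := by group
          _ = n := by rw [h1, mul_one]
      rw [h2]; exact hn
    have hmp : (n⁻¹ * g) ^ p ∈ N := by
      have h1 : (QuotientGroup.mk (n⁻¹ * g) : X ⧸ N) = QuotientGroup.mk g := by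
        rw [QuotientGroup.mk_mul, (QuotientGroup.eq_one_iff n⁻¹).mpr (N.inv_mem hn), one_mul]
      rw [← QuotientGroup.eq_one_iff, QuotientGroup.mk_pow, h1, ← QuotientGroup.mk_pow,
        QuotientGroup.eq_one_iff]
      exact hgp
    have hmpg : IsPGroup p (Subgroup.zpowers (n⁻¹ * g)) := by
      have h1 : (n⁻¹ * g) ^ (p ^ 2) = 1 := by rw [pow_two, pow_mul]; exact hNp _ hmp
      rw [IsPGroup.iff_card, Nat.card_zpowers]
      obtain ⟨i, _, hi⟩ := (Nat.dvd_prime_pow hp).mp (orderOf_dvd_of_pow_eq_one h1)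
      exact ⟨i, hi⟩
    have hP₀ : IsPGroup p (N ⊔ Subgroup.zpowers (n⁻¹ * g) : Subgroup X) :=
      IsPGroup.to_sup_of_normal_left hNpg hmpg
    haveI := hP₀.isNilpotent
    have hne : N.subgroupOf (N ⊔ Subgroup.zpowers (n⁻¹ * g)) ≠ ⊥ := by
      intro h1
      apply hN
      rw [Subgroup.subgroupOf_eq_bot] at h1
      have h2 := disjoint_iff.mp h1
      rwa [inf_sup_self] at h2
    have h3 := normal_inf_center_ne_bot (N.subgroupOf (N ⊔ Subgroup.zpowers (n⁻¹ * g))) hne
    obtain ⟨z', hz', hz'1⟩ : ∃ z' ∈ N.subgroupOf (N ⊔ Subgroup.zpowers (n⁻¹ * g)) ⊓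
        Subgroup.center ↥(N ⊔ Subgroup.zpowers (n⁻¹ * g)), z' ≠ 1 := by
      by_contra hc
      apply h3
      rw [Subgroup.eq_bot_iff_forall]
      intro w hw
      by_contra hw1
      exact hc ⟨w, hw, hw1⟩
    have hzN : (z' : X) ∈ N := Subgroup.mem_subgroupOf.mp hz'.1
    have hz1 : (z' : X) ≠ 1 := fun h => hz'1 (Subtype.ext h)
    have hzm : (z' : X) * (n⁻¹ * g) = (n⁻¹ * g) * (z' : X) := by
      have hmP : n⁻¹ * g ∈ N ⊔ Subgroup.zpowers (n⁻¹ * g) :=
        (le_sup_right : Subgroup.zpowers (n⁻¹ * g) ≤ _) (Subgroup.mem_zpowers _)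
      have h4 := Subgroup.mem_center_iff.mp hz'.2 ⟨n⁻¹ * g, hmP⟩
      exact (congrArg Subtype.val h4).symm
    obtain ⟨i, hi⟩ := hNord _ hzN
    have hzy : (z' : X) * y = y * (z' : X) := by
      apply commute_in_nilp (hCN _ hm1) (p := p) ?_ ?_ hi hycop
      · rw [Subgroup.mem_centralizer_iff]
        intro w hw
        rw [Set.mem_singleton_iff] at hw
        rw [hw]; exact hzm.symm
      · rw [Subgroup.mem_centralizer_iff]
        intro w hw
        rw [Set.mem_singleton_iff] at hw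
        rw [hw]; exact hmycomm
    intro n' hn'
    obtain ⟨i', hi'⟩ := hNord n' hn'
    apply commute_in_nilp (hCN _ hz1) (p := p) ?_ ?_ hi' hycop
    · rw [Subgroup.mem_centralizer_iff]
      intro w hw
      rw [Set.mem_singleton_iff] at hw
      rw [hw]; exact hNc _ hzN n' hn'
    · rw [Subgroup.mem_centralizer_iff]
      intro w hw
      rw [Set.mem_singleton_iff] at hw
      rw [hw]; exact hzy
  obtain ⟨P⟩ : Nonempty (Sylow p X) := inferInstance
  have hNP : N ≤ (P : Subgroup X) :=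
    le_sylow_of_normalizes P N hNpg (by rw [Subgroup.normalizer_eq_top]; exact le_top)
  haveI := P.isPGroup'.isNilpotent
  have hne : N.subgroupOf (P : Subgroup X) ≠ ⊥ := by
    intro h1
    apply hN
    rw [Subgroup.subgroupOf_eq_bot] at h1
    have h2 := disjoint_iff.mp h1
    rwa [inf_eq_left.mpr hNP] at h2
  have h3 := normal_inf_center_ne_bot (N.subgroupOf (P : Subgroup X)) hne
  obtain ⟨z', hz', hz'1⟩ : ∃ z' ∈ N.subgroupOf (P : Subgroup X) ⊓
      Subgroup.center ↥(P : Subgroup X), z' ≠ 1 := by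
    by_contra hc
    apply h3
    rw [Subgroup.eq_bot_iff_forall]
    intro w hw
    by_contra hw1
    exact hc ⟨w, hw, hw1⟩
  have hzN : (z' : X) ∈ N := Subgroup.mem_subgroupOf.mp hz'.1
  have hz1 : (z' : X) ≠ 1 := fun h => hz'1 (Subtype.ext h)
  have hPz : (P : Subgroup X) ≤ Subgroup.centralizer ({(z' : X)} : Set X) := by
    intro w hw
    rw [Subgroup.mem_centralizer_iff]
    intro v hv
    rw [Set.mem_singleton_iff] at hv
    rw [hv]
    have h4 := Subgroup.mem_center_iff.mp hz'.2 ⟨w, hw⟩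
    exact (congrArg Subtype.val h4).symm
  have hres : Cfsg.pResidual p X ≤ Subgroup.centralizer ({(z' : X)} : Set X) := by
    show Subgroup.closure _ ≤ _
    apply (Subgroup.closure_le _).mpr
    intro v hv
    have hvc : (orderOf v).Coprime p := hv
    apply mem_of_forall_prime_pow (Subgroup.centralizer ({(z' : X)} : Set X)) p ?_ v hvc
    rintro y ⟨r, b, hr, hrp, hy⟩
    rw [Subgroup.mem_centralizer_iff]
    intro w hw
    rw [Set.mem_singleton_iff] at hw
    rw [hw]
    exact hA y r b hr hrp hy _ hzN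
  have htop : Subgroup.centralizer ({(z' : X)} : Set X) = ⊤ := by
    rw [eq_top_iff, ← pResidual_sup_sylow_lead p P]
    exact sup_le hres hPz
  have h2 := hCN _ hz1
  rw [htop] at h2
  haveI := h2
  exact Group.nilpotent_of_mulEquiv Subgroup.topEquiv

open Cfsg.Agent.Lib.Lead Cfsg.Agent.Lib.Helper6 in
open scoped Pointwise in
theorem cn_quot_elem {G : Type u} [Group G] [Finite G] (hCN : Cfsg.IsCNGroup G) {p : ℕ}
    [Fact p.Prime] (N : Subgroup G) [N.Normal] (hNc : ∀ a ∈ N, ∀ b ∈ N, a * b = b * a)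
    (hNp : ∀ x ∈ N, x ^ p = 1) : Cfsg.IsCNGroup (G ⧸ N) := by
  classical
  have hp : p.Prime := Fact.out
  intro xb hxb
  have ho : orderOf xb ≠ 1 := fun h => hxb (orderOf_eq_one_iff.mp h)
  have hq : (orderOf xb).minFac.Prime := Nat.minFac_prime ho
  have hqd : (orderOf xb).minFac ∣ orderOf xb := Nat.minFac_dvd _
  obtain ⟨q, hqdef⟩ : ∃ q, q = (orderOf xb).minFac := ⟨_, rfl⟩
  rw [← hqdef] at hq hqd
  obtain ⟨yb, hybdef⟩ : ∃ yb, yb = xb ^ (orderOf xb / q) := ⟨_, rfl⟩
  have hyo : orderOf yb = q := by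
    rw [hybdef, orderOf_pow_of_dvd ?_ (Nat.div_dvd_of_dvd hqd),
      Nat.div_div_self hqd (orderOf_pos xb).ne']
    exact (Nat.div_pos (Nat.le_of_dvd (orderOf_pos xb) hqd) hq.pos).ne'
  have hle : Subgroup.centralizer ({xb} : Set (G ⧸ N)) ≤
      Subgroup.centralizer ({yb} : Set (G ⧸ N)) := by
    intro c hc
    rw [Subgroup.mem_centralizer_iff] at hc ⊢
    intro w hw
    rw [Set.mem_singleton_iff] at hw
    rw [hw, hybdef]
    have h1 : Commute xb c := hc xb rfl
    exact (h1.pow_left _).eq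
  apply nilp_of_le ?_ hle
  obtain ⟨g, hg⟩ := QuotientGroup.mk_surjective yb
  have hNpg : IsPGroup p N := fun x => ⟨1, by
    rw [pow_one]; exact Subtype.ext (by simpa using hNp x x.2)⟩
  obtain ⟨j, hj⟩ := IsPGroup.iff_card.mp hNpg
  by_cases hqp : q = p
  · obtain ⟨C, hCdef⟩ : ∃ C : Subgroup G, C =
        (Subgroup.centralizer ({yb} : Set (G ⧸ N))).comap (QuotientGroup.mk' N) := ⟨_, rfl⟩
    have hmemC : ∀ c : G, c ∈ C ↔ c * g * c⁻¹ * g⁻¹ ∈ N := by
      intro c
      rw [hCdef, Subgroup.mem_comap, Subgroup.mem_centralizer_iff]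
      constructor
      · intro h
        have h1 : yb * (c : G ⧸ N) = (c : G ⧸ N) * yb := h yb rfl
        rw [← QuotientGroup.eq_one_iff]
        simp only [QuotientGroup.mk_mul, QuotientGroup.mk_inv]
        rw [hg, ← h1]; group
      · intro h w hw
        rw [Set.mem_singleton_iff] at hw
        rw [hw]
        rw [← QuotientGroup.eq_one_iff] at h
        simp only [QuotientGroup.mk_mul, QuotientGroup.mk_inv] at h
        rw [hg] at h
        show yb * (c : G ⧸ N) = (c : G ⧸ N) * yb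
        calc yb * (c : G ⧸ N)
            = ((c : G ⧸ N) * yb * (c : G ⧸ N)⁻¹ * yb⁻¹)⁻¹ * ((c : G ⧸ N) * yb) := by group
          _ = (c : G ⧸ N) * yb := by rw [h, inv_one, one_mul]
    have hNC : N ≤ C := by
      intro n hn
      rw [hmemC]
      have h1 : n * g * n⁻¹ * g⁻¹ = n * (g * n⁻¹ * g⁻¹) := by group
      rw [h1]
      exact N.mul_mem hn (Subgroup.Normal.conj_mem inferInstance _ (N.inv_mem hn) g)
    have hgC : g ∈ C := by
      rw [hmemC]
      have h1 : g * g * g⁻¹ * g⁻¹ = 1 := by group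
      rw [h1]; exact N.one_mem
    have hgN : g ∉ N := by
      intro h
      have h1 : yb = 1 := by rw [← hg]; exact (QuotientGroup.eq_one_iff g).mpr h
      rw [h1, orderOf_one] at hyo
      exact hq.one_lt.ne hyo
    have hgp : g ^ p ∈ N := by
      rw [← QuotientGroup.eq_one_iff, QuotientGroup.mk_pow, hg, ← hqp, ← hyo]
      exact pow_orderOf_eq_one yb
    have hCnil : Group.IsNilpotent C := by
      apply nilp_of_central_mod (cn_sub hCN C) (p := p) (N.subgroupOf C) ?_ ?_ ⟨g, hgC⟩ ?_ ?_ ?_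
      · intro a ha b hb
        exact Subtype.ext (hNc a (Subgroup.mem_subgroupOf.mp ha) b (Subgroup.mem_subgroupOf.mp hb))
      · intro x hx
        exact Subtype.ext (by simpa using hNp x (Subgroup.mem_subgroupOf.mp hx))
      · intro c
        rw [Subgroup.mem_subgroupOf]
        have h1 := (hmemC c).mp c.2
        simpa using h1
      · intro h; exact hgN (Subgroup.mem_subgroupOf.mp h)
      · rw [Subgroup.mem_subgroupOf]; simpa using hgp
    apply nilp_of_le_map (QuotientGroup.mk' N) C hCnil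
    intro cb hcb
    obtain ⟨c, rfl⟩ := QuotientGroup.mk_surjective cb
    refine ⟨c, ?_, rfl⟩
    rw [hCdef]; exact hcb
  · haveI : Fact q.Prime := ⟨hq⟩
    obtain ⟨a, b, hab, haz, hbz, ⟨k, hak⟩, hbq⟩ := exists_p_decomp' q hq g
    have hbN : b ∈ N := by
      rw [← QuotientGroup.eq_one_iff, ← orderOf_eq_one_iff]
      have h1 : orderOf (QuotientGroup.mk b : G ⧸ N) ∣ orderOf b :=
        orderOf_map_dvd (QuotientGroup.mk' N) b
      have h2 : orderOf (QuotientGroup.mk b : G ⧸ N) ∣ q := by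
        rw [← hyo]
        apply orderOf_dvd_of_mem_zpowers
        obtain ⟨i, hi⟩ := Subgroup.mem_zpowers_iff.mp hbz
        rw [← hi, ← hg]
        exact ⟨i, (QuotientGroup.mk_zpow N g i).symm⟩
      exact Nat.Coprime.eq_one_of_dvd (Nat.Coprime.coprime_dvd_left h1 hbq) h2
    have hag : (QuotientGroup.mk a : G ⧸ N) = yb := by
      rw [← hg, ← hab, QuotientGroup.mk_mul, (QuotientGroup.eq_one_iff b).mpr hbN, mul_one]
    have ha1 : a ≠ 1 := by
      intro h
      rw [h] at hag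
      have h1 : yb = 1 := by rw [← hag]; rfl
      rw [h1, orderOf_one] at hyo
      exact hq.one_lt.ne hyo
    apply nilp_of_le_map (QuotientGroup.mk' N) _ (hCN a ha1)
    intro cb hcb
    obtain ⟨c, rfl⟩ := QuotientGroup.mk_surjective cb
    have hca : c * a * c⁻¹ * a⁻¹ ∈ N := by
      rw [← QuotientGroup.eq_one_iff]
      simp only [QuotientGroup.mk_mul, QuotientGroup.mk_inv]
      rw [hag]
      rw [Subgroup.mem_centralizer_iff] at hcb
      have h1 : yb * (c : G ⧸ N) = (c : G ⧸ N) * yb := hcb yb rfl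
      rw [← h1]; group
    have hAcard : Nat.card (Subgroup.zpowers a) = q ^ k := by rw [Nat.card_zpowers, hak]
    have hcop : (Nat.card N).Coprime (Nat.card (Subgroup.zpowers a)) := by
      rw [hj, hAcard]; exact Nat.Coprime.pow _ _ ((Nat.coprime_primes hp hq).mpr (Ne.symm hqp))
    have hNA : N ⊓ Subgroup.zpowers a = ⊥ := (Subgroup.disjoint_of_coprime_natCard hcop).eq_bot
    have hconjle : MulAut.conj c • Subgroup.zpowers a ≤ N ⊔ Subgroup.zpowers a := by
      intro w hw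
      rw [mem_conj_smul] at hw
      obtain ⟨i, hi⟩ := Subgroup.mem_zpowers_iff.mp hw
      have h1 : w = (c * a * c⁻¹) ^ i := by rw [conj_zpow, hi]; group
      rw [h1]
      apply Subgroup.zpow_mem
      have h2 : c * a * c⁻¹ = (c * a * c⁻¹ * a⁻¹) * a := by group
      rw [h2]
      exact Subgroup.mul_mem_sup hca (Subgroup.mem_zpowers a)
    haveI := hNpg.isNilpotent
    obtain ⟨n, hn, hnA⟩ := sz_conj N (Subgroup.zpowers a) (MulAut.conj c • Subgroup.zpowers a)
      (by rw [Subgroup.normalizer_eq_top]; exact le_top) hconjle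
      (card_conj_smul c (Subgroup.zpowers a)) hcop (Or.inl inferInstance)
    refine ⟨n⁻¹ * c, ?_, ?_⟩
    · have hma : (n⁻¹ * c) * a * (n⁻¹ * c)⁻¹ ∈ Subgroup.zpowers a := by
        have h1 : c * a * c⁻¹ ∈ MulAut.conj c • Subgroup.zpowers a :=
          conj_mem_conj_smul (Subgroup.mem_zpowers a)
        rw [← hnA, mem_conj_smul] at h1
        have h2 : (n⁻¹ * c) * a * (n⁻¹ * c)⁻¹ = n⁻¹ * (c * a * c⁻¹) * n := by group
        rw [h2]; exact h1
      have hmaN : (n⁻¹ * c) * a * (n⁻¹ * c)⁻¹ * a⁻¹ ∈ N := by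
        have h2 : (n⁻¹ * c) * a * (n⁻¹ * c)⁻¹ * a⁻¹ =
            n⁻¹ * (c * a * c⁻¹ * a⁻¹) * (a * n * a⁻¹) := by group
        rw [h2]
        exact N.mul_mem (N.mul_mem (N.inv_mem hn) hca)
          (Subgroup.Normal.conj_mem inferInstance n hn a)
      have h1 : (n⁻¹ * c) * a * (n⁻¹ * c)⁻¹ * a⁻¹ = 1 := by
        have h3 : (n⁻¹ * c) * a * (n⁻¹ * c)⁻¹ * a⁻¹ ∈ N ⊓ Subgroup.zpowers a :=
          ⟨hmaN, Subgroup.mul_mem _ hma (Subgroup.inv_mem _ (Subgroup.mem_zpowers a))⟩
        rwa [hNA, Subgroup.mem_bot] at h3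
      show n⁻¹ * c ∈ Subgroup.centralizer ({a} : Set G)
      rw [Subgroup.mem_centralizer_iff]
      intro w hw
      rw [Set.mem_singleton_iff] at hw
      rw [hw]
      calc a * (n⁻¹ * c)
          = ((n⁻¹ * c) * a * (n⁻¹ * c)⁻¹ * a⁻¹)⁻¹ * ((n⁻¹ * c) * a) := by group
        _ = (n⁻¹ * c) * a := by rw [h1, inv_one, one_mul]
    · show (QuotientGroup.mk' N) (n⁻¹ * c) = _
      rw [map_mul, map_inv]
      have h1 : (QuotientGroup.mk' N) n = 1 := (QuotientGroup.eq_one_iff n).mpr hn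
      rw [h1, inv_one, one_mul]; rfl

theorem cn_quot_aux : ∀ (n : ℕ) (G : Type u) [Group G] [Finite G], Nat.card G = n →
    Cfsg.IsCNGroup G → ∀ (H : Subgroup G) [H.Normal], Group.IsSolvable H →
    Cfsg.IsCNGroup (G ⧸ H) := by
  intro n
  induction n using Nat.strong_induction_on with
  | _ n ih =>
  intro G _ _ hn hCN H hHn hHs
  classical
  by_cases hH : H = ⊥
  · subst hH
    exact cn_of_equiv QuotientGroup.quotientBot.symm hCN
  obtain ⟨A, hAH, hAn, hA, hAc⟩ := exists_abelian_normal_le _ G H hHn hH hHs rfl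
  obtain ⟨p, N, hp, hNA, hNn, hN, hNp, hNc⟩ := exists_elem_ab_le A hAn hA hAc
  haveI := hNn
  haveI : Fact p.Prime := ⟨hp⟩
  have hNH : N ≤ H := hNA.trans hAH
  have h1 : Cfsg.IsCNGroup (G ⧸ N) := cn_quot_elem hCN N hNc hNp
  have hlt : Nat.card (G ⧸ N) < n := by
    rw [← hn, Subgroup.card_eq_card_quotient_mul_card_subgroup N]
    have h2 : 1 < Nat.card N := N.one_lt_card_iff_ne_bot.mpr hN
    have h3 : 0 < Nat.card (G ⧸ N) := Nat.card_pos
    nlinarith
  have hs : Group.IsSolvable ↥(H.map (QuotientGroup.mk' N)) := by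
    haveI := hHs
    exact Group.isSolvable_of_surjective ((QuotientGroup.mk' N).subgroupMap_surjective H)
  haveI hn' : (H.map (QuotientGroup.mk' N)).Normal :=
    Subgroup.Normal.map hHn _ (QuotientGroup.mk'_surjective N)
  have h2 := ih _ hlt (G ⧸ N) rfl h1 (H.map (QuotientGroup.mk' N)) hs
  exact cn_of_equiv (QuotientGroup.quotientQuotientEquivQuotient N H hNH) h2


/-- Let G be a finite group in which the centralizer of every non-identity element is nilpotent, and H a solvable normal subgroup of G. Then in G/H the centralizer of every non-identity element is nilpotent. -/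
theorem result {G : Type*} [Group G] [Finite G] (hCN : Cfsg.IsCNGroup G) (H : Subgroup G) [H.Normal] (hH : Group.IsSolvable H) :
    Cfsg.IsCNGroup (G ⧸ H) := by
  exact cn_quot_aux _ G rfl hCN H hH

end Cfsg.Agent.S1473
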