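import Cfsg.Statements.S0039
import Mathlib
import Cfsg.Agent.Lib.Lead.Frob2
-- import your own Cfsg.Agent.* helpers here

set_option autoImplicit false
open Cfsg

namespace Cfsg.Agent.S0039

/-- In a finite group that is a semidirect product of a normal subgroup K by a nontrivial subgroup H, H is a Frobenius complement exactly when each nonidentity element of H acts without nonidentity fixed points on K by conjugation. -/
theorem result {G : Type*} [Group G] [Finite G] (K H : Subgroup G) [K.Normal]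
    (hc : Subgroup.IsComplement' K H) (hK : K ≠ ⊥) (hH : H ≠ ⊥) :
    Cfsg.IsFrobeniusComplement H ↔ ∀ h ∈ H, h ≠ 1 → K ⊓ Subgroup.centralizer {h} = ⊥ := by
  have hdisj := hc.disjoint
  have hmem : ∀ x, x ∈ K → x ∈ H → x = 1 := fun x hxK hxH =>
    Subgroup.disjoint_def.mp hdisj hxK hxH
  constructor
  · rintro hF h hh hh1
    rw [eq_bot_iff]
    rintro k ⟨hkK, hkC⟩
    rw [Subgroup.mem_bot]
    by_contra hk1
    have hkH : k ∉ H := fun hkH => hk1 (hmem k hkK hkH)
    have hkC' : k * h = h * k := Subgroup.mem_centralizer_singleton_iff.mp hkC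
    have e : k⁻¹ * h * k = h := by rw [mul_assoc, ← hkC', inv_mul_cancel_left]
    exact hkH (Cfsg.Agent.Lib.Lead.frob_TI H hF k h hh hh1 (by rw [e]; exact hh))
  · intro hfpf
    refine ⟨hH, ?_, ?_⟩
    · intro htop
      apply hK
      rw [eq_bot_iff]
      intro k hk
      rw [Subgroup.mem_bot]
      exact hmem k hk (by rw [htop]; trivial)
    · intro g hg
      rw [eq_bot_iff]
      rintro x ⟨hxH, hxg⟩
      rw [Subgroup.mem_bot]
      have hxg' : g⁻¹ * x * g ∈ H := (Cfsg.Agent.Lib.Lead.frob_mem_conj_smul H g x).mp hxg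
      obtain ⟨⟨k, h₀⟩, hkh, -⟩ := hc.existsUnique g
      have hkh' : (k : G) * (h₀ : G) = g := hkh
      have hy : (k : G)⁻¹ * x * (k : G) ∈ H := by
        have e : (k : G)⁻¹ * x * (k : G) = (h₀ : G) * (g⁻¹ * x * g) * (h₀ : G)⁻¹ := by
          rw [← hkh']; group
        rw [e]; exact H.mul_mem (H.mul_mem h₀.2 hxg') (H.inv_mem h₀.2)
      have h1 : x⁻¹ * ((k : G)⁻¹ * x * (k : G)) ∈ K := by
        have e : x⁻¹ * ((k : G)⁻¹ * x * (k : G)) = (x⁻¹ * (k : G)⁻¹ * x⁻¹⁻¹) * (k : G) := by group
        rw [e]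
        exact K.mul_mem (‹K.Normal›.conj_mem _ (K.inv_mem k.2) _) k.2
      have h2 : x⁻¹ * ((k : G)⁻¹ * x * (k : G)) ∈ H := H.mul_mem (H.inv_mem hxH) hy
      have h3 := hmem _ h1 h2
      have h4 : (k : G)⁻¹ * x * (k : G) = x := by
        have h6 : x * (x⁻¹ * ((k : G)⁻¹ * x * (k : G))) = x * 1 := by rw [h3]
        rw [mul_inv_cancel_left, mul_one] at h6
        exact h6
      by_contra hx1
      have h5 := hfpf x hxH hx1
      have hkmem : (k : G) ∈ K ⊓ Subgroup.centralizer {x} := by
        refine ⟨k.2, ?_⟩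
        apply Subgroup.mem_centralizer_singleton_iff.mpr
        calc (k : G) * x = (k : G) * ((k : G)⁻¹ * x * (k : G)) := by rw [h4]
          _ = x * k := by group
      rw [h5, Subgroup.mem_bot] at hkmem
      apply hg
      rw [← hkh', hkmem, one_mul]
      exact h₀.2

end Cfsg.Agent.S0039
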