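import Cfsg.Statements.S1477
import Mathlib
import Cfsg.Agent.S1473
import Cfsg.Agent.Lib.Helper6.Conj
import Cfsg.Agent.Lib.Helper6.RealElt
import Cfsg.Agent.Lib.Helper6.Comm

set_option autoImplicit false
open Cfsg

namespace Cfsg.Agent.S1477

universe u

open Cfsg.Agent.S1473 Cfsg.Agent.Lib.Lead Cfsg.Agent.Lib.Helper6

/-- a central element of `H` of `p`-power order -/
theorem exists_central_pelt {G : Type u} [Group G] [Finite G] (H : Subgroup G)
    (hH : Group.IsNilpotent H) (p : ℕ) [Fact p.Prime] (hp : p ∣ Nat.card H) :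
    ∃ z ∈ H, z ≠ 1 ∧ (∃ i, orderOf z = p ^ i) ∧ ∀ h ∈ H, h * z = z * h := by
  haveI := hH
  have hp' : p.Prime := Fact.out
  have hsyl := ((Group.isNilpotent_of_finite_tfae (G := H)).out 0 3).mp hH
  obtain ⟨Q₀⟩ : Nonempty (Sylow p H) := inferInstance
  haveI hQn : (Q₀ : Subgroup H).Normal := hsyl p inferInstance Q₀
  have hQ1 : (Q₀ : Subgroup H) ≠ ⊥ := Sylow.ne_bot_of_dvd_card Q₀ hp
  have h3 := normal_inf_center_ne_bot (Q₀ : Subgroup H) hQ1
  obtain ⟨z', hz', hz'1⟩ : ∃ z' ∈ (Q₀ : Subgroup H) ⊓ Subgroup.center ↥H, z' ≠ 1 := by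
    by_contra hc
    apply h3
    rw [Subgroup.eq_bot_iff_forall]
    intro w hw
    by_contra hw1
    exact hc ⟨w, hw, hw1⟩
  refine ⟨z', z'.2, fun h => hz'1 (Subtype.ext h), ?_, ?_⟩
  · obtain ⟨k, hk⟩ := Q₀.isPGroup' ⟨z', hz'.1⟩
    have h1 : (z' : G) ^ p ^ k = 1 := by
      have := congrArg Subtype.val (congrArg Subtype.val hk)
      simpa using this
    obtain ⟨i, _, hi⟩ := (Nat.dvd_prime_pow hp').mp (orderOf_dvd_of_pow_eq_one h1)
    exact ⟨i, hi⟩
  · intro h hh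
    have h4 := Subgroup.mem_center_iff.mp hz'.2 ⟨h, hh⟩
    exact congrArg Subtype.val h4

theorem cent_eq_of_central {G : Type u} [Group G] [Finite G] (hCN : Cfsg.IsCNGroup G)
    (H : Subgroup G) (hmax : ∀ L : Subgroup G, Group.IsNilpotent L → H ≤ L → L = H)
    (z : G) (hz1 : z ≠ 1) (hzc : ∀ h ∈ H, h * z = z * h) :
    Subgroup.centralizer ({z} : Set G) = H := by
  apply hmax _ (hCN z hz1)
  intro h hh
  rw [Subgroup.mem_centralizer_iff]
  intro w hw
  rw [Set.mem_singleton_iff] at hw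
  rw [hw]
  exact (hzc h hh).symm

theorem mem_cent_singleton {G : Type*} [Group G] {z c : G} :
    c ∈ Subgroup.centralizer ({z} : Set G) ↔ z * c = c * z := by
  rw [Subgroup.mem_centralizer_iff]
  constructor
  · intro h; exact h z rfl
  · intro h w hw
    rw [Set.mem_singleton_iff] at hw
    rw [hw]; exact h

theorem hall_part {G : Type u} [Group G] [Finite G] (hCN : Cfsg.IsCNGroup G) (H : Subgroup G)
    (hH : Group.IsNilpotent H)
    (hmax : ∀ L : Subgroup G, Group.IsNilpotent L → H ≤ L → L = H) :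
    (Nat.card H).Coprime H.index := by
  classical
  by_contra hcon
  obtain ⟨p, hp, hpH, hpi⟩ := Nat.Prime.not_coprime_iff_dvd.mp hcon
  haveI : Fact p.Prime := ⟨hp⟩
  haveI := hH
  have hsyl := ((Group.isNilpotent_of_finite_tfae (G := H)).out 0 3).mp hH
  obtain ⟨Q₀⟩ : Nonempty (Sylow p H) := inferInstance
  have hQn : (Q₀ : Subgroup H).Normal := hsyl p inferInstance Q₀
  have hQ1 : (Q₀ : Subgroup H) ≠ ⊥ := Sylow.ne_bot_of_dvd_card Q₀ hpH
  obtain ⟨P₀, hP₀def⟩ : ∃ P₀ : Subgroup G, P₀ = (Q₀ : Subgroup H).map H.subtype := ⟨_, rfl⟩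
  have hP₀H : P₀ ≤ H := by rw [hP₀def]; exact Subgroup.map_subtype_le _
  have hP₀p : IsPGroup p P₀ := by rw [hP₀def]; exact Q₀.isPGroup'.map _
  have hP₀1 : P₀ ≠ ⊥ := by
    rw [hP₀def]
    intro h
    exact hQ1 ((Subgroup.map_eq_bot_iff_of_injective _ H.subtype_injective).mp h)
  obtain ⟨P, hP⟩ := hP₀p.exists_le_sylow
  have hcardP₀ : Nat.card P₀ = p ^ (Nat.card H).factorization p := by
    rw [hP₀def, Subgroup.card_map_of_injective H.subtype_injective]
    exact Q₀.card_eq_multiplicity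
  have hcardP : Nat.card P = p ^ (Nat.card G).factorization p := P.card_eq_multiplicity
  have hfac : (Nat.card H).factorization p < (Nat.card G).factorization p := by
    rw [← Subgroup.card_mul_index H, Nat.factorization_mul Nat.card_pos.ne'
      (Subgroup.index_ne_zero_of_finite)]
    have h1 : 0 < (H.index).factorization p :=
      hp.factorization_pos_of_dvd Subgroup.index_ne_zero_of_finite hpi
    simp only [Finsupp.coe_add, Pi.add_apply]
    omega
  have hlt : P₀ < (P : Subgroup G) := by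
    refine lt_of_le_of_ne hP ?_
    intro h
    have h1 : Nat.card P₀ = Nat.card (P : Subgroup G) := by rw [h]
    rw [hcardP₀, hcardP] at h1
    have := Nat.pow_right_injective hp.two_le h1
    omega
  obtain ⟨x, hxP, hxN, hxP₀⟩ :=
    Cfsg.Agent.Lib.Helper6.exists_mem_normalizer_not_mem P.isPGroup' hlt
  obtain ⟨P₁, hP₁def⟩ : ∃ P₁ : Subgroup G, P₁ = P₀ ⊔ Subgroup.zpowers x := ⟨_, rfl⟩
  have hP₀P₁ : P₀ ≤ P₁ := by rw [hP₁def]; exact le_sup_left
  have hxP₁ : x ∈ P₁ := by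
    rw [hP₁def]; exact (le_sup_right : Subgroup.zpowers x ≤ _) (Subgroup.mem_zpowers x)
  have hP₁P : P₁ ≤ (P : Subgroup G) := by
    rw [hP₁def]; exact sup_le hP ((Subgroup.zpowers_le).mpr hxP)
  have hP₁p : IsPGroup p P₁ := P.isPGroup'.to_le hP₁P
  haveI := hP₁p.isNilpotent
  haveI : (P₀.subgroupOf P₁).Normal := by
    rw [Subgroup.normal_subgroupOf_iff_le_normalizer hP₀P₁, hP₁def]
    exact sup_le Subgroup.le_normalizer ((Subgroup.zpowers_le).mpr hxN)
  have hne : P₀.subgroupOf P₁ ≠ ⊥ := by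
    intro h1
    apply hP₀1
    rw [Subgroup.subgroupOf_eq_bot] at h1
    have h2 := disjoint_iff.mp h1
    rwa [inf_eq_left.mpr hP₀P₁] at h2
  have h3 := normal_inf_center_ne_bot (P₀.subgroupOf P₁) hne
  obtain ⟨z', hz', hz'1⟩ : ∃ z' ∈ P₀.subgroupOf P₁ ⊓ Subgroup.center ↥P₁, z' ≠ 1 := by
    by_contra hc
    apply h3
    rw [Subgroup.eq_bot_iff_forall]
    intro w hw
    by_contra hw1
    exact hc ⟨w, hw, hw1⟩
  have hzP₀ : (z' : G) ∈ P₀ := Subgroup.mem_subgroupOf.mp hz'.1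
  have hz1 : (z' : G) ≠ 1 := fun h => hz'1 (Subtype.ext h)
  have hzc : ∀ w ∈ P₁, w * (z' : G) = (z' : G) * w := by
    intro w hw
    have h4 := Subgroup.mem_center_iff.mp hz'.2 ⟨w, hw⟩
    exact congrArg Subtype.val h4
  obtain ⟨i, hi⟩ : ∃ i, orderOf (z' : G) = p ^ i := by
    obtain ⟨k, hk⟩ := hP₀p ⟨z', hzP₀⟩
    have h1 : (z' : G) ^ p ^ k = 1 := by
      have := congrArg Subtype.val hk
      simpa using this
    obtain ⟨i, _, hi⟩ := (Nat.dvd_prime_pow hp).mp (orderOf_dvd_of_pow_eq_one h1)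
    exact ⟨i, hi⟩
  -- p-elements of H lie in P₀
  have hpel : ∀ a ∈ H, ∀ k, orderOf a = p ^ k → a ∈ P₀ := by
    intro a ha k hk
    have h1 := mem_sylow_of_normal_of_orderOf Q₀ hQn ⟨a, ha⟩ k
      (by rw [Subgroup.orderOf_mk]; exact hk)
    rw [hP₀def]
    exact ⟨⟨a, ha⟩, h1, rfl⟩
  have hHle : ∀ h ∈ H, h * (z' : G) = (z' : G) * h := by
    intro h hh
    obtain ⟨a, b, hab, haz, hbz, ⟨k, hak⟩, hbq⟩ := exists_p_decomp' p hp h
    have haH : a ∈ H := (Subgroup.zpowers_le.mpr hh) haz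
    have hbH : b ∈ H := (Subgroup.zpowers_le.mpr hh) hbz
    have h1 : a * (z' : G) = (z' : G) * a := hzc a (hP₀P₁ (hpel a haH k hak))
    have h2 : (z' : G) * b = b * (z' : G) :=
      commute_in_nilp hH (p := p) (hP₀H hzP₀) hbH hi hbq
    rw [← hab]
    calc a * b * (z' : G) = a * (b * (z' : G)) := by group
      _ = a * ((z' : G) * b) := by rw [h2]
      _ = (a * (z' : G)) * b := by group
      _ = ((z' : G) * a) * b := by rw [h1]
      _ = (z' : G) * (a * b) := by group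
  have hceq := cent_eq_of_central hCN H hmax (z' : G) hz1 hHle
  have hxH : x ∈ H := by
    rw [← hceq, mem_cent_singleton]
    exact (hzc x hxP₁).symm
  obtain ⟨k, hk⟩ : ∃ k, orderOf x = p ^ k := by
    obtain ⟨k, hk⟩ := P.isPGroup' ⟨x, hxP⟩
    have h1 : x ^ p ^ k = 1 := by
      have := congrArg Subtype.val hk
      simpa using this
    obtain ⟨i, _, hi⟩ := (Nat.dvd_prime_pow hp).mp (orderOf_dvd_of_pow_eq_one h1)
    exact ⟨i, hi⟩
  exact hxP₀ (hpel x hxH k hk)

theorem ti_part {G : Type u} [Group G] [Finite G] (hCN : Cfsg.IsCNGroup G) (H : Subgroup G)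
    (hH : Group.IsNilpotent H)
    (hmax : ∀ L : Subgroup G, Group.IsNilpotent L → H ≤ L → L = H)
    (hTI : ∀ g : G, H.map (MulAut.conj g).toMonoidHom ≠ H →
      H ⊓ H.map (MulAut.conj g).toMonoidHom = ⊥) :
    ∀ x ∈ H, x ≠ 1 → Subgroup.centralizer ({x} : Set G) ≤ H := by
  classical
  intro x hx hx1
  haveI := hH
  obtain ⟨C, hCdef⟩ : ∃ C : Subgroup G, C = Subgroup.centralizer ({x} : Set G) := ⟨_, rfl⟩
  rw [← hCdef]
  have hCnil : Group.IsNilpotent C := by rw [hCdef]; exact hCN x hx1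
  have hCN' : C ≤ Subgroup.normalizer (H : Set G) := by
    intro c hc
    rw [mem_normalizer_iff_cj]
    by_contra hne
    have h1 := hTI c hne
    have h2 : x ∈ H ⊓ H.map (MulAut.conj c).toMonoidHom := by
      refine ⟨hx, ?_⟩
      show x ∈ H.map (MulAut.conj c).toMonoidHom
      rw [mem_cj]
      rw [hCdef, mem_cent_singleton] at hc
      have h3 : c⁻¹ * x * c = x := by
        calc c⁻¹ * x * c = c⁻¹ * (x * c) := by group
          _ = c⁻¹ * (c * x) := by rw [hc]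
          _ = x := by group
      rw [h3]; exact hx
    rw [h1, Subgroup.mem_bot] at h2
    exact hx1 h2
  -- the centre of H
  obtain ⟨ZH, hZdef⟩ : ∃ ZH : Subgroup G, ZH = (Subgroup.center ↥H).map H.subtype := ⟨_, rfl⟩
  have hZmem : ∀ z, z ∈ ZH ↔ z ∈ H ∧ ∀ h ∈ H, h * z = z * h := by
    intro z
    rw [hZdef]
    constructor
    · rintro ⟨z', hz', rfl⟩
      refine ⟨z'.2, fun h hh => ?_⟩
      exact congrArg Subtype.val (Subgroup.mem_center_iff.mp hz' ⟨h, hh⟩)
    · rintro ⟨hz, hzc⟩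
      refine ⟨⟨z, hz⟩, ?_, rfl⟩
      show (⟨z, hz⟩ : H) ∈ Subgroup.center ↥H
      rw [Subgroup.mem_center_iff]
      intro h
      exact Subtype.ext (hzc h h.2)
  have hZC : ZH ≤ C := by
    intro z hz
    rw [hCdef, mem_cent_singleton]
    exact ((hZmem z).mp hz).2 x hx
  have hZ1 : ZH ≠ ⊥ := by
    have hHne : (⊤ : Subgroup H) ≠ ⊥ := by
      intro h
      have h1 : (⟨x, hx⟩ : H) ∈ (⊤ : Subgroup H) := Subgroup.mem_top _
      rw [h, Subgroup.mem_bot] at h1
      exact hx1 (congrArg Subtype.val h1)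
    have h3 := normal_inf_center_ne_bot (⊤ : Subgroup H) hHne
    rw [top_inf_eq] at h3
    rw [hZdef]
    intro h
    exact h3 ((Subgroup.map_eq_bot_iff_of_injective _ H.subtype_injective).mp h)
  haveI := hCnil
  haveI : (ZH.subgroupOf C).Normal := by
    rw [Subgroup.normal_subgroupOf_iff_le_normalizer hZC]
    intro c hc
    apply mem_normalizer_of_conj_mem
    intro z hz
    rw [hZmem] at hz ⊢
    have hcN := hCN' hc
    refine ⟨(Subgroup.mem_normalizer_iff.mp hcN z).mp hz.1, ?_⟩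
    intro h hh
    have h1 : c⁻¹ * h * c ∈ H := by
      have := (Subgroup.mem_normalizer_iff.mp (Subgroup.inv_mem _ hcN) h).mp hh
      simpa using this
    have h2 := hz.2 _ h1
    calc h * (c * z * c⁻¹) = c * ((c⁻¹ * h * c) * z) * c⁻¹ := by group
      _ = c * (z * (c⁻¹ * h * c)) * c⁻¹ := by rw [h2]
      _ = c * z * c⁻¹ * h := by group
  have hne : ZH.subgroupOf C ≠ ⊥ := by
    intro h1
    apply hZ1
    rw [Subgroup.subgroupOf_eq_bot] at h1
    have h2 := disjoint_iff.mp h1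
    rwa [inf_eq_left.mpr hZC] at h2
  have h3 := normal_inf_center_ne_bot (ZH.subgroupOf C) hne
  obtain ⟨z', hz', hz'1⟩ : ∃ z' ∈ ZH.subgroupOf C ⊓ Subgroup.center ↥C, z' ≠ 1 := by
    by_contra hc
    apply h3
    rw [Subgroup.eq_bot_iff_forall]
    intro w hw
    by_contra hw1
    exact hc ⟨w, hw, hw1⟩
  have hzZ : (z' : G) ∈ ZH := Subgroup.mem_subgroupOf.mp hz'.1
  have hz1 : (z' : G) ≠ 1 := fun h => hz'1 (Subtype.ext h)
  have hceq := cent_eq_of_central hCN H hmax (z' : G) hz1 ((hZmem _).mp hzZ).2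
  intro c hc
  rw [← hceq, mem_cent_singleton]
  have h4 := Subgroup.mem_center_iff.mp hz'.2 ⟨c, hc⟩
  exact (congrArg Subtype.val h4).symm

theorem npp_part {G : Type u} [Group G] [Finite G] (hCN : Cfsg.IsCNGroup G) (H : Subgroup G)
    (hH : Group.IsNilpotent H)
    (hmax : ∀ L : Subgroup G, Group.IsNilpotent L → H ≤ L → L = H)
    (hnpp : ¬ IsPrimePow (Nat.card H)) (hne1 : Nat.card H ≠ 1) (g : G)
    (hg : H.map (MulAut.conj g).toMonoidHom ≠ H) :
    H ⊓ H.map (MulAut.conj g).toMonoidHom = ⊥ := by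
  classical
  by_contra hcon
  obtain ⟨y, hy, hy1⟩ : ∃ y ∈ H ⊓ H.map (MulAut.conj g).toMonoidHom, y ≠ 1 := by
    by_contra hc
    apply hcon
    rw [Subgroup.eq_bot_iff_forall]
    intro w hw
    by_contra hw1
    exact hc ⟨w, hw, hw1⟩
  have ho : orderOf y ≠ 1 := fun h => hy1 (orderOf_eq_one_iff.mp h)
  obtain ⟨p, hpdef⟩ : ∃ p, p = (orderOf y).minFac := ⟨_, rfl⟩
  have hp : p.Prime := by rw [hpdef]; exact Nat.minFac_prime ho
  have hpd : p ∣ orderOf y := by rw [hpdef]; exact Nat.minFac_dvd _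
  haveI : Fact p.Prime := ⟨hp⟩
  obtain ⟨y₁, hy₁def⟩ : ∃ y₁, y₁ = y ^ (orderOf y / p) := ⟨_, rfl⟩
  have hy₁o : orderOf y₁ = p := by
    rw [hy₁def, orderOf_pow_of_dvd ?_ (Nat.div_dvd_of_dvd hpd),
      Nat.div_div_self hpd (orderOf_pos y).ne']
    exact (Nat.div_pos (Nat.le_of_dvd (orderOf_pos y) hpd) hp.pos).ne'
  have hy₁H : y₁ ∈ H := by rw [hy₁def]; exact H.pow_mem hy.1 _
  have hy₁Hg : g⁻¹ * y₁ * g ∈ H := by
    rw [← mem_cj, hy₁def]; exact Subgroup.pow_mem _ hy.2 _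
  have hy₁1 : y₁ ≠ 1 := by
    intro h
    rw [h, orderOf_one] at hy₁o
    exact hp.one_lt.ne hy₁o
  have hpH : p ∣ Nat.card H := by
    rw [← hy₁o]; exact Subgroup.orderOf_dvd_natCard H hy₁H
  -- another prime
  obtain ⟨q, hq, hqH, hqp⟩ : ∃ q, q.Prime ∧ q ∣ Nat.card H ∧ q ≠ p := by
    by_contra hc
    apply hnpp
    have h1 : ∀ {d : ℕ}, d.Prime → d ∣ Nat.card H → d = p := by
      intro d hd hdH
      by_contra hdp
      exact hc ⟨d, hd, hdH, hdp⟩
    have h2 := Nat.eq_prime_pow_of_unique_prime_dvd Nat.card_pos.ne' h1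
    rw [h2]
    refine (isPrimePow_nat_iff _).mpr ⟨p, _, hp, ?_, rfl⟩
    by_contra h0
    have h3 : (Nat.card H).primeFactorsList.length = 0 := by omega
    rw [h3, pow_zero] at h2
    exact hne1 h2
  haveI : Fact q.Prime := ⟨hq⟩
  obtain ⟨k, hkH, hk1, ⟨i, hki⟩, hkc⟩ := exists_central_pelt H hH q hqH
  have hkcop : (orderOf k).Coprime p := by
    rw [hki]; exact Nat.Coprime.pow_left i ((Nat.coprime_primes hq hp).mpr hqp)
  have hkeq := cent_eq_of_central hCN H hmax k hk1 hkc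
  obtain ⟨zp, hzpH, hzp1, ⟨ip, hzpi⟩, hzpc⟩ := exists_central_pelt H hH p hpH
  have hzpeq := cent_eq_of_central hCN H hmax zp hzp1 hzpc
  -- Claim A
  have claimA : ∀ y' ∈ H, orderOf y' = p → ∀ l, l * y' = y' * l → (orderOf l).Coprime p →
      l ∈ H := by
    intro y' hy' hy'o l hl hlcop
    have hy'1 : y' ≠ 1 := by
      intro h
      rw [h, orderOf_one] at hy'o
      exact hp.one_lt.ne hy'o
    have h1 : zp * l = l * zp := by
      apply commute_in_nilp (hCN y' hy'1) (p := p) ?_ ?_ hzpi hlcop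
      · rw [mem_cent_singleton]; exact hzpc y' hy'
      · rw [mem_cent_singleton]; exact hl.symm
    rw [← hzpeq, mem_cent_singleton]
    exact h1
  have hconj_comm : ∀ a b : G, (g⁻¹ * a * g) * (g⁻¹ * b * g) = (g⁻¹ * b * g) * (g⁻¹ * a * g) →
      a * b = b * a := by
    intro a b h
    calc a * b = g * ((g⁻¹ * a * g) * (g⁻¹ * b * g)) * g⁻¹ := by group
      _ = g * ((g⁻¹ * b * g) * (g⁻¹ * a * g)) * g⁻¹ := by rw [h]
      _ = b * a := by group
  have hord : ∀ a : G, orderOf (g⁻¹ * a * g) = orderOf a := by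
    intro a
    have := Cfsg.Agent.Lib.Helper6.orderOf_conj_eq g⁻¹ a
    rwa [inv_inv] at this
  -- Claim B
  have claimB : ∀ l, g⁻¹ * l * g ∈ H → (orderOf l).Coprime p → l ∈ H := by
    intro l hl hlcop
    apply claimA y₁ hy₁H hy₁o l ?_ hlcop
    have h1 : (g⁻¹ * y₁ * g) * (g⁻¹ * l * g) = (g⁻¹ * l * g) * (g⁻¹ * y₁ * g) :=
      commute_in_nilp hH (p := p) (i := 1) hy₁Hg hl (by rw [hord, hy₁o, pow_one])
        (by rw [hord]; exact hlcop)
    exact (hconj_comm y₁ l h1).symm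
  -- Claim C
  have claimC : g⁻¹ * k * g ∈ H := by
    apply claimA (g⁻¹ * y₁ * g) hy₁Hg (by rw [hord, hy₁o]) _ ?_ (by rw [hord]; exact hkcop)
    have h1 : y₁ * k = k * y₁ := hkc y₁ hy₁H
    calc (g⁻¹ * k * g) * (g⁻¹ * y₁ * g) = g⁻¹ * (k * y₁) * g := by group
      _ = g⁻¹ * (y₁ * k) * g := by rw [h1]
      _ = (g⁻¹ * y₁ * g) * (g⁻¹ * k * g) := by group
  -- Claim D
  have claimD : H.map (MulAut.conj g).toMonoidHom ≤ Subgroup.centralizer ({k} : Set G) := by
    intro w hw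
    rw [mem_cj] at hw
    rw [mem_cent_singleton]
    obtain ⟨a, b, hab, haz, hbz, ⟨j, haj⟩, hbcop⟩ := exists_p_decomp' p hp w
    have hconjpow : ∀ c ∈ Subgroup.zpowers w, g⁻¹ * c * g ∈ H := by
      intro c hc
      obtain ⟨n, rfl⟩ := Subgroup.mem_zpowers_iff.mp hc
      have h1 : g⁻¹ * w ^ n * g = (g⁻¹ * w * g) ^ n := by
        have := conj_zpow (a := g⁻¹) (b := w) (i := n)
        rw [inv_inv] at this
        exact this.symm
      rw [h1]; exact H.zpow_mem hw n
    have hbH : b ∈ H := claimB b (hconjpow b hbz) hbcop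
    have h1 : k * b = b * k := (hkc b hbH).symm
    have h2 : k * a = a * k := by
      apply (hconj_comm a k ?_).symm
      exact commute_in_nilp hH (p := p) (i := j) (hconjpow a haz) claimC
        (by rw [hord, haj]) (by rw [hord]; exact hkcop)
    rw [← hab]
    calc k * (a * b) = (k * a) * b := by group
      _ = (a * k) * b := by rw [h2]
      _ = a * (k * b) := by group
      _ = a * (b * k) := by rw [h1]
      _ = a * b * k := by group
  rw [hkeq] at claimD
  apply hg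
  apply Subgroup.eq_of_le_of_card_ge claimD
  rw [Subgroup.card_map_of_injective (MulAut.conj g).injective]


/-- Let G be a finite group in which every non-identity element has nilpotent centralizer, and H a nilpotent subgroup not properly contained in any nilpotent subgroup. Then the order of H is coprime to its index; if the order of H is not a prime power then H ∩ gHg⁻¹ = 1 whenever gHg⁻¹ ≠ H; and if H ∩ gHg⁻¹ = 1 whenever gHg⁻¹ ≠ H, then C_G(x) ≤ H for every non-identity x ∈ H. -/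
theorem result {G : Type*} [Group G] [Finite G] (hCN : Cfsg.IsCNGroup G) (H : Subgroup G) (hH : Group.IsNilpotent H)
    (hmax : ∀ L : Subgroup G, Group.IsNilpotent L → H ≤ L → L = H) :
    (Nat.card H).Coprime H.index ∧
      (¬ IsPrimePow (Nat.card H) → Nat.card H ≠ 1 → ∀ g : G, H.map (MulAut.conj g).toMonoidHom ≠ H → H ⊓ H.map (MulAut.conj g).toMonoidHom = ⊥) ∧
      ((∀ g : G, H.map (MulAut.conj g).toMonoidHom ≠ H → H ⊓ H.map (MulAut.conj g).toMonoidHom = ⊥) → ∀ x ∈ H, x ≠ 1 → Subgroup.centralizer ({x} : Set G) ≤ H) := by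
  exact ⟨hall_part hCN H hH hmax, fun hnpp hne1 g hg => npp_part hCN H hH hmax hnpp hne1 g hg,
    fun hTI => ti_part hCN H hH hmax hTI⟩

end Cfsg.Agent.S1477
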