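import Cfsg.Statements.S1474
import Mathlib
import Cfsg.Agent.S1473
import Cfsg.Agent.S1477
import Cfsg.Agent.S0039
import Cfsg.Agent.S0069
import Cfsg.Agent.Lib.Helper6.RealElt

set_option autoImplicit false
open Cfsg

namespace Cfsg.Agent.S1474

universe u

open Cfsg.Agent.S1473 Cfsg.Agent.S1477 Cfsg.Agent.Lib.Lead Cfsg.Agent.Lib.Helper6

/-- a Sylow subgroup of `G` inside a nilpotent normal subgroup is normal -/
theorem sylow_normal_of_le_nilp {G : Type u} [Group G] [Finite G] {r : ℕ} [Fact r.Prime]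
    (R : Sylow r G) (D : Subgroup G) [D.Normal] (hD : Group.IsNilpotent D)
    (hRD : (R : Subgroup G) ≤ D) : (R : Subgroup G).Normal := by
  have hsyl := ((Group.isNilpotent_of_finite_tfae (G := D)).out 0 3).mp hD
  have h1 : ((R.subtype hRD : Sylow r D) : Subgroup D).Normal := hsyl r inferInstance _
  rw [Sylow.coe_subtype, Subgroup.normal_subgroupOf_iff_le_normalizer hRD] at h1
  have h2 : Subgroup.normalizer ((R : Subgroup G) : Set G) ⊔ D = ⊤ :=
    Sylow.normalizer_sup_eq_top' R hRD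
  rw [sup_eq_left.mpr h1] at h2
  exact Subgroup.normalizer_eq_top_iff.mp h2

theorem exists_central_of_sylow {G : Type u} [Group G] [Finite G] {q : ℕ} [Fact q.Prime]
    (Q : Sylow q G) (hQ1 : (Q : Subgroup G) ≠ ⊥) :
    ∃ u ∈ (Q : Subgroup G), u ≠ 1 ∧ ∀ x ∈ (Q : Subgroup G), x * u = u * x := by
  haveI : Nontrivial (Q : Subgroup G) := (Subgroup.nontrivial_iff_ne_bot _).mpr hQ1
  haveI := IsPGroup.center_nontrivial Q.isPGroup'
  obtain ⟨z', hz'⟩ := exists_ne (1 : Subgroup.center ↥(Q : Subgroup G))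
  refine ⟨((z' : (Q : Subgroup G)) : G), (z' : (Q : Subgroup G)).2, ?_, ?_⟩
  · intro h
    apply hz'
    exact Subtype.ext (Subtype.ext h)
  · intro x hx
    exact congrArg Subtype.val (Subgroup.mem_center_iff.mp z'.2 ⟨x, hx⟩)

theorem sylow_normal_of_centralizes {G : Type u} [Group G] [Finite G]
    (hCN : Cfsg.IsCNGroup G) {p r : ℕ} [Fact p.Prime] [Fact r.Prime] (hrp : r ≠ p)
    (P : Sylow p G) (hPn : (P : Subgroup G).Normal) (hP1 : (P : Subgroup G) ≠ ⊥) (R : Sylow r G)
    (e : G) (heR : e ∈ (R : Subgroup G)) (he1 : e ≠ 1)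
    (hec : ∀ x ∈ (P : Subgroup G), x * e = e * x) : (R : Subgroup G).Normal := by
  classical
  have hp : p.Prime := Fact.out
  have hr : r.Prime := Fact.out
  haveI := hPn
  obtain ⟨D, hDdef⟩ : ∃ D : Subgroup G, D = Subgroup.centralizer ((P : Subgroup G) : Set G) :=
    ⟨_, rfl⟩
  haveI hDn : D.Normal := by rw [hDdef]; infer_instance
  obtain ⟨z, hzP, hz1⟩ : ∃ z ∈ (P : Subgroup G), z ≠ 1 := by
    by_contra hc
    apply hP1
    rw [Subgroup.eq_bot_iff_forall]
    intro w hw
    by_contra hw1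
    exact hc ⟨w, hw, hw1⟩
  have hDnil : Group.IsNilpotent D := by
    apply nilp_of_le (hCN z hz1)
    intro d hd
    rw [hDdef, Subgroup.mem_centralizer_iff] at hd
    rw [mem_cent_singleton]
    exact hd z hzP
  have heD : e ∈ D := by
    rw [hDdef, Subgroup.mem_centralizer_iff]; exact hec
  haveI := R.isPGroup'.isNilpotent
  have hne : D.subgroupOf (R : Subgroup G) ≠ ⊥ := by
    intro h
    have h1 : (⟨e, heR⟩ : (R : Subgroup G)) ∈ D.subgroupOf (R : Subgroup G) :=
      Subgroup.mem_subgroupOf.mpr heD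
    rw [h, Subgroup.mem_bot] at h1
    exact he1 (congrArg Subtype.val h1)
  have h3 := normal_inf_center_ne_bot (D.subgroupOf (R : Subgroup G)) hne
  obtain ⟨w', hw', hw'1⟩ : ∃ w' ∈ D.subgroupOf (R : Subgroup G) ⊓
      Subgroup.center ↥(R : Subgroup G), w' ≠ 1 := by
    by_contra hc
    apply h3
    rw [Subgroup.eq_bot_iff_forall]
    intro w hw
    by_contra hw1
    exact hc ⟨w, hw, hw1⟩
  have hwD : (w' : G) ∈ D := Subgroup.mem_subgroupOf.mp hw'.1
  have hw1 : (w' : G) ≠ 1 := fun h => hw'1 (Subtype.ext h)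
  have hRD : (R : Subgroup G) ≤ D := by
    intro x hx
    rw [hDdef, Subgroup.mem_centralizer_iff]
    intro y hy
    obtain ⟨i, hi⟩ := orderOf_mem_sylow R hx
    obtain ⟨j, hj⟩ := orderOf_mem_sylow P hy
    have hycop : (orderOf y).Coprime r := by
      rw [hj]; exact Nat.Coprime.pow_left j ((Nat.coprime_primes hp hr).mpr (Ne.symm hrp))
    have h5 : x * y = y * x := by
      apply commute_in_nilp (hCN _ hw1) (p := r) ?_ ?_ hi hycop
      · rw [mem_cent_singleton]
        have h4 := Subgroup.mem_center_iff.mp hw'.2 ⟨x, hx⟩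
        exact (congrArg Subtype.val h4).symm
      · rw [mem_cent_singleton]
        rw [hDdef, Subgroup.mem_centralizer_iff] at hwD
        exact (hwD y hy).symm
    exact h5.symm
  exact sylow_normal_of_le_nilp R D hDnil hRD

theorem prime_pow_elt {G : Type*} [Group G] [Finite G] {e : G} (he1 : e ≠ 1) :
    ∃ (r : ℕ) (n : ℕ), r.Prime ∧ orderOf (e ^ n) = r := by
  have hoe : orderOf e ≠ 1 := fun h0 => he1 (orderOf_eq_one_iff.mp h0)
  have hr : (orderOf e).minFac.Prime := Nat.minFac_prime hoe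
  have hrd : (orderOf e).minFac ∣ orderOf e := Nat.minFac_dvd _
  refine ⟨(orderOf e).minFac, orderOf e / (orderOf e).minFac, hr, ?_⟩
  have hpos : 0 < orderOf e := orderOf_pos e
  have h0 : orderOf e ≠ 0 := hpos.ne'
  rw [orderOf_pow_of_dvd ?_ (Nat.div_dvd_of_dvd hrd), Nat.div_div_self hrd h0]
  exact (Nat.div_pos (Nat.le_of_dvd hpos hrd) hr.pos).ne'


/-- Let G be a finite group in which every non-identity element has nilpotent centralizer, not itself nilpotent, and having a nontrivial normal Sylow p-subgroup for some prime p. Let H be the largest normal nilpotent Hall subgroup of G. Then H is a nontrivial proper normal subgroup with a complement E that is a Frobenius complement in G (no non-identity element of E centralizes a non-identity element of H), and G/H is nilpotent. -/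
theorem result {G : Type*} [Group G] [Finite G] (hCN : Cfsg.IsCNGroup G) (hnn : ¬ Group.IsNilpotent G) (p : ℕ) [Fact p.Prime] (P : Sylow p G)
    (hP1 : (P : Subgroup G) ≠ ⊥) (hPn : (P : Subgroup G).Normal) :
    Cfsg.fittingHall G ≠ ⊥ ∧ Cfsg.fittingHall G ≠ ⊤ ∧
      (∃ E : Subgroup G, Subgroup.IsComplement' (Cfsg.fittingHall G) E ∧ Cfsg.IsFrobeniusComplement E ∧
        ∀ e ∈ E, e ≠ 1 → Cfsg.fittingHall G ⊓ Subgroup.centralizer ({e} : Set G) = ⊥) ∧
      Group.IsNilpotent (G ⧸ Cfsg.fittingHall G) := by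
  classical
  have hp : p.Prime := Fact.out
  haveI := hPn
  have hmemH : ∀ N : Subgroup G, N.Normal → Group.IsNilpotent N → (Nat.card N).Coprime N.index →
      N ≤ Cfsg.fittingHall G := fun N h1 h2 h3 => le_sSup ⟨h1, h2, h3⟩
  have hSylH : ∀ (q : ℕ) [Fact q.Prime] (Q : Sylow q G), (Q : Subgroup G).Normal →
      (Q : Subgroup G) ≤ Cfsg.fittingHall G := by
    intro q _ Q hQn
    exact hmemH _ hQn Q.isPGroup'.isNilpotent Q.card_coprime_index
  have hPH : (P : Subgroup G) ≤ Cfsg.fittingHall G := hSylH p P hPn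
  obtain ⟨z, hzP, hz1, hzc⟩ := exists_central_of_sylow P hP1
  obtain ⟨iz, hiz⟩ := orderOf_mem_sylow P hzP
  have hHT : Cfsg.fittingHall G ≤ Subgroup.centralizer ({z} : Set G) := by
    apply sSup_le
    rintro N ⟨hNn, hNnil, hNcop⟩
    intro n hn
    rw [mem_cent_singleton]
    by_cases hpN : p ∣ Nat.card N
    · have hpi : ¬ p ∣ N.index := by
        intro h
        exact (Nat.Prime.not_coprime_iff_dvd.mpr ⟨p, hp, hpN, h⟩) hNcop
      have hPN : (P : Subgroup G) ≤ N := by
        intro x hx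
        obtain ⟨i, hi⟩ := orderOf_mem_sylow P hx
        haveI := hNn
        have h1 : x ^ N.index ∈ N := Subgroup.pow_index_mem N x
        have h2 : x ^ (p ^ i) ∈ N := by rw [← hi, pow_orderOf_eq_one]; exact N.one_mem
        exact mem_of_pow_mem_of_coprime
          (Nat.Coprime.pow_right i ((Nat.Prime.coprime_iff_not_dvd hp).mpr hpi).symm) h1 h2
      obtain ⟨a, b, hab, haz, hbz, ⟨k, hak⟩, hbq⟩ := exists_p_decomp' p hp n
      have haN : a ∈ N := (Subgroup.zpowers_le.mpr hn) haz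
      have hbN : b ∈ N := (Subgroup.zpowers_le.mpr hn) hbz
      have h1 : a * z = z * a := hzc a (mem_sylow_of_normal_of_orderOf P hPn a k hak)
      have h2 : z * b = b * z := commute_in_nilp hNnil (p := p) (hPN hzP) hbN hiz hbq
      rw [← hab]
      calc z * (a * b) = (z * a) * b := by group
        _ = (a * z) * b := by rw [h1]
        _ = a * (z * b) := by group
        _ = a * (b * z) := by rw [h2]
        _ = a * b * z := by group
    · have hdisj : Disjoint N (P : Subgroup G) := by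
        apply Subgroup.disjoint_of_coprime_natCard
        rw [P.card_eq_multiplicity]
        exact Nat.Coprime.pow_right _ ((Nat.Prime.coprime_iff_not_dvd hp).mpr hpN).symm
      exact (Subgroup.commute_of_normal_of_disjoint N P hNn hPn hdisj n z hn hzP).eq.symm
  have hHnil : Group.IsNilpotent (Cfsg.fittingHall G) := nilp_of_le (hCN z hz1) hHT
  have hnormSyl : ∀ q : ℕ, ∀ hq : Fact q.Prime, q ∣ Nat.card (Cfsg.fittingHall G) →
      ∃ Q : Sylow q G, (Q : Subgroup G).Normal := by
    intro q hq hqH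
    by_cases hqp : q = p
    · subst hqp; exact ⟨P, hPn⟩
    · obtain ⟨h, hh⟩ := exists_prime_orderOf_dvd_card' q hqH
      have hhq : orderOf (h : G) = q := by rw [Subgroup.orderOf_coe]; exact hh
      have hpg : IsPGroup q (Subgroup.zpowers (h : G)) :=
        IsPGroup.of_card (n := 1) (by rw [Nat.card_zpowers, hhq, pow_one])
      obtain ⟨Q, hQ⟩ := hpg.exists_le_sylow
      refine ⟨Q, sylow_normal_of_centralizes hCN hqp P hPn hP1 Q (h : G)
        (hQ (Subgroup.mem_zpowers _)) ?_ ?_⟩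
      · intro h1
        rw [h1, orderOf_one] at hhq
        exact hq.out.one_lt.ne hhq
      · intro x hx
        obtain ⟨j, hj⟩ := orderOf_mem_sylow P hx
        exact commute_in_nilp hHnil (p := p) (hPH hx) h.2 hj
          (by rw [hhq]; exact (Nat.coprime_primes hq.out hp).mpr hqp)
  have hHall : (Nat.card (Cfsg.fittingHall G)).Coprime (Cfsg.fittingHall G).index := by
    by_contra hcon
    obtain ⟨q, hq, hqH, hqi⟩ := Nat.Prime.not_coprime_iff_dvd.mp hcon
    haveI : Fact q.Prime := ⟨hq⟩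
    obtain ⟨Q, hQn⟩ := hnormSyl q ⟨hq⟩ hqH
    have hQH := hSylH q Q hQn
    have h1 : (Cfsg.fittingHall G).index ∣ (Q : Subgroup G).index := Subgroup.index_dvd_of_le hQH
    exact Q.not_dvd_index (hqi.trans h1)
  obtain ⟨E, hE⟩ := Subgroup.exists_right_complement'_of_coprime hHall
  have hHtop : Cfsg.fittingHall G ≠ ⊤ := by
    intro h
    apply hnn
    rw [h] at hHnil
    haveI := hHnil
    exact Group.nilpotent_of_mulEquiv Subgroup.topEquiv
  have hHbot : Cfsg.fittingHall G ≠ ⊥ := by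
    intro h
    apply hP1
    rw [eq_bot_iff, ← h]
    exact hPH
  have hEcard : Nat.card E = (Cfsg.fittingHall G).index := hE.symm.index_eq_card.symm
  have hEbot : E ≠ ⊥ := by
    intro h
    apply hHtop
    rw [h, Subgroup.card_bot] at hEcard
    exact Subgroup.index_eq_one.mp hEcard.symm
  have hdisj : ∀ x, x ∈ Cfsg.fittingHall G → x ∈ E → x = 1 := fun x h1 h2 =>
    Subgroup.disjoint_def.mp hE.disjoint h1 h2
  have hfpf : ∀ e ∈ E, e ≠ 1 →
      Cfsg.fittingHall G ⊓ Subgroup.centralizer ({e} : Set G) = ⊥ := by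
    intro e heE he1
    rw [Subgroup.eq_bot_iff_forall]
    rintro h ⟨hhH, hhc⟩
    by_contra hh1
    have hhc' : e * h = h * e := mem_cent_singleton.mp hhc
    obtain ⟨r, n, hr, he₁o⟩ := prime_pow_elt he1
    obtain ⟨q, m, hq, hh₁o⟩ := prime_pow_elt hh1
    have he₁E : e ^ n ∈ E := E.pow_mem heE _
    have hh₁H : h ^ m ∈ Cfsg.fittingHall G := Subgroup.pow_mem _ hhH _
    have hcomm : e ^ n * h ^ m = h ^ m * e ^ n := ((show Commute e h from hhc').pow_pow _ _).eq
    haveI : Fact r.Prime := ⟨hr⟩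
    haveI : Fact q.Prime := ⟨hq⟩
    have he₁1 : e ^ n ≠ 1 := by
      intro h0
      rw [h0, orderOf_one] at he₁o
      exact hr.one_lt.ne he₁o
    have hh₁1 : h ^ m ≠ 1 := by
      intro h0
      rw [h0, orderOf_one] at hh₁o
      exact hq.one_lt.ne hh₁o
    have hqH : q ∣ Nat.card (Cfsg.fittingHall G) := by
      rw [← hh₁o]; exact Subgroup.orderOf_dvd_natCard _ hh₁H
    have hrE : r ∣ Nat.card E := by
      rw [← he₁o]; exact Subgroup.orderOf_dvd_natCard _ he₁E
    have hrq : r ≠ q := by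
      rintro rfl
      exact (Nat.Prime.not_coprime_iff_dvd.mpr ⟨r, hr, hqH, hEcard ▸ hrE⟩) hHall
    obtain ⟨Q, hQn⟩ := hnormSyl q ⟨hq⟩ hqH
    have hh₁Q : h ^ m ∈ (Q : Subgroup G) :=
      mem_sylow_of_normal_of_orderOf Q hQn (h ^ m) 1 (by rw [hh₁o, pow_one])
    have hQ1 : (Q : Subgroup G) ≠ ⊥ := by
      intro h0
      rw [h0, Subgroup.mem_bot] at hh₁Q
      exact hh₁1 hh₁Q
    obtain ⟨u, huQ, hu1, huc⟩ := exists_central_of_sylow Q hQ1
    obtain ⟨iu, hiu⟩ := orderOf_mem_sylow Q huQ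
    have he₁cop : (orderOf (e ^ n)).Coprime q := by
      rw [he₁o]; exact (Nat.coprime_primes hr hq).mpr hrq
    have hue : u * e ^ n = e ^ n * u := by
      apply commute_in_nilp (hCN (h ^ m) hh₁1) (p := q) ?_ ?_ hiu he₁cop
      · rw [mem_cent_singleton]; exact huc (h ^ m) hh₁Q
      · rw [mem_cent_singleton]; exact hcomm.symm
    have hQe : ∀ x ∈ (Q : Subgroup G), x * e ^ n = e ^ n * x := by
      intro x hx
      obtain ⟨ix, hix⟩ := orderOf_mem_sylow Q hx
      apply commute_in_nilp (hCN u hu1) (p := q) ?_ ?_ hix he₁cop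
      · rw [mem_cent_singleton]; exact (huc x hx).symm
      · rw [mem_cent_singleton]; exact hue
    have hpg : IsPGroup r (Subgroup.zpowers (e ^ n)) :=
      IsPGroup.of_card (n := 1) (by rw [Nat.card_zpowers, he₁o, pow_one])
    obtain ⟨R, hR⟩ := hpg.exists_le_sylow
    have hRn := sylow_normal_of_centralizes hCN hrq Q hQn hQ1 R (e ^ n)
      (hR (Subgroup.mem_zpowers _)) he₁1 hQe
    have hRH := hSylH r R hRn
    exact he₁1 (hdisj (e ^ n) (hRH (hR (Subgroup.mem_zpowers _))) he₁E)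
  have hfrob : Cfsg.IsFrobeniusComplement E :=
    (Cfsg.Agent.S0039.result (Cfsg.fittingHall G) E hE hHbot hEbot).mpr hfpf
  have hEnil : Group.IsNilpotent E := by
    have hc := Cfsg.Agent.S0069.result (Cfsg.fittingHall G) E hE hHbot hEbot hfpf
    obtain ⟨z', hz', hz'1⟩ : ∃ z' ∈ Subgroup.center ↥E, z' ≠ 1 := by
      by_contra hcon
      apply hc
      rw [Subgroup.eq_bot_iff_forall]
      intro w hw
      by_contra hw1
      exact hcon ⟨w, hw, hw1⟩
    apply nilp_of_le (hCN (z' : G) (fun h => hz'1 (Subtype.ext h)))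
    intro x hx
    rw [mem_cent_singleton]
    exact (congrArg Subtype.val (Subgroup.mem_center_iff.mp hz' ⟨x, hx⟩)).symm
  have hquot : Group.IsNilpotent (G ⧸ Cfsg.fittingHall G) := by
    haveI := hEnil
    apply Group.nilpotent_of_surjective ((QuotientGroup.mk' (Cfsg.fittingHall G)).comp E.subtype)
    intro x
    obtain ⟨g, rfl⟩ := QuotientGroup.mk_surjective x
    obtain ⟨⟨⟨h, hh⟩, ⟨e, he⟩⟩, hhe⟩ := hE.2 g
    refine ⟨⟨e, he⟩, ?_⟩
    have h1 : g = h * e := hhe.symm
    rw [h1]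
    show (QuotientGroup.mk e : G ⧸ _) = QuotientGroup.mk (h * e)
    rw [QuotientGroup.mk_mul, (QuotientGroup.eq_one_iff h).mpr hh, one_mul]
  exact ⟨hHbot, hHtop, ⟨E, hE, hfrob, hfpf⟩, hquot⟩

end Cfsg.Agent.S1474
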