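import Cfsg.Statements.S0092
import Mathlib
import Cfsg.Agent.Lib.Lead.AbSylowTransfer
import Cfsg.Agent.Lib.Lead.PResidual
import Cfsg.Agent.Lib.Lead.Coprime
import Cfsg.Agent.Lib.Helper6.Comm
import Cfsg.Agent.Lib.Helper6.Lift
import Cfsg.Agent.Lib.Helper6.CFus

set_option autoImplicit false
open Cfsg

namespace Cfsg.Agent.S0092

universe u

open Cfsg.Agent.Lib.Lead Cfsg.Agent.Lib.Helper6 in
/-- a normal subgroup of `O^p(G)` with `p`-group quotient is everything -/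
theorem pRes_top_aux {G : Type*} [Group G] [Finite G] {p : ℕ} [Fact p.Prime]
    (N : Subgroup ↥(Cfsg.pResidual p G)) [N.Normal]
    (hN : IsPGroup p (↥(Cfsg.pResidual p G) ⧸ N)) : N = ⊤ := by
  have hle : Cfsg.pResidual p G ≤ N.map (Cfsg.pResidual p G).subtype := by
    show Subgroup.closure {g : G | Nat.Coprime (orderOf g) p} ≤ _
    apply (Subgroup.closure_le _).mpr
    intro g hg
    have hco : (orderOf g).Coprime p := hg
    have hgm : g ∈ Cfsg.pResidual p G := Subgroup.subset_closure hg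
    refine ⟨⟨g, hgm⟩, ?_, rfl⟩
    obtain ⟨k, hk⟩ := hN (QuotientGroup.mk ⟨g, hgm⟩)
    have h1 : orderOf (QuotientGroup.mk (s := N) ⟨g, hgm⟩) ∣ p ^ k := orderOf_dvd_of_pow_eq_one hk
    have h2 : orderOf (QuotientGroup.mk (s := N) ⟨g, hgm⟩) ∣ orderOf g := by
      apply orderOf_dvd_of_pow_eq_one
      rw [← QuotientGroup.mk_pow]
      have : (⟨g, hgm⟩ : ↥(Cfsg.pResidual p G)) ^ orderOf g = 1 :=
        Subtype.ext (by simp [pow_orderOf_eq_one])
      rw [this]; rfl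
    have h3 : orderOf (QuotientGroup.mk (s := N) ⟨g, hgm⟩) = 1 :=
      Nat.Coprime.eq_one_of_dvd (Nat.Coprime.coprime_dvd_left h2 (Nat.Coprime.pow_right k hco)) h1
    exact (QuotientGroup.eq_one_iff _).mp (orderOf_eq_one_iff.mp h3)
  rw [eq_top_iff]
  intro x _
  obtain ⟨y, hy, hyx⟩ := hle x.2
  have : y = x := Subtype.ext hyx
  rw [← this]; exact hy

/-- the Sylow `p`-subgroup of `O^p(G)`, if abelian, has no fixed points under its normaliser -/
theorem fix_bot {G : Type*} [Group G] [Finite G] {p : ℕ} [Fact p.Prime]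
    (Q₀ : Sylow p (Cfsg.pResidual p G)) (hQ : IsMulCommutative Q₀) :
    (Q₀ : Subgroup (Cfsg.pResidual p G)) ⊓ Subgroup.centralizer
      (Subgroup.normalizer ((Q₀ : Subgroup (Cfsg.pResidual p G)) : Set (Cfsg.pResidual p G)) :
        Set (Cfsg.pResidual p G)) = ⊥ := by
  obtain ⟨N, hNn, ⟨e⟩⟩ := Cfsg.Agent.Lib.Lead.abelian_sylow_quotient Q₀ hQ
  have hT : IsPGroup p ↥((Q₀ : Subgroup (Cfsg.pResidual p G)) ⊓ Subgroup.centralizer
      (Subgroup.normalizer ((Q₀ : Subgroup (Cfsg.pResidual p G)) : Set (Cfsg.pResidual p G)) :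
        Set (Cfsg.pResidual p G))) := Q₀.isPGroup'.to_le inf_le_left
  have hq : IsPGroup p (↥(Cfsg.pResidual p G) ⧸ N) := hT.of_equiv e.symm
  have hNtop : N = ⊤ := pRes_top_aux N hq
  have hc : Nat.card (↥(Cfsg.pResidual p G) ⧸ N) = 1 := by
    rw [← Subgroup.index_eq_card, hNtop, Subgroup.index_top]
  rw [Nat.card_congr e.toEquiv] at hc
  exact Subgroup.eq_bot_of_card_eq _ hc

/-- internal Schur–Zassenhaus existence -/
theorem sz_internal {G : Type*} [Group G] [Finite G] (Q N₀ : Subgroup G) (hQN : Q ≤ N₀)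
    (hnorm : N₀ ≤ Subgroup.normalizer (Q : Set G))
    (hcop : (Nat.card Q).Coprime (Q.relIndex N₀)) :
    ∃ L : Subgroup G, L ≤ N₀ ∧ Q ⊓ L = ⊥ ∧ (∀ n ∈ N₀, ∃ q ∈ Q, ∃ l ∈ L, n = q * l) ∧
      Nat.card L = Q.relIndex N₀ := by
  haveI : (Q.subgroupOf N₀).Normal := (Subgroup.normal_subgroupOf_iff_le_normalizer hQN).mpr hnorm
  have hcard : Nat.card (Q.subgroupOf N₀) = Nat.card Q :=
    Nat.card_congr (Subgroup.subgroupOfEquivOfLe hQN).toEquiv
  have hcop' : (Nat.card (Q.subgroupOf N₀)).Coprime (Q.subgroupOf N₀).index := by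
    rw [hcard]; exact hcop
  obtain ⟨L₁, hL₁⟩ := Subgroup.exists_right_complement'_of_coprime hcop'
  refine ⟨L₁.map N₀.subtype, Subgroup.map_subtype_le _, ?_, ?_, ?_⟩
  · rw [eq_bot_iff]
    rintro x ⟨hxQ, y, hy, rfl⟩
    have hy2 : y ∈ Q.subgroupOf N₀ ⊓ L₁ := ⟨Subgroup.mem_subgroupOf.mpr hxQ, hy⟩
    rw [disjoint_iff.mp hL₁.disjoint, Subgroup.mem_bot] at hy2
    rw [hy2]; exact Subgroup.mem_bot.mpr rfl
  · intro n hn
    obtain ⟨⟨⟨a, ha⟩, ⟨l, hl⟩⟩, hal⟩ := hL₁.2 ⟨n, hn⟩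
    refine ⟨a.1, Subgroup.mem_subgroupOf.mp ha, l.1, ⟨l, hl, rfl⟩, ?_⟩
    exact (congrArg Subtype.val hal).symm
  · rw [Subgroup.card_map_of_injective (Subgroup.subtype_injective _)]
    exact hL₁.symm.index_eq_card.symm

open Cfsg.Agent.Lib.Lead Cfsg.Agent.Lib.Helper6 in
open scoped Pointwise in
theorem compl_of_fix {G : Type u} [Group G] [Finite G] {p : ℕ} [Fact p.Prime] (H : Subgroup G)
    [H.Normal] (hH : IsPGroup p (G ⧸ H)) (Q₀ : Sylow p H)
    (hcomm : ∀ x ∈ (Q₀ : Subgroup H), ∀ y ∈ (Q₀ : Subgroup H), x * y = y * x)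
    (hfix : (Q₀ : Subgroup H) ⊓ Subgroup.centralizer
      (Subgroup.normalizer ((Q₀ : Subgroup H) : Set H) : Set H) = ⊥) :
    ∃ K : Subgroup G, K.IsComplement' H := by
  classical
  have hp : p.Prime := Fact.out
  set Q : Subgroup G := (Q₀ : Subgroup H).map H.subtype with hQdef
  have hQH : Q ≤ H := Subgroup.map_subtype_le _
  have hQp : IsPGroup p Q := Q₀.isPGroup'.map _
  have hfr : Subgroup.normalizer (Q : Set G) ⊔ H = ⊤ := Sylow.normalizer_sup_eq_top Q₀
  have hQcomm : ∀ x ∈ Q, ∀ y ∈ Q, x * y = y * x := by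
    rintro x ⟨x', hx', rfl⟩ y ⟨y', hy', rfl⟩
    exact congrArg Subtype.val (hcomm x' hx' y' hy')
  have hfixG : ∀ x ∈ Q, (∀ n ∈ H, n ∈ Subgroup.normalizer (Q : Set G) → n * x = x * n) →
      x = 1 := by
    rintro x ⟨x', hx', rfl⟩ hc
    have hmem : x' ∈ (Q₀ : Subgroup H) ⊓ Subgroup.centralizer
        (Subgroup.normalizer ((Q₀ : Subgroup H) : Set H) : Set H) := by
      refine ⟨hx', ?_⟩
      show x' ∈ Subgroup.centralizer _
      rw [Subgroup.mem_centralizer_iff]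
      intro n hn
      apply Subtype.ext
      apply hc n.1 n.2
      apply mem_normalizer_of_conj_mem
      rintro y ⟨y', hy', rfl⟩
      exact ⟨n * y' * n⁻¹, (Subgroup.mem_normalizer_iff.mp hn y').mp hy', rfl⟩
    rw [hfix, Subgroup.mem_bot] at hmem
    rw [hmem]; rfl
  set N : Subgroup G := Subgroup.normalizer (Q : Set G) with hNdef
  have hQN : Q ≤ N := Subgroup.le_normalizer
  set N₀ : Subgroup G := H ⊓ N with hN₀def
  have hQN₀ : Q ≤ N₀ := le_inf hQH hQN
  have hrel : ¬ p ∣ Q.relIndex H := by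
    have h1 : Q.subgroupOf H = (Q₀ : Subgroup H) :=
      Subgroup.comap_map_eq_self_of_injective (Subgroup.subtype_injective _) _
    have h2 : Q.relIndex H = (Q₀ : Subgroup H).index := by
      unfold Subgroup.relIndex; rw [h1]
    rw [h2]; exact Q₀.not_dvd_index
  have hrel₀ : ¬ p ∣ Q.relIndex N₀ := fun h =>
    hrel (h.trans (Dvd.intro _ (Subgroup.relIndex_mul_relIndex Q N₀ H hQN₀ inf_le_left)))
  obtain ⟨k, hk⟩ := IsPGroup.iff_card.mp hQp
  have hcop : (Nat.card Q).Coprime (Q.relIndex N₀) := by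
    rw [hk]; exact Nat.Coprime.pow_left k ((Nat.Prime.coprime_iff_not_dvd hp).mpr hrel₀)
  obtain ⟨L, hLN₀, hQL, hdec, hLcard⟩ := sz_internal Q N₀ hQN₀ inf_le_right hcop
  have hLp : (Nat.card L).Coprime p := by
    rw [hLcard]; exact ((Nat.Prime.coprime_iff_not_dvd hp).mpr hrel₀).symm
  have hLN : L ≤ N := hLN₀.trans inf_le_right
  have hLH : L ≤ H := hLN₀.trans inf_le_left
  set M : Subgroup G := N ⊓ Subgroup.normalizer (L : Set G) with hMdef
  have claim1 : ∀ n ∈ N, ∃ q ∈ Q, ∃ m ∈ M, n = q * m := by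
    intro n hn
    have hconjle : MulAut.conj n • L ≤ Q ⊔ L := by
      intro y hy
      rw [mem_conj_smul] at hy
      have hy0 : n⁻¹ * y * n ∈ N₀ := hLN₀ hy
      have hyN₀ : y ∈ N₀ := by
        have h1 : y = n * (n⁻¹ * y * n) * n⁻¹ := by group
        rw [h1]
        exact ⟨Subgroup.Normal.conj_mem inferInstance _ hy0.1 n,
          N.mul_mem (N.mul_mem hn hy0.2) (N.inv_mem hn)⟩
      obtain ⟨q, hq, l, hl, rfl⟩ := hdec y hyN₀
      exact Subgroup.mul_mem_sup hq hl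
    haveI := hQp.isNilpotent
    have hcop2 : (Nat.card Q).Coprime (Nat.card L) := by rw [hLcard]; exact hcop
    obtain ⟨q, hq, hqL⟩ := sz_conj Q L (MulAut.conj n • L) hLN hconjle (card_conj_smul n L) hcop2
      (Or.inl inferInstance)
    refine ⟨q, hq, q⁻¹ * n, ⟨N.mul_mem (N.inv_mem (hQN hq)) hn, ?_⟩, by group⟩
    apply mem_normalizer_of_conj_mem
    intro l hl
    have h1 : n * l * n⁻¹ ∈ MulAut.conj n • L := conj_mem_conj_smul hl
    rw [← hqL, mem_conj_smul] at h1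
    have h2 : q⁻¹ * n * l * (q⁻¹ * n)⁻¹ = q⁻¹ * (n * l * n⁻¹) * q := by group
    rw [h2]; exact h1
  have claim2 : ∀ x ∈ M, x ∈ H → x ∈ L := by
    intro x hxM hxH
    obtain ⟨q, hq, l, hl, rfl⟩ := hdec x ⟨hxH, hxM.1⟩
    have hqnorm : q ∈ Subgroup.normalizer (L : Set G) := by
      have h1 : q = (q * l) * l⁻¹ := by group
      rw [h1]; exact Subgroup.mul_mem _ hxM.2 (Subgroup.inv_mem _ (Subgroup.le_normalizer hl))
    have hq1 : q = 1 := by
      apply hfixG q hq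
      intro n hnH hnN
      obtain ⟨q', hq', l', hl', rfl⟩ := hdec n ⟨hnH, hnN⟩
      have h1 : q * l' = l' * q := by
        have hc : q * l' * q⁻¹ * l'⁻¹ ∈ Q ⊓ L := by
          refine ⟨?_, ?_⟩
          · have h2 : q * l' * q⁻¹ * l'⁻¹ = q * (l' * q⁻¹ * l'⁻¹) := by group
            rw [h2]
            exact Q.mul_mem hq ((Subgroup.mem_normalizer_iff.mp (hLN hl') q⁻¹).mp (Q.inv_mem hq))
          · exact L.mul_mem ((Subgroup.mem_normalizer_iff.mp hqnorm l').mp hl') (L.inv_mem hl')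
        rw [hQL, Subgroup.mem_bot] at hc
        calc q * l' = (q * l' * q⁻¹ * l'⁻¹) * (l' * q) := by group
          _ = l' * q := by rw [hc, one_mul]
      calc q' * l' * q = q' * (l' * q) := by group
        _ = q' * (q * l') := by rw [h1]
        _ = (q' * q) * l' := by group
        _ = (q * q') * l' := by rw [hQcomm q' hq' q hq]
        _ = q * (q' * l') := by group
    rw [hq1, one_mul]; exact hl
  obtain ⟨K₀⟩ : Nonempty (Sylow p M) := inferInstance
  set K : Subgroup G := (K₀ : Subgroup M).map M.subtype with hKdef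
  have hKM : K ≤ M := Subgroup.map_subtype_le _
  have hKp : IsPGroup p K := K₀.isPGroup'.map _
  have hKH : Disjoint H K := by
    rw [disjoint_iff, eq_bot_iff]
    intro x hx
    have hxL : x ∈ L := claim2 x (hKM hx.2) hx.1
    rw [Subgroup.mem_bot]
    exact eq_one_of_mem_pgroup_of_mem_coprime hKp hLp hx.2 hxL
  have hLM : L ≤ M := le_inf hLN Subgroup.le_normalizer
  haveI hLnM : (L.subgroupOf M).Normal :=
    (Subgroup.normal_subgroupOf_iff_le_normalizer hLM).mpr inf_le_right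
  have hMq : IsPGroup p (↥M ⧸ L.subgroupOf M) := by
    intro g
    obtain ⟨m, rfl⟩ := QuotientGroup.mk_surjective g
    obtain ⟨j, hj⟩ := hH (QuotientGroup.mk (m : G))
    refine ⟨j, ?_⟩
    rw [← QuotientGroup.mk_pow, QuotientGroup.eq_one_iff, Subgroup.mem_subgroupOf]
    have h1 : (m : G) ^ p ^ j ∈ H := by
      rw [← QuotientGroup.eq_one_iff, QuotientGroup.mk_pow]; exact hj
    have h2 : ((m ^ p ^ j : M) : G) = (m : G) ^ p ^ j := by simp
    rw [h2]
    exact claim2 _ (M.pow_mem m.2 _) h1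
  have hK₀i : ¬ p ∣ (K₀ : Subgroup M).index := K₀.not_dvd_index
  have hsurj : ∀ g : G, ∃ h ∈ H, ∃ k ∈ K, g = h * k := by
    intro g
    have hg : g ∈ (↑(N ⊔ H) : Set G) := by rw [hfr]; exact Subgroup.mem_top g
    rw [Subgroup.mul_normal] at hg
    obtain ⟨n, hn, h, hh, rfl⟩ := Set.mem_mul.mp hg
    obtain ⟨q, hq, m, hm, rfl⟩ := claim1 n hn
    obtain ⟨c, hc, s, hs, hcs⟩ := exists_mul_of_pindex (L.subgroupOf M) hMq (K₀ : Subgroup M)
      K₀.isPGroup' hK₀i ⟨m, hm⟩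
    refine ⟨q * (c : G) * ((s : G) * h * (s : G)⁻¹), ?_, (s : G), ⟨s, hs, rfl⟩, ?_⟩
    · exact H.mul_mem (H.mul_mem (hQH hq) (hLH (Subgroup.mem_subgroupOf.mp hc)))
        (Subgroup.Normal.conj_mem inferInstance h hh (s : G))
    · have h3 : m = c * s := congrArg Subtype.val hcs
      rw [h3]; group
  refine ⟨K, (Subgroup.isComplement'_of_disjoint_and_mul_eq_univ hKH ?_).symm⟩
  ext g
  simp only [Set.mem_univ, iff_true]
  obtain ⟨h, hh, k, hk, rfl⟩ := hsurj g
  exact Set.mul_mem_mul hh hk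


/-- If the Sylow p-subgroups of O^p(G) are abelian then G splits over O^p(G). -/
theorem result {G : Type*} [Group G] [Finite G] {p : ℕ} [Fact p.Prime] (h : ∀ Q : Sylow p (Cfsg.pResidual p G), IsMulCommutative Q) : ∃ K : Subgroup G, K.IsComplement' (Cfsg.pResidual p G) := by
  classical
  haveI := Cfsg.Agent.Lib.Lead.pResidual_normal_lead (G := G) p
  obtain ⟨Q₀⟩ : Nonempty (Sylow p (Cfsg.pResidual p G)) := inferInstance
  have hQc := h Q₀
  have hfix := fix_bot Q₀ hQc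
  have hHq : IsPGroup p (G ⧸ Cfsg.pResidual p G) := Cfsg.Agent.Lib.Lead.isPGroup_quotient_pResidual p
  exact compl_of_fix (Cfsg.pResidual p G) hHq Q₀
    (fun x hx y hy => hQc.is_comm.comm ⟨x, hx⟩ ⟨y, hy⟩ |> congrArg Subtype.val) hfix

end Cfsg.Agent.S0092
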