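import Cfsg.Statements.S1478
import Mathlib
import Cfsg.Agent.Lib.Helper6.CN10

set_option autoImplicit false
open Cfsg
open Cfsg.Agent.S1473 Cfsg.Agent.S1477 Cfsg.Agent.S1474 Cfsg.Agent.Lib.Helper6 Cfsg.Agent.Lib

namespace Cfsg.Agent.S1478


/-- Let G be a minimal simple group of odd order in which every non-identity element has nilpotent centralizer. Then no subgroup of G is a three-step group with respect to any prime. -/
theorem result {G : Type*} [Group G] [Finite G] (hG : Cfsg.IsMinSimpleOddOrder G) (hCN : Cfsg.IsCNGroup G) :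
    ∀ (H : Subgroup G) (p : ℕ), ¬ Cfsg.IsThreeStepGroup p ↥H := by
  intro M₀ p₀ hts₀
  classical
  haveI := hG.2.1
  have hns : ∀ (q : ℕ) [Fact q.Prime] (S : Sylow q ↥M₀), (S : Subgroup ↥M₀).Normal →
      (S : Subgroup ↥M₀) = ⊥ := fun q _ S hS => three_step_no_normal_sylow hts₀ q S hS
  have hM₀top : M₀ ≠ ⊤ := by
    intro htop
    obtain ⟨hH1, A, hA1, hAc, hAodd, hAcop, hKn, hKtop, hidx, hfpf, hfrob⟩ := hts₀
    have hKG : ((Cfsg.pCore p₀ ↥M₀ ⊔ A).map M₀.subtype).Normal := by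
      constructor
      intro n hn g
      obtain ⟨n', hn', rfl⟩ := hn
      have hg : g ∈ M₀ := by rw [htop]; trivial
      exact ⟨⟨g, hg⟩ * n' * ⟨g, hg⟩⁻¹, hKn.conj_mem n' hn' _, rfl⟩
    rcases hKG.eq_bot_or_eq_top with h | h
    · have h1 := (Subgroup.map_eq_bot_iff_of_injective _ M₀.subtype_injective).mp h
      apply hH1
      have h2 : Cfsg.pCore p₀ ↥M₀ ≤ Cfsg.pCore p₀ ↥M₀ ⊔ A := le_sup_left
      rw [h1] at h2
      exact le_bot_iff.mp h2
    · apply hKtop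
      rw [eq_top_iff]
      intro m _
      have h1 : (m : G) ∈ (Cfsg.pCore p₀ ↥M₀ ⊔ A).map M₀.subtype := by rw [h]; trivial
      obtain ⟨m', hm', hmm⟩ := h1
      have h2 : m' = m := Subtype.ext hmm
      rw [← h2]
      exact hm'
  haveI : Group.IsSolvable ↥M₀ := hG.2.2.2 M₀ hM₀top
  have hCNM := cn_sub hCN M₀
  haveI : Nontrivial ↥M₀ := by
    obtain ⟨h', hh', hh'1⟩ := exists_ne_one_of_ne_bot _ hts₀.1
    exact ⟨⟨h', 1, hh'1⟩⟩
  obtain ⟨p, hp, hts, huniq⟩ := cn_three_step hCNM hns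
  haveI : Fact p.Prime := ⟨hp⟩
  have hcore : Cfsg.pCore p ↥M₀ ≠ ⊥ := hts.1
  have hCC := cc_of_bad hCN M₀ hns hcore
  obtain ⟨H₀, hH₀def⟩ : ∃ H₀ : Subgroup G, H₀ = (Cfsg.pCore p ↥M₀).map M₀.subtype := ⟨_, rfl⟩
  have hH₀p : IsPGroup p H₀ := by rw [hH₀def]; exact (Lead.pCore_isPGroup' p).map _
  have hH₀1 : H₀ ≠ ⊥ := by
    rw [hH₀def]
    intro h
    exact hcore ((Subgroup.map_eq_bot_iff_of_injective _ M₀.subtype_injective).mp h)
  have hM₀N : M₀ ≤ Subgroup.normalizer (H₀ : Set G) := by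
    intro n hn
    apply mem_normalizer_of_conj_mem
    intro h hh
    rw [hH₀def] at hh ⊢
    obtain ⟨h', hh', rfl⟩ := hh
    exact ⟨⟨n, hn⟩ * h' * ⟨n, hn⟩⁻¹, (Lead.pCore_normal p ↥M₀).conj_mem h' hh' ⟨n, hn⟩, rfl⟩
  obtain ⟨S₀⟩ : Nonempty (Sylow p ↥M₀) := inferInstance
  have hcoreS : Cfsg.pCore p ↥M₀ ≤ (S₀ : Subgroup ↥M₀) := Lead.pCore_le_sylow' S₀
  have hS₀N : (S₀ : Subgroup ↥M₀).map M₀.subtype ≤ Subgroup.normalizer (H₀ : Set G) :=
    le_trans (Subgroup.map_subtype_le _) hM₀N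
  obtain ⟨T, hT, hS₀T⟩ := exists_isMaxP_ge (Subgroup.normalizer (H₀ : Set G)) _ hS₀N
    (S₀.isPGroup'.map _)
  obtain ⟨P, hTP, hNP⟩ := plocal_le_sylow_jsub hG hCN hCC _ H₀ T _ hH₀p hH₀1 rfl hT rfl
  obtain ⟨M, hMdef⟩ : ∃ M : Subgroup G,
      M = Subgroup.normalizer (Jsub (P : Subgroup G) : Set G) := ⟨_, rfl⟩
  have hM₀M : M₀ ≤ M := by rw [hMdef]; exact le_trans hM₀N hNP
  have hP1 : (P : Subgroup G) ≠ ⊥ := by
    intro h
    obtain ⟨h', hh', hh'1⟩ := exists_ne_one_of_ne_bot _ hcore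
    have h1 : (h' : G) ∈ (P : Subgroup G) := hTP (hS₀T ⟨h', hcoreS hh', rfl⟩)
    rw [h, Subgroup.mem_bot] at h1
    exact hh'1 (Subtype.ext h1)
  have hJ1 := jsub_ne_bot (P : Subgroup G) hP1
  have hJp : IsPGroup p (Jsub (P : Subgroup G)) := P.isPGroup'.to_le (jsub_le _)
  have hPM : (P : Subgroup G) ≤ M := by
    rw [hMdef]; exact le_trans Subgroup.le_normalizer (normalizer_le_jsub _)
  rcases plocal_cases hG hCN hCC (Jsub (P : Subgroup G)) hJp hJ1 M hMdef with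
    ⟨R, hRn⟩ | ⟨htsM, huniqM⟩
  · have hRP : R = P.subtype hPM := by
      obtain ⟨g, hg⟩ := MulAction.exists_smul_eq ↥M R (P.subtype hPM)
      rw [← hg]
      haveI := hRn
      exact Sylow.smul_eq_of_normal.symm
    rw [hRP] at hRn
    have hDn : ((P : Subgroup G).subgroupOf M₀).Normal := by
      constructor
      intro d hd g
      rw [Subgroup.mem_subgroupOf] at hd ⊢
      have hgM : (g : G) ∈ M := hM₀M g.2
      have h1 : (⟨(d : G), hPM hd⟩ : ↥M) ∈ ((P.subtype hPM : Sylow p ↥M) : Subgroup ↥M) := by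
        rw [Sylow.coe_subtype]; exact Subgroup.mem_subgroupOf.mpr hd
      have h2 := hRn.conj_mem _ h1 ⟨(g : G), hgM⟩
      rw [Sylow.coe_subtype, Subgroup.mem_subgroupOf] at h2
      simpa using h2
    have hDp : IsPGroup p ((P : Subgroup G).subgroupOf M₀) := P.isPGroup'.comap_subtype
    have hS₀D : (S₀ : Subgroup ↥M₀) ≤ (P : Subgroup G).subgroupOf M₀ := by
      intro s hs
      rw [Subgroup.mem_subgroupOf]
      exact hTP (hS₀T ⟨s, hs, rfl⟩)
    have hDS : (P : Subgroup G).subgroupOf M₀ = (S₀ : Subgroup ↥M₀) := S₀.is_maximal' hDp hS₀D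
    rw [hDS] at hDn
    have hbot := hns p S₀ hDn
    rw [hbot] at hcoreS
    exact hcore (le_bot_iff.mp hcoreS)
  · have hF := sylow_le_commutator_map hG hCN hCC P M hMdef
    have hle : ((P.subtype hPM : Sylow p ↥M) : Subgroup ↥M) ≤ Cfsg.pCore p ↥M := by
      intro x hx
      rw [Sylow.coe_subtype, Subgroup.mem_subgroupOf] at hx
      obtain ⟨c, hc, hcx⟩ := hF hx
      have hcx' : c = x := Subtype.ext hcx
      rw [hcx'] at hc
      obtain ⟨i, hi⟩ := orderOf_mem_sylow P hx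
      exact ts_comm_pelt htsM x hc (i := i) (by rw [← Subgroup.orderOf_coe]; exact hi)
    have heq : ((P.subtype hPM : Sylow p ↥M) : Subgroup ↥M) = Cfsg.pCore p ↥M :=
      le_antisymm hle (Lead.pCore_le_sylow' _)
    have hn : ((P.subtype hPM : Sylow p ↥M) : Subgroup ↥M).Normal := by
      rw [heq]; exact Lead.pCore_normal p ↥M
    have hbot := three_step_no_normal_sylow htsM p (P.subtype hPM) hn
    rw [heq] at hbot
    exact htsM.1 hbot

end Cfsg.Agent.S1478
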