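import Cfsg.Statements.S1503
import Mathlib
import Cfsg.Agent.Lib.Helper6.LinChar3
import Cfsg.Agent.Lib.Lead.Char15

set_option autoImplicit false
open Cfsg
open Cfsg.Agent.Lib.Helper6 Cfsg.Agent.Lib

namespace Cfsg.Agent.S1503


/-- Let W₁, W₂ ≤ G with W = W₁ ⊔ W₂ and let χ an orthonormal family of irreducible characters of G up to sign, indexed by the linear characters ω of W, with χ_1 = 1, χ_ω = ω on W outside W₁ ∪ W₂, and the induction identity for (1 − φ)(1 − ψ). If θ is an irreducible character of G orthogonal to χ ω for every linear character ω of W, then θ vanishes at every element of W lying outside W₁ ∪ W₂. -/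
theorem result {G : Type*} [Group G] [Fintype G] (W₁ W₂ : Subgroup G) (hW : Cfsg.IsSelfNormalizingCyclic W₁ W₂) (χ : (↥(W₁ ⊔ W₂) →* ℂˣ) → (G → ℂ)) (hχ : Cfsg.IsCyclicTIFamily W₁ W₂ χ) (θ : G → ℂ) (hθ : Cfsg.IsIrrCharacter G θ) (horth : ∀ ω, Cfsg.classInner θ (χ ω) = 0) (w : ↥(W₁ ⊔ W₂)) (hw₁ : (w : G) ∉ W₁) (hw₂ : (w : G) ∉ W₂) : θ w = 0 := by
  classical
  haveI hcyc : IsCyclic ↥(W₁ ⊔ W₂) := hW.2.2.2.2.1
  have hcomm : ∀ a b : ↥(W₁ ⊔ W₂), a * b = b * a := by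
    intro a b
    letI := IsCyclic.commGroup (α := ↥(W₁ ⊔ W₂))
    exact mul_comm a b
  have hθcf : Cfsg.IsClassFunction G θ := Lead.isClassFunction_of_irr ⟨θ, hθ⟩
  have hdisj' : W₁.subgroupOf (W₁ ⊔ W₂) ⊓ W₂.subgroupOf (W₁ ⊔ W₂) = ⊥ := by
    rw [eq_bot_iff]
    rintro y ⟨h1, h2⟩
    rw [Subgroup.mem_bot]
    apply Subtype.ext
    have h3 : (y : G) ∈ W₁ ⊓ W₂ := ⟨h1, h2⟩
    rw [hW.2.2.1, Subgroup.mem_bot] at h3
    exact h3
  have step1 : ∀ φ ψ : ↥(W₁ ⊔ W₂) →* ℂˣ, (∀ y ∈ W₂.subgroupOf (W₁ ⊔ W₂), φ y = 1) →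
      (∀ y ∈ W₁.subgroupOf (W₁ ⊔ W₂), ψ y = 1) →
      ∑ v : ↥(W₁ ⊔ W₂), alphaFn φ ψ v * (starRingEnd ℂ) (θ (v : G)) = 0 := by
    intro φ ψ hφ hψ
    by_cases hφ1 : φ = 1
    · apply Finset.sum_eq_zero
      intro v _
      rw [hφ1]; unfold alphaFn; simp
    by_cases hψ1 : ψ = 1
    · apply Finset.sum_eq_zero
      intro v _
      rw [hψ1]; unfold alphaFn; simp
    have hind := hχ.induced_eq φ ψ hφ1 hψ1 (fun w hw => hφ w hw) (fun w hw => hψ w hw)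
    have h2 : Cfsg.classInner θ (fun g => 1 - χ φ g - χ ψ g + χ (φ * ψ) g)
        = Cfsg.classInner θ (χ 1) - Cfsg.classInner θ (χ φ) - Cfsg.classInner θ (χ ψ)
          + Cfsg.classInner θ (χ (φ * ψ)) := by
      rw [hχ.map_one]
      unfold Cfsg.classInner
      simp only [map_sub, map_add, map_one, mul_sub, mul_add, Finset.sum_sub_distrib,
        Finset.sum_add_distrib]
    simp only [horth] at h2
    have h3 : Cfsg.classInner (Cfsg.indFun (W₁ ⊔ W₂) (alphaFn φ ψ)) θ = 0 := by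
      rw [← Lead.classInner_conj_symm]
      show (starRingEnd ℂ) (Cfsg.classInner θ (Cfsg.indFun (W₁ ⊔ W₂)
        (fun w => 1 - (φ w : ℂ) - (ψ w : ℂ) + (φ w : ℂ) * (ψ w : ℂ)))) = 0
      rw [hind, h2]; simp
    rw [Lead.frobenius_reciprocity _ _ _ hθcf] at h3
    unfold Cfsg.classInner at h3
    rcases mul_eq_zero.mp h3 with h | h
    · exfalso
      exact (inv_ne_zero (Nat.cast_ne_zero.mpr Nat.card_pos.ne')) h
    · exact h
  have hfin := delta_lemma hcomm (W₁.subgroupOf (W₁ ⊔ W₂)) (W₂.subgroupOf (W₁ ⊔ W₂)) hdisj'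
    (fun v => (starRingEnd ℂ) (θ (v : G))) step1 w hw₁ hw₂
  exact (map_eq_zero (starRingEnd ℂ)).mp hfin

end Cfsg.Agent.S1503
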