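import Cfsg.Statements.S1498
import Mathlib

set_option autoImplicit false
open Cfsg

namespace Cfsg.Agent.S1498

open Pointwise in
theorem mem_sup_of_le_normalizer {G : Type*} [Group G] {N K : Subgroup G}
    (hLE : K ≤ Subgroup.normalizer (N : Set G)) {x : G} :
    x ∈ N ⊔ K ↔ ∃ n ∈ N, ∃ k ∈ K, n * k = x := by
  rw [← SetLike.mem_coe, Subgroup.coe_mul_of_right_le_normalizer_left N K hLE]
  exact Set.mem_mul

theorem pow_card_subgroup_eq_one {G : Type*} [Group G] {K : Subgroup G} {x : G} (hx : x ∈ K) :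
    x ^ Nat.card K = 1 := by
  have := pow_card_eq_one' (G := K) (x := ⟨x, hx⟩)
  exact congrArg Subtype.val this

theorem mul_pow_mem {G : Type*} [Group G] {N : Subgroup G} {n l : G} (hn : n ∈ N)
    (hl : l ∈ Subgroup.normalizer (N : Set G)) (m : ℕ) : (n * l) ^ m * (l ^ m)⁻¹ ∈ N := by
  induction m with
  | zero => simp
  | succ m ih =>
    have hlm : l ^ m ∈ Subgroup.normalizer (N : Set G) := Subgroup.pow_mem _ hl m
    have h1 : l ^ m * n * (l ^ m)⁻¹ ∈ N := (Subgroup.mem_normalizer_iff.1 hlm n).1 hn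
    have e : (n * l) ^ (m + 1) * (l ^ (m + 1))⁻¹ = ((n * l) ^ m * (l ^ m)⁻¹) * (l ^ m * n * (l ^ m)⁻¹) := by
      rw [pow_succ, pow_succ]; group
    rw [e]
    exact N.mul_mem ih h1

theorem le_aux {G : Type*} [Group G] [Finite G] (A : Set G) (L : Subgroup G) (H : G → Subgroup G) (hD : Cfsg.DadeHypothesis A L H) (a : G) (ha : a ∈ A) (x : G) (hx : x ∈ L) : (H a).map (MulAut.conj x).toMonoidHom ≤ H (x * a * x⁻¹) := by
  rintro _ ⟨v, hv, rfl⟩
  simp only [MulEquiv.coe_toMonoidHom, MulAut.conj_apply]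
  set a' := x * a * x⁻¹ with ha'
  have ha'A : a' ∈ A := hD.conj_mem x hx a ha
  -- u ∈ C(a')
  have hvC : v ∈ Subgroup.centralizer ({a} : Set G) := hD.le_centralizer a ha hv
  have hva : a * v = v * a := by
    rw [Subgroup.mem_centralizer_iff] at hvC
    exact hvC a (Set.mem_singleton a)
  have huC : x * v * x⁻¹ ∈ Subgroup.centralizer ({a'} : Set G) := by
    rw [Subgroup.mem_centralizer_iff]
    intro b hb
    rw [Set.mem_singleton_iff] at hb
    subst hb
    calc x * a * x⁻¹ * (x * v * x⁻¹) = x * (a * v) * x⁻¹ := by group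
      _ = x * (v * a) * x⁻¹ := by rw [hva]
      _ = x * v * x⁻¹ * (x * a * x⁻¹) := by group
  have hnorm : L ⊓ Subgroup.centralizer ({a'} : Set G) ≤ Subgroup.normalizer ((H a' : Subgroup G) : Set G) := by
    intro c hc
    rw [Subgroup.mem_normalizer_iff]
    intro u
    constructor
    · intro hu
      exact hD.conj_mem_H a' ha'A c hc.2 u hu
    · intro hu
      have := hD.conj_mem_H a' ha'A c⁻¹ (Subgroup.inv_mem _ hc.2) _ hu
      have e : c⁻¹ * (c * u * c⁻¹) * c⁻¹⁻¹ = u := by group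
      rw [e] at this
      exact this
  rw [← hD.sup_eq a' ha'A, mem_sup_of_le_normalizer hnorm] at huC
  obtain ⟨n, hn, l, hl, hnl⟩ := huC
  -- u ^ m = 1 where m = |H a|
  have hum : (x * v * x⁻¹) ^ Nat.card (H a) = 1 := by
    rw [conj_pow, pow_card_subgroup_eq_one hv]; group
  have h1 := mul_pow_mem hn (hnorm hl) (Nat.card (H a))
  rw [hnl, hum, one_mul] at h1
  have h2 : l ^ Nat.card (H a) ∈ H a' := by
    have := (H a').inv_mem h1
    simpa using this
  have h3 : l ^ Nat.card (H a) ∈ H a' ⊓ (L ⊓ Subgroup.centralizer ({a'} : Set G)) :=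
    ⟨h2, Subgroup.pow_mem _ hl _⟩
  rw [hD.inf_eq_bot a' ha'A, Subgroup.mem_bot] at h3
  have h4 : l ^ Nat.card ↥(L ⊓ Subgroup.centralizer ({a'} : Set G)) = 1 := pow_card_subgroup_eq_one hl
  have hcop := hD.coprime a ha a' ha'A
  have hl1 : l = 1 := by
    have d1 := orderOf_dvd_of_pow_eq_one h3
    have d2 := orderOf_dvd_of_pow_eq_one h4
    have := Nat.dvd_gcd d1 d2
    rw [Nat.Coprime] at hcop
    rw [hcop, Nat.dvd_one] at this
    exact orderOf_eq_one_iff.1 this
  rw [hl1, mul_one] at hnl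
  rw [← hnl]
  exact hn

/-- Under the Dade hypothesis for (A, L, H): for a ∈ A and x ∈ L, the subgroup attached to x * a * x⁻¹ is the conjugate of H a by x. -/
theorem result {G : Type*} [Group G] [Finite G] (A : Set G) (L : Subgroup G) (H : G → Subgroup G) (hD : Cfsg.DadeHypothesis A L H) (a : G) (ha : a ∈ A) (x : G) (hx : x ∈ L) : H (x * a * x⁻¹) = (H a).map (MulAut.conj x).toMonoidHom := by
  apply le_antisymm
  · have ha'A : x * a * x⁻¹ ∈ A := hD.conj_mem x hx a ha
    have := le_aux A L H hD (x * a * x⁻¹) ha'A x⁻¹ (L.inv_mem hx)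
    have e : x⁻¹ * (x * a * x⁻¹) * x⁻¹⁻¹ = a := by group
    rw [e] at this
    intro u hu
    have hu' : x⁻¹ * u * x ∈ H a := by
      apply this
      refine ⟨u, hu, ?_⟩
      simp [MulAut.conj_apply]
    refine ⟨x⁻¹ * u * x, hu', ?_⟩
    simp only [MulEquiv.coe_toMonoidHom, MulAut.conj_apply]
    group
  · exact le_aux A L H hD a ha x hx

end Cfsg.Agent.S1498
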