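import Mathlib
import Cfsg.Statements.S0856
import Cfsg.Agent.Lib.Helper7.Clifford
import Cfsg.Agent.Lib.Lead.Char9
import Cfsg.Agent.Lib.Lead.Char13
import Cfsg.Agent.Lib.Lead.Char15
import Cfsg.Agent.Lib.Lead.Char6
import Cfsg.Agent.Lib.Lead.Taketa
import Cfsg.Agent.Lib.Helper6.CliffCorr

set_option autoImplicit false
open Cfsg

namespace Cfsg.Agent.S0856



open Cfsg.Agent.Lib Cfsg.Agent.Lib.Lead

/-- projection formula: `(φ · χ_N)^G = φ^G · χ` -/
theorem indFun_mul_res {G : Type*} [Group G] [Fintype G] (N : Subgroup G) (φ : N → ℂ) (χ : G → ℂ)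
    (hχ : Cfsg.IsClassFunction G χ) :
    Cfsg.indFun N (φ * fun n : N => χ n) = Cfsg.indFun N φ * χ := by
  funext g
  rw [Pi.mul_apply, indFun_apply, indFun_apply, mul_assoc, Finset.sum_mul]
  congr 1
  apply Finset.sum_congr rfl
  intro x _
  have hx : χ (x⁻¹ * g * x) = χ g := by
    have := hχ g x⁻¹
    rwa [inv_inv] at this
  by_cases hy : x⁻¹ * g * x ∈ N
  · rw [extendByZero_mem' _ _ hy, extendByZero_mem' _ _ hy, Pi.mul_apply]
    show φ ⟨_, hy⟩ * χ (x⁻¹ * g * x) = _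
    rw [hx]
  · rw [extendByZero_not_mem _ _ hy, extendByZero_not_mem _ _ hy, zero_mul]

/-- Let N be a normal subgroup of the finite group G and φ, ϑ irreducible characters of N that are invariant under conjugation by G, such that the pointwise product φ * ϑ is irreducible and ϑ is the restriction of an irreducible character χ of G. Then multiplication by χ is a bijection from the set of irreducible characters of G having nonzero inner product with the function induced from φ onto the set of those having nonzero inner product with the function induced from φ * ϑ. -/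
theorem result {G : Type*} [Group G] [Fintype G] (N : Subgroup G) [hN : N.Normal] (φ ϑ : N → ℂ) (hφ : Cfsg.IsIrrCharacter N φ) (hϑ : Cfsg.IsIrrCharacter N ϑ) (hφinv : ∀ (g : G) (n : N), φ ⟨g * n * g⁻¹, hN.conj_mem (n : G) n.2 g⟩ = φ n) (hϑinv : ∀ (g : G) (n : N), ϑ ⟨g * n * g⁻¹, hN.conj_mem (n : G) n.2 g⟩ = ϑ n) (hprod : Cfsg.IsIrrCharacter N (φ * ϑ)) (χ : G → ℂ) (hχ : Cfsg.IsIrrCharacter G χ) (hext : ∀ n : N, χ n = ϑ n) : Set.BijOn (fun β : G → ℂ => β * χ) {β : G → ℂ | Cfsg.IsIrrCharacter G β ∧ Cfsg.classInner (Cfsg.indFun N φ) β ≠ 0} {ψ : G → ℂ | Cfsg.IsIrrCharacter G ψ ∧ Cfsg.classInner (Cfsg.indFun N (φ * ϑ)) ψ ≠ 0} := by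
  classical
  haveI : Fintype (Cfsg.IrrCharacter G) := Fintype.ofFinite _
  haveI : Fintype N := Fintype.ofFinite N
  let χ' : Cfsg.IrrCharacter G := ⟨χ, hχ⟩
  have hχc : Cfsg.IsClassFunction G χ := isClassFunction_of_irr χ'
  have hχchar : Cfsg.IsCharacter G χ := isCharacter_of_irr hχ
  obtain ⟨Φ, hΦdef⟩ : ∃ Φ : G → ℂ, Φ = Cfsg.indFun N φ := ⟨_, rfl⟩
  obtain ⟨Ψ, hΨdef⟩ : ∃ Ψ : G → ℂ, Ψ = Cfsg.indFun N (φ * ϑ) := ⟨_, rfl⟩
  rw [← hΦdef, ← hΨdef]
  have hΨΦ : Ψ = Φ * χ := by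
    rw [hΨdef, hΦdef, ← indFun_mul_res N φ χ hχc]
    congr 1
    funext n
    show φ n * ϑ n = φ n * χ n
    rw [hext n]
  have hΦchar : Cfsg.IsCharacter G Φ := by
    rw [hΦdef]; exact isCharacter_indFun N φ (isCharacter_of_irr hφ)
  obtain ⟨m, hm⟩ := isCharacter_decomp hΦchar
  have hmβ : ∀ β : Cfsg.IrrCharacter G, Cfsg.classInner Φ β.1 = (m β : ℂ) := by
    intro β; rw [hm]; exact classInner_nat_comb (fun χ => (m χ : ℂ)) β
  have hΨsum : Ψ = ∑ β : Cfsg.IrrCharacter G, (m β : ℂ) • (β.1 * χ) := by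
    rw [hΨΦ]
    conv_lhs => rw [hm]
    rw [Finset.sum_mul]
    apply Finset.sum_congr rfl
    intro β _
    rw [smul_mul_assoc]
  have hNne : (Nat.card N : ℂ) ≠ 0 := by exact_mod_cast Nat.card_pos.ne'
  have hnΦ : (Nat.card N : ℂ) * Cfsg.classInner Φ Φ = (Nat.card G : ℂ) := by
    rw [hΦdef, card_mul_inner_ind_normal N φ hφ]
    congr 1
    exact Nat.card_congr (Equiv.subtypeUnivEquiv (fun g => hφinv g))
  have hnΨ : (Nat.card N : ℂ) * Cfsg.classInner Ψ Ψ = (Nat.card G : ℂ) := by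
    rw [hΨdef, card_mul_inner_ind_normal N (φ * ϑ) hprod]
    congr 1
    refine Nat.card_congr (Equiv.subtypeUnivEquiv (fun g => ?_))
    intro n
    show φ _ * ϑ _ = φ n * ϑ n
    rw [hφinv g n, hϑinv g n]
  have hnorm_eq : Cfsg.classInner Ψ Ψ = Cfsg.classInner Φ Φ :=
    mul_left_cancel₀ hNne (hnΨ.trans hnΦ.symm)
  have hprodchar : ∀ β : Cfsg.IrrCharacter G, Cfsg.IsCharacter G (β.1 * χ) := fun β =>
    isCharacter_mul (isCharacter_of_irr β.2) hχchar
  have hnat : ∀ β β' : Cfsg.IrrCharacter G, ∃ n : ℕ,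
      Cfsg.classInner (β.1 * χ) (β'.1 * χ) = (n : ℂ) := fun β β' =>
    classInner_char_nat (hprodchar β) (hprodchar β')
  choose n hn using hnat
  have hn1 : ∀ β, 1 ≤ n β β := by
    intro β
    by_contra hlt
    have h0 : n β β = 0 := by omega
    have h1 := hn β β
    rw [h0, Nat.cast_zero] at h1
    have h2 := Helper6.eq_zero_of_classInner_self _ h1
    have h3 := congrFun h2 1
    rw [Pi.mul_apply] at h3
    exact mul_ne_zero (irr_deg_ne_zero β) (irr_deg_ne_zero χ') h3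
  have hΦΦ : Cfsg.classInner Φ Φ = ((∑ β : Cfsg.IrrCharacter G, m β ^ 2 : ℕ) : ℂ) := by
    conv_lhs => rw [hm]
    rw [classInner_sum_right]
    push_cast
    apply Finset.sum_congr rfl
    intro ψ _
    rw [classInner_smul_right, classInner_nat_comb (fun χ => (m χ : ℂ)) ψ,
      Complex.conj_natCast]; ring
  have hΨΨ : Cfsg.classInner Ψ Ψ
      = ((∑ β : Cfsg.IrrCharacter G, ∑ β' : Cfsg.IrrCharacter G, m β * m β' * n β β' : ℕ) : ℂ) := by
    conv_lhs => rw [hΨsum]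
    rw [classInner_sum_left]
    push_cast
    apply Finset.sum_congr rfl
    intro β _
    rw [classInner_smul_left, classInner_sum_right, Finset.mul_sum]
    apply Finset.sum_congr rfl
    intro β' _
    rw [classInner_smul_right, Complex.conj_natCast, hn]; ring
  have hkey : ∑ β : Cfsg.IrrCharacter G, ∑ β' : Cfsg.IrrCharacter G, m β * m β' * n β β'
      = ∑ β : Cfsg.IrrCharacter G, m β ^ 2 := by
    have := hΨΨ.symm.trans (hnorm_eq.trans hΦΦ)
    exact_mod_cast this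
  obtain ⟨hd1, hd2⟩ := Helper6.nat_diag_lemma m n hn1 hkey
  have hirr : ∀ β : Cfsg.IrrCharacter G, m β ≠ 0 → Cfsg.IsIrrCharacter G (β.1 * χ) := by
    intro β hβ
    apply isIrrCharacter_of_norm_one (hprodchar β)
    rw [hn, hd1 β hβ, Nat.cast_one]
  have hΨinner : ∀ ψ : G → ℂ, Cfsg.classInner Ψ ψ
      = ∑ β : Cfsg.IrrCharacter G, (m β : ℂ) * Cfsg.classInner (β.1 * χ) ψ := by
    intro ψ
    conv_lhs => rw [hΨsum]
    rw [classInner_sum_left]
    apply Finset.sum_congr rfl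
    intro β _
    rw [classInner_smul_left]
  refine ⟨?_, ?_, ?_⟩
  · -- maps to
    rintro β ⟨hβirr, hβne⟩
    have hmne : m ⟨β, hβirr⟩ ≠ 0 := by
      intro h0
      apply hβne
      have := hmβ ⟨β, hβirr⟩
      rw [h0, Nat.cast_zero] at this
      exact this
    refine ⟨hirr ⟨β, hβirr⟩ hmne, ?_⟩
    show Cfsg.classInner Ψ (β * χ) ≠ 0
    rw [hΨinner, Finset.sum_eq_single (⟨β, hβirr⟩ : Cfsg.IrrCharacter G)]
    · have h1 := hn ⟨β, hβirr⟩ ⟨β, hβirr⟩
      rw [hd1 _ hmne, Nat.cast_one] at h1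
      rw [show Cfsg.classInner ((⟨β, hβirr⟩ : Cfsg.IrrCharacter G).1 * χ) (β * χ) = 1 from h1, mul_one]
      exact_mod_cast hmne
    · intro β2 _ hne2
      by_cases hm2 : m β2 = 0
      · rw [hm2]; simp
      · have h1 := hn β2 ⟨β, hβirr⟩
        rw [hd2 β2 ⟨β, hβirr⟩ hm2 hmne hne2, Nat.cast_zero] at h1
        rw [show Cfsg.classInner (β2.1 * χ) (β * χ) = 0 from h1, mul_zero]
    · intro h; exact absurd (Finset.mem_univ _) h
  · -- injective
    rintro β1 ⟨hβ1irr, hβ1ne⟩ β2 ⟨hβ2irr, hβ2ne⟩ heq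
    have heq' : β1 * χ = β2 * χ := heq
    have hm1 : m ⟨β1, hβ1irr⟩ ≠ 0 := by
      intro h0
      apply hβ1ne
      have := hmβ ⟨β1, hβ1irr⟩
      rw [h0, Nat.cast_zero] at this
      exact this
    have hm2 : m ⟨β2, hβ2irr⟩ ≠ 0 := by
      intro h0
      apply hβ2ne
      have := hmβ ⟨β2, hβ2irr⟩
      rw [h0, Nat.cast_zero] at this
      exact this
    by_contra hne
    have hne' : (⟨β1, hβ1irr⟩ : Cfsg.IrrCharacter G) ≠ ⟨β2, hβ2irr⟩ := by
      intro h; exact hne (congrArg Subtype.val h)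
    have h1 := hn ⟨β1, hβ1irr⟩ ⟨β2, hβ2irr⟩
    rw [hd2 _ _ hm1 hm2 hne', Nat.cast_zero] at h1
    have h2 := hn ⟨β1, hβ1irr⟩ ⟨β1, hβ1irr⟩
    rw [hd1 _ hm1, Nat.cast_one] at h2
    have h3 : Cfsg.classInner (β1 * χ) (β2 * χ) = 0 := h1
    have h4 : Cfsg.classInner (β1 * χ) (β1 * χ) = 1 := h2
    rw [← heq', h4] at h3
    exact one_ne_zero h3
  · -- surjective
    rintro ψ ⟨hψirr, hψne⟩
    rw [hΨinner] at hψne
    obtain ⟨β, -, hβne⟩ := Finset.exists_ne_zero_of_sum_ne_zero hψne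
    have hmne : m β ≠ 0 := by
      intro h; apply hβne; rw [h]; simp
    have hin : Cfsg.classInner (β.1 * χ) ψ ≠ 0 := by
      intro h; apply hβne; rw [h, mul_zero]
    refine ⟨β.1, ⟨β.2, ?_⟩, ?_⟩
    · rw [hmβ β]; exact_mod_cast hmne
    · show β.1 * χ = ψ
      by_contra hne2
      have h6 : (⟨β.1 * χ, hirr β hmne⟩ : Cfsg.IrrCharacter G) ≠ ⟨ψ, hψirr⟩ := by
        intro h; exact hne2 (congrArg Subtype.val h)
      have h5 := irr_inner_ne (χ := (⟨β.1 * χ, hirr β hmne⟩ : Cfsg.IrrCharacter G))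
        (ψ := ⟨ψ, hψirr⟩) h6
      exact hin h5

end Cfsg.Agent.S0856
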