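import Mathlib
import Cfsg.Statements.S0868
import Cfsg.Agent.Lib.Helper7.Clifford
import Cfsg.Agent.Lib.Lead.Char8
import Cfsg.Agent.Lib.Lead.Char9
import Cfsg.Agent.Lib.Lead.Char13
import Cfsg.Agent.Lib.Lead.Char15
import Cfsg.Agent.S0856

set_option autoImplicit false
open Cfsg

namespace Cfsg.Agent.S0868

open scoped ComplexConjugate

open Cfsg.Agent.Lib Cfsg.Agent.Lib.Lead

/-- Schur: an endomorphism commuting with an irreducible representation is a scalar -/
theorem schur_scalar {G : Type*} [Group G] {V : Type*} [AddCommGroup V] [Module ℂ V]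
    [FiniteDimensional ℂ V] (ρ : Representation ℂ G V) [hirr : ρ.IsIrreducible]
    (P : Module.End ℂ V) (hP : ∀ (g : G) (v : V), P (ρ g v) = ρ g (P v)) :
    ∃ c : ℂ, P = c • (1 : Module.End ℂ V) := by
  obtain ⟨c, hc⟩ :=
    (Representation.IsIrreducible.algebraMap_intertwiningMap_bijective_of_isAlgClosed (ρ := ρ)).2
      (LinearMap.intertwiningMap_of_isIntertwiningMap ρ ρ P hP)
  refine ⟨c, ?_⟩
  have := congrArg Representation.IntertwiningMap.toLinearMap hc
  rw [Representation.IntertwiningMap.algebraMap_apply] at this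
  exact this.symm

/-- coset sums of an irreducible character over a normal subgroup: either the subgroup is in the
kernel, or all coset sums vanish -/
theorem coset_avg_irr {G : Type*} [Group G] (N : Subgroup G) [hN : N.Normal] [Fintype N]
    (τ : Cfsg.IrrCharacter G) :
    (∀ (n : N) (g : G), τ.1 ((n : G) * g) = τ.1 g) ∨ (∀ g : G, ∑ n : N, τ.1 ((n : G) * g) = 0) := by
  obtain ⟨d, ρ, hρ, hρτ⟩ := τ.2
  haveI := hρ
  obtain ⟨P, hPdef⟩ : ∃ P : Module.End ℂ (Fin d → ℂ), P = ∑ n : N, ρ (n : G) := ⟨_, rfl⟩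
  have hPcomm : ∀ (g : G) (v : Fin d → ℂ), P (ρ g v) = ρ g (P v) := by
    intro g v
    have h1 : P * ρ g = ρ g * P := by
      rw [hPdef, Finset.sum_mul, Finset.mul_sum]
      apply Fintype.sum_equiv (MulAut.conjNormal g⁻¹ : MulAut N).toEquiv
      intro n
      rw [← map_mul, ← map_mul]
      congr 1
      show (n : G) * g = g * ((MulAut.conjNormal g⁻¹ n : N) : G)
      rw [MulAut.conjNormal_apply]
      group
    exact congrArg (fun f : Module.End ℂ (Fin d → ℂ) => f v) h1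
  obtain ⟨c, hc⟩ := schur_scalar ρ P hPcomm
  have hPn : ∀ n : N, ρ (n : G) * P = P := by
    intro n
    rw [hPdef, Finset.mul_sum]
    apply Fintype.sum_equiv (Equiv.mulLeft n)
    intro m
    rw [← map_mul]; rfl
  by_cases hc0 : c = 0
  · right
    intro g
    rw [← hρτ]
    have h1 : ∑ n : N, ρ.character ((n : G) * g) = LinearMap.trace ℂ _ (P * ρ g) := by
      rw [hPdef, Finset.sum_mul, map_sum]
      apply Finset.sum_congr rfl
      intro n _
      unfold Representation.character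
      rw [map_mul]
    rw [h1, hc, hc0, zero_smul, zero_mul, map_zero]
  · left
    intro n g
    have h1 : ρ (n : G) = 1 := by
      have := hPn n
      rw [hc, mul_smul_comm, mul_one] at this
      exact smul_right_injective _ hc0 this
    rw [← hρτ]
    unfold Representation.character
    rw [map_mul, h1, one_mul]

/-- moving a coset average across the inner product -/
theorem avg_sum {G : Type*} [Group G] [Fintype G] (N : Subgroup G) [Fintype N] (F τ : G → ℂ) :
    ∑ g : G, (∑ n : N, F ((n : G) * g)) * (starRingEnd ℂ) (τ g)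
      = ∑ g : G, F g * (starRingEnd ℂ) (∑ n : N, τ (((n⁻¹ : N) : G) * g)) := by
  have h1 : ∀ g : G, (∑ n : N, F ((n : G) * g)) * (starRingEnd ℂ) (τ g)
      = ∑ n : N, F ((n : G) * g) * (starRingEnd ℂ) (τ g) := fun g => Finset.sum_mul _ _ _
  have h2 : ∀ g : G, F g * (starRingEnd ℂ) (∑ n : N, τ (((n⁻¹ : N) : G) * g))
      = ∑ n : N, F g * (starRingEnd ℂ) (τ (((n⁻¹ : N) : G) * g)) := by
    intro g
    rw [map_sum, Finset.mul_sum]
  rw [Finset.sum_congr rfl (fun g _ => h1 g), Finset.sum_congr rfl (fun g _ => h2 g),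
    Finset.sum_comm]
  conv_rhs => rw [Finset.sum_comm]
  apply Finset.sum_congr rfl
  intro n _
  apply Fintype.sum_equiv (Equiv.mulLeft (n : G))
  intro g
  show F ((n : G) * g) * (starRingEnd ℂ) (τ g)
    = F ((n : G) * g) * (starRingEnd ℂ) (τ (((n⁻¹ : N) : G) * ((n : G) * g)))
  rw [Subgroup.coe_inv, inv_mul_cancel_left]

/-- Let N be a normal subgroup of the finite group G, χ an irreducible character of G whose restriction ϑ to N is irreducible, and ψ an irreducible character of G. Define η on G by η g = (1 / order of N) * Σ over n in N of ψ (n * g) * conj (χ (n * g)). Then: if the restriction of ψ to N has nonzero inner product with ϑ, η is an irreducible character of G; if that inner product is zero, η vanishes identically; and if ψ = χ then η is identically 1. -/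
theorem result {G : Type*} [Group G] [Fintype G] (N : Subgroup G) [N.Normal] [Fintype N] (χ : G → ℂ) (hχ : Cfsg.IsIrrCharacter G χ) (hχN : Cfsg.IsIrrCharacter N (fun n : N => χ n)) (ψ : G → ℂ) (hψ : Cfsg.IsIrrCharacter G ψ) (η : G → ℂ) (hη : η = fun g => (Nat.card N : ℂ)⁻¹ * ∑ n : N, ψ ((n : G) * g) * conj (χ ((n : G) * g))) : (Cfsg.classInner (fun n : N => ψ n) (fun n : N => χ n) ≠ 0 → Cfsg.IsIrrCharacter G η) ∧ (Cfsg.classInner (fun n : N => ψ n) (fun n : N => χ n) = 0 → η = 0) ∧ (ψ = χ → η = fun _ => 1) := by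
  classical
  haveI : Fintype (Cfsg.IrrCharacter G) := Fintype.ofFinite _
  have hχc : Cfsg.IsClassFunction G χ := isClassFunction_of_irr ⟨χ, hχ⟩
  have hψc : Cfsg.IsClassFunction G ψ := isClassFunction_of_irr ⟨ψ, hψ⟩
  have hNne : (Nat.card N : ℂ) ≠ 0 := by exact_mod_cast Nat.card_pos.ne'
  have hGne : (Nat.card G : ℂ) ≠ 0 := by exact_mod_cast Nat.card_pos.ne'
  -- Gallagher
  have hprod : Cfsg.IsIrrCharacter N ((fun _ => 1) * (fun n : N => χ n)) := by
    have h : ((fun _ => 1) * (fun n : N => χ n) : N → ℂ) = fun n : N => χ n := by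
      funext n; simp
    rw [h]; exact hχN
  have hG := S0856.result N (fun _ => 1) (fun n : N => χ n) isIrrCharacter_one hχN
    (fun g n => rfl) (fun g n => hχc (n : G) g) hprod χ hχ (fun n => rfl)
  have hsrc : ∀ τ : Cfsg.IrrCharacter G, (∀ (n : N) (g : G), τ.1 ((n : G) * g) = τ.1 g) →
      τ.1 ∈ {β : G → ℂ | Cfsg.IsIrrCharacter G β ∧
        Cfsg.classInner (Cfsg.indFun N (fun _ => 1)) β ≠ 0} := by
    intro τ ht
    refine ⟨τ.2, ?_⟩
    rw [frobenius_reciprocity N (fun _ => 1) τ.1 (isClassFunction_of_irr τ)]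
    unfold Cfsg.classInner
    have h1 : ∀ n : N, (1 : ℂ) * (starRingEnd ℂ) (τ.1 (n : G)) = (starRingEnd ℂ) (τ.1 1) := by
      intro n
      have := ht n 1
      rw [mul_one] at this
      rw [this, one_mul]
    rw [Finset.sum_congr rfl (fun n _ => h1 n), Finset.sum_const, Finset.card_univ,
      ← Nat.card_eq_fintype_card, nsmul_eq_mul, ← mul_assoc, inv_mul_cancel₀ hNne, one_mul]
    exact (map_ne_zero _).mpr (irr_deg_ne_zero τ)
  have hirrprod : ∀ τ : Cfsg.IrrCharacter G, (∀ (n : N) (g : G), τ.1 ((n : G) * g) = τ.1 g) →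
      Cfsg.IsIrrCharacter G (τ.1 * χ) := fun τ ht => (hG.1 (hsrc τ ht)).1
  have hinj : ∀ τ1 τ2 : Cfsg.IrrCharacter G, (∀ (n : N) (g : G), τ1.1 ((n : G) * g) = τ1.1 g) →
      (∀ (n : N) (g : G), τ2.1 ((n : G) * g) = τ2.1 g) → τ1.1 * χ = τ2.1 * χ → τ1 = τ2 :=
    fun τ1 τ2 h1 h2 heq => Subtype.ext (hG.2.1 (hsrc τ1 h1) (hsrc τ2 h2) heq)
  -- the function F
  obtain ⟨F, hFdef⟩ : ∃ F : G → ℂ, F = fun g => ψ g * (starRingEnd ℂ) (χ g) := ⟨_, rfl⟩
  have hFc : Cfsg.IsClassFunction G F := by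
    intro x k
    rw [hFdef]
    show ψ (k * x * k⁻¹) * (starRingEnd ℂ) (χ (k * x * k⁻¹)) = ψ x * (starRingEnd ℂ) (χ x)
    rw [hψc x k, hχc x k]
  have hηF : η = fun g => (Nat.card N : ℂ)⁻¹ * ∑ n : N, F ((n : G) * g) := by
    rw [hη, hFdef]
  have hηc : Cfsg.IsClassFunction G η := by
    intro g h
    rw [hηF]
    show (Nat.card N : ℂ)⁻¹ * ∑ n : N, F ((n : G) * (h * g * h⁻¹))
      = (Nat.card N : ℂ)⁻¹ * ∑ n : N, F ((n : G) * g)
    congr 1
    apply Fintype.sum_equiv (MulAut.conjNormal h⁻¹ : MulAut N).toEquiv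
    intro n
    show F ((n : G) * (h * g * h⁻¹)) = F (((MulAut.conjNormal h⁻¹ n : N) : G) * g)
    rw [MulAut.conjNormal_apply, ← hFc ((n : G) * (h * g * h⁻¹)) h⁻¹]
    congr 1
    group
  have hinner : ∀ τ : G → ℂ, Cfsg.classInner η τ = (Nat.card G : ℂ)⁻¹ * ((Nat.card N : ℂ)⁻¹ *
      ∑ g : G, F g * (starRingEnd ℂ) (∑ n : N, τ (((n⁻¹ : N) : G) * g))) := by
    intro τ
    unfold Cfsg.classInner
    rw [← avg_sum N F τ, hηF]
    congr 1
    rw [Finset.mul_sum]
    apply Finset.sum_congr rfl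
    intro g _
    show (Nat.card N : ℂ)⁻¹ * (∑ n : N, F ((n : G) * g)) * (starRingEnd ℂ) (τ g) = _
    rw [mul_assoc]
  have hI2a : ∀ τ : Cfsg.IrrCharacter G, (∀ (n : N) (g : G), τ.1 ((n : G) * g) = τ.1 g) →
      Cfsg.classInner η τ.1 = Cfsg.classInner ψ (τ.1 * χ) := by
    intro τ ht
    rw [hinner]
    unfold Cfsg.classInner
    congr 1
    rw [Finset.mul_sum]
    apply Finset.sum_congr rfl
    intro g _
    have h1 : ∑ n : N, τ.1 (((n⁻¹ : N) : G) * g) = (Nat.card N : ℂ) * τ.1 g := by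
      rw [Finset.sum_congr rfl (fun n _ => ht n⁻¹ g), Finset.sum_const, Finset.card_univ,
        ← Nat.card_eq_fintype_card, nsmul_eq_mul]
    rw [h1, hFdef, map_mul, Complex.conj_natCast, Pi.mul_apply, map_mul]
    field_simp
  have hI2b : ∀ τ : Cfsg.IrrCharacter G, (∀ g : G, ∑ n : N, τ.1 ((n : G) * g) = 0) →
      Cfsg.classInner η τ.1 = 0 := by
    intro τ ht
    rw [hinner]
    have h1 : ∀ g : G, ∑ n : N, τ.1 (((n⁻¹ : N) : G) * g) = 0 := by
      intro g
      rw [← ht g]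
      exact Fintype.sum_equiv (Equiv.inv N) _ _ (fun n => rfl)
    rw [Finset.sum_congr rfl (fun g _ => by rw [h1 g, map_zero, mul_zero])]
    simp
  have hexp := class_fn_expand' η hηc
  have eta_eq : ∀ τ0 : Cfsg.IrrCharacter G, (∀ (n : N) (g : G), τ0.1 ((n : G) * g) = τ0.1 g) →
      τ0.1 * χ = ψ → η = τ0.1 := by
    intro τ0 ht0 heq0
    rw [hexp]
    rw [Finset.sum_eq_single τ0]
    · rw [hI2a τ0 ht0, heq0]
      have := irr_inner_self (⟨ψ, hψ⟩ : Cfsg.IrrCharacter G)
      rw [show Cfsg.classInner ψ ψ = 1 from this, one_smul]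
    · intro τ _ hne
      rcases coset_avg_irr N τ with ht | ht
      · rw [hI2a τ ht]
        have h6 : (⟨ψ, hψ⟩ : Cfsg.IrrCharacter G) ≠ ⟨τ.1 * χ, hirrprod τ ht⟩ := by
          intro h
          have h7 : ψ = τ.1 * χ := congrArg Subtype.val h
          exact hne (hinj τ τ0 ht ht0 (by rw [← h7, heq0]))
        have h5 := irr_inner_ne (χ := (⟨ψ, hψ⟩ : Cfsg.IrrCharacter G))
          (ψ := ⟨τ.1 * χ, hirrprod τ ht⟩) h6
        rw [show Cfsg.classInner ψ (τ.1 * χ) = 0 from h5, zero_smul]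
      · rw [hI2b τ ht, zero_smul]
    · intro h; exact absurd (Finset.mem_univ _) h
  have eta_zero : (∀ τ : Cfsg.IrrCharacter G, (∀ (n : N) (g : G), τ.1 ((n : G) * g) = τ.1 g) →
      τ.1 * χ ≠ ψ) → η = 0 := by
    intro hall
    rw [hexp]
    apply Finset.sum_eq_zero
    intro τ _
    rcases coset_avg_irr N τ with ht | ht
    · rw [hI2a τ ht]
      have h6 : (⟨ψ, hψ⟩ : Cfsg.IrrCharacter G) ≠ ⟨τ.1 * χ, hirrprod τ ht⟩ := by
        intro h
        have h7 : ψ = τ.1 * χ := congrArg Subtype.val h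
        exact hall τ ht h7.symm
      have h5 := irr_inner_ne (χ := (⟨ψ, hψ⟩ : Cfsg.IrrCharacter G))
        (ψ := ⟨τ.1 * χ, hirrprod τ ht⟩) h6
      rw [show Cfsg.classInner ψ (τ.1 * χ) = 0 from h5, zero_smul]
    · rw [hI2b τ ht, zero_smul]
  have hη1 : η 1 = Cfsg.classInner (fun n : N => ψ n) (fun n : N => χ n) := by
    rw [hη]
    unfold Cfsg.classInner
    simp only [mul_one]
  refine ⟨?_, ?_, ?_⟩
  · intro hne
    by_cases hex : ∃ τ0 : Cfsg.IrrCharacter G, (∀ (n : N) (g : G), τ0.1 ((n : G) * g) = τ0.1 g) ∧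
        τ0.1 * χ = ψ
    · obtain ⟨τ0, ht0, heq0⟩ := hex
      rw [eta_eq τ0 ht0 heq0]
      exact τ0.2
    · exfalso
      apply hne
      rw [← hη1, eta_zero (fun τ ht heq => hex ⟨τ, ht, heq⟩)]
      rfl
  · intro h0
    by_cases hex : ∃ τ0 : Cfsg.IrrCharacter G, (∀ (n : N) (g : G), τ0.1 ((n : G) * g) = τ0.1 g) ∧
        τ0.1 * χ = ψ
    · exfalso
      obtain ⟨τ0, ht0, heq0⟩ := hex
      rw [← hη1, eta_eq τ0 ht0 heq0] at h0
      exact irr_deg_ne_zero τ0 h0
    · exact eta_zero (fun τ ht heq => hex ⟨τ, ht, heq⟩)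
  · intro hψχ
    have h := eta_eq ⟨fun _ => 1, isIrrCharacter_one⟩ (fun n g => rfl) (by
      show (fun _ => (1 : ℂ)) * χ = ψ
      rw [hψχ]; funext g; simp)
    exact h

end Cfsg.Agent.S0868
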