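import Cfsg.Statements.S0862
import Mathlib
import Cfsg.Agent.Lib.Lead.DetChar
import Cfsg.Agent.Lib.Lead.LinTransfer
import Cfsg.Agent.Lib.Lead.Char8
import Cfsg.Agent.Lib.Lead.Char5
import Cfsg.Agent.S0856
-- import your own Cfsg.Agent.* helpers here

set_option autoImplicit false
open Cfsg

namespace Cfsg.Agent.S0862

/-- Let N be a normal subgroup of the finite group G and ϑ an irreducible character of N of degree d coprime to the index of N, which is the restriction of some irreducible character of G. Let μ be a character of G of degree 1 whose restriction to N is the determinantal character of ϑ. Then there is exactly one irreducible character χ of G restricting to ϑ whose determinantal character is μ. -/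
theorem result {G : Type*} [Group G] [Finite G] (N : Subgroup G) [N.Normal] (ϑ : N → ℂ) (hϑ : Cfsg.IsIrrCharacter N ϑ) (d : ℕ) (hd : ϑ 1 = d) (hcop : Nat.Coprime N.index d) (hext : ∃ η : G → ℂ, Cfsg.IsIrrCharacter G η ∧ (∀ n : N, η n = ϑ n)) (μ : G → ℂ) (hμ : Cfsg.IsCharacter G μ ∧ μ 1 = 1) (hμN : ∀ n : N, μ n = Cfsg.detChar ϑ n) : ∃! χ : G → ℂ, Cfsg.IsIrrCharacter G χ ∧ (∀ n : N, χ n = ϑ n) ∧ Cfsg.detChar χ = μ := by
  classical
  haveI : Fintype G := Fintype.ofFinite G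
  haveI : Fintype N := Fintype.ofFinite N
  obtain ⟨η, hη, hηN⟩ := hext
  have hηclass := Lib.Lead.isClassFunction_of_char (Lib.Lead.isCharacter_of_irr hη)
  have hη' := hη
  obtain ⟨k, ρ, hρirr, hρη⟩ := hη
  haveI := hρirr
  obtain ⟨mu, hmu⟩ := Lib.Lead.hom_of_isCharacter_one hμ.1 hμ.2
  subst hmu
  have hη1 : η 1 = (k : ℂ) := by rw [← hρη, Representation.char_one]; simp
  have hkd : k = d := by
    have h2 := hηN 1
    rw [hd] at h2
    have h3 : η ((1 : N) : G) = η 1 := rfl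
    rw [h3, hη1] at h2
    exact_mod_cast h2
  subst hkd
  have hk0 : (k : ℂ) ≠ 0 := by
    have hnt : Nontrivial (Fin k → ℂ) := ((Lib.Lead.irr_iff ρ).mp hρirr).1
    have h1 : 0 < Module.finrank ℂ (Fin k → ℂ) := Module.finrank_pos
    rw [Module.finrank_fin_fun] at h1
    exact_mod_cast h1.ne'
  have hdetϑ : ∀ n : N, Cfsg.detChar ϑ n = LinearMap.det (ρ (n : G)) := by
    intro n
    let ρN : Representation ℂ N (Fin k → ℂ) := ρ.comp N.subtype
    have h1 : ϑ = ρN.character := by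
      funext x
      rw [← hηN x, ← hρη]
      rfl
    rw [h1, Lib.Lead.detChar_eq]
    rfl
  let δ : G →* ℂˣ := (LinearMap.det.comp (ρ : G →* Module.End ℂ (Fin k → ℂ))).toHomUnits
  have hδ : ∀ g, ((δ g : ℂˣ) : ℂ) = LinearMap.det (ρ g) := fun g => rfl
  let ν : G →* ℂˣ := mu / δ
  have hν : ∀ g, ν g = mu g / δ g := fun g => rfl
  have hνN : ∀ n : N, ν (n : G) = 1 := by
    intro n
    rw [hν, div_eq_one]
    apply Units.ext
    rw [hδ, ← hdetϑ]
    exact hμN n
  obtain ⟨m, hm⟩ : ∃ m, m = N.index := ⟨_, rfl⟩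
  rw [← hm] at hcop
  have hmpos : 0 < m := by rw [hm]; exact Nat.pos_of_ne_zero Subgroup.index_ne_zero_of_finite
  haveI : NeZero m := ⟨hmpos.ne'⟩
  have hpowN : ∀ g : G, g ^ m ∈ N := by intro g; rw [hm]; exact N.pow_index_mem g
  have hkill : ∀ (b : G →* ℂˣ), (∀ n : N, b (n : G) = 1) → ∀ g, b g ^ m = 1 := by
    intro b hb g
    rw [← map_pow]
    exact hb ⟨g ^ m, hpowN g⟩
  obtain ⟨d', hd'⟩ : ∃ d' : ℕ, k * d' ≡ 1 [MOD m] := by
    let u : (ZMod m)ˣ := ZMod.unitOfCoprime k hcop.symm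
    refine ⟨((u⁻¹ : (ZMod m)ˣ) : ZMod m).val, ?_⟩
    rw [← ZMod.natCast_eq_natCast_iff]
    push_cast
    rw [ZMod.natCast_zmod_val]
    have h := u.mul_inv
    rw [ZMod.coe_unitOfCoprime] at h
    exact h
  let β : G →* ℂˣ := ν ^ d'
  have hβ : ∀ g, β g = ν g ^ d' := fun g => rfl
  have hβN : ∀ n : N, β (n : G) = 1 := by intro n; rw [hβ, hνN, one_pow]
  have hβd : ∀ g, β g ^ k = ν g := by
    intro g
    rw [hβ, ← pow_mul, mul_comm]
    have h1 : ν g ^ (k * d') = ν g ^ 1 := by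
      rw [pow_eq_pow_iff_modEq]
      exact hd'.of_dvd (orderOf_dvd_of_pow_eq_one (hkill ν hνN g))
    rw [h1, pow_one]
  have htw : ∀ b : G →* ℂˣ, (fun g => ((b g : ℂˣ) : ℂ) * η g) = (Lib.Lead.twistRep b ρ).character := by
    intro b
    funext g
    rw [Lib.Lead.twistRep_char, hρη]
  have hdettw : ∀ (b : G →* ℂˣ) (g : G), Cfsg.detChar (fun g => ((b g : ℂˣ) : ℂ) * η g) g
      = ((b g ^ k * δ g : ℂˣ) : ℂ) := by
    intro b g
    rw [htw, Lib.Lead.detChar_eq]
    show LinearMap.det (Lib.Lead.twistRep b ρ g) = _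
    rw [Lib.Lead.twistRep_det, ← hδ]
    push_cast
    rfl
  refine ⟨fun g => ((β g : ℂˣ) : ℂ) * η g, ⟨?_, ?_, ?_⟩, ?_⟩
  · haveI := Lib.Lead.twistRep_irr β ρ
    have h1 := Lib.Lead.isIrrCharacter_of_rep (Lib.Lead.twistRep β ρ)
    rw [← htw] at h1
    exact h1
  · intro n
    show ((β (n : G) : ℂˣ) : ℂ) * η n = ϑ n
    rw [hβN, hηN]
    simp
  · funext g
    rw [hdettw, hβd, hν, div_mul_cancel]
  · rintro χ' ⟨hχ'irr, hχ'N, hχ'det⟩
    have hϑinv : ∀ (g : G) (n : N), ϑ ⟨g * n * g⁻¹, ‹N.Normal›.conj_mem (n : G) n.2 g⟩ = ϑ n := by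
      intro g n
      rw [← hηN, ← hηN]
      exact hηclass (n : G) g
    have hone : ((fun _ => 1 : N → ℂ) * ϑ) = ϑ := by funext x; simp
    have hbij := Cfsg.Agent.S0856.result N (fun _ => (1 : ℂ)) ϑ Lib.Lead.isIrrCharacter_one hϑ
      (fun _ _ => rfl) hϑinv (by rw [hone]; exact hϑ) η hη' hηN
    have hmem : χ' ∈ {ψ : G → ℂ | Cfsg.IsIrrCharacter G ψ ∧
        Cfsg.classInner (Cfsg.indFun N ((fun _ => 1 : N → ℂ) * ϑ)) ψ ≠ 0} := by
      refine ⟨hχ'irr, ?_⟩
      rw [hone, Lib.Lead.frobenius_reciprocity N ϑ χ'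
        (Lib.Lead.isClassFunction_of_char (Lib.Lead.isCharacter_of_irr hχ'irr))]
      have h1 : (fun n : N => χ' n) = ϑ := funext hχ'N
      rw [h1]
      have h2 := Lib.Lead.irr_inner_self (⟨ϑ, hϑ⟩ : Cfsg.IrrCharacter N)
      rw [h2]
      exact one_ne_zero
    obtain ⟨β', ⟨hβ'irr, hβ'ne⟩, hβ'η⟩ := hbij.surjOn hmem
    have hβ'η' : ∀ g, β' g * η g = χ' g := fun g => congrFun hβ'η g
    have hβ'1 : β' 1 = 1 := by
      have h1 := hβ'η' 1
      have h2 : χ' 1 = (k : ℂ) := by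
        have h3 := hχ'N 1
        rw [hd] at h3
        exact h3
      rw [h2, hη1] at h1
      exact mul_right_cancel₀ hk0 (by rw [h1, one_mul])
    obtain ⟨b', hb'⟩ := Lib.Lead.hom_of_isCharacter_one (Lib.Lead.isCharacter_of_irr hβ'irr) hβ'1
    subst hb'
    have hb'N : ∀ n : N, b' (n : G) = 1 := by
      by_contra hcon
      push Not at hcon
      obtain ⟨n₀, hn₀⟩ := hcon
      apply hβ'ne
      rw [Lib.Lead.frobenius_reciprocity N _ _
        (Lib.Lead.isClassFunction_of_char (Lib.Lead.isCharacter_of_irr hβ'irr))]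
      unfold Cfsg.classInner
      have hS : ∑ n : N, ((b' (n : G) : ℂˣ) : ℂ) = 0 := by
        have h1 : ∑ n : N, ((b' (n : G) : ℂˣ) : ℂ)
            = ((b' (n₀ : G) : ℂˣ) : ℂ) * ∑ n : N, ((b' (n : G) : ℂˣ) : ℂ) := by
          rw [Finset.mul_sum]
          apply Fintype.sum_equiv (Equiv.mulLeft n₀⁻¹)
          intro n
          show ((b' (n : G) : ℂˣ) : ℂ) = ((b' (n₀ : G) : ℂˣ) : ℂ) * ((b' ((n₀⁻¹ * n : N) : G) : ℂˣ) : ℂ)
          rw [← Units.val_mul, ← map_mul, Subgroup.coe_mul, Subgroup.coe_inv, mul_inv_cancel_left]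
        have h2 : (1 - ((b' (n₀ : G) : ℂˣ) : ℂ)) * ∑ n : N, ((b' (n : G) : ℂˣ) : ℂ) = 0 := by
          rw [sub_mul, one_mul, ← h1, sub_self]
        rcases mul_eq_zero.1 h2 with h | h
        · exfalso
          apply hn₀
          apply Units.ext
          exact (sub_eq_zero.1 h).symm
        · exact h
      have h3 : ∑ n : N, (1 : ℂ) * (starRingEnd ℂ) (((b' (n : G) : ℂˣ) : ℂ)) = 0 := by
        simp only [one_mul]
        rw [← map_sum, hS, map_zero]
      rw [h3, mul_zero]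
    have hb'eq : ∀ g, b' g = β g := by
      intro g
      have h1 : Cfsg.detChar (fun g => ((b' g : ℂˣ) : ℂ) * η g) g = ((mu g : ℂˣ) : ℂ) := by
        have h2 : (fun g => ((b' g : ℂˣ) : ℂ) * η g) = χ' := funext hβ'η'
        rw [h2, hχ'det]
      rw [hdettw] at h1
      have h2 : b' g ^ k * δ g = mu g := Units.ext h1
      have h3 : b' g ^ k = β g ^ k := by
        rw [hβd, hν, eq_div_iff_mul_eq'']
        rw [mul_comm]; exact h2
      have h4 : (b' g * (β g)⁻¹) ^ k = 1 := by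
        rw [mul_pow, inv_pow, h3, mul_inv_cancel]
      have h5 : (b' g * (β g)⁻¹) ^ m = 1 := by
        rw [mul_pow, inv_pow, hkill b' hb'N, hkill β hβN, inv_one, mul_one]
      have h6 : orderOf (b' g * (β g)⁻¹) ∣ Nat.gcd m k :=
        Nat.dvd_gcd (orderOf_dvd_of_pow_eq_one h5) (orderOf_dvd_of_pow_eq_one h4)
      rw [hcop.gcd_eq_one, Nat.dvd_one, orderOf_eq_one_iff] at h6
      rw [← mul_inv_eq_one]; exact h6
    funext g
    rw [← hβ'η' g]
    show ((b' g : ℂˣ) : ℂ) * η g = ((β g : ℂˣ) : ℂ) * η g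
    rw [hb'eq]

end Cfsg.Agent.S0862
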