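import Cfsg.Statements.S0865
import Mathlib
import Cfsg.Agent.Lib.Lead.LinTransfer
-- import your own Cfsg.Agent.* helpers here

set_option autoImplicit false
open Cfsg

namespace Cfsg.Agent.S0865

/-- Let N be a normal subgroup of the finite group G and λ a character of N of degree 1, invariant under conjugation by G, whose order (under pointwise multiplication) is coprime to the index of N. Then there is a character μ of G of degree 1 restricting to λ with the same order as λ, and μ is the only degree-1 character of G restricting to λ whose order is coprime to the index of N. -/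
theorem result {G : Type*} [Group G] [Finite G] (N : Subgroup G) [hN : N.Normal] (lam : N → ℂ) (hlam : Cfsg.IsCharacter N lam ∧ lam 1 = 1) (hinv : ∀ (g : G) (n : N), lam ⟨g * n * g⁻¹, hN.conj_mem (n : G) n.2 g⟩ = lam n) (hcop : Nat.Coprime N.index (orderOf lam)) : ∃ μ : G → ℂ, (Cfsg.IsCharacter G μ ∧ μ 1 = 1 ∧ (∀ n : N, μ n = lam n) ∧ orderOf μ = orderOf lam) ∧ ∀ μ' : G → ℂ, Cfsg.IsCharacter G μ' ∧ μ' 1 = 1 → (∀ n : N, μ' n = lam n) → Nat.Coprime N.index (orderOf μ') → μ' = μ := by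
  classical
  obtain ⟨l, hl⟩ := Lib.Lead.hom_of_isCharacter_one hlam.1 hlam.2
  subst hl
  obtain ⟨n, hn⟩ : ∃ n, n = N.index := ⟨_, rfl⟩
  obtain ⟨m, hm⟩ : ∃ m, m = orderOf (fun x : N => (l x : ℂ)) := ⟨_, rfl⟩
  rw [← hn, ← hm] at hcop
  haveI : N.FiniteIndex := Subgroup.finiteIndex_of_finite_quotient
  have hpowfun : ∀ (H : Type _) [Group H] (f : H →* ℂˣ) (k : ℕ),
      ((fun x : H => (f x : ℂ)) ^ k = 1) ↔ ∀ x : H, f x ^ k = 1 := by
    intro H _ f k
    constructor
    · intro h x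
      apply Units.ext
      have h2 := congrFun h x
      simpa using h2
    · intro h
      funext x
      have h2 := congrArg (fun u : ℂˣ => (u : ℂ)) (h x)
      simpa using h2
  have hmpos : 0 < m := by
    rw [hm]
    apply orderOf_pos_iff.2
    rw [isOfFinOrder_iff_pow_eq_one]
    refine ⟨Nat.card N, Nat.card_pos, ?_⟩
    rw [hpowfun]
    intro x
    rw [← map_pow, pow_card_eq_one', map_one]
  have hlm : ∀ x : N, l x ^ m = 1 := by
    rw [← hpowfun, hm]
    exact pow_orderOf_eq_one _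
  haveI : NeZero m := ⟨hmpos.ne'⟩
  obtain ⟨n', hn'⟩ : ∃ n' : ℕ, n * n' ≡ 1 [MOD m] := by
    let u : (ZMod m)ˣ := ZMod.unitOfCoprime n hcop
    refine ⟨((u⁻¹ : (ZMod m)ˣ) : ZMod m).val, ?_⟩
    rw [← ZMod.natCast_eq_natCast_iff]
    push_cast
    rw [ZMod.natCast_zmod_val]
    have h := u.mul_inv
    rw [ZMod.coe_unitOfCoprime] at h
    exact h
  let ν : G →* ℂˣ := MonoidHom.transfer l
  have hinv' : ∀ (g : G) (x : N) (h : g⁻¹ * (x : G) * g ∈ N), l ⟨g⁻¹ * x * g, h⟩ = l x := by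
    intro g x h
    have h2 := hinv g⁻¹ x
    have h3 : (⟨g⁻¹ * x * g, h⟩ : N) = ⟨g⁻¹ * x * g⁻¹⁻¹, hN.conj_mem (x : G) x.2 g⁻¹⟩ :=
      Subtype.ext (by simp)
    rw [h3]
    exact Units.ext h2
  have hνN : ∀ x : N, ν x = l x ^ n := by
    intro x
    rw [hn]
    exact Lib.Lead.transfer_of_invariant N l hinv' x
  have hνm : ∀ g : G, ν g ^ m = 1 := Lib.Lead.transfer_pow_eq_one N l m hlm
  let μh : G →* ℂˣ := ν ^ n'
  have hμh : ∀ g, μh g = ν g ^ n' := fun g => rfl
  have hμN : ∀ x : N, μh x = l x := by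
    intro x
    rw [hμh, hνN, ← pow_mul]
    have h1 : l x ^ (n * n') = l x ^ 1 := by
      rw [pow_eq_pow_iff_modEq]
      exact hn'.of_dvd (orderOf_dvd_of_pow_eq_one (hlm x))
    rw [h1, pow_one]
  have hμm : ∀ g : G, μh g ^ m = 1 := by
    intro g
    rw [hμh, ← pow_mul, mul_comm, pow_mul, hνm, one_pow]
  have hord : orderOf (fun g : G => (μh g : ℂ)) = m := by
    apply Nat.dvd_antisymm
    · apply orderOf_dvd_of_pow_eq_one
      rw [hpowfun]
      exact hμm
    · rw [hm]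
      apply orderOf_dvd_of_pow_eq_one
      rw [hpowfun]
      intro x
      have h1 : (fun g : G => (μh g : ℂ)) ^ orderOf (fun g : G => (μh g : ℂ)) = 1 :=
        pow_orderOf_eq_one _
      rw [hpowfun] at h1
      rw [← hμN]
      exact h1 x
  refine ⟨fun g => (μh g : ℂ), ⟨Lib.Lead.isCharacter_of_hom μh, ?_, ?_, ?_⟩, ?_⟩
  · show ((μh 1 : ℂˣ) : ℂ) = 1
    rw [map_one]; rfl
  · intro x
    show ((μh x : ℂˣ) : ℂ) = _
    rw [hμN]
  · rw [hord]; exact hm
  · intro μ' hμ' hres hcop'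
    obtain ⟨l', hl'⟩ := Lib.Lead.hom_of_isCharacter_one hμ'.1 hμ'.2
    subst hl'
    obtain ⟨o', ho'⟩ : ∃ o', o' = orderOf (fun g : G => (l' g : ℂ)) := ⟨_, rfl⟩
    rw [← hn, ← ho'] at hcop'
    have hl'o : ∀ g : G, l' g ^ o' = 1 := by
      rw [← hpowfun, ho']
      exact pow_orderOf_eq_one _
    funext g
    have hgn : g ^ n ∈ N := by rw [hn]; exact N.pow_index_mem g
    have h1 : (l' g * (μh g)⁻¹) ^ n = 1 := by
      rw [mul_pow, inv_pow, ← map_pow, ← map_pow]
      have h2 : l' (g ^ n) = μh (g ^ n) := by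
        have h3 := hres ⟨g ^ n, hgn⟩
        have h4 := hμN ⟨g ^ n, hgn⟩
        apply Units.ext
        rw [h4]
        exact h3
      rw [h2, mul_inv_cancel]
    have h2 : (l' g * (μh g)⁻¹) ^ (o' * m) = 1 := by
      rw [mul_pow, inv_pow, pow_mul, hl'o, one_pow, mul_comm o' m, pow_mul, hμm, one_pow, inv_one,
        mul_one]
    have h3 : orderOf (l' g * (μh g)⁻¹) ∣ Nat.gcd n (o' * m) :=
      Nat.dvd_gcd (orderOf_dvd_of_pow_eq_one h1) (orderOf_dvd_of_pow_eq_one h2)
    have h4 : Nat.gcd n (o' * m) = 1 := Nat.Coprime.mul_right hcop' hcop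
    rw [h4, Nat.dvd_one, orderOf_eq_one_iff] at h3
    have h5 : l' g = μh g := by
      rw [← mul_inv_eq_one]; exact h3
    rw [h5]

end Cfsg.Agent.S0865
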