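import Cfsg.Statements.S0866
import Mathlib
import Cfsg.Agent.Lib.Lead.Gal3
-- import your own Cfsg.Agent.* helpers here

set_option autoImplicit false
open Cfsg

namespace Cfsg.Agent.S0866

/-- Let N be a normal subgroup of the finite group G and ϑ an irreducible character of N, invariant under conjugation by G, of degree d coprime to the index of N. Then ϑ is the restriction of an irreducible character of G if and only if the determinantal character of ϑ is the restriction of a character of G of degree 1. -/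
theorem result {G : Type*} [Group G] [Finite G] (N : Subgroup G) [hN : N.Normal] (ϑ : N → ℂ) (hϑ : Cfsg.IsIrrCharacter N ϑ) (hinv : ∀ (g : G) (n : N), ϑ ⟨g * n * g⁻¹, hN.conj_mem (n : G) n.2 g⟩ = ϑ n) (d : ℕ) (hd : ϑ 1 = d) (hcop : Nat.Coprime N.index d) : (∃ χ : G → ℂ, Cfsg.IsIrrCharacter G χ ∧ (∀ n : N, χ n = ϑ n)) ↔ ∃ μ : G → ℂ, Cfsg.IsCharacter G μ ∧ μ 1 = 1 ∧ ∀ n : N, μ n = Cfsg.detChar ϑ n := by
  constructor
  · rintro ⟨χ, hχ, hχN⟩
    obtain ⟨k, ρ, hρirr, hρχ⟩ := hχ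
    let δ : G →* ℂˣ := (LinearMap.det.comp (ρ : G →* Module.End ℂ (Fin k → ℂ))).toHomUnits
    refine ⟨fun g => ((δ g : ℂˣ) : ℂ), Lib.Lead.isCharacter_of_hom δ, by simp, ?_⟩
    intro n
    have h1 : ϑ = fun n : N => χ (N.subtype n) := by
      funext n
      exact (hχN n).symm
    have h2 : Cfsg.detChar ϑ = fun n : N => Cfsg.detChar χ (N.subtype n) := by
      rw [h1]
      exact Lib.Lead.detChar_comp N.subtype ⟨k, ρ, hρχ⟩
    rw [h2, ← hρχ, Lib.Lead.detChar_eq]
    rfl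
  · rintro ⟨μ, hμ, hμ1, hμN⟩
    obtain ⟨mu, rfl⟩ := Lib.Lead.hom_of_isCharacter_one hμ hμ1
    exact Lib.Lead.gallagher_det N ϑ mu (d := d) ⟨hϑ, hinv, hd, hcop, hμN⟩

end Cfsg.Agent.S0866
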