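import Cfsg.Statements.S0867
import Mathlib
import Cfsg.Agent.S0866
import Cfsg.Agent.S0865
import Cfsg.Agent.S0862
import Cfsg.Agent.Lib.Lead.Gal1
-- import your own Cfsg.Agent.* helpers here

set_option autoImplicit false
open Cfsg

namespace Cfsg.Agent.S0867

/-- Let N be a normal subgroup of the finite group G and ϑ an irreducible character of N of degree d, invariant under conjugation by G, such that the index of N is coprime to the product of d and the determinantal order of ϑ. Then there is an irreducible character χ of G restricting to ϑ whose determinantal order equals that of ϑ, and χ is the only irreducible character of G restricting to ϑ whose determinantal order is coprime to the index of N. -/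
theorem result {G : Type*} [Group G] [Finite G] (N : Subgroup G) [hN : N.Normal] (ϑ : N → ℂ) (hϑ : Cfsg.IsIrrCharacter N ϑ) (hinv : ∀ (g : G) (n : N), ϑ ⟨g * n * g⁻¹, hN.conj_mem (n : G) n.2 g⟩ = ϑ n) (d : ℕ) (hd : ϑ 1 = d) (hcop : Nat.Coprime N.index (Cfsg.detOrder ϑ * d)) : ∃ χ : G → ℂ, (Cfsg.IsIrrCharacter G χ ∧ (∀ n : N, χ n = ϑ n) ∧ Cfsg.detOrder χ = Cfsg.detOrder ϑ) ∧ ∀ χ' : G → ℂ, Cfsg.IsIrrCharacter G χ' → (∀ n : N, χ' n = ϑ n) → Nat.Coprime N.index (Cfsg.detOrder χ') → χ' = χ := by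
  classical
  have hlin : ∀ {H : Type _} [Group H] [Finite H] (χ : H → ℂ), Cfsg.IsCharacter H χ →
      Cfsg.IsCharacter H (Cfsg.detChar χ) ∧ Cfsg.detChar χ 1 = 1 := by
    intro H _ _ χ hχ
    obtain ⟨k, ρ, rfl⟩ := hχ
    let δ : H →* ℂˣ := (LinearMap.det.comp (ρ : H →* Module.End ℂ (Fin k → ℂ))).toHomUnits
    rw [Lib.Lead.detChar_eq]
    exact ⟨Lib.Lead.isCharacter_of_hom δ, by simp⟩
  have hϑc := Lib.Lead.isCharacter_of_irr hϑ
  have hlam := hlin ϑ hϑc
  have hinvlam : ∀ (g : G) (n : N), Cfsg.detChar ϑ ⟨g * n * g⁻¹, hN.conj_mem (n : G) n.2 g⟩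
      = Cfsg.detChar ϑ n := by
    intro g n
    have h1 : (fun x : N => ϑ ((MulAut.conjNormal g : MulAut N).toMonoidHom x)) = ϑ := by
      funext x
      exact hinv g x
    have h2 := Lib.Lead.detChar_comp (MulAut.conjNormal g : MulAut N).toMonoidHom hϑc
    rw [h1] at h2
    exact (congrFun h2 n).symm
  have hcop1 : Nat.Coprime N.index (orderOf (Cfsg.detChar ϑ)) :=
    Nat.Coprime.coprime_dvd_right (Dvd.intro _ rfl) hcop
  have hcop2 : Nat.Coprime N.index d :=
    Nat.Coprime.coprime_dvd_right (Dvd.intro_left _ rfl) hcop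
  obtain ⟨μ, ⟨hμ, hμ1, hμN, hμord⟩, hμuniq⟩ :=
    Cfsg.Agent.S0865.result N (Cfsg.detChar ϑ) hlam hinvlam hcop1
  have hext := (Cfsg.Agent.S0866.result N ϑ hϑ hinv d hd hcop2).mpr ⟨μ, hμ, hμ1, hμN⟩
  obtain ⟨χ, ⟨hχ1, hχ2, hχ3⟩, hχuniq⟩ :=
    Cfsg.Agent.S0862.result N ϑ hϑ d hd hcop2 hext μ ⟨hμ, hμ1⟩ hμN
  refine ⟨χ, ⟨hχ1, hχ2, ?_⟩, ?_⟩
  · unfold Cfsg.detOrder
    rw [hχ3, hμord]
  · intro χ' hχ' hχ'N hcop'
    have hχ'c := Lib.Lead.isCharacter_of_irr hχ'
    have h3 : Cfsg.detChar χ' = μ := by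
      apply hμuniq _ (hlin χ' hχ'c)
      · intro n
        have h4 : ϑ = fun n : N => χ' (N.subtype n) := by
          funext n
          exact (hχ'N n).symm
        rw [h4, Lib.Lead.detChar_comp N.subtype hχ'c]
        rfl
      · exact hcop'
    exact hχuniq χ' ⟨hχ', hχ'N, h3⟩

end Cfsg.Agent.S0867
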