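import Mathlib
import Cfsg.Statements.S0854
import Cfsg.Agent.Lib.Helper7.Clifford
import Cfsg.Agent.Lib.Lead.Char9
import Cfsg.Agent.Lib.Lead.Char13
import Cfsg.Agent.Lib.Lead.Char15
import Cfsg.Agent.Lib.Lead.Char6
import Cfsg.Agent.Lib.Lead.Taketa
import Cfsg.Agent.Lib.Helper6.CliffCorr

set_option autoImplicit false
open Cfsg

namespace Cfsg.Agent.S0854



open Cfsg.Agent.Lib Cfsg.Agent.Lib.Lead

/-- Let H be a normal subgroup of the finite group G, ϑ an irreducible character of H, and T the inertia group of ϑ (the elements g with ϑ(g n g⁻¹) = ϑ(n) for all n in H). If χ is an irreducible character of G whose restriction to H has nonzero inner product with ϑ, then χ is induced from some irreducible character ψ of T, and the restrictions of ψ and of χ to H have the same inner product with ϑ. -/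
theorem result {G : Type*} [Group G] [Fintype G] (H : Subgroup G) [hN : H.Normal] [Fintype H] (ϑ : H → ℂ) (hϑ : Cfsg.IsIrrCharacter H ϑ) (T : Subgroup G) [Fintype T] (hT : ∀ g : G, g ∈ T ↔ ∀ n : H, ϑ ⟨g * n * g⁻¹, hN.conj_mem (n : G) n.2 g⟩ = ϑ n) (hHT : H ≤ T) (χ : G → ℂ) (hχ : Cfsg.IsIrrCharacter G χ) (hcon : Cfsg.classInner (fun n : H => χ n) ϑ ≠ 0) : ∃ ψ : T → ℂ, Cfsg.IsIrrCharacter T ψ ∧ Cfsg.indFun T ψ = χ ∧ Cfsg.classInner (fun n : H => ψ ⟨(n : G), hHT n.2⟩) ϑ = Cfsg.classInner (fun n : H => χ n) ϑ := by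
  classical
  haveI : Fintype (Cfsg.IrrCharacter G) := Fintype.ofFinite _
  haveI : Fintype (Cfsg.IrrCharacter T) := Fintype.ofFinite _
  haveI : Fintype (H.subgroupOf T) := Fintype.ofFinite _
  let χ' : Cfsg.IrrCharacter G := ⟨χ, hχ⟩
  have hχc : Cfsg.IsClassFunction G χ := isClassFunction_of_irr χ'
  obtain ⟨hc1, hc2⟩ := Helper6.clifford_corr H T ϑ hϑ hT hHT
  obtain ⟨θ', hθ'def⟩ : ∃ θ' : H.subgroupOf T → ℂ,
      θ' = fun x : H.subgroupOf T => ϑ ⟨(x : T), Subgroup.mem_subgroupOf.mp x.2⟩ := ⟨_, rfl⟩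
  rw [← hθ'def] at hc1 hc2
  have hθ'irr : Cfsg.IsIrrCharacter (H.subgroupOf T) θ' := by
    rw [hθ'def]
    exact isIrrCharacter_comp_surj (Subgroup.subgroupOfEquivOfLe hHT).toMonoidHom
      (Subgroup.subgroupOfEquivOfLe hHT).surjective hϑ
  obtain ⟨Θ, hΘdef⟩ : ∃ Θ : T → ℂ, Θ = Cfsg.indFun (H.subgroupOf T) θ' := ⟨_, rfl⟩
  rw [← hΘdef] at hc1 hc2
  have hΘchar : Cfsg.IsCharacter T Θ := by
    rw [hΘdef]; exact isCharacter_indFun _ _ (isCharacter_of_irr hθ'irr)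
  obtain ⟨m, hm⟩ := isCharacter_decomp hΘchar
  have hmψ : ∀ ψ : Cfsg.IrrCharacter T, Cfsg.classInner Θ ψ.1 = (m ψ : ℂ) := by
    intro ψ; rw [hm]; exact classInner_nat_comb (fun χ => (m χ : ℂ)) ψ
  have htrans : Cfsg.indFun T Θ = Cfsg.indFun H ϑ := by
    rw [hΘdef, hθ'def]; exact indFun_trans H T hHT ϑ
  have hsum : Cfsg.indFun H ϑ = ∑ ψ : Cfsg.IrrCharacter T, (m ψ : ℂ) • Cfsg.indFun T ψ.1 := by
    rw [← htrans]
    conv_lhs => rw [hm]
    exact Helper6.indFun_sum_smul T Finset.univ (fun ψ => (m ψ : ℂ)) (fun ψ => ψ.1)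
  have hfr : Cfsg.classInner (Cfsg.indFun H ϑ) χ = Cfsg.classInner ϑ (fun n : H => χ n) :=
    frobenius_reciprocity H ϑ χ hχc
  have hne : Cfsg.classInner (Cfsg.indFun H ϑ) χ ≠ 0 := by
    rw [hfr, ← classInner_conj_symm]
    intro h
    exact hcon ((map_eq_zero _).mp h)
  have hexp : Cfsg.classInner (Cfsg.indFun H ϑ) χ
      = ∑ ψ : Cfsg.IrrCharacter T, (m ψ : ℂ) * Cfsg.classInner (Cfsg.indFun T ψ.1) χ := by
    conv_lhs => rw [hsum]
    rw [classInner_sum_left]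
    apply Finset.sum_congr rfl
    intro ψ _
    rw [classInner_smul_left]
  obtain ⟨ψ, -, hψne⟩ := Finset.exists_ne_zero_of_sum_ne_zero (by rw [← hexp]; exact hne)
  have hmne : m ψ ≠ 0 := by
    intro h; apply hψne; rw [h]; simp
  have hin : Cfsg.classInner (Cfsg.indFun T ψ.1) χ ≠ 0 := by
    intro h; apply hψne; rw [h, mul_zero]
  have hΘψ : Cfsg.classInner Θ ψ.1 ≠ 0 := by
    rw [hmψ ψ]; exact_mod_cast hmne
  have hirr : Cfsg.IsIrrCharacter G (Cfsg.indFun T ψ.1) :=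
    isIrrCharacter_of_norm_one (isCharacter_indFun T ψ.1 (isCharacter_of_irr ψ.2)) (hc1 ψ hΘψ)
  have heq : Cfsg.indFun T ψ.1 = χ := by
    by_contra hne2
    have h6 : (⟨Cfsg.indFun T ψ.1, hirr⟩ : Cfsg.IrrCharacter G) ≠ χ' := by
      intro h; exact hne2 (congrArg Subtype.val h)
    have h5 := irr_inner_ne (χ := (⟨Cfsg.indFun T ψ.1, hirr⟩ : Cfsg.IrrCharacter G)) (ψ := χ') h6
    exact hin h5
  refine ⟨ψ.1, ψ.2, heq, ?_⟩
  have h1 : Cfsg.classInner (Cfsg.indFun H ϑ) χ = (m ψ : ℂ) := by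
    rw [hexp]
    rw [Finset.sum_eq_single ψ]
    · rw [heq]
      have := irr_inner_self χ'
      rw [show Cfsg.classInner χ χ = 1 from this, mul_one]
    · intro ψ2 _ hne2
      by_cases hm2 : m ψ2 = 0
      · rw [hm2]; simp
      · have hΘψ2 : Cfsg.classInner Θ ψ2.1 ≠ 0 := by
          rw [hmψ ψ2]; exact_mod_cast hm2
        rw [← heq, hc2 ψ2 ψ hΘψ2 hΘψ hne2, mul_zero]
    · intro h; exact absurd (Finset.mem_univ _) h
  have h2 : Cfsg.classInner (fun n : H => χ n) ϑ = (m ψ : ℂ) := by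
    rw [← classInner_conj_symm, ← hfr, h1, Complex.conj_natCast]
  rw [h2]
  have h3 : Cfsg.classInner Θ ψ.1 = Cfsg.classInner θ' (fun x : H.subgroupOf T => ψ.1 x) := by
    rw [hΘdef]
    exact frobenius_reciprocity (H.subgroupOf T) θ' ψ.1 (isClassFunction_of_irr ψ)
  have h4 : Cfsg.classInner θ' (fun x : H.subgroupOf T => ψ.1 x)
      = Cfsg.classInner ϑ (fun n : H => ψ.1 ⟨(n : G), hHT n.2⟩) := by
    unfold Cfsg.classInner
    rw [Nat.card_congr (Subgroup.subgroupOfEquivOfLe hHT).toEquiv]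
    congr 1
    apply Fintype.sum_equiv (Subgroup.subgroupOfEquivOfLe hHT).toEquiv
    intro x
    rw [hθ'def]
    rfl
  rw [← classInner_conj_symm, ← h4, ← h3, hmψ ψ, Complex.conj_natCast]

end Cfsg.Agent.S0854
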