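import Mathlib
import Cfsg.Statements.S0887
import Cfsg.Agent.S0856
import Cfsg.Agent.S0868
import Cfsg.Agent.S0854
import Cfsg.Agent.Lib.Lead.Char18
import Cfsg.Agent.Lib.Lead.Taketa
import Cfsg.Agent.Lib.Helper7.Schur
import Cfsg.Agent.Lib.Lead.Char1
import Cfsg.Agent.Lib.Lead.Char2
import Cfsg.Agent.Lib.Lead.Char5
import Cfsg.Agent.Lib.Lead.Char8
import Cfsg.Agent.Lib.Lead.Char10
import Cfsg.Agent.Lib.Lead.Char13

set_option autoImplicit false
open Cfsg

namespace Cfsg.Agent.S0887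

open scoped ComplexConjugate
open Cfsg.Agent.Lib Cfsg.Agent.Lib.Lead

section gamma

variable {G : Type*} [Group G] (N : Subgroup G) [hN : N.Normal] {d : ℕ}
  (X : Representation ℂ N (Fin d → ℂ)) (m : ℕ)

/-- the group of pairs `(g, P)` with `P X(n) = X(g n g⁻¹) P` and `det P ^ m = 1` -/
def Gam : Subgroup (G × (Module.End ℂ (Fin d → ℂ))ˣ) where
  carrier := {p | (∀ n : N, (p.2 : Module.End ℂ (Fin d → ℂ)) * X n
      = X (MulAut.conjNormal p.1 n) * (p.2 : Module.End ℂ (Fin d → ℂ)))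
      ∧ LinearMap.det (p.2 : Module.End ℂ (Fin d → ℂ)) ^ m = 1}
  mul_mem' := by
    rintro ⟨g₁, P₁⟩ ⟨g₂, P₂⟩ ⟨h1, h1'⟩ ⟨h2, h2'⟩
    refine ⟨fun n => ?_, ?_⟩
    · show ((P₁ : Module.End ℂ (Fin d → ℂ)) * (P₂ : Module.End ℂ (Fin d → ℂ))) * X n
        = X (MulAut.conjNormal (g₁ * g₂) n)
          * ((P₁ : Module.End ℂ (Fin d → ℂ)) * (P₂ : Module.End ℂ (Fin d → ℂ)))
      have e2 := h2 n
      have e1 := h1 (MulAut.conjNormal g₂ n)
      simp only at e1 e2
      rw [mul_assoc, e2, ← mul_assoc, e1, mul_assoc, map_mul, MulAut.mul_apply]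
    · show LinearMap.det ((P₁ : Module.End ℂ (Fin d → ℂ)) * (P₂ : Module.End ℂ (Fin d → ℂ))) ^ m
        = 1
      simp only at h1' h2'
      rw [map_mul, mul_pow, h1', h2', one_mul]
  one_mem' := by
    refine ⟨fun n => ?_, ?_⟩
    · show (1 : Module.End ℂ (Fin d → ℂ)) * X n
        = X (MulAut.conjNormal (1 : G) n) * (1 : Module.End ℂ (Fin d → ℂ))
      rw [map_one, one_mul, mul_one, MulAut.one_apply]
    · show LinearMap.det (1 : Module.End ℂ (Fin d → ℂ)) ^ m = 1
      rw [map_one, one_pow]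
  inv_mem' := by
    rintro ⟨g, P⟩ ⟨h1, h1'⟩
    refine ⟨fun n => ?_, ?_⟩
    · show ((P⁻¹ : (Module.End ℂ (Fin d → ℂ))ˣ) : Module.End ℂ (Fin d → ℂ)) * X n
        = X (MulAut.conjNormal g⁻¹ n)
          * ((P⁻¹ : (Module.End ℂ (Fin d → ℂ))ˣ) : Module.End ℂ (Fin d → ℂ))
      have h2 := h1 (MulAut.conjNormal g⁻¹ n)
      simp only at h2
      have h3 : MulAut.conjNormal g (MulAut.conjNormal g⁻¹ n) = n := by
        rw [← MulAut.mul_apply, ← map_mul, mul_inv_cancel, map_one, MulAut.one_apply]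
      rw [h3] at h2
      calc ((P⁻¹ : (Module.End ℂ (Fin d → ℂ))ˣ) : Module.End ℂ (Fin d → ℂ)) * X n
          = ((P⁻¹ : (Module.End ℂ (Fin d → ℂ))ˣ) : Module.End ℂ (Fin d → ℂ))
              * (X n * (P : Module.End ℂ (Fin d → ℂ)))
              * ((P⁻¹ : (Module.End ℂ (Fin d → ℂ))ˣ) : Module.End ℂ (Fin d → ℂ)) := by
            rw [mul_assoc, mul_assoc, Units.mul_inv, mul_one]
        _ = X (MulAut.conjNormal g⁻¹ n)
              * ((P⁻¹ : (Module.End ℂ (Fin d → ℂ))ˣ) : Module.End ℂ (Fin d → ℂ)) := by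
            rw [← h2, ← mul_assoc, Units.inv_mul, one_mul]
    · show LinearMap.det ((P⁻¹ : (Module.End ℂ (Fin d → ℂ))ˣ) : Module.End ℂ (Fin d → ℂ)) ^ m
        = 1
      simp only at h1'
      have h4 : LinearMap.det ((P⁻¹ : (Module.End ℂ (Fin d → ℂ))ˣ) : Module.End ℂ (Fin d → ℂ))
          * LinearMap.det (P : Module.End ℂ (Fin d → ℂ)) = 1 := by
        rw [← map_mul, Units.inv_mul, map_one]
      have h5 : (LinearMap.det ((P⁻¹ : (Module.End ℂ (Fin d → ℂ))ˣ) : Module.End ℂ (Fin d → ℂ))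
          * LinearMap.det (P : Module.End ℂ (Fin d → ℂ))) ^ m = 1 := by rw [h4, one_pow]
      rw [mul_pow, h1', mul_one] at h5
      exact h5

theorem ker_scalar [hX : X.IsIrreducible] (p : G × (Module.End ℂ (Fin d → ℂ))ˣ)
    (hp : p ∈ Gam N X m) (h1 : p.1 = 1) :
    ∃ c : ℂ, c ^ (d * m) = 1
      ∧ (p.2 : Module.End ℂ (Fin d → ℂ)) = c • (1 : Module.End ℂ (Fin d → ℂ)) := by
  obtain ⟨hp1, hp2⟩ := hp
  have hcomm : ∀ (n : N) (v : Fin d → ℂ), (p.2 : Module.End ℂ (Fin d → ℂ)) (X n v)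
      = X n ((p.2 : Module.End ℂ (Fin d → ℂ)) v) := by
    intro n v
    have h2 := hp1 n
    rw [h1, map_one, MulAut.one_apply] at h2
    exact congrArg (fun f : Module.End ℂ (Fin d → ℂ) => f v) h2
  obtain ⟨c, hc⟩ := S0868.schur_scalar X (p.2 : Module.End ℂ (Fin d → ℂ)) hcomm
  refine ⟨c, ?_, hc⟩
  rw [hc, LinearMap.det_smul, Module.finrank_fin_fun] at hp2
  rw [show LinearMap.det (1 : Module.End ℂ (Fin d → ℂ)) = 1 from map_one _, mul_one,
    ← pow_mul] at hp2
  exact hp2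

theorem gam_surj [Finite N] [hX : X.IsIrreducible]
    (hinv : ∀ (g : G) (n : N), X.character (MulAut.conjNormal g n) = X.character n) (g : G) :
    ∃ P : (Module.End ℂ (Fin d → ℂ))ˣ, (g, P) ∈ Gam N X m := by
  classical
  haveI : Fintype N := Fintype.ofFinite N
  haveI hnt : Nontrivial (Fin d → ℂ) := ((irr_iff X).mp hX).1
  have hd : 0 < d := by
    have := Module.finrank_pos (R := ℂ) (M := Fin d → ℂ)
    rwa [Module.finrank_fin_fun] at this
  obtain ⟨σ, hσdef⟩ : ∃ σ : Representation ℂ N (Fin d → ℂ),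
      σ = X.comp (MulAut.conjNormal g : MulAut N).toMonoidHom := ⟨_, rfl⟩
  haveI hσ : σ.IsIrreducible := by
    rw [hσdef]
    exact irr_comp_of_surjective _ (MulAut.conjNormal g : MulAut N).surjective X hX
  have hσn : ∀ n : N, σ n = X (MulAut.conjNormal g n) := fun n => by rw [hσdef]; rfl
  have hσc : σ.character = X.character := by
    funext n
    rw [← hinv g n]
    show LinearMap.trace ℂ _ (σ n) = LinearMap.trace ℂ _ (X (MulAut.conjNormal g n))
    rw [hσn]
  have h1 := classInner_irr_rep σ X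
  rw [hσc] at h1
  have h2 : Cfsg.classInner X.character X.character = 1 :=
    irr_inner_self (⟨X.character, ⟨d, X, hX, rfl⟩⟩ : Cfsg.IrrCharacter N)
  rw [h2] at h1
  have h3 : Nonempty (Representation.Equiv X σ) := by
    by_contra hne
    rw [if_neg hne] at h1
    exact one_ne_zero h1
  obtain ⟨E⟩ := h3
  have hE : ∀ n : N, (E.toLinearEquiv : (Fin d → ℂ) →ₗ[ℂ] (Fin d → ℂ)) ∘ₗ X n
      = σ n ∘ₗ (E.toLinearEquiv : (Fin d → ℂ) →ₗ[ℂ] (Fin d → ℂ)) :=
    fun n => E.isIntertwining' n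
  obtain ⟨P₀, hP₀⟩ : ∃ P₀ : (Module.End ℂ (Fin d → ℂ))ˣ,
      (P₀ : Module.End ℂ (Fin d → ℂ)) = (E.toLinearEquiv : (Fin d → ℂ) →ₗ[ℂ] (Fin d → ℂ)) :=
    ⟨LinearMap.GeneralLinearGroup.ofLinearEquiv E.toLinearEquiv, rfl⟩
  have hP₀n : ∀ n : N, (P₀ : Module.End ℂ (Fin d → ℂ)) * X n
      = X (MulAut.conjNormal g n) * (P₀ : Module.End ℂ (Fin d → ℂ)) := by
    intro n
    rw [hP₀, ← hσn]
    exact hE n
  have hdet0 : LinearMap.det (P₀ : Module.End ℂ (Fin d → ℂ)) ≠ 0 :=
    (Units.map (LinearMap.det : Module.End ℂ (Fin d → ℂ) →* ℂ) P₀).ne_zero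
  obtain ⟨a, ha⟩ := IsAlgClosed.exists_pow_nat_eq
    ((LinearMap.det (P₀ : Module.End ℂ (Fin d → ℂ)))⁻¹) hd
  have ha0 : a ≠ 0 := by
    rintro rfl
    rw [zero_pow hd.ne'] at ha
    exact inv_ne_zero hdet0 ha.symm
  obtain ⟨P, hPval⟩ : ∃ P : (Module.End ℂ (Fin d → ℂ))ˣ,
      (P : Module.End ℂ (Fin d → ℂ)) = a • (P₀ : Module.End ℂ (Fin d → ℂ)) := by
    refine ⟨Units.map (algebraMap ℂ (Module.End ℂ (Fin d → ℂ))).toMonoidHom (Units.mk0 a ha0)
      * P₀, ?_⟩
    show algebraMap ℂ (Module.End ℂ (Fin d → ℂ)) a * (P₀ : Module.End ℂ (Fin d → ℂ)) = _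
    rw [Algebra.algebraMap_eq_smul_one, smul_mul_assoc, one_mul]
  refine ⟨P, fun n => ?_, ?_⟩
  · show (P : Module.End ℂ (Fin d → ℂ)) * X n
      = X (MulAut.conjNormal g n) * (P : Module.End ℂ (Fin d → ℂ))
    rw [hPval, smul_mul_assoc, mul_smul_comm, hP₀n]
  · show LinearMap.det (P : Module.End ℂ (Fin d → ℂ)) ^ m = 1
    rw [hPval, LinearMap.det_smul, Module.finrank_fin_fun, ha, inv_mul_cancel₀ hdet0, one_pow]

/-- the projection onto `G` -/
def piG : Gam N X m →* G := (MonoidHom.fst G _).comp (Gam N X m).subtype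

theorem piG_apply (γ : Gam N X m) : piG N X m γ = γ.1.1 := rfl

theorem piG_surj [Finite N] [hX : X.IsIrreducible]
    (hinv : ∀ (g : G) (n : N), X.character (MulAut.conjNormal g n) = X.character n) :
    Function.Surjective (piG N X m) := by
  intro g
  obtain ⟨P, hP⟩ := gam_surj N X m hinv g
  exact ⟨⟨(g, P), hP⟩, rfl⟩

/-- the embedding of `N` -/
def iota (hm : ∀ n : N, n ^ m = 1) : N →* Gam N X m :=
  (MonoidHom.prod N.subtype ((Units.map (X : N →* Module.End ℂ (Fin d → ℂ))).comp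
    (toUnits (G := N)).toMonoidHom)).codRestrict (Gam N X m) (by
    intro n
    refine ⟨fun n' => ?_, ?_⟩
    · show X n * X n' = X (MulAut.conjNormal (n : G) n') * X n
      rw [← map_mul, ← map_mul]
      congr 1
      apply Subtype.ext
      rw [Subgroup.coe_mul, Subgroup.coe_mul, MulAut.conjNormal_apply]
      group
    · show LinearMap.det (X n) ^ m = 1
      rw [← map_pow, ← map_pow, hm n, map_one, map_one])

theorem piG_iota (hm : ∀ n : N, n ^ m = 1) (n : N) : piG N X m (iota N X m hm n) = n := rfl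

theorem iota_conj (hm : ∀ n : N, n ^ m = 1) (γ : Gam N X m) (n : N) :
    iota N X m hm (MulAut.conjNormal γ.1.1 n) = γ * iota N X m hm n * γ⁻¹ := by
  apply Subtype.ext
  apply Prod.ext
  · show ((MulAut.conjNormal γ.1.1 n : N) : G) = γ.1.1 * (n : G) * (γ.1.1)⁻¹
    exact MulAut.conjNormal_apply _ _
  · apply Units.ext
    show X (MulAut.conjNormal γ.1.1 n) = (γ.1.2 : Module.End ℂ (Fin d → ℂ)) * X n
      * (((γ.1.2)⁻¹ : (Module.End ℂ (Fin d → ℂ))ˣ) : Module.End ℂ (Fin d → ℂ))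
    rw [γ.2.1 n, mul_assoc, Units.mul_inv, mul_one]

/-- the image of `N` -/
def N1 (hm : ∀ n : N, n ^ m = 1) : Subgroup (Gam N X m) := (iota N X m hm).range

theorem iota_mem (hm : ∀ n : N, n ^ m = 1) (n : N) : iota N X m hm n ∈ N1 N X m hm := ⟨n, rfl⟩

instance N1_normal (hm : ∀ n : N, n ^ m = 1) : (N1 N X m hm).Normal := by
  constructor
  intro x hx γ
  obtain ⟨n, rfl⟩ := hx
  exact ⟨MulAut.conjNormal γ.1.1 n, iota_conj N X m hm γ n⟩

theorem iota_bij (hm : ∀ n : N, n ^ m = 1) :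
    Function.Bijective (fun n : N => (⟨iota N X m hm n, iota_mem N X m hm n⟩ : N1 N X m hm)) := by
  constructor
  · intro a b hab
    have h1 : iota N X m hm a = iota N X m hm b := congrArg Subtype.val hab
    have h2 := congrArg (piG N X m) h1
    rw [piG_iota, piG_iota] at h2
    exact Subtype.ext h2
  · rintro ⟨x, n, rfl⟩
    exact ⟨n, rfl⟩

/-- the projection representation -/
def Rrep : Representation ℂ (Gam N X m) (Fin d → ℂ) :=
  (Units.coeHom (Module.End ℂ (Fin d → ℂ))).comp ((MonoidHom.snd G _).comp (Gam N X m).subtype)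

theorem Rrep_iota (hm : ∀ n : N, n ^ m = 1) (n : N) : Rrep N X m (iota N X m hm n) = X n := rfl

theorem Rrep_irr [hX : X.IsIrreducible] (hm : ∀ n : N, n ^ m = 1) :
    (Rrep N X m).IsIrreducible := by
  have hX' := (irr_iff X).mp hX
  rw [irr_iff]
  refine ⟨hX'.1, fun U hU => hX'.2 U (fun n v hv => ?_)⟩
  have := hU (iota N X m hm n) v hv
  rwa [Rrep_iota] at this

theorem Rrep_irr_range [hX : X.IsIrreducible] (hm : ∀ n : N, n ^ m = 1) :
    Representation.IsIrreducible (show Representation ℂ (N1 N X m hm) (Fin d → ℂ) from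
      (Rrep N X m).comp (N1 N X m hm).subtype) := by
  have hX' := (irr_iff X).mp hX
  rw [irr_iff]
  refine ⟨hX'.1, fun U hU => hX'.2 U (fun n v hv => ?_)⟩
  have := hU ⟨iota N X m hm n, iota_mem N X m hm n⟩ v hv
  exact this

/-- the character of the projection representation -/
noncomputable def tauC : Gam N X m → ℂ := (Rrep N X m).character

theorem tau_irr [hX : X.IsIrreducible] (hm : ∀ n : N, n ^ m = 1) :
    Cfsg.IsIrrCharacter (Gam N X m) (tauC N X m) := ⟨d, Rrep N X m, Rrep_irr N X m hm, rfl⟩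

theorem tau_iota (hm : ∀ n : N, n ^ m = 1) (n : N) :
    tauC N X m (iota N X m hm n) = X.character n := rfl

theorem tau_one : tauC N X m 1 = (d : ℂ) := by
  unfold tauC
  rw [Representation.char_one, Module.finrank_fin_fun]

theorem theta1_irr [hX : X.IsIrreducible] (hm : ∀ n : N, n ^ m = 1) :
    Cfsg.IsIrrCharacter (N1 N X m hm) (fun x : N1 N X m hm => tauC N X m x) :=
  ⟨d, (Rrep N X m).comp (N1 N X m hm).subtype, Rrep_irr_range N X m hm, rfl⟩

theorem ker_central [hX : X.IsIrreducible] (ζ : Gam N X m) (h1 : piG N X m ζ = 1) :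
    ζ ∈ Subgroup.center (Gam N X m) := by
  obtain ⟨c, -, hc⟩ := ker_scalar N X m ζ.1 ζ.2 h1
  rw [Subgroup.mem_center_iff]
  intro γ
  apply Subtype.ext
  apply Prod.ext
  · show γ.1.1 * ζ.1.1 = ζ.1.1 * γ.1.1
    rw [show ζ.1.1 = 1 from h1, mul_one, one_mul]
  · apply Units.ext
    show (γ.1.2 : Module.End ℂ (Fin d → ℂ)) * (ζ.1.2 : Module.End ℂ (Fin d → ℂ))
      = (ζ.1.2 : Module.End ℂ (Fin d → ℂ)) * (γ.1.2 : Module.End ℂ (Fin d → ℂ))
    rw [hc, mul_smul_comm, smul_mul_assoc, mul_one, one_mul]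

theorem gam_finite [Finite G] [hX : X.IsIrreducible] (hd : 0 < d) (hm0 : 0 < m) :
    Finite (Gam N X m) := by
  have hS : Set.Finite {c : ℂ | c ^ (d * m) = 1} := by
    have hk : 0 < d * m := Nat.mul_pos hd hm0
    refine (Polynomial.nthRootsFinset (d * m) (1 : ℂ)).finite_toSet.subset (fun c hc => ?_)
    rw [Finset.mem_coe, Polynomial.mem_nthRootsFinset hk]
    exact hc
  have hS' := hS.image (fun c : ℂ => c • (1 : Module.End ℂ (Fin d → ℂ)))
  haveI := hS'.to_subtype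
  haveI : Finite (piG N X m).ker := by
    refine Finite.of_injective (fun x : (piG N X m).ker =>
      (⟨(x.1.1.2 : Module.End ℂ (Fin d → ℂ)), ?_⟩ :
        ((fun c : ℂ => c • (1 : Module.End ℂ (Fin d → ℂ))) '' {c : ℂ | c ^ (d * m) = 1}))) ?_
    · obtain ⟨c, hc1, hc2⟩ := ker_scalar N X m x.1.1 x.1.2 (MonoidHom.mem_ker.mp x.2)
      exact ⟨c, hc1, hc2.symm⟩
    · intro x y hxy
      have h1 : (x.1.1.2 : Module.End ℂ (Fin d → ℂ)) = (y.1.1.2 : Module.End ℂ (Fin d → ℂ)) :=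
        congrArg Subtype.val hxy
      have h2 : x.1.1.1 = y.1.1.1 := by
        rw [show x.1.1.1 = 1 from MonoidHom.mem_ker.mp x.2,
          show y.1.1.1 = 1 from MonoidHom.mem_ker.mp y.2]
      exact Subtype.ext (Subtype.ext (Prod.ext h2 (Units.ext h1)))
  haveI : Finite (Gam N X m ⧸ (piG N X m).ker) :=
    Finite.of_injective _ (QuotientGroup.kerLift_injective (piG N X m))
  exact Finite.of_equiv _ (Subgroup.groupEquivQuotientProdSubgroup (s := (piG N X m).ker)).symm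

end gamma

/-- the invariant case -/
theorem inv_case {G : Type*} [Group G] [Finite G] (N : Subgroup G) [hN : N.Normal] [Fintype N]
    {d : ℕ} (X : Representation ℂ N (Fin d → ℂ)) [hX : X.IsIrreducible]
    (hinv : ∀ (g : G) (n : N), X.character (MulAut.conjNormal g n) = X.character n)
    (χ : G → ℂ) (hχ : Cfsg.IsIrrCharacter G χ)
    (hcon : ∑ n : N, χ n * conj (X.character n) ≠ 0) :
    ∃ b : ℕ, χ 1 = (b : ℂ) * (d : ℂ) ∧ b ∣ N.index := by
  classical
  haveI : Fintype G := Fintype.ofFinite G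
  haveI hnt : Nontrivial (Fin d → ℂ) := ((irr_iff X).mp hX).1
  have hd : 0 < d := by
    have := Module.finrank_pos (R := ℂ) (M := Fin d → ℂ)
    rwa [Module.finrank_fin_fun] at this
  obtain ⟨m, hmdef⟩ : ∃ m : ℕ, m = Nat.card N := ⟨_, rfl⟩
  have hm0 : 0 < m := hmdef ▸ Nat.card_pos
  have hm : ∀ n : N, n ^ m = 1 := fun n => by rw [hmdef]; exact pow_card_eq_one'
  haveI hfin : Finite (Gam N X m) := gam_finite N X m hd hm0
  haveI : Fintype (Gam N X m) := Fintype.ofFinite _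
  haveI : Fintype (N1 N X m hm) := Fintype.ofFinite _
  have hπ : Function.Surjective (piG N X m) := piG_surj N X m hinv
  have hτ : Cfsg.IsIrrCharacter (Gam N X m) (tauC N X m) := tau_irr N X m hm
  have hτc : Cfsg.IsClassFunction (Gam N X m) (tauC N X m) := isClassFunction_of_irr ⟨_, hτ⟩
  have hχ' : Cfsg.IsIrrCharacter (Gam N X m) (fun γ => χ (piG N X m γ)) :=
    isIrrCharacter_comp_surj _ hπ hχ
  have hprod : Cfsg.IsIrrCharacter (N1 N X m hm)
      ((fun _ => (1 : ℂ)) * fun x : N1 N X m hm => tauC N X m x) := by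
    have he : ((fun _ => (1 : ℂ)) * fun x : N1 N X m hm => tauC N X m x)
        = fun x : N1 N X m hm => tauC N X m x := by
      funext x
      rw [Pi.mul_apply, one_mul]
    rw [he]
    exact theta1_irr N X m hm
  have hgal := S0856.result (N1 N X m hm) (fun _ => (1 : ℂ)) (fun x : N1 N X m hm => tauC N X m x)
    isIrrCharacter_one (theta1_irr N X m hm) (fun _ _ => rfl)
    (fun γ x => hτc (x : Gam N X m) γ) hprod (tauC N X m) hτ (fun _ => rfl)
  have hsum1 : ∑ x : N1 N X m hm, tauC N X m x * conj (χ (piG N X m x))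
      = conj (∑ n : N, χ n * conj (X.character n)) := by
    rw [map_sum]
    rw [← (iota_bij N X m hm).sum_comp
      (fun x : N1 N X m hm => tauC N X m x * conj (χ (piG N X m x)))]
    apply Finset.sum_congr rfl
    intro n _
    show tauC N X m (iota N X m hm n) * conj (χ (piG N X m (iota N X m hm n)))
      = conj (χ n * conj (X.character n))
    rw [tau_iota, piG_iota, map_mul, Complex.conj_conj, mul_comm]
  have hmem : (fun γ => χ (piG N X m γ)) ∈ {ψ : Gam N X m → ℂ | Cfsg.IsIrrCharacter (Gam N X m) ψ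
      ∧ Cfsg.classInner (Cfsg.indFun (N1 N X m hm)
        ((fun _ => (1 : ℂ)) * fun x : N1 N X m hm => tauC N X m x)) ψ ≠ 0} := by
    refine ⟨hχ', ?_⟩
    rw [frobenius_reciprocity _ _ _ (isClassFunction_of_irr ⟨_, hχ'⟩)]
    have key : Cfsg.classInner ((fun _ => (1 : ℂ)) * fun x : N1 N X m hm => tauC N X m x)
        (fun h : N1 N X m hm => (fun γ => χ (piG N X m γ)) (h : Gam N X m))
        = (Nat.card (N1 N X m hm) : ℂ)⁻¹ * conj (∑ n : N, χ n * conj (X.character n)) := by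
      unfold Cfsg.classInner
      congr 1
      rw [← hsum1]
      apply Finset.sum_congr rfl
      intro x _
      show ((1 : ℂ) * tauC N X m x) * conj (χ (piG N X m x)) = _
      rw [one_mul]
    refine ne_of_eq_of_ne key ?_
    exact mul_ne_zero (inv_ne_zero (Nat.cast_ne_zero.mpr Nat.card_pos.ne'))
      ((map_ne_zero _).mpr hcon)
  obtain ⟨β, ⟨hβ, hβ1⟩, hβχ⟩ := hgal.surjOn hmem
  have hβχ' : ∀ γ : Gam N X m, β γ * tauC N X m γ = χ (piG N X m γ) := fun γ => congrFun hβχ γ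
  have hβsum : ∑ x : N1 N X m hm, β x ≠ 0 := by
    rw [frobenius_reciprocity _ _ _ (isClassFunction_of_irr ⟨β, hβ⟩)] at hβ1
    intro h0
    apply hβ1
    have hval : Cfsg.classInner (fun _ : N1 N X m hm => (1 : ℂ))
        (fun h : N1 N X m hm => β (h : Gam N X m))
        = (Nat.card (N1 N X m hm) : ℂ)⁻¹ * conj (∑ x : N1 N X m hm, β x) := by
      unfold Cfsg.classInner
      congr 1
      rw [map_sum]
      apply Finset.sum_congr rfl
      intro x _
      exact one_mul _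
    rw [hval, h0, map_zero, mul_zero]
  have hker : ∀ (x : N1 N X m hm) (γ : Gam N X m), β ((x : Gam N X m) * γ) = β γ := by
    rcases S0868.coset_avg_irr (N1 N X m hm) ⟨β, hβ⟩ with h | h
    · exact h
    · exfalso
      have h1 := h 1
      simp only [mul_one] at h1
      exact hβsum h1
  obtain ⟨b, ρ, hρ, hρβ⟩ := hβ
  haveI := hρ
  have hβone : β 1 = (b : ℂ) := by
    rw [← hρβ, Representation.char_one, Module.finrank_fin_fun]
  have hρN : ∀ x : Gam N X m, x ∈ N1 N X m hm → ρ x = 1 := by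
    intro x hx
    apply (char_eq_deg_iff ρ x).mp
    rw [Module.finrank_fin_fun, hρβ, ← hβone]
    have := hker ⟨x, hx⟩ 1
    rwa [mul_one] at this
  have hZ : ∀ z ∈ (N.comap (piG N X m)),
      ∃ c : ℂ, ρ z = c • (1 : Module.End ℂ (Fin b → ℂ)) := by
    intro z hz
    have hz' : piG N X m z ∈ N := hz
    obtain ⟨y, hy⟩ : ∃ y : Gam N X m, y = iota N X m hm ⟨piG N X m z, hz'⟩ := ⟨_, rfl⟩
    have hyN : y ∈ N1 N X m hm := hy ▸ iota_mem N X m hm _
    have hπy : piG N X m y = piG N X m z := by rw [hy, piG_iota]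
    have hζ : y⁻¹ * z ∈ Subgroup.center (Gam N X m) := by
      apply ker_central
      rw [map_mul, map_inv, hπy, inv_mul_cancel]
    obtain ⟨c, hc⟩ := Helper7.central_scalar ρ (y⁻¹ * z) hζ
    refine ⟨c, ?_⟩
    have hz2 : ρ z = ρ (y * (y⁻¹ * z)) := by rw [mul_inv_cancel_left]
    rw [hz2, map_mul, hρN y hyN, one_mul, hc]
  have hdvd := deg_dvd_index_of_scalar ρ (N.comap (piG N X m)) hZ
  rw [Module.finrank_fin_fun, Subgroup.index_comap_of_surjective N hπ] at hdvd
  refine ⟨b, ?_, hdvd⟩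
  have h1 := hβχ' 1
  rw [hβone, tau_one, map_one] at h1
  exact h1.symm

/-- the stabilizer of a function on `N` -/
def stabT {G : Type*} [Group G] (N : Subgroup G) [hN : N.Normal] (ϑ : N → ℂ) : Subgroup G where
  carrier := {g | ∀ n : N, ϑ (MulAut.conjNormal g n) = ϑ n}
  one_mem' := by
    show ∀ n : N, ϑ (MulAut.conjNormal (1 : G) n) = ϑ n
    intro n
    rw [map_one, MulAut.one_apply]
  mul_mem' := by
    intro a b ha hb
    show ∀ n : N, ϑ (MulAut.conjNormal (a * b) n) = ϑ n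
    intro n
    have ha' : ∀ n : N, ϑ (MulAut.conjNormal a n) = ϑ n := ha
    have hb' : ∀ n : N, ϑ (MulAut.conjNormal b n) = ϑ n := hb
    rw [map_mul, MulAut.mul_apply, ha', hb']
  inv_mem' := by
    intro a ha
    show ∀ n : N, ϑ (MulAut.conjNormal a⁻¹ n) = ϑ n
    intro n
    have ha' : ∀ n : N, ϑ (MulAut.conjNormal a n) = ϑ n := ha
    have h := ha' (MulAut.conjNormal a⁻¹ n)
    rw [← MulAut.mul_apply, ← map_mul, mul_inv_cancel, map_one, MulAut.one_apply] at h
    exact h.symm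


/-- Let N be a normal subgroup of the finite group G, χ an irreducible character of G and ϑ an irreducible character of N having nonzero inner product with the restriction of χ. If χ 1 = c and ϑ 1 = d as natural numbers, then d divides c and c / d divides the index of N. -/
theorem result {G : Type*} [Group G] [Fintype G] (N : Subgroup G) [N.Normal] [Fintype N] (χ : G → ℂ) (hχ : Cfsg.IsIrrCharacter G χ) (ϑ : N → ℂ) (hϑ : Cfsg.IsIrrCharacter N ϑ) (hcon : Cfsg.classInner (fun n : N => χ n) ϑ ≠ 0) (c d : ℕ) (hc : χ 1 = c) (hd : ϑ 1 = d) : d ∣ c ∧ c / d ∣ N.index := by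
  classical
  have hϑ' : Cfsg.IsIrrCharacter N ϑ := hϑ
  obtain ⟨d', X, hX, hXϑ⟩ := hϑ
  haveI := hX
  haveI hnt : Nontrivial (Fin d' → ℂ) := ((irr_iff X).mp hX).1
  have hd' : 0 < d' := by
    have := Module.finrank_pos (R := ℂ) (M := Fin d' → ℂ)
    rwa [Module.finrank_fin_fun] at this
  have hϑc : Cfsg.IsClassFunction N ϑ := isClassFunction_of_irr ⟨ϑ, hϑ'⟩
  obtain ⟨T, hTdef⟩ : ∃ T : Subgroup G, T = stabT N ϑ := ⟨_, rfl⟩
  haveI : Fintype T := Fintype.ofFinite T
  have hT : ∀ g : G, g ∈ T ↔ ∀ n : N,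
      ϑ ⟨g * n * g⁻¹, ‹N.Normal›.conj_mem (n : G) n.2 g⟩ = ϑ n := by
    intro g
    rw [hTdef]
    exact Iff.rfl
  have hNT : N ≤ T := by
    intro x hx
    rw [hT]
    intro n
    exact hϑc n ⟨x, hx⟩
  obtain ⟨ψ, hψ, hψind, hψcon⟩ := S0854.result N ϑ hϑ' T hT hNT χ hχ hcon
  haveI : Fintype (N.subgroupOf T) := Fintype.ofFinite _
  obtain ⟨e, hedef⟩ : ∃ e : N.subgroupOf T ≃* N, e = Subgroup.subgroupOfEquivOfLe hNT := ⟨_, rfl⟩
  have hecoe : ∀ x : N.subgroupOf T, ((e x : N) : G) = ((x : T) : G) := fun x => by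
    rw [hedef]; rfl
  obtain ⟨X', hX'def⟩ : ∃ X' : Representation ℂ (N.subgroupOf T) (Fin d' → ℂ),
      X' = X.comp e.toMonoidHom := ⟨_, rfl⟩
  haveI hX' : X'.IsIrreducible := by
    rw [hX'def]
    exact irr_comp_of_surjective _ e.surjective X hX
  have hX'c : ∀ x : N.subgroupOf T, X'.character x = ϑ (e x) := fun x => by
    rw [← hXϑ, hX'def]; rfl
  have hinv' : ∀ (t : T) (x : N.subgroupOf T),
      X'.character (MulAut.conjNormal t x) = X'.character x := by
    intro t x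
    rw [hX'c, hX'c]
    have h1 := (hT t).mp t.2 (e x)
    rw [← h1]
    congr 1
    apply Subtype.ext
    rw [hecoe, MulAut.conjNormal_apply]
    show (t : G) * ((x : T) : G) * ((t : G))⁻¹ = (t : G) * ((e x : N) : G) * ((t : G))⁻¹
    rw [hecoe]
  have hcon' : ∑ x : N.subgroupOf T, ψ x * conj (X'.character x) ≠ 0 := by
    have h1 : Cfsg.classInner (fun n : N => ψ ⟨(n : G), hNT n.2⟩) ϑ ≠ 0 := by
      rw [hψcon]; exact hcon
    have h2 : ∑ x : N.subgroupOf T, ψ x * conj (X'.character x)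
        = ∑ n : N, ψ ⟨(n : G), hNT n.2⟩ * conj (ϑ n) := by
      apply Fintype.sum_equiv e.toEquiv
      intro x
      rw [hX'c]
      show ψ x * conj (ϑ (e x)) = ψ ⟨((e x : N) : G), hNT (e x).2⟩ * conj (ϑ (e x))
      congr 2
      exact Subtype.ext (hecoe x).symm
    rw [h2]
    intro h0
    apply h1
    unfold Cfsg.classInner
    rw [h0, mul_zero]
  obtain ⟨b, hb1, hb2⟩ := inv_case (N.subgroupOf T) X' hinv' ψ hψ hcon'
  have hχ1 : χ 1 = (T.index : ℂ) * ψ 1 := by
    rw [← hψind, indFun_one_eq]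
    have hcard : (Fintype.card G : ℂ) = (T.index : ℂ) * (Nat.card T : ℂ) := by
      rw [← Nat.cast_mul, Subgroup.index_mul_card, Nat.card_eq_fintype_card]
    have hT0 : (Nat.card T : ℂ) ≠ 0 := Nat.cast_ne_zero.mpr Nat.card_pos.ne'
    rw [hcard]
    field_simp
  have hdd : d = d' := by
    have h1 : ϑ 1 = (d' : ℂ) := by
      rw [← hXϑ, Representation.char_one, Module.finrank_fin_fun]
    rw [hd] at h1
    exact_mod_cast h1
  have hcval : c = T.index * b * d := by
    have h1 : (c : ℂ) = (T.index : ℂ) * ((b : ℂ) * (d' : ℂ)) := by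
      rw [← hc, hχ1, hb1]
    rw [hdd]
    exact_mod_cast (by rw [h1]; ring : (c : ℂ) = (T.index : ℂ) * (b : ℂ) * (d' : ℂ))
  have hd0 : 0 < d := hdd ▸ hd'
  refine ⟨⟨T.index * b, by rw [hcval]; ring⟩, ?_⟩
  rw [hcval, Nat.mul_div_cancel _ hd0, ← Subgroup.relIndex_mul_index hNT, mul_comm]
  exact Nat.mul_dvd_mul_right hb2 _


end Cfsg.Agent.S0887
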