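import Mathlib
import Cfsg.Statements.S0857
import Cfsg.Agent.Lib.Helper7.Clifford
import Cfsg.Agent.Lib.Helper7.LinTwist
import Cfsg.Agent.Lib.Helper7.ClassProd
import Cfsg.Agent.Lib.Lead.Char8
import Cfsg.Agent.Lib.Lead.Char9
import Cfsg.Agent.Lib.Lead.Char13
import Cfsg.Agent.Lib.Lead.Char15
import Cfsg.Agent.Lib.Helper6.CliffCorr2
import Cfsg.Agent.S0894
import Cfsg.Agent.S0900

set_option autoImplicit false
open Cfsg

namespace Cfsg.Agent.S0857



open Cfsg.Agent.Lib Cfsg.Agent.Lib.Lead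
open scoped commutatorElement

/-- going down, abstract form: `K/N` abelian, `A` a set of automorphisms of `K` preserving `N` and
fixing `ϑ`, with no proper `A`-invariant subgroup strictly between -/
theorem going_down_aux {K : Type*} [Group K] [Fintype K] (N : Subgroup K) [hN : N.Normal] [Fintype N]
    (hab : ∀ a b : K, a * b * a⁻¹ * b⁻¹ ∈ N)
    (A : Set (K ≃* K)) (hAsymm : ∀ α ∈ A, α.symm ∈ A) (hAN : ∀ α ∈ A, ∀ x ∈ N, α x ∈ N)
    (ϑ : K → ℂ) (hϑ : Cfsg.IsIrrCharacter K ϑ) (hinv : ∀ α ∈ A, ∀ k, ϑ (α k) = ϑ k)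
    (hchief : ∀ M : Subgroup K, N ≤ M → (∀ α ∈ A, ∀ x ∈ M, α x ∈ M) → M = N ∨ M = ⊤) :
    Cfsg.IsIrrCharacter N (fun x : N => ϑ x) ∨
    (∃ (φ : N → ℂ) (e : ℕ), Cfsg.IsIrrCharacter N φ ∧ (fun x : N => ϑ x) = (e : ℂ) • φ ∧
      e ^ 2 = N.index) ∨
    (∃ F : Finset (N → ℂ), (∀ φ ∈ F, Cfsg.IsIrrCharacter N φ) ∧ F.card = N.index ∧
      (fun x : N => ϑ x) = ∑ φ ∈ F, φ) := by
  classical
  haveI : Fintype (Cfsg.IrrCharacter N) := Fintype.ofFinite _
  have hϑc : Cfsg.IsClassFunction K ϑ := isClassFunction_of_irr ⟨ϑ, hϑ⟩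
  obtain ⟨r, hrdef⟩ : ∃ r : N → ℂ, r = fun x : N => ϑ x := ⟨_, rfl⟩
  rw [← hrdef]
  have hrx : ∀ x : N, r x = ϑ x := fun x => by rw [hrdef]
  have hrchar : Cfsg.IsCharacter N r := by
    rw [hrdef]; exact isCharacter_restrict N (isCharacter_of_irr hϑ)
  have hrc : Cfsg.IsClassFunction N r := by
    rw [hrdef]; exact Helper7.Cliff.isClassFunction_restrict N ϑ hϑc
  have hNne : (Nat.card N : ℂ) ≠ 0 := by exact_mod_cast Nat.card_pos.ne'
  have hKne : (Nat.card K : ℂ) ≠ 0 := by exact_mod_cast Nat.card_pos.ne'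
  have hidx : Nat.card N * N.index = Nat.card K := Subgroup.card_mul_index N
  obtain ⟨T, hTdef⟩ : ∃ T : Set K, T = {k : K | k ∈ N ∨ ϑ k ≠ 0} := ⟨_, rfl⟩
  have hM1N : N ≤ Subgroup.closure T := by
    intro x hx
    apply Subgroup.subset_closure
    rw [hTdef]; exact Or.inl hx
  have hM1A : ∀ α ∈ A, ∀ x ∈ Subgroup.closure T, α x ∈ Subgroup.closure T := by
    intro α hα x hx
    have h1 : (Subgroup.closure T).map α.toMonoidHom ≤ Subgroup.closure T := by
      rw [MonoidHom.map_closure]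
      apply Subgroup.closure_mono
      rintro _ ⟨k, hk, rfl⟩
      rw [hTdef] at hk ⊢
      rcases hk with hk | hk
      · exact Or.inl (hAN α hα k hk)
      · right
        show ϑ (α k) ≠ 0
        rw [hinv α hα k]; exact hk
    exact h1 (Subgroup.mem_map_of_mem _ hx)
  rcases hchief (Subgroup.closure T) hM1N hM1A with hM1 | hM1
  · right
    have hvan : ∀ k : K, k ∉ N → ϑ k = 0 := by
      intro k hk
      by_contra h0
      apply hk
      rw [← hM1]
      apply Subgroup.subset_closure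
      rw [hTdef]; exact Or.inr h0
    have hnorm : Cfsg.classInner r r = (N.index : ℂ) := by
      unfold Cfsg.classInner
      have h1 := S0894.sum_eq_of_vanish N ϑ hvan
      have h0 : ∑ g : K, ϑ g * (starRingEnd ℂ) (ϑ g) = (Nat.card K : ℂ) :=
        S0900.sum_sq_irr (⟨ϑ, hϑ⟩ : Cfsg.IrrCharacter K)
      rw [h0] at h1
      have h2 : ∑ g : N, r g * (starRingEnd ℂ) (r g) = (Nat.card K : ℂ) := by
        rw [h1]; apply Finset.sum_congr rfl; intro x _; rw [hrx x]
      rw [h2, ← hidx]; push_cast; field_simp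
    have hrne : r ≠ 0 := by
      intro h0
      have h1 := hrx 1
      rw [h0] at h1
      have h2 : ϑ 1 = 0 := by simpa using h1.symm
      exact irr_deg_ne_zero (⟨ϑ, hϑ⟩ : Cfsg.IrrCharacter K) h2
    obtain ⟨φ, hφ⟩ := Helper7.Cliff.exists_constituent r hrc hrne
    obtain ⟨e, he⟩ := classInner_char_nat hrchar (isCharacter_of_irr φ.2)
    have he0 : e ≠ 0 := by
      intro h0; apply hφ; rw [he, h0]; simp
    have hφ' : Cfsg.classInner (fun h : N => (⟨ϑ, hϑ⟩ : Cfsg.IrrCharacter K).1 h) φ.1 ≠ 0 := by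
      rw [hrdef] at hφ; exact hφ
    letI := Helper7.Cliff.irrAction N
    have hfix : ∀ k : K, k ∈ MulAction.stabilizer K φ ↔ conjFun N φ.1 k = φ.1 := by
      intro k
      rw [← Subgroup.inv_mem_iff, MulAction.mem_stabilizer_iff]
      constructor
      · intro h
        have h1 := congrArg Subtype.val h
        have h2 : conjFun N φ.1 (k⁻¹)⁻¹ = φ.1 := h1
        rwa [inv_inv] at h2
      · intro h
        apply Subtype.ext
        show conjFun N φ.1 (k⁻¹)⁻¹ = φ.1
        rw [inv_inv]; exact h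
    have hNfix : ∀ n : K, n ∈ N → conjFun N φ.1 n = φ.1 := by
      intro n hn
      funext h
      rw [conjFun_apply]
      have h4 := isClassFunction_of_irr φ h (⟨n, hn⟩ : N)
      rw [← h4]
      congr 1
    have hNI : N ≤ MulAction.stabilizer K φ := fun n hn => (hfix n).mpr (hNfix n hn)
    have hmult : ∀ ψ : Cfsg.IrrCharacter N, Cfsg.classInner r ψ.1
        = if ψ ∈ MulAction.orbit K φ then (e : ℂ) else 0 := by
      intro ψ
      by_cases hψ : ψ ∈ MulAction.orbit K φ
      · rw [if_pos hψ]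
        obtain ⟨g, hg⟩ := hψ
        have hg' : ψ.1 = conjFun N φ.1 g⁻¹ := by rw [← hg]; rfl
        rw [hg', ← he, hrdef]
        exact Helper7.Cliff.inner_restrict_conjFun N ϑ hϑc φ.1 g⁻¹
      · rw [if_neg hψ]
        by_contra h5
        apply hψ
        have h5' : Cfsg.classInner (fun h : N => (⟨ϑ, hϑ⟩ : Cfsg.IrrCharacter K).1 h) ψ.1 ≠ 0 := by
          rw [hrdef] at h5; exact h5
        obtain ⟨x, hx⟩ := Helper7.Cliff.exists_conj_of_constituents N ⟨ϑ, hϑ⟩ φ ψ hφ' h5'
        refine ⟨x⁻¹, ?_⟩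
        apply Subtype.ext
        show conjFun N φ.1 (x⁻¹)⁻¹ = ψ.1
        rw [inv_inv, hx]
    obtain ⟨O, hOdef⟩ : ∃ O : Finset (Cfsg.IrrCharacter N),
        O = Finset.univ.filter (fun ψ => ψ ∈ MulAction.orbit K φ) := ⟨_, rfl⟩
    have hdecomp : r = (e : ℂ) • ∑ ψ ∈ O, ψ.1 := by
      conv_lhs => rw [class_fn_expand' r hrc]
      rw [hOdef, Finset.sum_filter, Finset.smul_sum]
      apply Finset.sum_congr rfl
      intro ψ _
      rw [hmult ψ]
      by_cases hψ : ψ ∈ MulAction.orbit K φ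
      · rw [if_pos hψ, if_pos hψ]
      · rw [if_neg hψ, if_neg hψ, zero_smul, smul_zero]
    have hnorm2 : Cfsg.classInner r r = ((e ^ 2 * O.card : ℕ) : ℂ) := by
      have h1 : Cfsg.classInner r r = Cfsg.classInner r
          (∑ ψ : Cfsg.IrrCharacter N, Cfsg.classInner r ψ.1 • ψ.1) := by
        congr 1; exact class_fn_expand' r hrc
      rw [h1, classInner_sum_right]
      have h2 : ∀ ψ : Cfsg.IrrCharacter N, Cfsg.classInner r (Cfsg.classInner r ψ.1 • ψ.1)
          = if ψ ∈ MulAction.orbit K φ then ((e:ℂ))^2 else 0 := by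
        intro ψ
        rw [classInner_smul_right, hmult ψ]
        by_cases hψ : ψ ∈ MulAction.orbit K φ
        · rw [if_pos hψ, if_pos hψ, Complex.conj_natCast]; ring
        · rw [if_neg hψ, if_neg hψ, map_zero, zero_mul]
      rw [Finset.sum_congr rfl (fun ψ _ => h2 ψ), ← Finset.sum_filter, ← hOdef, Finset.sum_const,
        nsmul_eq_mul]
      push_cast; ring
    have hcount : e ^ 2 * O.card = N.index := by
      have := hnorm2.symm.trans hnorm
      exact_mod_cast this
    have hOcard : O.card = (MulAction.stabilizer K φ).index := by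
      have h1 : O.card = Nat.card (MulAction.orbit K φ) := by
        rw [← Nat.card_eq_finsetCard]
        apply Nat.card_congr
        refine Equiv.subtypeEquivRight (fun ψ => ?_)
        rw [hOdef]; simp
      have h2 : Nat.card (MulAction.orbit K φ) = (MulAction.stabilizer K φ).index := by
        rw [Subgroup.index, Nat.card_congr (MulAction.orbitEquivQuotientStabilizer K φ)]
      rw [h1, h2]
    have hIA : ∀ α ∈ A, ∀ k ∈ MulAction.stabilizer K φ, α k ∈ MulAction.stabilizer K φ := by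
      intro α hα k hk
      rw [hfix] at hk ⊢
      have hβ := hAsymm α hα
      obtain ⟨β, hβdef⟩ : ∃ β : K ≃* K, β = α.symm := ⟨_, rfl⟩
      rw [← hβdef] at hβ
      have hαβ : ∀ x : K, β (α x) = x := by intro x; rw [hβdef]; exact α.symm_apply_apply x
      obtain ⟨f, hfval⟩ : ∃ f : N →* N, ∀ x : N, ((f x : N) : K) = β x :=
        ⟨(β.toMonoidHom.comp N.subtype).codRestrict N (fun x => hAN β hβ x x.2), fun x => rfl⟩
      have hfinj : Function.Injective f := by
        intro x y hxy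
        have h1 := congrArg (Subtype.val) hxy
        rw [hfval, hfval] at h1
        exact Subtype.ext (β.injective h1)
      have hfsurj : Function.Surjective f := Finite.injective_iff_surjective.mp hfinj
      have hτirr : Cfsg.IsIrrCharacter N (fun x : N => φ.1 (f x)) :=
        isIrrCharacter_comp_surj f hfsurj φ.2
      have hτr : ∀ x : N, r (f x) = r x := by
        intro x
        rw [hrx, hrx, hfval]
        exact hinv β hβ x
      have hτinner : Cfsg.classInner r (fun x : N => φ.1 (f x)) = Cfsg.classInner r φ.1 := by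
        unfold Cfsg.classInner
        congr 1
        have h1 : ∑ g : N, r g * (starRingEnd ℂ) (φ.1 (f g))
            = ∑ g : N, r (f g) * (starRingEnd ℂ) (φ.1 (f g)) := by
          apply Finset.sum_congr rfl; intro x _; rw [hτr x]
        rw [h1]
        exact Function.Bijective.sum_comp ⟨hfinj, hfsurj⟩ (fun y => r y * (starRingEnd ℂ) (φ.1 y))
      have hτne : Cfsg.classInner (fun h : N => (⟨ϑ, hϑ⟩ : Cfsg.IrrCharacter K).1 h)
          (⟨fun x : N => φ.1 (f x), hτirr⟩ : Cfsg.IrrCharacter N).1 ≠ 0 := by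
        have h1 : Cfsg.classInner r (fun x : N => φ.1 (f x)) ≠ 0 := by rw [hτinner]; exact hφ
        rw [hrdef] at h1; exact h1
      obtain ⟨y, hy⟩ := Helper7.Cliff.exists_conj_of_constituents N ⟨ϑ, hϑ⟩ φ
        ⟨fun x : N => φ.1 (f x), hτirr⟩ hφ' hτne
      have hy' : (fun x : N => φ.1 (f x)) = conjFun N φ.1 y := hy
      have htwist : conjFun N (fun x : N => φ.1 (f x)) (α k) = fun x : N => φ.1 (f x) := by
        funext x
        rw [conjFun_apply]
        have h1 : f ⟨α k * (x : K) * (α k)⁻¹, hN.conj_mem x x.2 (α k)⟩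
            = ⟨k * ((f x : N) : K) * k⁻¹, hN.conj_mem _ (f x).2 k⟩ := by
          apply Subtype.ext
          rw [hfval]
          show β (α k * (x : K) * (α k)⁻¹) = k * ((f x : N) : K) * k⁻¹
          rw [map_mul, map_mul, map_inv, hαβ, hfval]
        rw [h1]
        have h2 := congrFun hk (f x)
        rw [conjFun_apply] at h2
        exact h2
      rw [hy'] at htwist
      rw [conjFun_mul] at htwist
      have h3 : conjFun N φ.1 (y * α k * y⁻¹) = φ.1 := by
        rw [← conjFun_mul, htwist, conjFun_mul, mul_inv_cancel, conjFun_one]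
      have h4 : α k = (α k * y * (α k)⁻¹ * y⁻¹) * (y * α k * y⁻¹) := by group
      rw [h4, ← conjFun_mul, hNfix _ (hab (α k) y), h3]
    rcases hchief (MulAction.stabilizer K φ) hNI hIA with hI | hI
    · right
      have h1 : O.card = N.index := by rw [hOcard, hI]
      have hidxpos : 0 < N.index := Nat.pos_of_ne_zero (Subgroup.index_ne_zero_of_finite)
      have he1 : e = 1 := by
        rw [h1] at hcount
        have h2 : e ^ 2 = 1 := Nat.eq_of_mul_eq_mul_right hidxpos (by rw [hcount, one_mul])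
        rcases Nat.pow_eq_one.mp h2 with h | h
        · exact h
        · omega
      refine ⟨O.map ⟨Subtype.val, Subtype.val_injective⟩, ?_, ?_, ?_⟩
      · intro ψ hψ
        obtain ⟨ψ', -, rfl⟩ := Finset.mem_map.mp hψ
        exact ψ'.2
      · rw [Finset.card_map, h1]
      · rw [Finset.sum_map, hdecomp, he1]; simp
    · left
      have h1 : O.card = 1 := by rw [hOcard, hI, Subgroup.index_top]
      refine ⟨φ.1, e, φ.2, ?_, ?_⟩
      · rw [hdecomp]
        obtain ⟨a, ha⟩ := Finset.card_eq_one.mp h1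
        have hφO : φ ∈ O := by
          rw [hOdef]; exact Finset.mem_filter.mpr ⟨Finset.mem_univ _, MulAction.mem_orbit_self φ⟩
        rw [ha] at hφO
        rw [ha, Finset.sum_singleton, Finset.mem_singleton.mp hφO]
      · rw [h1, mul_one] at hcount; exact hcount
  · left
    haveI : Fintype (K ⧸ N) := Fintype.ofFinite _
    haveI : Fintype (Cfsg.IrrCharacter (K ⧸ N)) := Fintype.ofFinite _
    have hQcomm : ∀ a b : K ⧸ N, a * b = b * a := by
      intro a b
      obtain ⟨x, rfl⟩ := QuotientGroup.mk_surjective a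
      obtain ⟨y, rfl⟩ := QuotientGroup.mk_surjective b
      rw [← QuotientGroup.mk_mul, ← QuotientGroup.mk_mul, QuotientGroup.eq]
      have h := hab y⁻¹ x⁻¹
      rw [inv_inv, inv_inv] at h
      have h2 : (x * y)⁻¹ * (y * x) = y⁻¹ * x⁻¹ * y * x := by group
      rw [h2]; exact h
    have hlin : ∀ μ : Cfsg.IrrCharacter (K ⧸ N), μ.1 1 = 1 :=
      fun μ => Helper6.irr_deg_one_of_comm hQcomm μ
    have hπ : Function.Surjective (QuotientGroup.mk' N) := QuotientGroup.mk'_surjective N
    have hlamirr : ∀ μ : Cfsg.IrrCharacter (K ⧸ N),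
        Cfsg.IsIrrCharacter K (fun k : K => μ.1 (k : K ⧸ N)) :=
      fun μ => isIrrCharacter_comp_surj (QuotientGroup.mk' N) hπ μ.2
    have hlam1 : ∀ μ : Cfsg.IrrCharacter (K ⧸ N), μ.1 ((1 : K) : K ⧸ N) = 1 := by
      intro μ
      rw [QuotientGroup.mk_one]; exact hlin μ
    have htw : ∀ μ : Cfsg.IrrCharacter (K ⧸ N),
        Cfsg.IsIrrCharacter K ((fun k : K => μ.1 (k : K ⧸ N)) * ϑ) :=
      fun μ => Helper7.LT.irr_linear_twist ⟨_, hlamirr μ⟩ ⟨ϑ, hϑ⟩ (hlam1 μ)
    have hcol : ∀ q : K ⧸ N, ∑ μ : Cfsg.IrrCharacter (K ⧸ N), μ.1 q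
        = if q = 1 then (Nat.card (K ⧸ N) : ℂ) else 0 := by
      intro q
      have h1 := col_orth' q (1 : K ⧸ N)
      rw [Finset.sum_congr rfl (fun μ _ => by rw [hlin μ, map_one, mul_one])] at h1
      rw [h1]
      by_cases hq : q = 1
      · rw [if_pos hq, if_pos (by rw [hq])]
        rw [hq]
        congr 1
        have h2 : Subgroup.centralizer ({1} : Set (K ⧸ N)) = ⊤ := by
          ext x; simp [Subgroup.mem_centralizer_iff]
        rw [h2, Subgroup.card_top]
      · rw [if_neg hq, if_neg]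
        intro hc
        exact hq (isConj_one_left.mp hc)
    have hsum : ∑ μ : Cfsg.IrrCharacter (K ⧸ N),
        Cfsg.classInner ((fun k : K => μ.1 (k : K ⧸ N)) * ϑ) ϑ = Cfsg.classInner r r := by
      unfold Cfsg.classInner
      rw [← Finset.mul_sum, Finset.sum_comm]
      have h1 : ∀ k : K, ∑ μ : Cfsg.IrrCharacter (K ⧸ N),
          ((fun k : K => μ.1 (k : K ⧸ N)) * ϑ) k * (starRingEnd ℂ) (ϑ k)
          = (Nat.card (K ⧸ N) : ℂ) * (Cfsg.extendByZero N r k * (starRingEnd ℂ) (ϑ k)) := by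
        intro k
        have h2 : ∀ μ : Cfsg.IrrCharacter (K ⧸ N),
            ((fun k : K => μ.1 (k : K ⧸ N)) * ϑ) k * (starRingEnd ℂ) (ϑ k)
            = μ.1 (k : K ⧸ N) * (ϑ k * (starRingEnd ℂ) (ϑ k)) := by
          intro μ; rw [Pi.mul_apply, mul_assoc]
        rw [Finset.sum_congr rfl (fun μ _ => h2 μ), ← Finset.sum_mul, hcol]
        by_cases hk : k ∈ N
        · rw [if_pos ((QuotientGroup.eq_one_iff k).mpr hk), extendByZero_mem' N r hk, hrx]
        · rw [if_neg (fun h => hk ((QuotientGroup.eq_one_iff k).mp h)),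
            extendByZero_not_mem N r hk]; ring
      rw [Finset.sum_congr rfl (fun k _ => h1 k), ← Finset.mul_sum,
        sum_extendByZero_mul N r (fun k => (starRingEnd ℂ) (ϑ k))]
      have h3 : ∑ h : N, r h * (starRingEnd ℂ) (ϑ h) = ∑ g : N, r g * (starRingEnd ℂ) (r g) := by
        apply Finset.sum_congr rfl; intro x _; rw [hrx x]
      rw [h3, ← mul_assoc]
      congr 1
      have h4 : (Nat.card K : ℂ) = (Nat.card N : ℂ) * (Nat.card (K ⧸ N) : ℂ) := by
        rw [← Subgroup.index_eq_card, ← hidx]; push_cast; ring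
      rw [h4]
      have hQne : (Nat.card (K ⧸ N) : ℂ) ≠ 0 := by exact_mod_cast Nat.card_pos.ne'
      field_simp
    have hkey : ∀ μ : Cfsg.IrrCharacter (K ⧸ N), (fun k : K => μ.1 (k : K ⧸ N)) * ϑ = ϑ →
        μ = ⟨fun _ => 1, isIrrCharacter_one⟩ := by
      intro μ heq
      obtain ⟨φh, hφh⟩ : ∃ φh : K →* ℂ, ∀ k : K, φh k = μ.1 (k : K ⧸ N) :=
        ⟨{ toFun := fun k : K => μ.1 (k : K ⧸ N), map_one' := hlam1 μ,
           map_mul' := Helper7.irr_linear_mul ⟨_, hlamirr μ⟩ (hlam1 μ) }, fun k => rfl⟩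
      have hT : T ⊆ φh.ker := by
        intro k hk
        rw [hTdef] at hk
        show k ∈ φh.ker
        rw [MonoidHom.mem_ker, hφh]
        rcases hk with hk | hk
        · rw [(QuotientGroup.eq_one_iff k).mpr hk]; exact hlin μ
        · have h1 := congrFun heq k
          rw [Pi.mul_apply] at h1
          exact mul_right_cancel₀ hk (by rw [h1, one_mul])
      have hall : ∀ k : K, μ.1 (k : K ⧸ N) = 1 := by
        intro k
        have h1 : k ∈ φh.ker := by
          have h2 : Subgroup.closure T ≤ φh.ker := (Subgroup.closure_le _).mpr hT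
          rw [hM1] at h2
          exact h2 (Subgroup.mem_top k)
        rw [← hφh]
        exact MonoidHom.mem_ker.mp h1
      apply Subtype.ext
      funext q
      obtain ⟨k, rfl⟩ := QuotientGroup.mk_surjective q
      exact hall k
    have hone : Cfsg.classInner r r = 1 := by
      rw [← hsum, Finset.sum_eq_single (⟨fun _ => 1, isIrrCharacter_one⟩ : Cfsg.IrrCharacter (K ⧸ N))]
      · have h1 : (fun k : K => (⟨fun _ => 1, isIrrCharacter_one⟩ : Cfsg.IrrCharacter (K ⧸ N)).1
            (k : K ⧸ N)) * ϑ = ϑ := by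
          funext k; show (1 : ℂ) * ϑ k = ϑ k; rw [one_mul]
        rw [h1]
        exact irr_inner_self (⟨ϑ, hϑ⟩ : Cfsg.IrrCharacter K)
      · intro μ _ hne
        have h6 : (⟨_, htw μ⟩ : Cfsg.IrrCharacter K) ≠ ⟨ϑ, hϑ⟩ := by
          intro h
          exact hne (hkey μ (congrArg Subtype.val h))
        exact irr_inner_ne (χ := (⟨_, htw μ⟩ : Cfsg.IrrCharacter K)) (ψ := ⟨ϑ, hϑ⟩) h6
      · intro h; exact absurd (Finset.mem_univ _) h
    exact isIrrCharacter_of_norm_one hrchar hone

/-- Let L < K be normal subgroups of the finite group G with no normal subgroup of G strictly between them and with K / L abelian (the commutator subgroup of K lies in L). Let ϑ be an irreducible character of K invariant under conjugation by G. Then the restriction of ϑ to L is irreducible; or it equals e times an irreducible character of L with e ^ 2 equal to the index of L in K; or it is the sum of a family of pairwise distinct irreducible characters of L indexed by a set whose size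 is the index of L in K. -/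
theorem result {G : Type*} [Group G] [Fintype G] (K L : Subgroup G) [hK : K.Normal] [L.Normal] (hLK : L < K) (hchief : ∀ M : Subgroup G, M.Normal → L ≤ M → M ≤ K → M = L ∨ M = K) (hab : ⁅K, K⁆ ≤ L) (ϑ : K → ℂ) (hϑ : Cfsg.IsIrrCharacter K ϑ) (hinv : ∀ (g : G) (n : K), ϑ ⟨g * n * g⁻¹, hK.conj_mem (n : G) n.2 g⟩ = ϑ n) : Cfsg.IsIrrCharacter L (fun x : L => ϑ ⟨(x : G), hLK.le x.2⟩) ∨ (∃ (φ : L → ℂ) (e : ℕ), Cfsg.IsIrrCharacter L φ ∧ (fun x : L => ϑ ⟨(x : G), hLK.le x.2⟩) = (e : ℂ) • φ ∧ e ^ 2 = L.relIndex K) ∨ (∃ F : Finset (L → ℂ), (∀ φ ∈ F, Cfsg.IsIrrCharacter L φ) ∧ F.card = L.relIndex K ∧ (fun x : L => ϑ ⟨(x : G), hLK.le x.2⟩) = ∑ φ ∈ F, φ) := by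
  classical
  haveI : Fintype K := Fintype.ofFinite K
  haveI : Fintype (L.subgroupOf K) := Fintype.ofFinite _
  have hLn : L.Normal := inferInstance
  obtain ⟨A, hAdef⟩ : ∃ A : Set (K ≃* K),
      A = Set.range (fun g : G => (MulAut.conjNormal g : K ≃* K)) := ⟨_, rfl⟩
  have hAsymm : ∀ α ∈ A, α.symm ∈ A := by
    rw [hAdef]
    rintro _ ⟨g, rfl⟩
    refine ⟨g⁻¹, ?_⟩
    show MulAut.conjNormal g⁻¹ = (MulAut.conjNormal g)⁻¹
    rw [map_inv]
  have hAcoe : ∀ (g : G) (k : K), (((MulAut.conjNormal g : K ≃* K) k : K) : G) = g * k * g⁻¹ :=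
    fun g k => MulAut.conjNormal_apply g k
  have hAN : ∀ α ∈ A, ∀ x ∈ L.subgroupOf K, α x ∈ L.subgroupOf K := by
    rw [hAdef]
    rintro _ ⟨g, rfl⟩ x hx
    rw [Subgroup.mem_subgroupOf] at hx ⊢
    rw [hAcoe]
    exact hLn.conj_mem _ hx g
  have hab' : ∀ a b : K, a * b * a⁻¹ * b⁻¹ ∈ L.subgroupOf K := by
    intro a b
    rw [Subgroup.mem_subgroupOf]
    apply hab
    have h1 : ((a * b * a⁻¹ * b⁻¹ : K) : G) = ⁅(a : G), (b : G)⁆ := by
      rw [commutatorElement_def]; simp
    rw [h1]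
    exact Subgroup.commutator_mem_commutator a.2 b.2
  have hinv' : ∀ α ∈ A, ∀ k, ϑ (α k) = ϑ k := by
    rw [hAdef]
    rintro _ ⟨g, rfl⟩ k
    have h1 := hinv g k
    rw [← h1]
    exact congrArg ϑ (Subtype.ext (hAcoe g k))
  have hchief' : ∀ M : Subgroup K, L.subgroupOf K ≤ M → (∀ α ∈ A, ∀ x ∈ M, α x ∈ M) →
      M = L.subgroupOf K ∨ M = ⊤ := by
    intro M hLM hMA
    have hMn : (M.map K.subtype).Normal := by
      constructor
      rintro _ ⟨m, hm, rfl⟩ g
      refine ⟨(MulAut.conjNormal g : K ≃* K) m, hMA _ (by rw [hAdef]; exact ⟨g, rfl⟩) m hm, ?_⟩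
      exact hAcoe g m
    have hLM' : L ≤ M.map K.subtype := by
      intro l hl
      exact ⟨⟨l, hLK.le hl⟩, hLM (Subgroup.mem_subgroupOf.mpr hl), rfl⟩
    have hMK : M.map K.subtype ≤ K := by
      rintro _ ⟨m, -, rfl⟩
      exact m.2
    rcases hchief (M.map K.subtype) hMn hLM' hMK with h | h
    · left
      apply le_antisymm _ hLM
      intro m hm
      rw [Subgroup.mem_subgroupOf, ← h]
      exact ⟨m, hm, rfl⟩
    · right
      rw [eq_top_iff]
      intro k _
      have hk : (k : G) ∈ M.map K.subtype := by rw [h]; exact k.2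
      obtain ⟨m, hm, hmk⟩ := hk
      have h2 : m = k := Subtype.ext hmk
      rw [← h2]; exact hm
  have haux := going_down_aux (L.subgroupOf K) hab' A hAsymm hAN ϑ hϑ hinv' hchief'
  obtain ⟨ε, hεdef⟩ : ∃ ε : L ≃* L.subgroupOf K, ε = (Subgroup.subgroupOfEquivOfLe hLK.le).symm :=
    ⟨_, rfl⟩
  have htr : ∀ f : L.subgroupOf K → ℂ, Cfsg.IsIrrCharacter (L.subgroupOf K) f →
      Cfsg.IsIrrCharacter L (fun x : L => f (ε x)) :=
    fun f hf => isIrrCharacter_comp_surj ε.toMonoidHom ε.surjective hf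
  have hres : (fun x : L => ϑ ⟨(x : G), hLK.le x.2⟩)
      = fun x : L => (fun y : L.subgroupOf K => ϑ y) (ε x) := by
    funext x; rw [hεdef]; rfl
  rcases haux with h | ⟨φ, e, hφ, hreq, he⟩ | ⟨F, hF, hFc, hFs⟩
  · left
    rw [hres]
    exact htr _ h
  · right; left
    refine ⟨fun x : L => φ (ε x), e, htr φ hφ, ?_, ?_⟩
    · rw [hres]
      funext x
      exact congrFun hreq (ε x)
    · rw [he]; rfl
  · right; right
    obtain ⟨emb, hemb⟩ : ∃ emb : (L.subgroupOf K → ℂ) ↪ (L → ℂ),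
        ∀ f, emb f = fun x : L => f (ε x) := by
      refine ⟨⟨fun f => fun x : L => f (ε x), ?_⟩, fun f => rfl⟩
      intro f1 f2 h
      funext y
      have h1 := congrFun h (ε.symm y)
      simpa using h1
    refine ⟨F.map emb, ?_, ?_, ?_⟩
    · intro φ hφ
      obtain ⟨f, hf, rfl⟩ := Finset.mem_map.mp hφ
      rw [hemb]
      exact htr f (hF f hf)
    · rw [Finset.card_map, hFc]; rfl
    · rw [Finset.sum_map, hres]
      funext x
      have h1 := congrFun hFs (ε x)
      rw [Finset.sum_apply] at h1 ⊢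
      refine h1.trans ?_
      apply Finset.sum_congr rfl
      intro f _
      rw [hemb]

end Cfsg.Agent.S0857
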