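import Cfsg.Statements.S0208
import Mathlib
import Cfsg.Agent.Lib.Lead.Dihedral
-- import your own Cfsg.Agent.* helpers here

set_option autoImplicit false
open Cfsg

namespace Cfsg.Agent.S0208

/-- If x, y are involutions and xy has odd order, then some element of the subgroup generated by x and y conjugates x to y. -/
theorem result {G : Type*} [Group G] [Finite G] (x y : G) (hx : orderOf x = 2) (hy : orderOf y = 2) (hodd : Odd (orderOf (x * y))) : ∃ d ∈ Subgroup.closure ({x, y} : Set G), d * x * d⁻¹ = y := by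
  obtain ⟨k, hk⟩ := hodd
  refine ⟨(x * y) ^ (k : ℤ), Cfsg.Agent.Lib.Lead.zpow_mem_closure_pair x y k, ?_⟩
  have h1 : (x * y) ^ (k : ℤ) * x * ((x * y) ^ (k : ℤ))⁻¹ = (x * y) ^ (2 * (k : ℤ)) * x := by
    rw [mul_assoc, ← zpow_neg, Cfsg.Agent.Lib.Lead.invol_mul_zpow hx hy, neg_neg, ← mul_assoc, ← zpow_add, two_mul]
  rw [h1]
  have h2 : (x * y) ^ (2 * (k : ℤ)) = (x * y) ^ (-1 : ℤ) := by
    have h3 : (x * y) ^ (2 * (k : ℤ) + 1) = 1 := by
      have : (2 * (k : ℤ) + 1) = ((orderOf (x * y) : ℕ) : ℤ) := by rw [hk]; push_cast; ring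
      rw [this, zpow_natCast, pow_orderOf_eq_one]
    rw [zpow_add, zpow_one] at h3
    rw [zpow_neg, zpow_one]
    exact eq_inv_of_mul_eq_one_left h3
  rw [h2]
  exact (Cfsg.Agent.Lib.Lead.invol_snd_eq hx hy).symm

end Cfsg.Agent.S0208
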