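import Cfsg.Statements.S0209
import Mathlib
import Cfsg.Agent.Lib.Lead.Dihedral
-- import your own Cfsg.Agent.* helpers here

set_option autoImplicit false
open Cfsg

namespace Cfsg.Agent.S0209

/-- If x, y are involutions whose product has even order n, the element (xy)^(n/2) is an involution that commutes with x and with y. -/
theorem result {G : Type*} [Group G] [Finite G] (x y : G) (hx : orderOf x = 2) (hy : orderOf y = 2) (heven : Even (orderOf (x * y))) : orderOf ((x * y) ^ (orderOf (x * y) / 2)) = 2 ∧ Commute ((x * y) ^ (orderOf (x * y) / 2)) x ∧ Commute ((x * y) ^ (orderOf (x * y) / 2)) y := by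
  have hn0 : orderOf (x * y) ≠ 0 := (orderOf_pos _).ne'
  have h2dvd : 2 ∣ orderOf (x * y) := heven.two_dvd
  have ho : orderOf ((x * y) ^ (orderOf (x * y) / 2)) = 2 := orderOf_pow_orderOf_div hn0 h2dvd
  have hzi := Cfsg.Agent.Lib.Lead.inv_eq_self_of_orderOf_eq_two ho
  have hcx : Commute ((x * y) ^ (orderOf (x * y) / 2)) x := by
    show (x * y) ^ (orderOf (x * y) / 2) * x = x * (x * y) ^ (orderOf (x * y) / 2)
    have h := Cfsg.Agent.Lib.Lead.invol_mul_zpow hx hy ((orderOf (x * y) / 2 : ℕ) : ℤ)
    rw [zpow_neg, zpow_natCast, hzi] at h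
    exact h.symm
  refine ⟨ho, hcx, ?_⟩
  have hca : Commute ((x * y) ^ (orderOf (x * y) / 2)) (x * y) := (Commute.refl _).pow_left _
  have hy' : Commute ((x * y) ^ (orderOf (x * y) / 2)) (x⁻¹ * (x * y)) := hcx.inv_right.mul_right hca
  simpa using hy'

end Cfsg.Agent.S0209
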