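import Cfsg.Statements.S0001
import Mathlib
import Cfsg.Agent.Lib.Lead.SZ4
-- import your own Cfsg.Agent.* helpers here

set_option autoImplicit false
open Pointwise
open Cfsg

namespace Cfsg.Agent.S0001

/-- Conjugacy half of the Schur–Zassenhaus Theorem, under a solvability assumption on the normal Hall subgroup or on its quotient. -/
theorem result {G : Type*} [Group G] [Finite G] (N : Subgroup G) [N.Normal]
    (hN : (Nat.card N).Coprime N.index) (hsolv : Group.IsSolvable N ∨ Group.IsSolvable (G ⧸ N))
    (H K : Subgroup G) (hH : Subgroup.IsComplement' N H) (hK : Subgroup.IsComplement' N K) :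
    ∃ g : G, MulAut.conj g • H = K := by
  have hcard := hH.card_mul_card
  have hHidx := hH.symm.index_eq_card
  have hKidx := hK.symm.index_eq_card
  have hsolv' : Group.IsSolvable N ∨ Group.IsSolvable H := by
    rcases hsolv with h | h
    · exact Or.inl h
    · right
      haveI := h
      apply Group.isSolvable_of_isSolvable_injective (f := (QuotientGroup.mk' N).comp H.subtype)
      rw [injective_iff_map_eq_one]
      intro x hx
      have h1 : (x : G) ∈ N := (QuotientGroup.eq_one_iff (x : G)).mp hx
      have h2 : (x : G) ∈ N ⊓ H := ⟨h1, x.2⟩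
      rw [hH.disjoint.eq_bot, Subgroup.mem_bot] at h2
      exact Subtype.ext h2
  exact Cfsg.Agent.Lib.Lead.sz_conj_all _ G rfl N H K inferInstance hcard (by rw [← hHidx, ← hKidx])
    (by rw [← hHidx]; exact hN) hsolv'

end Cfsg.Agent.S0001
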