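import Cfsg.Statements.S0007
import Mathlib
-- import your own Cfsg.Agent.* helpers here

set_option autoImplicit false
open Cfsg

namespace Cfsg.Agent.S0007

/-- Subgroups of coprime index: the intersection has index equal to the product of the indices, and every element is a product of an element of the first subgroup and an element of the second. -/
theorem result {G : Type*} [Group G] [Finite G] (H K : Subgroup G)
    (h : H.index.Coprime K.index) :
    (H ⊓ K).index = H.index * K.index ∧ ∀ g : G, ∃ x ∈ H, ∃ y ∈ K, g = x * y := by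
  have hdvd : H.index * K.index ∣ (H ⊓ K).index :=
    Nat.Coprime.mul_dvd_of_dvd_of_dvd h (Subgroup.index_dvd_of_le inf_le_left) (Subgroup.index_dvd_of_le inf_le_right)
  have hpos : 0 < (H ⊓ K).index := Nat.pos_of_ne_zero Subgroup.index_ne_zero_of_finite
  have hidx : (H ⊓ K).index = H.index * K.index :=
    Nat.le_antisymm Subgroup.index_inf_le (Nat.le_of_dvd hpos hdvd)
  refine ⟨hidx, ?_⟩
  have hrel : H.relIndex K = H.index := by
    have h1 : (H ⊓ K).relIndex K * K.index = (H ⊓ K).index := Subgroup.relIndex_mul_index inf_le_right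
    rw [Subgroup.inf_relIndex_right, hidx] at h1
    exact Nat.eq_of_mul_eq_mul_right (Nat.pos_of_ne_zero Subgroup.index_ne_zero_of_finite) h1
  have hstab : MulAction.stabilizer K ((1 : G) : G ⧸ H) = H.subgroupOf K := by
    ext k
    rw [MulAction.mem_stabilizer_iff, Subgroup.mem_subgroupOf]
    constructor
    · intro hk
      have h1 : (((k : G) * 1 : G) : G ⧸ H) = ((1 : G) : G ⧸ H) := hk
      rw [mul_one, QuotientGroup.eq] at h1
      have h2 := H.inv_mem h1
      simpa using h2
    · intro hk
      show (((k : G) * 1 : G) : G ⧸ H) = ((1 : G) : G ⧸ H)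
      rw [mul_one, QuotientGroup.eq]
      simpa using H.inv_mem hk
  have hcard : Nat.card (MulAction.orbit K ((1 : G) : G ⧸ H)) = Nat.card (G ⧸ H) := by
    rw [Nat.card_congr (MulAction.orbitEquivQuotientStabilizer K ((1 : G) : G ⧸ H)), hstab,
      ← Subgroup.index_eq_card, ← Subgroup.index_eq_card]
    exact hrel
  have hbij := (Subtype.val_injective (p := fun q => q ∈ MulAction.orbit K ((1 : G) : G ⧸ H))).bijective_of_nat_card_le hcard.ge
  intro g
  obtain ⟨⟨q, hq⟩, hq2⟩ := hbij.2 ((g⁻¹ : G) : G ⧸ H)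
  obtain ⟨k, hk⟩ := hq
  have h1 : (((k : G) * 1 : G) : G ⧸ H) = ((g⁻¹ : G) : G ⧸ H) := by
    have : k • ((1 : G) : G ⧸ H) = ((g⁻¹ : G) : G ⧸ H) := hk.trans hq2
    exact this
  rw [mul_one, QuotientGroup.eq] at h1
  refine ⟨g * k, ?_, (k : G)⁻¹, K.inv_mem k.2, by group⟩
  have h2 := H.inv_mem h1
  simpa using h2

end Cfsg.Agent.S0007
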