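import Cfsg.Statements.S0011
import Mathlib
import Cfsg.Agent.Lib.Lead.FrattiniNil
-- import your own Cfsg.Agent.* helpers here

set_option autoImplicit false
open Cfsg

namespace Cfsg.Agent.S0011

/-- If the Frattini quotient of a finite group is nilpotent then the group is nilpotent. -/
theorem result {G : Type*} [Group G] [Finite G]
    (h : Group.IsNilpotent (G ⧸ frattini G)) : Group.IsNilpotent G := by
  haveI := h
  have e : (⊤ : Subgroup G).map (QuotientGroup.mk' (frattini G)) = ⊤ :=
    Subgroup.map_top_of_surjective _ (QuotientGroup.mk'_surjective _)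
  have h1 : Group.IsNilpotent ↥(⊤ : Subgroup (G ⧸ frattini G)) :=
    Group.nilpotent_of_mulEquiv Subgroup.topEquiv.symm
  rw [← e] at h1
  haveI := Cfsg.Agent.Lib.Lead.isNilpotent_of_frattini_quotient (⊤ : Subgroup G) le_top h1
  exact Group.nilpotent_of_mulEquiv Subgroup.topEquiv

end Cfsg.Agent.S0011
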