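import Cfsg.Statements.S0015
import Mathlib
import Cfsg.Agent.Lib.Lead.Nilpotent
-- import your own Cfsg.Agent.* helpers here

set_option autoImplicit false
open Cfsg

namespace Cfsg.Agent.S0015

/-- In a finite nilpotent group, an abelian normal subgroup that is maximal among abelian normal subgroups equals its own centralizer. -/
theorem result {G : Type*} [Group G] [Finite G] [Group.IsNilpotent G]
    (N : Subgroup G) [N.Normal] [IsMulCommutative N]
    (hmax : ∀ M : Subgroup G, M.Normal → IsMulCommutative M → N ≤ M → M = N) :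
    Subgroup.centralizer (N : Set G) = N := by
  classical
  have hNC : N ≤ Subgroup.centralizer (N : Set G) := Subgroup.le_centralizer_iff_isMulCommutative.mpr inferInstance
  apply le_antisymm _ hNC
  by_contra hnot
  have hCn : (Subgroup.centralizer (N : Set G)).Normal := inferInstance
  have hCbar : (Subgroup.centralizer (N : Set G)).map (QuotientGroup.mk' N) ≠ ⊥ := by
    intro h
    apply hnot
    intro c hc
    have h1 : QuotientGroup.mk' N c ∈ (Subgroup.centralizer (N : Set G)).map (QuotientGroup.mk' N) := ⟨c, hc, rfl⟩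
    rw [h, Subgroup.mem_bot] at h1
    exact (QuotientGroup.eq_one_iff c).mp h1
  have hnormal : ((Subgroup.centralizer (N : Set G)).map (QuotientGroup.mk' N)).Normal :=
    Subgroup.Normal.map hCn _ (QuotientGroup.mk'_surjective N)
  have h1 := Cfsg.Agent.Lib.Lead.normal_inf_center_ne_bot _ hCbar
  obtain ⟨⟨y, hyC, hyZ⟩, hy1⟩ := Subgroup.ne_bot_iff_exists_ne_one.mp h1
  obtain ⟨x, hxC, rfl⟩ := hyC
  have hxN : x ∉ N := by
    intro hx
    apply hy1
    apply Subtype.ext
    exact (QuotientGroup.eq_one_iff x).mpr hx
  have hcomm : IsMulCommutative (Subgroup.closure ((N : Set G) ∪ {x})) := by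
    apply Subgroup.isMulCommutative_closure
    rintro a (ha | ha) b (hb | hb)
    · exact (hNC hb a ha)
    · rw [Set.mem_singleton_iff] at hb; subst hb
      exact hxC a ha
    · rw [Set.mem_singleton_iff] at ha; subst ha
      exact (hxC b hb).symm
    · rw [Set.mem_singleton_iff] at ha hb; rw [ha, hb]
  have hNM : N ≤ Subgroup.closure ((N : Set G) ∪ {x}) := fun n hn => Subgroup.subset_closure (Or.inl hn)
  have hxM : x ∈ Subgroup.closure ((N : Set G) ∪ {x}) := Subgroup.subset_closure (Or.inr rfl)
  have hMn : (Subgroup.closure ((N : Set G) ∪ {x})).Normal := by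
    constructor
    intro m hm g
    induction hm using Subgroup.closure_induction with
    | mem z hz =>
      rcases hz with hz | hz
      · exact hNM (‹N.Normal›.conj_mem z hz g)
      · rw [Set.mem_singleton_iff] at hz; subst hz
        have hc : QuotientGroup.mk' N (g * z * g⁻¹) = QuotientGroup.mk' N z := by
          rw [map_mul, map_mul, map_inv]
          have := Subgroup.mem_center_iff.mp hyZ (QuotientGroup.mk' N g)
          rw [this, mul_inv_cancel_right]
        have hmem : z⁻¹ * (g * z * g⁻¹) ∈ N := by
          rw [← QuotientGroup.eq_one_iff]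
          show QuotientGroup.mk' N (z⁻¹ * (g * z * g⁻¹)) = 1
          rw [map_mul, hc, map_inv, inv_mul_cancel]
        have : g * z * g⁻¹ = z * (z⁻¹ * (g * z * g⁻¹)) := by group
        rw [this]
        exact Subgroup.mul_mem _ hxM (hNM hmem)
    | one => simp
    | mul a b _ _ iha ihb =>
      have : g * (a * b) * g⁻¹ = (g * a * g⁻¹) * (g * b * g⁻¹) := by group
      rw [this]; exact Subgroup.mul_mem _ iha ihb
    | inv a _ iha =>
      have : g * a⁻¹ * g⁻¹ = (g * a * g⁻¹)⁻¹ := by group
      rw [this]; exact Subgroup.inv_mem _ iha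
  have := hmax _ hMn hcomm hNM
  rw [this] at hxM
  exact hxN hxM

end Cfsg.Agent.S0015
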