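import Cfsg.Statements.S0020
import Mathlib
import Cfsg.Agent.Lib.Lead.Hall
-- import your own Cfsg.Agent.* helpers here

set_option autoImplicit false
open Pointwise
open Cfsg

namespace Cfsg.Agent.S0020

/-- A finite solvable group admits a Sylow system: Sylow subgroups, one for each prime, that pairwise permute as sets. -/
theorem result {G : Type*} [Group G] [Finite G] [Group.IsSolvable G] :
    ∃ S : (p : Nat.Primes) → Sylow (p : ℕ) G,
      ∀ p q : Nat.Primes, (S p : Set G) * (S q : Set G) = (S q : Set G) * (S p : Set G) := by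
  classical
  have hn0 : Nat.card G ≠ 0 := Nat.card_pos.ne'
  have hex : ∀ q : ℕ, ∃ H : Subgroup G, q.Prime → H.index = q ^ (Nat.card G).factorization q := by
    intro q
    by_cases hq : q.Prime
    · have h1 : Nat.card G = (Nat.card G / q ^ (Nat.card G).factorization q) * q ^ (Nat.card G).factorization q := by
        have := Nat.ordProj_mul_ordCompl_eq_self (Nat.card G) q
        rw [mul_comm] at this
        exact this.symm
      have h2 : (Nat.card G / q ^ (Nat.card G).factorization q).Coprime (q ^ (Nat.card G).factorization q) :=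
        (Nat.Coprime.pow_left _ (Nat.coprime_ordCompl hq hn0)).symm
      obtain ⟨H, hH, -⟩ := Cfsg.Agent.Lib.Lead.hallD_all _ G rfl _ _ h1 h2 ⊥ (by simp)
      refine ⟨H, fun _ => ?_⟩
      have h3 := Subgroup.card_mul_index H
      rw [hH] at h3
      have h4 : 0 < Nat.card G / q ^ (Nat.card G).factorization q := by
        rcases Nat.eq_zero_or_pos (Nat.card G / q ^ (Nat.card G).factorization q) with h | h
        · rw [h, zero_mul] at h1; exact absurd h1 hn0
        · exact h
      exact Nat.eq_of_mul_eq_mul_left h4 (h3.trans h1)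
    · exact ⟨⊤, fun h => absurd h hq⟩
  choose H hH using hex
  -- index of an intersection
  have hidx : ∀ T : Finset ℕ, (∀ q ∈ T, q.Prime) →
      (⨅ q ∈ T, H q).index = ∏ q ∈ T, q ^ (Nat.card G).factorization q := by
    intro T
    induction T using Finset.induction_on with
    | empty => intro _; simp
    | insert a T ha ih =>
      intro hT
      rw [Finset.iInf_insert, Finset.prod_insert ha]
      have ihT := ih (fun q hq => hT q (Finset.mem_insert_of_mem hq))
      have hap : a.Prime := hT a (Finset.mem_insert_self a T)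
      have hcop : (H a).index.Coprime (⨅ q ∈ T, H q).index := by
        rw [hH a hap, ihT]
        apply Nat.Coprime.prod_right
        intro q hq
        have hqp : q.Prime := hT q (Finset.mem_insert_of_mem hq)
        apply Nat.coprime_pow_primes _ _ hap hqp
        rintro rfl
        exact ha hq
      have hdvd : (H a).index * (⨅ q ∈ T, H q).index ∣ (H a ⊓ ⨅ q ∈ T, H q).index :=
        Nat.Coprime.mul_dvd_of_dvd_of_dvd hcop (Subgroup.index_dvd_of_le inf_le_left)
          (Subgroup.index_dvd_of_le inf_le_right)
      have hpos : 0 < (H a ⊓ ⨅ q ∈ T, H q).index := Nat.pos_of_ne_zero Subgroup.index_ne_zero_of_finite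
      rw [Nat.le_antisymm Subgroup.index_inf_le (Nat.le_of_dvd hpos hdvd), hH a hap, ihT]
  have hprod : ∏ q ∈ (Nat.card G).primeFactors, q ^ (Nat.card G).factorization q = Nat.card G :=
    (Nat.prod_primeFactors_pow_factorization hn0).symm
  have hP : ∀ q ∈ (Nat.card G).primeFactors, q.Prime := fun q hq => Nat.prime_of_mem_primeFactors hq
  -- erase formula
  have herase : ∀ (T : Finset ℕ) (p : ℕ), (∀ q ∈ T, q ∈ (Nat.card G).primeFactors) → (p ∉ T → (Nat.card G).factorization p = 0 ∨ True) →
      p ^ (if p ∈ T then (Nat.card G).factorization p else 0) * ∏ q ∈ T.erase p, q ^ (Nat.card G).factorization q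
        = ∏ q ∈ T, q ^ (Nat.card G).factorization q := by
    intro T p _ _
    by_cases hp : p ∈ T
    · rw [if_pos hp, Finset.mul_prod_erase T (fun q => q ^ (Nat.card G).factorization q) hp]
    · rw [if_neg hp, Finset.erase_eq_of_notMem hp, pow_zero, one_mul]
  have hfac0 : ∀ p : ℕ, p ∉ (Nat.card G).primeFactors → (Nat.card G).factorization p = 0 := by
    intro p hp
    rw [← Nat.support_factorization] at hp
    exact Finsupp.notMem_support_iff.mp hp
  -- the Sylow subgroups
  have hcardS : ∀ p : ℕ, p.Prime →
      Nat.card ↥(⨅ q ∈ (Nat.card G).primeFactors.erase p, H q) = p ^ (Nat.card G).factorization p := by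
    intro p hp
    have h1 := Subgroup.card_mul_index (⨅ q ∈ (Nat.card G).primeFactors.erase p, H q)
    rw [hidx _ (fun q hq => hP q (Finset.mem_of_mem_erase hq))] at h1
    have h2 := herase (Nat.card G).primeFactors p (fun q hq => hq) (fun _ => Or.inr trivial)
    rw [hprod] at h2
    have h3 : (if p ∈ (Nat.card G).primeFactors then (Nat.card G).factorization p else 0) = (Nat.card G).factorization p := by
      split_ifs with h
      · rfl
      · exact (hfac0 p h).symm
    rw [h3] at h2
    have hpos : 0 < ∏ q ∈ (Nat.card G).primeFactors.erase p, q ^ (Nat.card G).factorization q :=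
      Finset.prod_pos (fun q hq => pow_pos (hP q (Finset.mem_of_mem_erase hq)).pos _)
    exact Nat.eq_of_mul_eq_mul_right hpos (h1.trans h2.symm)
  refine ⟨fun p => by
    haveI : Fact (p : ℕ).Prime := ⟨p.2⟩
    exact Sylow.ofCard (⨅ q ∈ (Nat.card G).primeFactors.erase (p : ℕ), H q) (hcardS p p.2), ?_⟩
  intro p q
  by_cases hpq : p = q
  · subst hpq; rfl
  · have hpq' : (p : ℕ) ≠ (q : ℕ) := fun h => hpq (Subtype.ext h)
    show ((⨅ r ∈ (Nat.card G).primeFactors.erase (p : ℕ), H r : Subgroup G) : Set G) * ((⨅ r ∈ (Nat.card G).primeFactors.erase (q : ℕ), H r : Subgroup G) : Set G)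
      = ((⨅ r ∈ (Nat.card G).primeFactors.erase (q : ℕ), H r : Subgroup G) : Set G) * ((⨅ r ∈ (Nat.card G).primeFactors.erase (p : ℕ), H r : Subgroup G) : Set G)
    set Sp := (⨅ r ∈ (Nat.card G).primeFactors.erase (p : ℕ), H r : Subgroup G) with hSp
    set Sq := (⨅ r ∈ (Nat.card G).primeFactors.erase (q : ℕ), H r : Subgroup G) with hSq
    set T := (⨅ r ∈ ((Nat.card G).primeFactors.erase (p : ℕ)).erase (q : ℕ), H r : Subgroup G) with hT
    have hSpT : Sp ≤ T := by
      rw [hSp, hT]
      exact biInf_mono (fun r hr => Finset.mem_of_mem_erase hr)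
    have hSqT : Sq ≤ T := by
      rw [hSq, hT]
      refine biInf_mono (fun r hr => ?_)
      rw [Finset.mem_erase] at hr ⊢
      exact ⟨hr.1, Finset.mem_of_mem_erase hr.2⟩
    have hcT : Nat.card T = (p : ℕ) ^ (Nat.card G).factorization p * (q : ℕ) ^ (Nat.card G).factorization q := by
      have h1 := Subgroup.card_mul_index T
      rw [hT, hidx _ (fun r hr => hP r (Finset.mem_of_mem_erase (Finset.mem_of_mem_erase hr)))] at h1
      have h2 := herase ((Nat.card G).primeFactors.erase (p : ℕ)) q (fun r hr => Finset.mem_of_mem_erase hr) (fun _ => Or.inr trivial)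
      have h3 := herase (Nat.card G).primeFactors p (fun r hr => hr) (fun _ => Or.inr trivial)
      rw [hprod] at h3
      have e1 : (if (p : ℕ) ∈ (Nat.card G).primeFactors then (Nat.card G).factorization p else 0) = (Nat.card G).factorization p := by
        split_ifs with h
        · rfl
        · exact (hfac0 p h).symm
      have e2 : (if (q : ℕ) ∈ (Nat.card G).primeFactors.erase (p : ℕ) then (Nat.card G).factorization q else 0) = (Nat.card G).factorization q := by
        split_ifs with h
        · rfl
        · have : (q : ℕ) ∉ (Nat.card G).primeFactors := fun h' => h (Finset.mem_erase.mpr ⟨fun e => hpq' e.symm, h'⟩)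
          exact (hfac0 q this).symm
      rw [e1] at h3
      rw [e2] at h2
      have hpos : 0 < ∏ r ∈ ((Nat.card G).primeFactors.erase (p : ℕ)).erase (q : ℕ), r ^ (Nat.card G).factorization r :=
        Finset.prod_pos (fun r hr => pow_pos (hP r (Finset.mem_of_mem_erase (Finset.mem_of_mem_erase hr))).pos _)
      apply Nat.eq_of_mul_eq_mul_right hpos
      rw [h1, mul_assoc, h2, h3]
    have hcop : ((p : ℕ) ^ (Nat.card G).factorization p).Coprime ((q : ℕ) ^ (Nat.card G).factorization q) :=
      Nat.coprime_pow_primes _ _ p.2 q.2 hpq'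
    have hc1 : Subgroup.IsComplement' (Sp.subgroupOf T) (Sq.subgroupOf T) := by
      apply Subgroup.isComplement'_of_coprime
      · rw [Cfsg.Agent.Lib.Lead.card_subgroupOf_of_le hSpT, Cfsg.Agent.Lib.Lead.card_subgroupOf_of_le hSqT,
          hcardS p p.2, hcardS q q.2, hcT]
      · rw [Cfsg.Agent.Lib.Lead.card_subgroupOf_of_le hSpT, Cfsg.Agent.Lib.Lead.card_subgroupOf_of_le hSqT,
          hcardS p p.2, hcardS q q.2]
        exact hcop
    have key : ∀ X Y : Subgroup G, X ≤ T → Y ≤ T → Subgroup.IsComplement' (X.subgroupOf T) (Y.subgroupOf T) →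
        (X : Set G) * (Y : Set G) = (T : Set G) := by
      intro X Y hX hY hc
      apply Set.Subset.antisymm
      · rintro _ ⟨x, hx, y, hy, rfl⟩
        exact T.mul_mem (hX hx) (hY hy)
      · intro t ht
        have h1 := Subgroup.IsComplement.mul_eq hc
        have h2 : (⟨t, ht⟩ : T) ∈ ((X.subgroupOf T : Subgroup T) : Set T) * ((Y.subgroupOf T : Subgroup T) : Set T) := by
          rw [h1]; exact Set.mem_univ _
        obtain ⟨x, hx, y, hy, hxy⟩ := h2
        exact ⟨x, hx, y, hy, congrArg Subtype.val hxy⟩
    rw [key Sp Sq hSpT hSqT hc1, key Sq Sp hSqT hSpT hc1.symm]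

end Cfsg.Agent.S0020
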