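import Cfsg.Statements.S0021
import Mathlib
import Cfsg.Agent.Lib.Helper1.HallConverse
import Cfsg.Agent.Lib.Helper5.ChermakDelgado

set_option autoImplicit false
open Pointwise
open Cfsg

namespace Cfsg.Agent.S0021

theorem exists_subgroup_of_permute {G : Type*} [Group G] (H K : Subgroup G)
    (h : (H : Set G) * (K : Set G) = (K : Set G) * (H : Set G)) :
    ∃ J : Subgroup G, (J : Set G) = (H : Set G) * (K : Set G) := by
  refine ⟨{ carrier := (H : Set G) * (K : Set G)
            one_mem' := Set.mem_mul.mpr ⟨1, H.one_mem, 1, K.one_mem, mul_one 1⟩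
            mul_mem' := ?_
            inv_mem' := ?_ }, rfl⟩
  · rintro x y hx hy
    obtain ⟨a, ha, b, hb, rfl⟩ := Set.mem_mul.mp hx
    obtain ⟨c, hc, d, hd, rfl⟩ := Set.mem_mul.mp hy
    have h1 : b * c ∈ (K : Set G) * (H : Set G) := Set.mem_mul.mpr ⟨b, hb, c, hc, rfl⟩
    rw [← h] at h1
    obtain ⟨c', hc', b', hb', h2⟩ := Set.mem_mul.mp h1
    refine Set.mem_mul.mpr ⟨a * c', H.mul_mem ha hc', b' * d, K.mul_mem hb' hd, ?_⟩
    calc a * c' * (b' * d) = a * (c' * b') * d := by group
      _ = a * (b * c) * d := by rw [h2]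
      _ = a * b * (c * d) := by group
  · rintro x hx
    obtain ⟨a, ha, b, hb, rfl⟩ := Set.mem_mul.mp hx
    have h1 : b⁻¹ * a⁻¹ ∈ (K : Set G) * (H : Set G) :=
      Set.mem_mul.mpr ⟨b⁻¹, K.inv_mem hb, a⁻¹, H.inv_mem ha, rfl⟩
    rw [← h] at h1
    rw [mul_inv_rev]
    exact h1

/-- A finite group with a family of pairwise permuting Sylow subgroups, one for each prime, is solvable (this direction rests on Burnside's two-prime Theorem). -/
theorem result {G : Type*} [Group G] [Finite G]
    (S : (p : Nat.Primes) → Sylow (p : ℕ) G)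
    (hS : ∀ p q : Nat.Primes, (S p : Set G) * (S q : Set G) = (S q : Set G) * (S p : Set G)) :
    Group.IsSolvable G := by
  classical
  have hfin : ∀ T : Finset Nat.Primes, ∃ K : Subgroup G, (∀ q ∈ T, (S q : Subgroup G) ≤ K) ∧
      Nat.card K ∣ ∏ q ∈ T, Nat.card (S q : Subgroup G) ∧
      ∀ r : Nat.Primes, ((S r : Subgroup G) : Set G) * (K : Set G)
        = (K : Set G) * ((S r : Subgroup G) : Set G) := by
    intro T
    induction T using Finset.induction_on with
    | empty =>
      refine ⟨⊥, fun q hq => absurd hq (Finset.notMem_empty q), by simp, fun r => ?_⟩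
      rw [Subgroup.coe_bot, Set.mul_singleton, Set.singleton_mul]
      simp
    | insert q T hq ih =>
      obtain ⟨K, hK1, hK2, hK3⟩ := ih
      obtain ⟨K', hK'⟩ := exists_subgroup_of_permute K (S q : Subgroup G) (hK3 q).symm
      have hKK' : K ≤ K' := by
        intro x hx
        have : x ∈ (K' : Set G) := by
          rw [hK']; exact Set.mem_mul.mpr ⟨x, hx, 1, Subgroup.one_mem _, mul_one x⟩
        exact this
      have hSK' : (S q : Subgroup G) ≤ K' := by
        intro x hx
        have : x ∈ (K' : Set G) := by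
          rw [hK']; exact Set.mem_mul.mpr ⟨1, K.one_mem, x, hx, one_mul x⟩
        exact this
      refine ⟨K', ?_, ?_, ?_⟩
      · intro r hr
        rcases Finset.mem_insert.mp hr with rfl | hrT
        · exact hSK'
        · exact (hK1 r hrT).trans hKK'
      · rw [Finset.prod_insert hq]
        have h1 := Cfsg.Agent.Lib.Helper5.card_mul_set_mul_card_inf K (S q : Subgroup G)
        have h2 : Nat.card K' = Nat.card ((K : Set G) * ((S q : Subgroup G) : Set G) : Set G) := by
          rw [← hK']; rfl
        rw [h2]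
        have h3 : Nat.card ((K : Set G) * ((S q : Subgroup G) : Set G) : Set G) ∣
            Nat.card K * Nat.card (S q : Subgroup G) := Dvd.intro _ h1
        rw [mul_comm (Nat.card (S q : Subgroup G))]
        exact h3.trans (Nat.mul_dvd_mul_right hK2 _)
      · intro r
        rw [hK', ← mul_assoc, hK3 r, mul_assoc]
        have h4 : ((S r : Subgroup G) : Set G) * ((S q : Subgroup G) : Set G)
            = ((S q : Subgroup G) : Set G) * ((S r : Subgroup G) : Set G) := hS r q
        rw [h4, ← mul_assoc]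
  apply Cfsg.Agent.Lib.Helper1.hall_converse
  intro p hp
  obtain ⟨K, hK1, hK2, _⟩ := hfin ((Finset.subtype Nat.Prime (Nat.card G).primeFactors).erase ⟨p, hp⟩)
  refine ⟨K, ?_⟩
  have hcop : (Nat.card K).Coprime p := by
    apply Nat.Coprime.coprime_dvd_left hK2
    apply Nat.Coprime.prod_left
    intro q hq
    haveI : Fact (q : ℕ).Prime := ⟨q.2⟩
    obtain ⟨k, hk⟩ := IsPGroup.iff_card.mp (S q).2
    have hqp : (q : ℕ) ≠ p := by
      intro h
      have : q = ⟨p, hp⟩ := Subtype.ext h
      rw [this] at hq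
      exact (Finset.notMem_erase _ _) hq
    have hk' : Nat.card (S q : Subgroup G) = (q : ℕ) ^ k := hk
    rw [hk']
    exact Nat.Coprime.pow_left _ ((Nat.coprime_primes q.2 hp).mpr hqp)
  have hidx : K.index = p ^ K.index.primeFactorsList.length := by
    apply Nat.eq_prime_pow_of_unique_prime_dvd Subgroup.index_ne_zero_of_finite
    intro d hd hdvd
    by_contra hne
    have hdG : d ∣ Nat.card G := hdvd.trans (Subgroup.index_dvd_card K)
    have hdT : (⟨d, hd⟩ : Nat.Primes) ∈
        (Finset.subtype Nat.Prime (Nat.card G).primeFactors).erase ⟨p, hp⟩ := by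
      apply Finset.mem_erase.mpr
      refine ⟨fun h => hne (congrArg Subtype.val h), ?_⟩
      refine Finset.mem_subtype.mpr ?_
      exact Nat.mem_primeFactors.mpr ⟨hd, hdG, (Nat.card_pos (α := G)).ne'⟩
    have h1 := hK1 _ hdT
    have h2 : K.index ∣ (S ⟨d, hd⟩ : Subgroup G).index := Subgroup.index_dvd_of_le h1
    haveI : Fact d.Prime := ⟨hd⟩
    exact (S ⟨d, hd⟩).not_dvd_index (hdvd.trans h2)
  obtain ⟨j, hj⟩ : ∃ j, K.index = p ^ j := ⟨_, hidx⟩
  have h3 := Subgroup.card_mul_index K
  rw [hj] at h3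
  have hm0 : Nat.card K ≠ 0 := (Nat.card_pos (α := K)).ne'
  have hfac : (Nat.card G).factorization p = j := by
    rw [← h3, Nat.factorization_mul hm0 (pow_ne_zero _ hp.pos.ne'), Finsupp.add_apply,
      Nat.Prime.factorization_pow hp, Nat.factorization_eq_zero_of_not_dvd]
    · simp
    · intro hd
      exact hp.one_lt.ne' (Nat.Coprime.eq_one_of_dvd hcop.symm hd)
  rw [hfac, hj]

end Cfsg.Agent.S0021
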