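import Cfsg.Statements.S0030
import Mathlib
import Cfsg.Agent.Lib.Lead.Coprime
-- import your own Cfsg.Agent.* helpers here

set_option autoImplicit false
open Cfsg

namespace Cfsg.Agent.S0030

/-- Under coprime action fixed points of a product of two invariant subgroups factor: if K = X Y with X and Y normalised by A then every A-fixed element of K is a product of an A-fixed element of X and an A-fixed element of Y. -/
theorem result {G : Type*} [Group G] [Finite G] (A K : Subgroup G) (hAK : A ≤ Subgroup.normalizer (K : Set G))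
    (hcop : (Nat.card A).Coprime (Nat.card K)) (hsolv : Group.IsSolvable A ∨ Group.IsSolvable K)
    (X Y : Subgroup G) (hX : X ≤ K) (hY : Y ≤ K) (hXA : A ≤ Subgroup.normalizer (X : Set G)) (hYA : A ≤ Subgroup.normalizer (Y : Set G))
    (hXY : ∀ k ∈ K, ∃ x ∈ X, ∃ y ∈ Y, k = x * y) (k : G) (hk : k ∈ K ⊓ Subgroup.centralizer (A : Set G)) :
    ∃ x ∈ X ⊓ Subgroup.centralizer (A : Set G), ∃ y ∈ Y ⊓ Subgroup.centralizer (A : Set G), k = x * y := by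
  obtain ⟨hkK, hkC⟩ := hk
  obtain ⟨x₀, hx₀, y₀, hy₀, hxy⟩ := hXY k hkK
  have hDK : X ⊓ Y ≤ K := inf_le_left.trans hX
  have hAD : A ≤ Subgroup.normalizer ((X ⊓ Y : Subgroup G) : Set G) := by
    intro a ha
    rw [Subgroup.mem_normalizer_iff]
    intro h
    have h1 := Subgroup.mem_normalizer_iff.mp (hXA ha) h
    have h2 := Subgroup.mem_normalizer_iff.mp (hYA ha) h
    exact ⟨fun ⟨u, v⟩ => ⟨h1.mp u, h2.mp v⟩, fun ⟨u, v⟩ => ⟨h1.mpr u, h2.mpr v⟩⟩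
  have hinv : ∀ a ∈ A, x₀⁻¹ * a * x₀ * a⁻¹ ∈ X ⊓ Y := by
    intro a ha
    have hak : a * k = k * a := (Subgroup.mem_centralizer_iff.mp hkC) a ha
    refine ⟨?_, ?_⟩
    · have h1 : a * x₀ * a⁻¹ ∈ X := (Subgroup.mem_normalizer_iff.mp (hXA ha) x₀).mp hx₀
      have := X.mul_mem (X.inv_mem hx₀) h1
      simpa [mul_assoc] using this
    · have h1 : a * y₀⁻¹ * a⁻¹ ∈ Y := (Subgroup.mem_normalizer_iff.mp (hYA ha) y₀⁻¹).mp (Y.inv_mem hy₀)
      have h2 : x₀⁻¹ * a * x₀ * a⁻¹ = y₀ * (a * y₀⁻¹ * a⁻¹) := by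
        have h3 : a * x₀ = x₀ * y₀ * a * y₀⁻¹ := by
          rw [← hxy, ← hak, hxy]; group
        calc x₀⁻¹ * a * x₀ * a⁻¹ = x₀⁻¹ * (a * x₀) * a⁻¹ := by group
          _ = x₀⁻¹ * (x₀ * y₀ * a * y₀⁻¹) * a⁻¹ := by rw [h3]
          _ = y₀ * (a * y₀⁻¹ * a⁻¹) := by group
      rw [h2]
      exact Y.mul_mem hy₀ h1
  obtain ⟨d, hd, hc⟩ := Cfsg.Agent.Lib.Lead.coset_fixed_point A K (X ⊓ Y) hAK hcop hDK hAD
    (Cfsg.Agent.Lib.Lead.isSolvable_or_of_le hDK hsolv) x₀ (hX hx₀) hinv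
  refine ⟨x₀ * d, ⟨X.mul_mem hx₀ hd.1, hc⟩, d⁻¹ * y₀, ⟨Y.mul_mem (Y.inv_mem hd.2) hy₀, ?_⟩, by rw [hxy]; group⟩
  have h5 : d⁻¹ * y₀ = (x₀ * d)⁻¹ * k := by rw [hxy]; group
  rw [h5]
  exact Subgroup.mul_mem _ (Subgroup.inv_mem _ hc) hkC

end Cfsg.Agent.S0030
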