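import Cfsg.Statements.S0031
import Mathlib
import Cfsg.Agent.Lib.Lead.Sylow
-- import your own Cfsg.Agent.* helpers here

set_option autoImplicit false
open Cfsg

namespace Cfsg.Agent.S0031

/-- A fixed-point-free automorphism of a finite group maps some Sylow p-subgroup to itself. -/
theorem result {G : Type*} [Group G] [Finite G] (φ : G ≃* G)
    (hφ : MonoidHom.FixedPointFree (φ : G →* G)) (p : ℕ) [Fact p.Prime] :
    ∃ P : Sylow p G, (P : Subgroup G).map (φ : G →* G) = P := by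
  classical
  obtain ⟨P⟩ : Nonempty (Sylow p G) := inferInstance
  have hcard : Nat.card ((P : Subgroup G).map (φ : G →* G)) = p ^ (Nat.card G).factorization p := by
    rw [Subgroup.card_map_of_injective (f := (φ : G →* G)) φ.injective]
    exact P.card_eq_multiplicity
  obtain ⟨g, hg⟩ := MulAction.exists_smul_eq G P (Sylow.ofCard _ hcard)
  obtain ⟨y, hy⟩ := MonoidHom.FixedPointFree.commutatorMap_surjective hφ g⁻¹
  have hg' : g = φ y * y⁻¹ := by
    have h1 : y / φ y = g⁻¹ := hy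
    have h2 : g = (y / φ y)⁻¹ := by rw [h1, inv_inv]
    rw [h2, div_eq_mul_inv, mul_inv_rev, inv_inv]
  have hgP : ∀ w, (∃ a ∈ (P : Subgroup G), φ a = w) ↔ g⁻¹ * w * g ∈ (P : Subgroup G) := by
    intro w
    rw [← Cfsg.Agent.Lib.Lead.mem_smul_sylow, hg]
    rfl
  refine ⟨y⁻¹ • P, ?_⟩
  ext z
  constructor
  · rintro ⟨w, hw, rfl⟩
    have hw' := (Cfsg.Agent.Lib.Lead.mem_smul_sylow P y⁻¹ w).mp hw
    rw [Cfsg.Agent.Lib.Lead.mem_smul_sylow]
    have h1 := (hgP (φ (y⁻¹⁻¹ * w * y⁻¹))).mp ⟨_, hw', rfl⟩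
    have e : g⁻¹ * φ (y⁻¹⁻¹ * w * y⁻¹) * g = y⁻¹⁻¹ * φ w * y⁻¹ := by
      rw [hg']
      simp only [map_mul, map_inv, inv_inv, mul_inv_rev]
      group
    rw [e] at h1
    exact h1
  · intro hz
    rw [Cfsg.Agent.Lib.Lead.mem_smul_sylow] at hz
    have h1 : g⁻¹ * (φ y * z * (φ y)⁻¹) * g ∈ (P : Subgroup G) := by
      have e : g⁻¹ * (φ y * z * (φ y)⁻¹) * g = y⁻¹⁻¹ * z * y⁻¹ := by
        rw [hg']; group
      rw [e]; exact hz
    obtain ⟨a, ha, hφa⟩ := (hgP _).mpr h1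
    refine ⟨y⁻¹ * a * y, ?_, ?_⟩
    · rw [SetLike.mem_coe, Cfsg.Agent.Lib.Lead.mem_smul_sylow]
      have e : y⁻¹⁻¹ * (y⁻¹ * a * y) * y⁻¹ = a := by group
      rw [e]; exact ha
    · show φ (y⁻¹ * a * y) = z
      rw [map_mul, map_mul, hφa, map_inv]; group

end Cfsg.Agent.S0031
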