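import Cfsg.Statements.S0032
import Mathlib
-- import your own Cfsg.Agent.* helpers here

set_option autoImplicit false
open Cfsg

namespace Cfsg.Agent.S0032

/-- If an automorphism of a finite group fixes only the identity and maps a normal subgroup N into itself, then the only cosets of N it fixes are those in N: a fixed coset xN forces x ∈ N. -/
theorem result {G : Type*} [Group G] [Finite G] (φ : G ≃* G)
    (hφ : MonoidHom.FixedPointFree (φ : G →* G)) (N : Subgroup G) [N.Normal] (hN : ∀ n ∈ N, φ n ∈ N)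
    (x : G) (hx : (φ x)⁻¹ * x ∈ N) : x ∈ N := by
  have hinj := MonoidHom.FixedPointFree.commutatorMap_injective hφ
  let f : N → N := fun n => ⟨(n : G) / φ n, N.div_mem n.2 (hN n n.2)⟩
  have hf : Function.Injective f := by
    intro a b hab
    apply Subtype.ext
    apply hinj
    exact congrArg Subtype.val hab
  have hs : Function.Surjective f := Finite.surjective_of_injective hf
  have hx' : x⁻¹ / φ x⁻¹ ∈ N := by
    have : x⁻¹ / φ x⁻¹ = ((φ x)⁻¹ * x)⁻¹ := by rw [map_inv, div_eq_mul_inv, inv_inv, mul_inv_rev, inv_inv]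
    rw [this]; exact N.inv_mem hx
  obtain ⟨n, hn⟩ := hs ⟨_, hx'⟩
  have h1 : (n : G) = x⁻¹ := hinj (congrArg Subtype.val hn)
  have h2 : x⁻¹ ∈ N := h1 ▸ n.2
  exact N.inv_mem_iff.mp h2

end Cfsg.Agent.S0032
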