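import Cfsg.Statements.S0043
import Mathlib
-- import your own Cfsg.Agent.* helpers here

set_option autoImplicit false
open Cfsg

namespace Cfsg.Agent.S0043

/-- A minimal normal subgroup of a finite solvable group is abelian, and for some prime p all of its elements have order dividing p. -/
theorem result {G : Type*} [Group G] [Finite G] [Group.IsSolvable G]
    (N : Subgroup G) [N.Normal] (hN : N ≠ ⊥) (hmin : ∀ M : Subgroup G, M.Normal → M ≤ N → M = ⊥ ∨ M = N) :
    IsMulCommutative N ∧ ∃ p : ℕ, p.Prime ∧ ∀ x ∈ N, x ^ p = 1 := by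
  classical
  -- commutator of N is normal in G and contained in N
  have hcomm_le : ⁅N, N⁆ ≤ N := Subgroup.commutator_le_left N N
  have hcomm_ne : ⁅N, N⁆ ≠ N := by
    intro heq
    haveI : Nontrivial N := by
      rw [Subgroup.nontrivial_iff_ne_bot]
      exact hN
    have h1 : commutator N < ⊤ := IsSolvable.commutator_lt_top_of_nontrivial N
    have h2 : (commutator N).map N.subtype = ⁅N, N⁆ := Subgroup.map_subtype_commutator N
    rw [heq] at h2
    have h3 : commutator N = ⊤ := by
      apply Subgroup.map_injective N.subtype_injective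
      rw [h2, ← MonoidHom.range_eq_map, Subgroup.range_subtype]
    exact h1.ne h3
  have hcomm_bot : ⁅N, N⁆ = ⊥ := (hmin ⁅N, N⁆ inferInstance hcomm_le).resolve_right hcomm_ne
  have hab : ∀ a ∈ N, ∀ b ∈ N, a * b = b * a := by
    intro a ha b hb
    have h1 : N ≤ Subgroup.centralizer (N : Set G) :=
      Subgroup.commutator_eq_bot_iff_le_centralizer.mp hcomm_bot
    exact ((Subgroup.mem_centralizer_iff.mp (h1 ha)) b hb).symm
  refine ⟨⟨⟨fun a b => Subtype.ext (hab a a.2 b b.2)⟩⟩, ?_⟩
  -- a prime dividing |N|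
  have hcard : Nat.card N ≠ 1 := by
    intro h1
    exact hN (Subgroup.card_eq_one.mp h1)
  obtain ⟨p, hp, hpd⟩ := Nat.exists_prime_and_dvd hcard
  haveI : Fact p.Prime := ⟨hp⟩
  refine ⟨p, hp, ?_⟩
  let M : Subgroup G :=
    { carrier := {x | x ∈ N ∧ x ^ p = 1}
      mul_mem' := by
        rintro a b ⟨ha, hap⟩ ⟨hb, hbp⟩
        refine ⟨N.mul_mem ha hb, ?_⟩
        have hc : Commute a b := hab a ha b hb
        rw [hc.mul_pow, hap, hbp, one_mul]
      one_mem' := ⟨N.one_mem, one_pow p⟩
      inv_mem' := by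
        rintro a ⟨ha, hap⟩
        exact ⟨N.inv_mem ha, by rw [inv_pow, hap, inv_one]⟩ }
  have hMn : M.Normal := by
    constructor
    rintro x ⟨hx, hxp⟩ g
    refine ⟨‹N.Normal›.conj_mem x hx g, ?_⟩
    rw [conj_pow, hxp]; group
  have hMle : M ≤ N := fun x hx => hx.1
  have hMne : M ≠ ⊥ := by
    obtain ⟨x, hx⟩ := exists_prime_orderOf_dvd_card' p hpd
    intro hbot
    have hxM : (x : G) ∈ M := by
      refine ⟨x.2, ?_⟩
      have := pow_orderOf_eq_one x
      rw [hx] at this
      have h2 := congrArg Subtype.val this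
      simpa using h2
    rw [hbot, Subgroup.mem_bot] at hxM
    have hx1 : x = 1 := Subtype.ext hxM
    rw [hx1, orderOf_one] at hx
    exact hp.one_lt.ne hx
  have hMN : M = N := (hmin M hMn hMle).resolve_left hMne
  intro x hx
  rw [← hMN] at hx
  exact hx.2

end Cfsg.Agent.S0043
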