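import Cfsg.Statements.S0048
import Mathlib
import Cfsg.Agent.Lib.Lead.Basic
import Cfsg.Agent.S0043
-- import your own Cfsg.Agent.* helpers here

set_option autoImplicit false
open Cfsg

namespace Cfsg.Agent.S0048

/-- In a finite solvable group every maximal subgroup has index a prime power. -/
theorem result {G : Type*} [Group G] [Finite G] [Group.IsSolvable G]
    (M : Subgroup G) (hM : IsCoatom M) : IsPrimePow M.index := by
  have key : ∀ (n : ℕ) (G : Type u_1) [Group G] [Finite G] [Group.IsSolvable G],
      Nat.card G = n → ∀ M : Subgroup G, IsCoatom M → IsPrimePow M.index := by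
    intro n
    induction n using Nat.strong_induction_on with
    | _ n ih =>
      intro G _ _ _ hn M hM
      classical
      haveI : Nontrivial G := by
        by_contra hnt
        rw [not_nontrivial_iff_subsingleton] at hnt
        exact hM.1 (Subsingleton.elim _ _)
      have hne : ({N : Subgroup G | N.Normal ∧ N ≠ ⊥} : Set (Subgroup G)).Nonempty :=
        ⟨⊤, inferInstance, top_ne_bot⟩
      obtain ⟨N, hNmin⟩ := (Set.toFinite {N : Subgroup G | N.Normal ∧ N ≠ ⊥}).exists_minimal hne
      obtain ⟨hNn, hN0⟩ := hNmin.prop
      haveI := hNn
      have hmin : ∀ K : Subgroup G, K.Normal → K ≤ N → K = ⊥ ∨ K = N := by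
        intro K hK hKN
        by_cases hK0 : K = ⊥
        · left; exact hK0
        · right; exact le_antisymm hKN (hNmin.le_of_le ⟨hK, hK0⟩ hKN)
      obtain ⟨hcommN, p, hp, hexp⟩ := Cfsg.Agent.S0043.result N hN0 hmin
      haveI : Fact p.Prime := ⟨hp⟩
      by_cases hNM : N ≤ M
      · have hπ : Function.Surjective (QuotientGroup.mk' N) := QuotientGroup.mk'_surjective N
        have hcomap : (M.map (QuotientGroup.mk' N)).comap (QuotientGroup.mk' N) = M := by
          rw [Subgroup.comap_map_eq, QuotientGroup.ker_mk']; exact sup_of_le_left hNM
        have hidx : (M.map (QuotientGroup.mk' N)).index = M.index := by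
          have h1 := Subgroup.index_comap_of_surjective (M.map (QuotientGroup.mk' N)) hπ
          rw [hcomap] at h1
          exact h1.symm
        have hco : IsCoatom (M.map (QuotientGroup.mk' N)) := by
          constructor
          · intro htop
            apply hM.1
            rw [← hcomap, htop, Subgroup.comap_top]
          · intro K' hK'
            have h1 : M ≤ K'.comap (QuotientGroup.mk' N) := by
              rw [← hcomap]; exact Subgroup.comap_mono hK'.le
            have h2 : M ≠ K'.comap (QuotientGroup.mk' N) := by
              intro heq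
              apply hK'.ne
              rw [heq, Subgroup.map_comap_eq_self_of_surjective hπ]
            have h3 := hM.2 _ (lt_of_le_of_ne h1 h2)
            rw [← Subgroup.map_comap_eq_self_of_surjective hπ K', h3,
              Subgroup.map_top_of_surjective _ hπ]
        have hcardlt : Nat.card (G ⧸ N) < n := by
          have h0 := Subgroup.card_eq_card_quotient_mul_card_subgroup N
          have h1 : 1 < Nat.card N := (Subgroup.one_lt_card_iff_ne_bot N).mpr hN0
          have h2 : 0 < Nat.card (G ⧸ N) := Nat.card_pos
          rw [hn] at h0
          nlinarith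
        have h4 := ih _ hcardlt (G ⧸ N) rfl (M.map (QuotientGroup.mk' N)) hco
        rwa [hidx] at h4
      · have hsup : N ⊔ M = ⊤ := by
          by_contra hne'
          have hlt : M < N ⊔ M := lt_of_le_of_ne le_sup_right (fun h => hNM (h ▸ le_sup_left))
          exact hne' (hM.2 _ hlt)
        have h1 := Cfsg.Agent.Lib.Lead.relIndex_mul_card_of_le (le_sup_left : N ≤ N ⊔ M)
        rw [Subgroup.relIndex_sup_left] at h1
        have h2 := Cfsg.Agent.Lib.Lead.relIndex_mul_card_of_le (inf_le_right : N ⊓ M ≤ M)
        rw [Subgroup.inf_relIndex_right] at h2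
        have h3 : Nat.card ↥(N ⊔ M) = Nat.card G := by
          rw [hsup]; exact Subgroup.card_top
        have h4 := Subgroup.index_mul_card M
        have hrel : 0 < N.relIndex M := by
          rcases Nat.eq_zero_or_pos (N.relIndex M) with h0 | h0
          · rw [h0, zero_mul, h3] at h1
            exact absurd h1.symm Nat.card_pos.ne'
          · exact h0
        have h5 : M.index * Nat.card ↥(N ⊓ M) = Nat.card N := by
          have h6 : N.relIndex M * (M.index * Nat.card ↥(N ⊓ M)) = N.relIndex M * Nat.card N := by
            calc N.relIndex M * (M.index * Nat.card ↥(N ⊓ M))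
                = M.index * (N.relIndex M * Nat.card ↥(N ⊓ M)) := by ring
              _ = M.index * Nat.card M := by rw [h2]
              _ = Nat.card G := h4
              _ = N.relIndex M * Nat.card N := by rw [h1, h3]
          exact Nat.eq_of_mul_eq_mul_left hrel h6
        have hPG : IsPGroup p N := by
          intro g
          refine ⟨1, ?_⟩
          apply Subtype.ext
          have := hexp g g.2
          simpa using this
        obtain ⟨k, hk⟩ := IsPGroup.iff_card.mp hPG
        obtain ⟨j, hj, hjM⟩ := (Nat.dvd_prime_pow hp).mp (hk ▸ Dvd.intro _ h5)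
        have hj0 : j ≠ 0 := by
          intro h0
          rw [h0, pow_zero] at hjM
          exact hM.1 (Subgroup.index_eq_one.mp hjM)
        rw [hjM]
        exact ⟨p, j, hp.prime, Nat.pos_of_ne_zero hj0, rfl⟩
  exact key _ G rfl M hM

end Cfsg.Agent.S0048
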