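import Cfsg.Statements.S0049
import Mathlib
-- import your own Cfsg.Agent.* helpers here

set_option autoImplicit false
open Cfsg

namespace Cfsg.Agent.S0049

/-- A prime divisor of the order of a finite group also divides the index of the Frattini subgroup. -/
theorem result {G : Type*} [Group G] [Finite G] (p : ℕ) (hp : p.Prime) (hdvd : p ∣ Nat.card G) :
    p ∣ (frattini G).index := by
  classical
  haveI : Fact p.Prime := ⟨hp⟩
  by_contra hnd
  let P : Sylow p (frattini G) := default
  obtain ⟨Q, hQ⟩ : ∃ Q : Subgroup G, Q = (P : Subgroup (frattini G)).map (frattini G).subtype :=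
    ⟨_, rfl⟩
  have h1 := Sylow.normalizer_sup_eq_top P
  rw [← hQ] at h1
  have h2 : Subgroup.normalizer (Q : Set G) = ⊤ := frattini_nongenerating h1
  haveI hQn : Q.Normal := Subgroup.normalizer_eq_top_iff.mp h2
  have hidx0 : (frattini G).index ≠ 0 := Subgroup.index_ne_zero_of_finite
  have hcardQ : Nat.card Q = p ^ (Nat.card G).factorization p := by
    rw [hQ, Subgroup.card_map_of_injective (Subgroup.subtype_injective _)]
    rw [Sylow.card_eq_multiplicity]
    congr 1
    have h3 := Subgroup.card_mul_index (frattini G)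
    rw [← h3, Nat.factorization_mul Nat.card_pos.ne' hidx0]
    simp [Nat.factorization_eq_zero_of_not_dvd hnd]
  let S : Sylow p G := Sylow.ofCard Q hcardQ
  have hcop : (Nat.card Q).Coprime Q.index := S.card_coprime_index
  obtain ⟨H, hH⟩ := Subgroup.exists_right_complement'_of_coprime hcop
  have hQΦ : Q ≤ frattini G := by rw [hQ]; exact Subgroup.map_subtype_le _
  have h4 : H ⊔ frattini G = ⊤ := by
    have h5 := hH.sup_eq_top
    apply eq_top_iff.mpr
    rw [← h5]
    exact sup_le (le_sup_of_le_right hQΦ) le_sup_left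
  have h5 : H = ⊤ := frattini_nongenerating h4
  have h6 : Q = ⊥ := by
    have h7 := hH.disjoint
    rw [h5] at h7
    exact disjoint_top.mp h7
  have h7 : Nat.card Q = 1 := by rw [h6]; exact Subgroup.card_bot
  rw [hcardQ] at h7
  have h8 : 1 ≤ (Nat.card G).factorization p :=
    hp.factorization_pos_of_dvd Nat.card_pos.ne' hdvd
  have h9 : p ^ 1 ≤ p ^ (Nat.card G).factorization p := Nat.pow_le_pow_right hp.pos h8
  rw [pow_one, h7] at h9
  have := hp.two_le
  omega

end Cfsg.Agent.S0049
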