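import Cfsg.Statements.S0050
import Mathlib
import Cfsg.Agent.Lib.Lead.Hall
-- import your own Cfsg.Agent.* helpers here

set_option autoImplicit false
open Cfsg

namespace Cfsg.Agent.S0050

open scoped commutatorElement
open scoped Pointwise

/-- Frattini argument for Hall subgroups: if L is a solvable normal subgroup and H a subgroup of L of order coprime to its index in L, then L together with the normaliser of H generates the whole group. -/
theorem result {G : Type*} [Group G] [Finite G] (L : Subgroup G) [L.Normal] (hL : Group.IsSolvable L)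
    (H : Subgroup G) (hHL : H ≤ L) (hHall : (Nat.card H).Coprime (H.relIndex L)) :
    L ⊔ Subgroup.normalizer (H : Set G) = ⊤ := by
  haveI := hL
  rw [eq_top_iff]
  intro g _
  have hgL : MulAut.conj g • H ≤ L := by
    intro x hx
    rw [Cfsg.Agent.Lib.Lead.mem_conj_smul] at hx
    have h1 := hHL hx
    have h2 := (inferInstance : L.Normal).conj_mem _ h1 g
    simpa [mul_assoc] using h2
  have hcard : Nat.card L = Nat.card H * H.relIndex L := by
    rw [mul_comm]; exact (Cfsg.Agent.Lib.Lead.relIndex_mul_card_of_le hHL).symm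
  obtain ⟨l, hl⟩ := Cfsg.Agent.Lib.Lead.hallC_all _ ↥L rfl (Nat.card H) (H.relIndex L) hcard hHall
    (H.subgroupOf L) ((MulAut.conj g • H).subgroupOf L)
    (Cfsg.Agent.Lib.Lead.card_subgroupOf_of_le hHL)
    (by rw [Cfsg.Agent.Lib.Lead.card_subgroupOf_of_le hgL, Cfsg.Agent.Lib.Lead.card_conj_smul])
  have h3 := Cfsg.Agent.Lib.Lead.conj_smul_eq_of_subgroupOf hHL hgL l hl
  have h4 : MulAut.conj ((l : G)⁻¹ * g) • H = H := by
    rw [map_mul, mul_smul, ← h3, ← mul_smul, ← map_mul, inv_mul_cancel, map_one, one_smul]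
  have h5 : g = (l : G) * ((l : G)⁻¹ * g) := by group
  rw [h5]
  exact Subgroup.mul_mem _ (Subgroup.mem_sup_left l.2)
    (Subgroup.mem_sup_right (Cfsg.Agent.Lib.Lead.mem_normalizer_of_conj_smul_eq h4))

end Cfsg.Agent.S0050
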