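import Cfsg.Statements.S0053
import Mathlib
import Cfsg.Agent.Lib.Lead.BaerSuzuki
-- import your own Cfsg.Agent.* helpers here

set_option autoImplicit false
open Cfsg

namespace Cfsg.Agent.S0053

/-- An abelian minimal normal subgroup N of a finite group is complemented exactly when N is not inside the Frattini subgroup. -/
theorem result {G : Type*} [Group G] [Finite G]
    (N : Subgroup G) [N.Normal] [IsMulCommutative N] (hN : N ≠ ⊥)
    (hmin : ∀ M : Subgroup G, M.Normal → M ≤ N → M = ⊥ ∨ M = N) :
    (∃ H : Subgroup G, Subgroup.IsComplement' N H) ↔ ¬ N ≤ frattini G := by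
  classical
  constructor
  · rintro ⟨H, hH⟩ hle
    have h4 : H ⊔ frattini G = ⊤ := by
      have h5 := hH.sup_eq_top
      apply eq_top_iff.mpr
      rw [← h5]
      exact sup_le (le_sup_of_le_right hle) le_sup_left
    have h5 : H = ⊤ := frattini_nongenerating h4
    have h7 := hH.disjoint
    rw [h5] at h7
    exact hN (disjoint_top.mp h7)
  · intro hnot
    have hex : ∃ M : Subgroup G, IsCoatom M ∧ ¬ N ≤ M := by
      by_contra hall
      push Not at hall
      apply hnot
      show N ≤ Order.radical (Subgroup G)
      rw [Order.radical]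
      exact le_iInf₂ (fun M hM => hall M hM)
    obtain ⟨M, hM, hNM⟩ := hex
    have hsup : M ⊔ N = ⊤ := by
      by_contra hne
      have hlt : M < M ⊔ N := lt_of_le_of_ne le_sup_left (fun h => hNM (h ▸ le_sup_right))
      exact hne (hM.2 _ hlt)
    have hnorm : (M ⊓ N).Normal := by
      have htop : Subgroup.normalizer ((M ⊓ N : Subgroup G) : Set G) = ⊤ := by
        rw [eq_top_iff, ← hsup]
        apply sup_le
        · intro m hm
          apply Cfsg.Agent.Lib.Lead.mem_normalizer_of_conj_le
          intro d hd
          exact ⟨M.mul_mem (M.mul_mem hm hd.1) (M.inv_mem hm), ‹N.Normal›.conj_mem d hd.2 m⟩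
        · intro n hn
          apply Cfsg.Agent.Lib.Lead.mem_normalizer_of_conj_le
          intro d hd
          have hcomm : n * d = d * n := by
            have := ‹IsMulCommutative N›.is_comm.comm ⟨n, hn⟩ ⟨d, hd.2⟩
            exact congrArg Subtype.val this
          have h3 : n * d * n⁻¹ = d := by rw [hcomm]; group
          rw [h3]; exact hd
      exact Subgroup.normalizer_eq_top_iff.mp htop
    have hinf : M ⊓ N = ⊥ := by
      rcases hmin (M ⊓ N) hnorm inf_le_right with h | h
      · exact h
      · exact absurd (h ▸ inf_le_left : N ≤ M) hNM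
    refine ⟨M, ?_⟩
    apply Subgroup.isComplement'_of_disjoint_and_mul_eq_univ
    · rw [disjoint_iff, inf_comm]; exact hinf
    · rw [← Subgroup.normal_mul, sup_comm, hsup]; rfl

end Cfsg.Agent.S0053
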