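import Cfsg.Statements.S0054
import Mathlib
-- import your own Cfsg.Agent.* helpers here

set_option autoImplicit false
open Cfsg

namespace Cfsg.Agent.S0054

/-- A regular normal subgroup of a finite 2-transitive group is elementary abelian: it is commutative and all its elements have order dividing one prime. -/
theorem result {G : Type*} [Group G] [Finite G]
    {X : Type*} [Nonempty X] [MulAction G X] (h2 : MulAction.IsMultiplyPretransitive G X 2)
    (N : Subgroup G) [N.Normal] (htrans : MulAction.IsPretransitive N X) (hreg : ∀ x : X, MulAction.stabilizer N x = ⊥) :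
    IsMulCommutative N ∧ ∃ p : ℕ, p.Prime ∧ ∀ n ∈ N, n ^ p = 1 := by
  classical
  obtain ⟨x₀⟩ := ‹Nonempty X›
  have h2' : ∀ (a b c d : X), a ≠ b → c ≠ d → ∃ g : G, g • a = c ∧ g • b = d :=
    fun a b c d hab hcd => MulAction.is_two_pretransitive_iff.mp h2 hab hcd
  have hfree : ∀ n ∈ N, ∀ x : X, n • x = x → n = 1 := by
    intro n hn x hx
    have h1 : (⟨n, hn⟩ : N) ∈ MulAction.stabilizer N x := by
      rw [MulAction.mem_stabilizer_iff]; exact hx
    rw [hreg x, Subgroup.mem_bot] at h1
    exact congrArg Subtype.val h1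
  have hconj : ∀ n ∈ N, ∀ m ∈ N, n ≠ 1 → m ≠ 1 → ∃ g : G, g * n * g⁻¹ = m := by
    intro n hn m hm hn1 hm1
    have h1 : x₀ ≠ n • x₀ := fun h => hn1 (hfree n hn x₀ h.symm)
    have h1' : x₀ ≠ m • x₀ := fun h => hm1 (hfree m hm x₀ h.symm)
    obtain ⟨g, hg1, hg2⟩ := h2' _ _ _ _ h1 h1'
    refine ⟨g, ?_⟩
    have h3 : (m⁻¹ * (g * n * g⁻¹)) • x₀ = x₀ := by
      rw [mul_smul, mul_smul, mul_smul]
      have h5 : g⁻¹ • x₀ = x₀ := by rw [inv_smul_eq_iff, hg1]
      rw [h5, hg2, inv_smul_smul]
    have h4 := hfree _ (N.mul_mem (N.inv_mem hm) (‹N.Normal›.conj_mem n hn g)) x₀ h3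
    exact (inv_mul_eq_one.mp h4).symm
  by_cases hN : N = ⊥
  · have hbot : ∀ n : G, n ∈ N → n = 1 := by
      intro n hn
      rw [hN, Subgroup.mem_bot] at hn
      exact hn
    refine ⟨⟨⟨fun a b => ?_⟩⟩, 2, Nat.prime_two, ?_⟩
    · have ha : (a : G) = 1 := hbot a a.2
      have hb : (b : G) = 1 := hbot b b.2
      apply Subtype.ext
      show (a : G) * b = b * a
      rw [ha, hb]
    · intro n hn
      rw [hbot n hn, one_pow]
  · have hcard : Nat.card N ≠ 1 := fun h1 => hN (Subgroup.card_eq_one.mp h1)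
    obtain ⟨p, hp, hpd⟩ := Nat.exists_prime_and_dvd hcard
    haveI : Fact p.Prime := ⟨hp⟩
    obtain ⟨x, hx⟩ := exists_prime_orderOf_dvd_card' p hpd
    have hx1 : (x : G) ≠ 1 := by
      intro h
      have hx1' : x = 1 := Subtype.ext h
      rw [hx1', orderOf_one] at hx
      exact hp.one_lt.ne hx
    have hxp : (x : G) ^ p = 1 := by
      have h1 := pow_orderOf_eq_one x
      rw [hx] at h1
      have h2 := congrArg Subtype.val h1
      simpa using h2
    have hexp : ∀ n ∈ N, n ^ p = 1 := by
      intro n hn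
      by_cases hn1 : n = 1
      · rw [hn1, one_pow]
      · obtain ⟨g, hg⟩ := hconj x x.2 n hn hx1 hn1
        rw [← hg, conj_pow, hxp]; group
    have hPG : IsPGroup p N := by
      intro g
      refine ⟨1, ?_⟩
      apply Subtype.ext
      have := hexp g g.2
      simpa using this
    haveI : Nontrivial N := by
      rw [Subgroup.nontrivial_iff_ne_bot]; exact hN
    have hZ : Nontrivial (Subgroup.center N) := hPG.center_nontrivial
    obtain ⟨z, hz1⟩ := exists_ne (1 : Subgroup.center N)
    have hzN : ((z : N) : G) ∈ N := (z : N).2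
    have hz1' : ((z : N) : G) ≠ 1 := by
      intro h
      apply hz1
      apply Subtype.ext
      apply Subtype.ext
      exact h
    have hzc : ∀ m ∈ N, ((z : N) : G) * m = m * ((z : N) : G) := by
      intro m hm
      have h1 := (Subgroup.mem_center_iff.mp z.2) ⟨m, hm⟩
      exact (congrArg Subtype.val h1).symm
    have hcentral : ∀ n ∈ N, ∀ m ∈ N, n * m = m * n := by
      intro n hn m hm
      by_cases hn1 : n = 1
      · rw [hn1, one_mul, mul_one]
      · obtain ⟨g, hg⟩ := hconj _ hzN n hn hz1' hn1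
        have h1 : g⁻¹ * m * g ∈ N := by
          have := ‹N.Normal›.conj_mem m hm g⁻¹
          simpa using this
        have h2 := hzc _ h1
        rw [← hg]
        calc g * ((z : N) : G) * g⁻¹ * m = g * (((z : N) : G) * (g⁻¹ * m * g)) * g⁻¹ := by group
          _ = g * ((g⁻¹ * m * g) * ((z : N) : G)) * g⁻¹ := by rw [h2]
          _ = m * (g * ((z : N) : G) * g⁻¹) := by group
    exact ⟨⟨⟨fun a b => Subtype.ext (hcentral a a.2 b b.2)⟩⟩, p, hp, hexp⟩

end Cfsg.Agent.S0054
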