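import Cfsg.Statements.S0055
import Mathlib
import Cfsg.Agent.Lib.Lead.Coprime
-- import your own Cfsg.Agent.* helpers here

set_option autoImplicit false
open Cfsg

namespace Cfsg.Agent.S0055

open scoped commutatorElement

/-- If A normalises an abelian subgroup V of coprime order, then V is the internal direct product of its A-fixed points and its commutator with A: the two meet trivially and generate V. -/
theorem result {G : Type*} [Group G] [Finite G] (A V : Subgroup G) [IsMulCommutative V]
    (hAV : A ≤ Subgroup.normalizer (V : Set G)) (hcop : (Nat.card A).Coprime (Nat.card V)) :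
    (V ⊓ Subgroup.centralizer (A : Set G)) ⊓ ⁅V, A⁆ = ⊥ ∧ (V ⊓ Subgroup.centralizer (A : Set G)) ⊔ ⁅V, A⁆ = V := by
  classical
  have hDV := Cfsg.Agent.Lib.Lead.commutator_le_of_le_normalizer V A hAV
  have hcomm : ∀ a b : V, a * b = b * a := fun a b => IsMulCommutative.is_comm.comm a b
  have hsolv : Group.IsSolvable V := isSolvable_of_comm hcomm
  letI : CommGroup V := { (inferInstance : Group V) with mul_comm := hcomm }
  haveI := Fintype.ofFinite A
  let cV : A → (V →* V) := fun a =>
    { toFun := fun v => ⟨(a : G) * v * (a : G)⁻¹, (Subgroup.mem_normalizer_iff.mp (hAV a.2) v).mp v.2⟩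
      map_one' := by ext; simp
      map_mul' := by intro x y; ext; simp }
  let θ : V →* V := ∏ a : A, cV a
  have hinv : ∀ (b : A) (w : V), θ (cV b w) = θ w := by
    intro b w
    simp only [θ, MonoidHom.finset_prod_apply]
    apply Fintype.prod_equiv (Equiv.mulRight b)
    intro a
    ext
    simp [cV, mul_assoc]
  refine ⟨?_, ?_⟩
  · rw [eq_bot_iff]
    intro x hx
    obtain ⟨⟨hxV, hxC⟩, hxD⟩ := hx
    have h1 : θ ⟨x, hxV⟩ = ⟨x, hxV⟩ ^ Nat.card A := by
      simp only [θ, MonoidHom.finset_prod_apply]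
      rw [Finset.prod_eq_pow_card (b := ⟨x, hxV⟩)]
      · simp [Nat.card_eq_fintype_card]
      · intro a _
        ext
        simp only [cV, MonoidHom.coe_mk, OneHom.coe_mk]
        have := Subgroup.mem_centralizer_iff.mp hxC a a.2
        rw [this]
        group
    have h2 : ⁅V, A⁆ ≤ (θ.ker).map V.subtype := by
      rw [Subgroup.commutator_le]
      intro v hv a ha
      refine ⟨⟨⁅v, a⁆, hDV (Subgroup.commutator_mem_commutator hv ha)⟩, ?_, rfl⟩
      rw [SetLike.mem_coe, MonoidHom.mem_ker]
      have e : (⟨⁅v, a⁆, hDV (Subgroup.commutator_mem_commutator hv ha)⟩ : V)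
          = ⟨v, hv⟩ * cV ⟨a, ha⟩ (⟨v, hv⟩⁻¹) := by
        ext
        simp only [cV, MonoidHom.coe_mk, OneHom.coe_mk, commutatorElement_def, Subgroup.coe_mul,
          Subgroup.coe_inv]
        group
      rw [e, map_mul, hinv, map_inv, mul_inv_cancel]
    obtain ⟨w, hw1, hwx⟩ := h2 hxD
    have hw : w = ⟨x, hxV⟩ := Subtype.ext hwx
    rw [SetLike.mem_coe, MonoidHom.mem_ker, hw, h1] at hw1
    have ho1 : orderOf (⟨x,hxV⟩ : V) ∣ Nat.card A := orderOf_dvd_of_pow_eq_one hw1
    have ho2 : orderOf (⟨x,hxV⟩ : V) ∣ Nat.card V := orderOf_dvd_natCard _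
    have h3 := Nat.eq_one_of_dvd_coprimes hcop ho1 ho2
    rw [orderOf_eq_one_iff] at h3
    rw [Subgroup.mem_bot]
    exact congrArg Subtype.val h3
  · apply le_antisymm (sup_le inf_le_left hDV)
    intro v hv
    obtain ⟨d, hd, c, hc, rfl⟩ := Cfsg.Agent.Lib.Lead.exists_commutator_mul_centralizer A V hAV hcop (Or.inr hsolv) hv
    exact Subgroup.mul_mem _ (Subgroup.mem_sup_right hd) (Subgroup.mem_sup_left hc)

end Cfsg.Agent.S0055
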