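import Cfsg.Statements.S0056
import Mathlib
import Cfsg.Agent.Lib.Lead.Coprime
import Cfsg.Agent.S0055
-- import your own Cfsg.Agent.* helpers here

set_option autoImplicit false
open Cfsg

namespace Cfsg.Agent.S0056

open scoped commutatorElement

/-- A coprime action on an abelian group that fixes all elements of prime order is trivial. -/
theorem result {G : Type*} [Group G] [Finite G] (A V : Subgroup G) [IsMulCommutative V]
    (hAV : A ≤ Subgroup.normalizer (V : Set G)) (hcop : (Nat.card A).Coprime (Nat.card V))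
    (hΩ : ∀ v ∈ V, (orderOf v).Prime → ∀ a ∈ A, a * v = v * a) : A ≤ Subgroup.centralizer (V : Set G) := by
  classical
  obtain ⟨h1, -⟩ := Cfsg.Agent.S0055.result A V hAV hcop
  have hDV := Cfsg.Agent.Lib.Lead.commutator_le_of_le_normalizer V A hAV
  have hbot : ⁅V, A⁆ = ⊥ := by
    by_contra hne
    have hnt : Nontrivial ↥⁅V, A⁆ := (Subgroup.nontrivial_iff_ne_bot _).mpr hne
    have hc1 : Nat.card ↥⁅V, A⁆ ≠ 1 := (Finite.one_lt_card).ne'
    obtain ⟨p, hp, hpd⟩ := Nat.exists_prime_and_dvd hc1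
    haveI : Fact p.Prime := ⟨hp⟩
    obtain ⟨y, hy⟩ := exists_prime_orderOf_dvd_card' p hpd
    have hyV : (y : G) ∈ V := hDV y.2
    have hord : orderOf (y : G) = p := by rw [Subgroup.orderOf_coe]; exact hy
    have hyC : (y : G) ∈ Subgroup.centralizer (A : Set G) := by
      rw [Subgroup.mem_centralizer_iff]
      intro a ha
      exact hΩ y hyV (hord ▸ hp) a ha
    have hmem : (y : G) ∈ (V ⊓ Subgroup.centralizer (A : Set G)) ⊓ ⁅V, A⁆ := ⟨⟨hyV, hyC⟩, y.2⟩
    rw [h1, Subgroup.mem_bot] at hmem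
    rw [hmem, orderOf_one] at hord
    exact hp.one_lt.ne hord
  rw [Subgroup.commutator_comm, Subgroup.commutator_eq_bot_iff_le_centralizer] at hbot
  exact hbot

end Cfsg.Agent.S0056
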