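import Cfsg.Statements.S0057
import Mathlib
import Cfsg.Agent.Lib.Helper6.RelIdx
import Cfsg.Agent.Lib.Lead.CoprimeSylow
import Cfsg.Agent.Lib.Lead.Coprime
import Cfsg.Agent.Lib.Lead.PQ
import Cfsg.Agent.Lib.Helper4.AxB

set_option autoImplicit false
open Cfsg
open scoped commutatorElement

namespace Cfsg.Agent.S0057


/-- Under coprime action, if the centraliser of A in K has prime index p in K then the commutator subgroup [K, A] has order exactly p. -/
theorem result {G : Type*} [Group G] [Finite G] (A K : Subgroup G) (hAK : A ≤ Subgroup.normalizer (K : Set G))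
    (hcop : (Nat.card A).Coprime (Nat.card K)) (hsolv : Group.IsSolvable A ∨ Group.IsSolvable K)
    (p : ℕ) (hp : p.Prime) (hidx : (K ⊓ Subgroup.centralizer (A : Set G)).relIndex K = p) :
    Nat.card (⁅K, A⁆ : Subgroup G) = p := by
  classical
  haveI : Fact p.Prime := ⟨hp⟩
  have hCK : K ⊓ Subgroup.centralizer (A : Set G) ≤ K := inf_le_left
  obtain ⟨P, hPA⟩ := Cfsg.Agent.Lib.Lead.exists_invariant_sylow A K hAK hcop hsolv p
  have hP'K : (P : Subgroup K).map K.subtype ≤ K := by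
    rintro _ ⟨x, _, rfl⟩; exact x.2
  have hP'p : IsPGroup p ((P : Subgroup K).map K.subtype) := P.2.map _
  have hP'C : ¬ (P : Subgroup K).map K.subtype ≤ K ⊓ Subgroup.centralizer (A : Set G) := by
    intro hle
    have h1 : (P : Subgroup K) ≤ (K ⊓ Subgroup.centralizer (A : Set G)).subgroupOf K := by
      intro x hx
      rw [Subgroup.mem_subgroupOf]
      exact hle ⟨x, hx, rfl⟩
    have h2 := Subgroup.index_dvd_of_le h1
    have h3 : ((K ⊓ Subgroup.centralizer (A : Set G)).subgroupOf K).index = p := hidx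
    rw [h3] at h2
    exact P.not_dvd_index h2
  generalize (P : Subgroup K).map K.subtype = P' at hPA hP'K hP'p hP'C
  have hcop' : ∀ X : Subgroup G, X ≤ K → (Nat.card A).Coprime (Nat.card X) := fun X hX =>
    Nat.Coprime.coprime_dvd_right (Subgroup.card_dvd_of_le hX) hcop
  have hrel : ∀ X : Subgroup G, X ≤ K → IsPGroup p X →
      ¬ X ≤ K ⊓ Subgroup.centralizer (A : Set G) →
      (K ⊓ Subgroup.centralizer (A : Set G)).relIndex X = p := by
    intro X hXK hXp hXC
    have h1 : (K ⊓ Subgroup.centralizer (A : Set G)).relIndex X ≤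
        (K ⊓ Subgroup.centralizer (A : Set G)).relIndex K :=
      Subgroup.relIndex_le_of_le_right hXK (by rw [hidx]; exact hp.ne_zero)
    rw [hidx] at h1
    have h2 : (K ⊓ Subgroup.centralizer (A : Set G)).relIndex X ∣ Nat.card X :=
      Subgroup.relIndex_dvd_card _ _
    obtain ⟨s, hs⟩ := IsPGroup.iff_card.mp hXp
    rw [hs] at h2
    obtain ⟨j, -, hj⟩ := (Nat.dvd_prime_pow hp).mp h2
    have h3 : (K ⊓ Subgroup.centralizer (A : Set G)).relIndex X ≠ 1 :=
      fun h => hXC (Subgroup.relIndex_eq_one.mp h)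
    rw [hj] at h1 h3 ⊢
    rcases j with _ | _ | j
    · simp at h3
    · simp
    · exfalso
      have h4 : p ^ 2 ≤ p ^ (j + 1 + 1) := Nat.pow_le_pow_right hp.pos (by omega)
      have h5 := hp.two_le
      nlinarith
  have hTP' : ⁅P', A⁆ ≤ P' := Cfsg.Agent.Lib.Lead.commutator_le_of_le_normalizer P' A hPA
  have hAT : A ≤ Subgroup.normalizer ((⁅P', A⁆ : Subgroup G) : Set G) :=
    Cfsg.Agent.Lib.Lead.le_normalizer_commutator_right P' A
  have hsolvP : Group.IsSolvable A ∨ Group.IsSolvable P' := Or.inr (by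
    haveI := hP'p.isNilpotent
    infer_instance)
  have hKP : ∀ k ∈ K, ∃ x ∈ P', ∃ c ∈ K ⊓ Subgroup.centralizer (A : Set G), k = x * c :=
    Cfsg.Agent.Lib.Helper6.exists_mul_of_relIndex_eq P' _ K hP'K hCK
      (by rw [hrel P' hP'K hP'p hP'C, hidx])
  have hKT : ∀ k ∈ K, ∃ t ∈ ⁅P', A⁆, ∃ c ∈ K ⊓ Subgroup.centralizer (A : Set G), k = t * c := by
    intro k hk
    obtain ⟨x, hx, c, hc, rfl⟩ := hKP k hk
    obtain ⟨d, hd, c', hc', rfl⟩ := Cfsg.Agent.Lib.Lead.exists_commutator_mul_centralizer A P'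
      hPA (hcop' P' hP'K) hsolvP hx
    exact ⟨d, hd, c' * c, Subgroup.mul_mem _ ⟨hP'K hc'.1, hc'.2⟩ hc, by group⟩
  have hLT : ⁅K, A⁆ ≤ ⁅P', A⁆ := by
    rw [Subgroup.commutator_le]
    intro k hk a ha
    obtain ⟨t, ht, c, hc, rfl⟩ := hKT k hk
    have hca : a * c = c * a := Subgroup.mem_centralizer_iff.mp hc.2 a ha
    have h1 : ⁅t * c, a⁆ = t * (a * t⁻¹ * a⁻¹) := by
      rw [commutatorElement_def]
      calc t * c * a * (t * c)⁻¹ * a⁻¹ = t * (c * a) * c⁻¹ * t⁻¹ * a⁻¹ := by group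
        _ = t * (a * c) * c⁻¹ * t⁻¹ * a⁻¹ := by rw [hca]
        _ = t * (a * t⁻¹ * a⁻¹) := by group
    rw [h1]
    exact Subgroup.mul_mem _ ht ((Subgroup.mem_normalizer_iff.mp (hAT ha) t⁻¹).mp
      (Subgroup.inv_mem _ ht))
  have hTL : ⁅P', A⁆ ≤ ⁅K, A⁆ := Subgroup.commutator_mono hP'K le_rfl
  have hL : ⁅K, A⁆ = ⁅P', A⁆ := le_antisymm hLT hTL
  rw [hL]
  have hTp : IsPGroup p (⁅P', A⁆ : Subgroup G) := hP'p.to_le hTP'
  have hTT : ⁅⁅P', A⁆, A⁆ = ⁅P', A⁆ :=
    Cfsg.Agent.Lib.Lead.commutator_commutator_eq_of_coprime A P' hPA (hcop' P' hP'K) hsolvP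
  have hTK : ⁅P', A⁆ ≤ K := hTP'.trans hP'K
  have hTC : ¬ ⁅P', A⁆ ≤ K ⊓ Subgroup.centralizer (A : Set G) := by
    intro hle
    have h1 : ⁅⁅P', A⁆, A⁆ = ⊥ := by
      rw [Subgroup.commutator_eq_bot_iff_le_centralizer]
      exact fun t ht => (hle ht).2
    rw [hTT] at h1
    apply hP'C
    exact le_inf hP'K (Subgroup.commutator_eq_bot_iff_le_centralizer.mp h1)
  have hrelT := hrel _ hTK hTp hTC
  generalize (⁅P', A⁆ : Subgroup G) = T at hTP' hAT hTp hTT hTK hTC hrelT ⊢
  have hDeq : T ⊓ Subgroup.centralizer (A : Set G) = T ⊓ (K ⊓ Subgroup.centralizer (A : Set G)) := by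
    rw [← inf_assoc, inf_eq_left.mpr hTK]
  have hDrel : (T ⊓ Subgroup.centralizer (A : Set G)).relIndex T = p := by
    rw [hDeq, Subgroup.inf_relIndex_left, hrelT]
  have hTbot : T ≠ ⊥ := by
    rintro rfl
    exact hTC bot_le
  obtain ⟨s, hs⟩ := IsPGroup.iff_card.mp hTp
  have hs0 : s ≠ 0 := by
    rintro rfl
    rw [pow_zero, Subgroup.card_eq_one] at hs
    exact hTbot hs
  haveI hDn : ((T ⊓ Subgroup.centralizer (A : Set G)).subgroupOf T).Normal := by
    apply Subgroup.normal_of_index_eq_minFac_card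
    rw [hs, Nat.Prime.pow_minFac hp hs0]
    exact hDrel
  have hTD : T ≤ Subgroup.normalizer ((T ⊓ Subgroup.centralizer (A : Set G) : Subgroup G) : Set G) :=
    (Subgroup.normal_subgroupOf_iff_le_normalizer inf_le_left).mp hDn
  -- three subgroups
  have h3 : ⁅⁅A, T⁆, T ⊓ Subgroup.centralizer (A : Set G)⁆ = ⊥ := by
    apply Subgroup.commutator_commutator_eq_bot_of_rotate
    · have h4 : ⁅T, T ⊓ Subgroup.centralizer (A : Set G)⁆ ≤ T ⊓ Subgroup.centralizer (A : Set G) := by
        rw [Subgroup.commutator_le]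
        intro t ht d hd
        rw [commutatorElement_def]
        exact Subgroup.mul_mem _ ((Subgroup.mem_normalizer_iff.mp (hTD ht) d).mp hd)
          (Subgroup.inv_mem _ hd)
      rw [Subgroup.commutator_eq_bot_iff_le_centralizer]
      exact h4.trans inf_le_right
    · have h4 : ⁅T ⊓ Subgroup.centralizer (A : Set G), A⁆ = ⊥ := by
        rw [Subgroup.commutator_eq_bot_iff_le_centralizer]
        exact inf_le_right
      rw [h4, Subgroup.commutator_bot_left]
  rw [Subgroup.commutator_comm A T, hTT, Subgroup.commutator_eq_bot_iff_le_centralizer] at h3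
  -- T is abelian
  have hTab : ∀ a ∈ T, ∀ b ∈ T, a * b = b * a := by
    intro a ha b hb
    haveI : IsCyclic (↥T ⧸ (T ⊓ Subgroup.centralizer (A : Set G)).subgroupOf T) := by
      haveI : Fact p.Prime := ⟨hp⟩
      apply isCyclic_of_prime_card (p := p)
      exact hDrel
    have h5' := MonoidHom.isMulCommutative_of_isCyclic_of_ker_le_center
      (QuotientGroup.mk' ((T ⊓ Subgroup.centralizer (A : Set G)).subgroupOf T)) (by
        rw [QuotientGroup.ker_mk']
        intro d hd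
        rw [Subgroup.mem_center_iff]
        intro t
        have h6 := Subgroup.mem_centralizer_iff.mp (h3 t.2) (d : G) (Subgroup.mem_subgroupOf.mp hd)
        exact Subtype.ext h6.symm)
    have h5 := h5'.is_comm.comm (⟨a, ha⟩ : ↥T) ⟨b, hb⟩
    exact congrArg Subtype.val h5
  have hbot := Cfsg.Agent.Lib.Helper4.comm_inf_centralizer_eq_bot A T hAT hTab (by
    intro v hv hvA
    have h5 : orderOf v ∣ Nat.card A := orderOf_dvd_of_pow_eq_one hvA
    have h6 : orderOf v ∣ Nat.card T := by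
      have := orderOf_dvd_natCard (⟨v, hv⟩ : ↥T)
      rwa [Subgroup.orderOf_mk] at this
    have h7 := Nat.dvd_gcd h5 h6
    rw [Nat.Coprime.gcd_eq_one (hcop' T hTK), Nat.dvd_one, orderOf_eq_one_iff] at h7
    exact h7)
  rw [hTT] at hbot
  rw [hbot, Subgroup.relIndex_bot_left] at hDrel
  exact hDrel

end Cfsg.Agent.S0057
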