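import Cfsg.Statements.S0059
import Mathlib
import Cfsg.Agent.Lib.Lead.Glauberman
-- import your own Cfsg.Agent.* helpers here

set_option autoImplicit false
open Cfsg

namespace Cfsg.Agent.S0059

/-- Let a finite group act on a set on which a normal subgroup K of coprime order and index is transitive, with K or the quotient solvable. Then any complement H of K has a fixed point, and any two H-fixed points are interchanged by an element of K centralising H. -/
theorem result {G : Type*} [Group G] [Finite G] {X : Type*} [Nonempty X] [MulAction G X]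
    (K H : Subgroup G) [K.Normal] (hc : Subgroup.IsComplement' K H) (hcop : (Nat.card K).Coprime K.index)
    (hsolv : Group.IsSolvable K ∨ Group.IsSolvable (G ⧸ K)) (htrans : MulAction.IsPretransitive K X) :
    (∃ x : X, ∀ h ∈ H, h • x = x) ∧
    ∀ x y : X, (∀ h ∈ H, h • x = x) → (∀ h ∈ H, h • y = y) → ∃ k ∈ K ⊓ Subgroup.centralizer (H : Set G), k • x = y := by
  have hact := Cfsg.Agent.Lib.Lead.isAct_smul G X
  have hAK : H ≤ Subgroup.normalizer (K : Set G) := by rw [Subgroup.normalizer_eq_top]; exact le_top
  have hidx : K.index = Nat.card H := hc.symm.index_eq_card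
  have hcop' : (Nat.card H).Coprime (Nat.card K) := by rw [← hidx]; exact hcop.symm
  have hsolv' : Group.IsSolvable H ∨ Group.IsSolvable K := by
    rcases hsolv with h | h
    · exact Or.inr h
    · exact Or.inl (Cfsg.Agent.Lib.Lead.isSolvable_complement_of_quotient K H hc h)
  constructor
  · obtain ⟨x₀⟩ := ‹Nonempty X›
    obtain ⟨k, hk, hfix⟩ := Cfsg.Agent.Lib.Lead.glauberman_exists hact H K hAK hcop' hsolv' x₀ (by
      intro a _
      obtain ⟨k, hk⟩ := MulAction.exists_smul_eq K x₀ (a • x₀)
      exact ⟨k, k.2, hk.symm⟩)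
    exact ⟨k • x₀, hfix⟩
  · intro x y hx hy
    obtain ⟨k, hk⟩ := MulAction.exists_smul_eq K x y
    exact Cfsg.Agent.Lib.Lead.glauberman_conj hact H K hAK hcop' hsolv' x y hx hy k k.2 hk

end Cfsg.Agent.S0059
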