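import Cfsg.Statements.S0060
import Mathlib
import Cfsg.Agent.Lib.Lead.Fitting2
-- import your own Cfsg.Agent.* helpers here

set_option autoImplicit false
open Pointwise
open Cfsg

namespace Cfsg.Agent.S0060

open scoped commutatorElement
open scoped Pointwise

/-- Brodkey's Theorem: in a finite group with abelian Sylow p-subgroups and no nontrivial normal p-subgroup, some conjugate of a Sylow p-subgroup meets it trivially. -/
theorem result {G : Type*} [Group G] [Finite G] (p : ℕ) [Fact p.Prime]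
    (S : Sylow p G) (hS : IsMulCommutative S) (hOp : Cfsg.pCore p G = ⊥) :
    ∃ g : G, (S : Subgroup G) ⊓ MulAut.conj g • (S : Subgroup G) = ⊥ := by
  classical
  have hSc : ∀ x ∈ (S : Subgroup G), ∀ y ∈ (S : Subgroup G), x * y = y * x := by
    intro x hx y hy
    have := hS.is_comm.comm (⟨x, hx⟩ : (S : Subgroup G)) ⟨y, hy⟩
    exact congrArg Subtype.val this
  obtain ⟨g, hmin⟩ := Finite.exists_min (fun x : G => Nat.card ↥((S : Subgroup G) ⊓ MulAut.conj x • (S : Subgroup G)))
  refine ⟨g, ?_⟩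
  set D := (S : Subgroup G) ⊓ MulAut.conj g • (S : Subgroup G) with hD
  have hQc : ∀ x ∈ MulAut.conj g • (S : Subgroup G), ∀ y ∈ MulAut.conj g • (S : Subgroup G), x * y = y * x := by
    intro x hx y hy
    rw [Cfsg.Agent.Lib.Lead.mem_conj_smul] at hx hy
    have h1 := hSc _ hx _ hy
    have h2 : x * y = g * ((g⁻¹ * x * g) * (g⁻¹ * y * g)) * g⁻¹ := by group
    rw [h2, h1]; group
  have hnorm : ∀ X : Subgroup G, D ≤ X → (∀ x ∈ X, ∀ y ∈ X, x * y = y * x) →
      X ≤ Subgroup.normalizer (D : Set G) := by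
    intro X hDX hX s hs
    rw [Subgroup.mem_normalizer_iff]
    intro h
    constructor
    · intro hh
      have : s * h * s⁻¹ = h := by rw [hX s hs h (hDX hh)]; group
      rwa [this]
    · intro hh
      have h1 : s * h * s⁻¹ = s⁻¹ * (s * h * s⁻¹) * s := by
        have := hX s⁻¹ (X.inv_mem hs) _ (hDX hh)
        rw [this]; group
      have h2 : h = s⁻¹ * (s * h * s⁻¹) * s := by group
      rw [h2, ← h1]; exact hh
  have hSN := hnorm (S : Subgroup G) inf_le_left hSc
  have hQN := hnorm (MulAut.conj g • (S : Subgroup G)) inf_le_right hQc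
  have hQp : IsPGroup p ↥(MulAut.conj g • (S : Subgroup G)) := by
    have : MulAut.conj g • (S : Subgroup G) = ((g • S : Sylow p G) : Subgroup G) := rfl
    rw [this]; exact (g • S).isPGroup'
  have key : ∀ T : Sylow p G, D ≤ (T : Subgroup G) := by
    intro T
    obtain ⟨c, hc, Q', hQ', hcT⟩ := Cfsg.Agent.Lib.Lead.exists_conj_le_common_sylow
      (Subgroup.normalizer (D : Set G)) (MulAut.conj g • (S : Subgroup G))
      ((T : Subgroup G) ⊓ Subgroup.normalizer (D : Set G)) hQN inf_le_right hQp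
      (T.isPGroup'.to_le inf_le_left)
    have hQeq : MulAut.conj g • (S : Subgroup G) = (Q' : Subgroup G) := by
      apply Subgroup.eq_of_le_of_card_ge hQ'
      rw [Cfsg.Agent.Lib.Lead.card_conj_smul, S.card_eq_multiplicity, Q'.card_eq_multiplicity]
    obtain ⟨x, hx⟩ := MulAction.exists_smul_eq G S (c • T)
    have hle : (S : Subgroup G) ⊓ MulAut.conj c • (T : Subgroup G) ≤ D := by
      intro y hy
      refine ⟨hy.1, ?_⟩
      have h1 : c⁻¹ * y * c ∈ (T : Subgroup G) := Cfsg.Agent.Lib.Lead.mem_conj_smul.mp hy.2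
      have h2 : c⁻¹ * y * c ∈ Subgroup.normalizer (D : Set G) :=
        Subgroup.mul_mem _ (Subgroup.mul_mem _ (Subgroup.inv_mem _ hc) (hSN hy.1)) hc
      have h3 := hcT _ ⟨h1, h2⟩
      rw [hQeq]
      have h4 : c * (c⁻¹ * y * c) * c⁻¹ = y := by group
      rwa [h4] at h3
    have hcard : Nat.card D ≤ Nat.card ↥((S : Subgroup G) ⊓ MulAut.conj c • (T : Subgroup G)) := by
      have h5 := hmin x
      have h6 : MulAut.conj x • (S : Subgroup G) = MulAut.conj c • (T : Subgroup G) := by
        have := congrArg (fun P : Sylow p G => (P : Subgroup G)) hx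
        exact this
      rw [h6] at h5
      exact h5
    have heq := Subgroup.eq_of_le_of_card_ge hle hcard
    intro d hd
    have h7 : c * d * c⁻¹ ∈ D := (Subgroup.mem_normalizer_iff.mp hc d).mp hd
    rw [← heq] at h7
    have h8 := Cfsg.Agent.Lib.Lead.mem_conj_smul.mp h7.2
    have h9 : c⁻¹ * (c * d * c⁻¹) * c = d := by group
    rwa [h9] at h8
  have hDle : D ≤ Cfsg.pCore p G := by
    rw [Cfsg.Agent.Lib.Lead.pCore_eq_iInf_sylow]
    exact le_iInf key
  rw [hOp] at hDle
  exact le_bot_iff.mp hDle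

end Cfsg.Agent.S0060
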