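import Cfsg.Statements.S0063
import Mathlib
-- import your own Cfsg.Agent.* helpers here

set_option autoImplicit false
open Cfsg

namespace Cfsg.Agent.S0063

/-- A finite group of prime-power order p ^ m with m > 1 is nilpotent of class at most m - 1. -/
theorem result {G : Type*} [Group G] [Finite G] (p m : ℕ) [Fact p.Prime]
    (hG : Nat.card G = p ^ m) (hm : 1 < m) : Group.nilpotencyClass G ≤ m - 1 := by
  have key : ∀ (m : ℕ) (G : Type u_1) [Group G] [Finite G], Nat.card G = p ^ m →
      Group.nilpotencyClass G ≤ max (m - 1) 1 := by
    intro m
    induction m using Nat.strong_induction_on with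
    | _ m ih =>
      intro G _ _ hG
      have hp : p.Prime := Fact.out
      have hPG : IsPGroup p G := IsPGroup.of_card hG
      haveI hnil : Group.IsNilpotent G := hPG.isNilpotent
      by_cases hcomm : ∀ a b : G, a * b = b * a
      · have h1 : Group.nilpotencyClass G ≤ 1 :=
          Group.IsNilpotent.nilpotencyClass_le_one_iff.mpr ⟨⟨hcomm⟩⟩
        exact h1.trans (le_max_right _ _)
      · haveI hnt : Nontrivial G := by
          by_contra hnt
          rw [not_nontrivial_iff_subsingleton] at hnt
          exact hcomm (fun a b => Subsingleton.elim _ _)
        have hZnt : Nontrivial (Subgroup.center G) := hPG.center_nontrivial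
        have hcard := Subgroup.card_eq_card_quotient_mul_card_subgroup (Subgroup.center G)
        rw [hG] at hcard
        obtain ⟨i, hi, hQ⟩ := (Nat.dvd_prime_pow hp).mp (Dvd.intro _ hcard.symm)
        obtain ⟨j, hj, hZ⟩ := (Nat.dvd_prime_pow hp).mp (Dvd.intro_left _ hcard.symm)
        have hj1 : 1 ≤ j := by
          rcases Nat.eq_zero_or_pos j with h0 | h0
          · exfalso
            rw [h0, pow_zero] at hZ
            have := Finite.one_lt_card_iff_nontrivial.mpr hZnt
            omega
          · exact h0
        have hij : i + j = m := by
          rw [hQ, hZ, ← pow_add] at hcard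
          exact (Nat.pow_right_injective hp.two_le hcard).symm
        have hi_lt : i < m := by omega
        have hIH := ih i hi_lt (G ⧸ Subgroup.center G) hQ
        have hcls := Group.nilpotencyClass_eq_quotient_center_plus_one (G := G)
        rcases Nat.lt_or_ge i 2 with hi2 | hi2
        · exfalso
          haveI : IsCyclic (G ⧸ Subgroup.center G) := by
            rcases Nat.lt_or_ge i 1 with hi1 | hi1
            · have hi0 : i = 0 := by omega
              rw [hi0, pow_zero] at hQ
              haveI : Subsingleton (G ⧸ Subgroup.center G) :=
                (Nat.card_eq_one_iff_unique.mp hQ).1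
              exact isCyclic_of_subsingleton
            · have hi1' : i = 1 := by omega
              rw [hi1', pow_one] at hQ
              exact isCyclic_of_prime_card hQ
          apply hcomm
          exact commutative_of_cyclic_center_quotient (QuotientGroup.mk' (Subgroup.center G))
            (by rw [QuotientGroup.ker_mk'])
        · rw [hcls]
          have h2 : max (i - 1) 1 = i - 1 := max_eq_left (by omega)
          rw [h2] at hIH
          have h3 : i - 1 + 1 ≤ m - 1 := by omega
          exact (Nat.add_le_add_right hIH 1).trans (h3.trans (le_max_left _ _))
  have h1 := key m G hG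
  have h2 : max (m - 1) 1 = m - 1 := max_eq_left (by omega)
  rwa [h2] at h1

end Cfsg.Agent.S0063
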