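import Cfsg.Statements.S0064
import Mathlib
-- import your own Cfsg.Agent.* helpers here

set_option autoImplicit false
open Cfsg

namespace Cfsg.Agent.S0064

/-- A finite group is nilpotent exactly when each of its subgroups is subnormal. -/
theorem result {G : Type*} [Group G] [Finite G] :
    Group.IsNilpotent G ↔ ∀ H : Subgroup G, H.IsSubnormal := by
  constructor
  · intro hG H
    induction H using WellFoundedGT.induction with
    | ind H ih =>
      by_cases hH : H = ⊤
      · rw [hH]; exact Subgroup.IsSubnormal.top
      · have hlt : H < Subgroup.normalizer (H : Set G) :=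
          normalizerCondition_of_isNilpotent H (lt_top_iff_ne_top.mpr hH)
        exact Subgroup.IsSubnormal.step H _ Subgroup.le_normalizer (ih _ hlt) Subgroup.normal_in_normalizer
  · intro h
    have tfae := Group.isNilpotent_of_finite_tfae (G := G)
    apply (tfae.out 0 2).mpr
    intro H hH
    rcases (h H).lt_normal with h1 | ⟨K, hK, hHK, hKt⟩
    · exact absurd h1 hH.1
    · have hKH : K = H := by
        by_contra hne
        exact hKt.ne (hH.2 K (lt_of_le_of_ne hHK (Ne.symm hne)))
      rw [← hKH]; exact hK

end Cfsg.Agent.S0064
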