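import Cfsg.Statements.S0067
import Mathlib
import Cfsg.Agent.Lib.Lead.BaerSuzuki
import Cfsg.Agent.Lib.Lead.Invol2
import Cfsg.Agent.Lib.Lead.Fitting2
import Cfsg.Agent.Lib.Helper1.Schmidt3
import Cfsg.Agent.Lib.Helper1.Subnormal2
-- import your own Cfsg.Agent.* helpers here

set_option autoImplicit false
open Pointwise
open Cfsg

namespace Cfsg.Agent.S0067

/-- If the join of a subgroup A with each of its conjugates is nilpotent, then A is subnormal in the finite group and contained in the Fitting subgroup. -/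
theorem result {G : Type*} [Group G] [Finite G] (A : Subgroup G)
    (h : ∀ g : G, Group.IsNilpotent (A ⊔ MulAut.conj g • A : Subgroup G)) : A.IsSubnormal ∧ A ≤ Cfsg.fittingSubgroup G := by
  classical
  -- key : p-elements of A lie in F(G)
  have key : ∀ (p : ℕ) [Fact p.Prime] (a : G) (k : ℕ), a ∈ A → orderOf a = p ^ k →
      a ∈ Cfsg.fittingSubgroup G := by
    intro p _ a k haA hak
    let K : Set G := {x | ∃ g : G, x = g * a * g⁻¹}
    have hKn : ∀ x ∈ K, ∀ g : G, g * x * g⁻¹ ∈ K := by
      rintro x ⟨g₁, rfl⟩ g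
      exact ⟨g * g₁, by group⟩
    have hK2 : ∀ x ∈ K, ∀ y ∈ K, IsPGroup p (Subgroup.closure ({x, y} : Set G)) := by
      rintro x ⟨g, rfl⟩ y ⟨h', rfl⟩
      obtain ⟨c, hc⟩ : ∃ c : G, c = g⁻¹ * h' := ⟨_, rfl⟩
      have hN := h c
      obtain ⟨N, hNdef⟩ : ∃ N : Subgroup G, N = A ⊔ MulAut.conj c • A := ⟨_, rfl⟩
      rw [← hNdef] at hN
      have haN : a ∈ N := by
        rw [hNdef]
        exact (le_sup_left : A ≤ A ⊔ MulAut.conj c • A) haA
      have ha'N : c * a * c⁻¹ ∈ N := by
        rw [hNdef]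
        apply (le_sup_right : MulAut.conj c • A ≤ A ⊔ MulAut.conj c • A)
        rw [Cfsg.Agent.Lib.Lead.mem_conj_smul]
        have : c⁻¹ * (c * a * c⁻¹) * c = a := by group
        rw [this]; exact haA
      have hsyl := ((Group.isNilpotent_of_finite_tfae (G := N)).out 0 3).mp hN
      let P : Sylow p N := default
      have hPn : (P : Subgroup N).Normal := hsyl p inferInstance P
      have hmem : ∀ z : G, ∀ hz : z ∈ N, orderOf z = p ^ k → (⟨z, hz⟩ : N) ∈ (P : Subgroup N) := by
        intro z hz hzo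
        have hpg : IsPGroup p (Subgroup.zpowers (⟨z, hz⟩ : N)) :=
          IsPGroup.of_card (n := k) (by rw [Nat.card_zpowers, Subgroup.orderOf_mk, hzo])
        exact Cfsg.Agent.Lib.Helper1.le_normal_sylow P hPn _ hpg (Subgroup.mem_zpowers _)
      have h1 : IsPGroup p ((P : Subgroup N).map N.subtype) := P.isPGroup'.map N.subtype
      have h2 : Subgroup.closure ({a, c * a * c⁻¹} : Set G) ≤ (P : Subgroup N).map N.subtype := by
        rw [Subgroup.closure_le]
        intro z hz
        rcases hz with rfl | hz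
        · exact ⟨⟨_, haN⟩, hmem _ haN hak, rfl⟩
        · rw [Set.mem_singleton_iff] at hz
          subst hz
          exact ⟨⟨_, ha'N⟩, hmem _ ha'N (by rw [Cfsg.Agent.Lib.Lead.orderOf_conj_eq]; exact hak), rfl⟩
      have h3 : IsPGroup p (Subgroup.closure ({a, c * a * c⁻¹} : Set G)) := h1.to_le h2
      have h4 : Subgroup.closure ({g * a * g⁻¹, h' * a * h'⁻¹} : Set G) =
          (Subgroup.closure ({a, c * a * c⁻¹} : Set G)).map (MulAut.conj g).toMonoidHom := by
        rw [MonoidHom.map_closure, Set.image_pair]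
        have e1 : (MulAut.conj g).toMonoidHom a = g * a * g⁻¹ := rfl
        have e2 : (MulAut.conj g).toMonoidHom (c * a * c⁻¹) = h' * a * h'⁻¹ := by
          show g * (c * a * c⁻¹) * g⁻¹ = h' * a * h'⁻¹
          rw [hc]; group
        rw [e1, e2]
      rw [h4]
      exact h3.map _
    have hp := Cfsg.Agent.Lib.Lead.baer_suzuki_elt K hKn hK2
    haveI hnorm := Cfsg.Agent.Lib.Lead.closure_normal_of_conj_invariant K hKn
    have hnil : Group.IsNilpotent (Subgroup.closure K) := hp.isNilpotent
    have hle : Subgroup.closure K ≤ Cfsg.fittingSubgroup G := le_sSup ⟨hnorm, hnil⟩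
    exact hle (Subgroup.subset_closure ⟨1, by group⟩)
  have hAF : A ≤ Cfsg.fittingSubgroup G := by
    have htop : (Cfsg.fittingSubgroup G).subgroupOf A = ⊤ := by
      apply Cfsg.Agent.Lib.Helper1.eq_top_of_sylow_le
      intro r hr
      refine ⟨default, ?_⟩
      intro x hx
      rw [Subgroup.mem_subgroupOf]
      obtain ⟨k, hk⟩ := (IsPGroup.iff_orderOf.mp (default : Sylow r A).isPGroup') ⟨x, hx⟩
      refine key r (x : G) k x.2 ?_
      rw [Subgroup.orderOf_coe]
      rw [Subgroup.orderOf_mk] at hk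
      exact hk
    intro a ha
    have : (⟨a, ha⟩ : A) ∈ (Cfsg.fittingSubgroup G).subgroupOf A := by rw [htop]; trivial
    exact this
  refine ⟨?_, hAF⟩
  haveI := Cfsg.Agent.Lib.Lead.fitting_isNilpotent (G := G)
  haveI := Cfsg.Agent.Lib.Lead.fitting_normal G
  exact Subgroup.IsSubnormal.trans hAF (Cfsg.Agent.Lib.Helper1.isSubnormal_of_isNilpotent' _)
    (Subgroup.Normal.isSubnormal inferInstance)

end Cfsg.Agent.S0067
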