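import Cfsg.Statements.S0068
import Mathlib
-- import your own Cfsg.Agent.* helpers here

set_option autoImplicit false
open Cfsg

namespace Cfsg.Agent.S0068

/-- Frobenius complements of even order: if H complements a nontrivial normal subgroup K, each nonidentity element of H has trivial centraliser in K, and H has even order, then H contains a unique involution s, K is abelian, and s inverts every element of K. -/
theorem result {G : Type*} [Group G] [Finite G] (K H : Subgroup G) [K.Normal]
    (hc : Subgroup.IsComplement' K H) (hK : K ≠ ⊥) (hfpf : ∀ h ∈ H, h ≠ 1 → K ⊓ Subgroup.centralizer {h} = ⊥)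
    (heven : 2 ∣ Nat.card H) :
    (∃ s ∈ H, orderOf s = 2 ∧ (∀ t ∈ H, orderOf t = 2 → t = s) ∧ ∀ k ∈ K, s * k * s⁻¹ = k⁻¹) ∧ IsMulCommutative K := by
  classical
  -- every involution of H inverts K
  have key : ∀ t ∈ H, orderOf t = 2 → ∀ k ∈ K, t * k * t⁻¹ = k⁻¹ := by
    intro t htH ht2
    have ht1 : t ≠ 1 := by
      rintro rfl
      simp at ht2
    have htt : t * t = 1 := by
      have := pow_orderOf_eq_one t
      rw [ht2, pow_two] at this
      exact this
    have htinv : t⁻¹ = t := inv_eq_of_mul_eq_one_left htt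
    have hfix := hfpf t htH ht1
    let f : K → K := fun k => ⟨(k : G)⁻¹ * (t * k * t⁻¹), K.mul_mem (K.inv_mem k.2) (‹K.Normal›.conj_mem _ k.2 t)⟩
    have hinj : Function.Injective f := by
      intro k k' hkk
      have h1 : (k : G)⁻¹ * (t * k * t⁻¹) = (k' : G)⁻¹ * (t * k' * t⁻¹) := congrArg Subtype.val hkk
      have h2 : (k' : G) * (k : G)⁻¹ ∈ K ⊓ Subgroup.centralizer {t} := by
        refine ⟨K.mul_mem k'.2 (K.inv_mem k.2), ?_⟩
        show _ ∈ Subgroup.centralizer {t}
        rw [Subgroup.mem_centralizer_iff]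
        intro x hx
        rw [Set.mem_singleton_iff] at hx
        subst hx
        have h3 : (k : G)⁻¹ * x * k = (k' : G)⁻¹ * x * k' := by
          have := congrArg (fun z => z * x) h1
          simp only [mul_assoc, inv_mul_cancel, mul_one] at this
          simpa [mul_assoc] using this
        calc x * ((k' : G) * (k : G)⁻¹) = k' * ((k' : G)⁻¹ * x * k') * (k : G)⁻¹ := by group
          _ = k' * ((k : G)⁻¹ * x * k) * (k : G)⁻¹ := by rw [h3]
          _ = (k' : G) * (k : G)⁻¹ * x := by group
      rw [hfix, Subgroup.mem_bot] at h2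
      have : (k' : G) = k := by
        have := mul_eq_one_iff_eq_inv.mp h2
        simpa using this
      exact Subtype.ext this.symm
    have hsurj : Function.Surjective f := Finite.surjective_of_injective hinj
    intro k hk
    obtain ⟨a, ha⟩ := hsurj ⟨k, hk⟩
    have hk' : (a : G)⁻¹ * (t * a * t⁻¹) = k := congrArg Subtype.val ha
    rw [← hk', htinv]
    calc t * ((a : G)⁻¹ * (t * a * t)) * t = t * (a : G)⁻¹ * t * a * (t * t) := by group
      _ = t * (a : G)⁻¹ * t * a := by rw [htt, mul_one]
      _ = ((a : G)⁻¹ * (t * a * t))⁻¹ := by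
        rw [mul_inv_rev, mul_inv_rev, mul_inv_rev, inv_inv]
        have : t⁻¹ = t := htinv
        rw [this]
        group
  obtain ⟨t0, ht0⟩ := exists_prime_orderOf_dvd_card' 2 heven
  have ht0' : orderOf (t0 : G) = 2 := by rw [Subgroup.orderOf_coe]; exact ht0
  have hinv0 := key t0 t0.2 ht0'
  refine ⟨⟨t0, t0.2, ht0', ?_, hinv0⟩, ?_⟩
  · intro t htH ht2
    have hinv := key t htH ht2
    by_contra hne
    have hne1 : (t0 : G) * t ≠ 1 := by
      intro h1
      have h2 : t = (t0 : G)⁻¹ := eq_inv_of_mul_eq_one_right h1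
      have h3 : (t0 : G) * t0 = 1 := by
        have := pow_orderOf_eq_one (t0 : G)
        rw [ht0', pow_two] at this
        exact this
      have h4 : (t0 : G)⁻¹ = t0 := inv_eq_of_mul_eq_one_left h3
      exact hne (h2.trans h4)
    have hfix := hfpf _ (H.mul_mem t0.2 htH) hne1
    apply hK
    rw [eq_bot_iff, ← hfix]
    intro k hk
    refine ⟨hk, ?_⟩
    show _ ∈ Subgroup.centralizer {(t0 : G) * t}
    rw [Subgroup.mem_centralizer_iff]
    intro x hx
    rw [Set.mem_singleton_iff] at hx
    subst hx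
    have h1 : t * k * t⁻¹ = k⁻¹ := hinv k hk
    have h2 : (t0 : G) * k⁻¹ * (t0 : G)⁻¹ = k := by
      have := hinv0 k⁻¹ (K.inv_mem hk)
      rw [inv_inv] at this
      exact this
    calc (t0 : G) * t * k = t0 * (t * k * t⁻¹) * (t0 : G)⁻¹ * (t0 * t) := by group
      _ = k * (t0 * t) := by rw [h1, h2]
  · refine ⟨⟨fun a b => ?_⟩⟩
    apply Subtype.ext
    show (a : G) * b = b * a
    have h1 := hinv0 (a * b) (K.mul_mem a.2 b.2)
    have h2 := hinv0 a a.2
    have h3 := hinv0 b b.2
    have h4 : (t0 : G) * (a * b) * (t0 : G)⁻¹ = (t0 * a * (t0 : G)⁻¹) * (t0 * b * (t0 : G)⁻¹) := by group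
    rw [h4, h2, h3, mul_inv_rev] at h1
    have := congrArg Inv.inv h1
    have h5 : (b : G) * a = a * b := by simpa using this
    exact h5.symm

end Cfsg.Agent.S0068
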