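import Cfsg.Statements.S0070
import Mathlib
import Cfsg.Agent.Lib.Lead.FrattiniNil
-- import your own Cfsg.Agent.* helpers here

set_option autoImplicit false
open Cfsg

namespace Cfsg.Agent.S0070

/-- The Fitting subgroup commutes with passing to the Frattini quotient: the Fitting subgroup of G modulo its Frattini subgroup is the image of the Fitting subgroup of G. -/
theorem result {G : Type*} [Group G] [Finite G] :
    Cfsg.fittingSubgroup (G ⧸ frattini G) = (Cfsg.fittingSubgroup G).map (QuotientGroup.mk' (frattini G)) := by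
  have hsurj := QuotientGroup.mk'_surjective (frattini G)
  apply le_antisymm
  · have hLn : ((Cfsg.fittingSubgroup (G ⧸ frattini G)).comap (QuotientGroup.mk' (frattini G))).Normal :=
      (Cfsg.Agent.Lib.Lead.fitting_normal (G ⧸ frattini G)).comap _
    have hΦL : frattini G ≤ (Cfsg.fittingSubgroup (G ⧸ frattini G)).comap (QuotientGroup.mk' (frattini G)) := by
      have := Subgroup.ker_le_comap (QuotientGroup.mk' (frattini G)) (Cfsg.fittingSubgroup (G ⧸ frattini G))
      rwa [QuotientGroup.ker_mk'] at this
    have hmap : ((Cfsg.fittingSubgroup (G ⧸ frattini G)).comap (QuotientGroup.mk' (frattini G))).map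
        (QuotientGroup.mk' (frattini G)) = Cfsg.fittingSubgroup (G ⧸ frattini G) :=
      Subgroup.map_comap_eq_self_of_surjective hsurj _
    have hnil : Group.IsNilpotent ↥(((Cfsg.fittingSubgroup (G ⧸ frattini G)).comap
        (QuotientGroup.mk' (frattini G))).map (QuotientGroup.mk' (frattini G))) := by
      rw [hmap]; exact Cfsg.Agent.Lib.Lead.fitting_isNilpotent
    haveI := hLn
    have hL := Cfsg.Agent.Lib.Lead.isNilpotent_of_frattini_quotient _ hΦL hnil
    have hle : (Cfsg.fittingSubgroup (G ⧸ frattini G)).comap (QuotientGroup.mk' (frattini G)) ≤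
        Cfsg.fittingSubgroup G := le_sSup ⟨hLn, hL⟩
    rw [← hmap]
    exact Subgroup.map_mono hle
  · apply le_sSup
    refine ⟨(Cfsg.Agent.Lib.Lead.fitting_normal G).map _ hsurj, ?_⟩
    haveI : Group.IsNilpotent (Cfsg.fittingSubgroup G) := Cfsg.Agent.Lib.Lead.fitting_isNilpotent
    exact Group.nilpotent_of_surjective ((QuotientGroup.mk' (frattini G)).subgroupMap (Cfsg.fittingSubgroup G))
      ((QuotientGroup.mk' (frattini G)).subgroupMap_surjective _)

end Cfsg.Agent.S0070
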