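import Cfsg.Statements.S0071
import Cfsg.Agent.Lib.Helper6.FrobNC

set_option autoImplicit false
open Cfsg

namespace Cfsg.Agent.S0071

open Cfsg.Agent.Lib

/-- The Frobenius normal p-complement Theorem states that a Sylow p-subgroup has a normal complement exactly when, for each of its subgroups Q, every element of the normalizer of Q of order prime to p centralizes Q. -/
theorem result {G : Type*} [Group G] [Finite G] {p : ℕ} [Fact p.Prime] (P : Sylow p G) : (∃ N : Subgroup G, N.Normal ∧ N.IsComplement' (P : Subgroup G)) ↔ ∀ Q : Subgroup G, Q ≤ (P : Subgroup G) → ∀ g ∈ Subgroup.normalizer (Q : Set G), Nat.Coprime (orderOf g) p → g ∈ Subgroup.centralizer (Q : Set G) := by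
  have hp : p.Prime := Fact.out
  constructor
  · rintro ⟨N, hN, hc⟩ Q hQ g hg hcop
    haveI := hN
    exact Helper6.frobCond_of_complement P N hc Q (P.isPGroup'.to_le hQ) g hg hcop
  · intro h
    obtain ⟨P', N, hN, hc⟩ := Helper6.frobenius_npc (Helper6.frobCond_of_sylow P h)
    refine ⟨N, hN, ?_⟩
    have hNcard : Nat.card N = (P' : Subgroup G).index := hc.index_eq_card.symm
    have hNcop : (Nat.card N).Coprime p := by
      rw [hNcard]
      exact ((Nat.Prime.coprime_iff_not_dvd hp).mpr P'.not_dvd_index).symm
    have hPP' : Nat.card (P : Subgroup G) = Nat.card (P' : Subgroup G) := by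
      rw [Sylow.card_eq_multiplicity, Sylow.card_eq_multiplicity]
    apply Subgroup.isComplement'_of_coprime
    · rw [hPP']; exact hc.card_mul_card
    · rw [Sylow.card_eq_multiplicity]
      exact Nat.Coprime.pow_right _ hNcop

end Cfsg.Agent.S0071
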