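import Cfsg.Statements.S0075
import Mathlib
import Cfsg.Agent.Lib.Lead.PResidual
-- import your own Cfsg.Agent.* helpers here

set_option autoImplicit false
open Cfsg
open scoped commutatorElement

namespace Cfsg.Agent.S0075

/-- For an abelian Sylow p-subgroup T, its intersection with the subgroup generated by the elements of order prime to p is the commutator of T with its normalizer. -/
theorem result {G : Type*} [Group G] [Finite G] {p : ℕ} [Fact p.Prime] (T : Sylow p G) (hT : IsMulCommutative T) : (T : Subgroup G) ⊓ Cfsg.pResidual p G = ⁅(T : Subgroup G), Subgroup.normalizer (T : Set G)⁆ := by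
  classical
  have hp : p.Prime := Fact.out
  haveI hRn := Cfsg.Agent.Lib.Lead.pResidual_normal_lead (G := G) p
  haveI : IsMulCommutative (T : Subgroup G) := hT
  have hsup := Cfsg.Agent.Lib.Lead.pResidual_sup_sylow_lead p T
  have hGR : commutator G ≤ Cfsg.pResidual p G :=
    Subgroup.Normal.commutator_le_of_self_sup_commutative_eq_top hsup hT
  apply le_antisymm
  · rintro g ⟨hgT, hgR⟩
    obtain ⟨k, hk⟩ := T.isPGroup' ⟨g, hgT⟩
    have hgk : g ^ p ^ k = 1 := congrArg Subtype.val hk
    have hgc : g ∈ commutator G :=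
      Cfsg.Agent.Lib.Lead.mem_commutator_of_mem_pResidual p g hgR k hgk
    have hfoc : g ∈ (T : Subgroup G).focalSubgroup := by
      rw [← Subgroup.commutator_inf_eq_focalSubgroup T]
      exact ⟨hgc, hgT⟩
    have hle : (T : Subgroup G).focalSubgroup ≤
        ⁅(T : Subgroup G), Subgroup.normalizer (T : Set G)⁆ := by
      rw [Subgroup.focalSubgroup_def, Subgroup.closure_le]
      rintro z ⟨hzT, x, hxT, u, rfl⟩
      have h1 : u * x * u⁻¹ ∈ (T : Subgroup G) := by
        have h2 : u * x * u⁻¹ = (x⁻¹ * ⁅x, u⁆)⁻¹ := by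
          rw [commutatorElement_def]; group
        rw [h2]
        exact (T : Subgroup G).inv_mem ((T : Subgroup G).mul_mem ((T : Subgroup G).inv_mem hxT) hzT)
      obtain ⟨n, hn, hnx⟩ := T.conj_eq_normalizer_conj_of_mem x u⁻¹ hxT (by rw [inv_inv]; exact h1)
      have h3 : u * x * u⁻¹ = n⁻¹ * x * n := by simpa using hnx
      have h4 : ⁅x, u⁆ = ⁅x, n⁻¹⁆ := by
        rw [commutatorElement_def, commutatorElement_def]
        have h5 : u * x⁻¹ * u⁻¹ = n⁻¹ * x⁻¹ * n := by
          have h6 : u * x⁻¹ * u⁻¹ = (u * x * u⁻¹)⁻¹ := by group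
          rw [h6, h3]; group
        calc x * u * x⁻¹ * u⁻¹ = x * (u * x⁻¹ * u⁻¹) := by group
          _ = x * (n⁻¹ * x⁻¹ * n) := by rw [h5]
          _ = x * n⁻¹ * x⁻¹ * n⁻¹⁻¹ := by group
      rw [h4]
      exact Subgroup.commutator_mem_commutator hxT (Subgroup.inv_mem _ hn)
    exact hle hfoc
  · apply le_inf
    · rw [Subgroup.commutator_le]
      intro t ht n hn
      have h1 : n * t⁻¹ * n⁻¹ ∈ (T : Subgroup G) :=
        (Subgroup.mem_normalizer_iff.mp hn t⁻¹).mp ((T : Subgroup G).inv_mem ht)
      have h2 : ⁅t, n⁆ = t * (n * t⁻¹ * n⁻¹) := by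
        rw [commutatorElement_def]; group
      rw [h2]
      exact (T : Subgroup G).mul_mem ht h1
    · refine le_trans ?_ hGR
      rw [commutator_def]
      exact Subgroup.commutator_mono le_top le_top

end Cfsg.Agent.S0075
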