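import Cfsg.Statements.S0076
import Mathlib
-- import your own Cfsg.Agent.* helpers here

set_option autoImplicit false
open Cfsg

namespace Cfsg.Agent.S0076

/-- Two P-invariant subsets of a Sylow p-subgroup P that are conjugate in G are conjugate under the normalizer of P. -/
theorem result {G : Type*} [Group G] [Finite G] {p : ℕ} [Fact p.Prime] (P : Sylow p G) (X Y : Set G) (hXP : X ⊆ P) (hYP : Y ⊆ P) (hX : ∀ x ∈ P, (fun y => x * y * x⁻¹) '' X = X) (hY : ∀ x ∈ P, (fun y => x * y * x⁻¹) '' Y = Y) (g : G) (hg : (fun y => g * y * g⁻¹) '' X = Y) : ∃ n ∈ Subgroup.normalizer (P : Set G), (fun y => n * y * n⁻¹) '' X = Y := by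
  classical
  have hconj : ∀ a : G, (fun y => a * y * a⁻¹) = (MulAut.conj a : G → G) := fun a => by
    funext y; simp [MulAut.conj_apply]
  have h1 : (P : Subgroup G) ≤ Subgroup.normalizer Y := by
    intro x hx
    rw [Subgroup.mem_normalizer_iff_conj_image_eq, ← hconj]
    exact hY x hx
  have h2 : ↑(g • P) ≤ Subgroup.normalizer Y := by
    rintro - ⟨z, hz, rfl⟩
    rw [Subgroup.mem_normalizer_iff_conj_image_eq, ← hconj]
    rw [← hg, Set.image_image]
    have h3 := hX z hz
    conv_rhs => rw [← h3, Set.image_image]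
    apply Set.image_congr'
    intro y
    simp [MulAut.conj_apply, mul_assoc]
  obtain ⟨h, hh⟩ := MulAction.exists_smul_eq (Subgroup.normalizer Y) ((g • P).subtype h2) (P.subtype h1)
  simp_rw [Sylow.smul_subtype, Subgroup.smul_def, smul_smul] at hh
  refine ⟨h * g, Sylow.smul_eq_iff_mem_normalizer.mp (Sylow.subtype_injective hh), ?_⟩
  have hhY := h.prop
  rw [Subgroup.mem_normalizer_iff_conj_image_eq, ← hconj] at hhY
  have h5 : (fun y => (h : G) * g * y * ((h : G) * g)⁻¹) '' X = (fun y => (h : G) * y * (h : G)⁻¹) '' ((fun y => g * y * g⁻¹) '' X) := by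
    rw [Set.image_image]
    apply Set.image_congr'
    intro y
    group
  rw [h5, hg, hhY]

end Cfsg.Agent.S0076
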