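import Cfsg.Statements.S0077
import Mathlib
import Cfsg.Agent.Lib.Lead.Sylow
-- import your own Cfsg.Agent.* helpers here

set_option autoImplicit false
open Cfsg

namespace Cfsg.Agent.S0077

open scoped commutatorElement
open scoped Pointwise

/-- If a subgroup Z of the centre of a Sylow p-subgroup P is weakly closed in P, then P meets the derived subgroup of G exactly where it meets the derived subgroup of the normalizer of Z. -/
theorem result {G : Type*} [Group G] [Finite G] {p : ℕ} [Fact p.Prime] (P : Sylow p G) (Z : Subgroup G) (hZ : Z ≤ Subgroup.centralizer (P : Set G)) (hW : Cfsg.IsWeaklyClosed Z P) : commutator G ⊓ (P : Subgroup G) = ⁅Subgroup.normalizer (Z : Set G), Subgroup.normalizer (Z : Set G)⁆ ⊓ (P : Subgroup G) := by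
  classical
  obtain ⟨hZP, hWc⟩ := hW
  have hnorm : ∀ a : G, (∀ z ∈ Z, a * z * a⁻¹ ∈ (P : Subgroup G)) → a ∈ Subgroup.normalizer (Z : Set G) := by
    intro a ha
    have h0 : Z.map (MulAut.conj a).toMonoidHom ≤ P := by
      rintro - ⟨z, hz, rfl⟩
      exact ha z hz
    have h1 := hWc a h0
    exact Subgroup.mem_normalizer_iff_map_conj_eq.mpr h1
  have hZn : (P : Subgroup G) ≤ Subgroup.normalizer (Z : Set G) :=
    (Subgroup.le_centralizer_iff.mp hZ).trans (Subgroup.centralizer_le_normalizer _)
  apply le_antisymm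
  · rw [Subgroup.commutator_inf_eq_focalSubgroup P]
    apply le_inf _ (Subgroup.focalSubgroup_le _)
    rw [Subgroup.focalSubgroup_def, Subgroup.closure_le]
    rintro g ⟨hgP, x, hxP, u, rfl⟩
    have hx' : x⁻¹ ∈ (P : Subgroup G) := inv_mem hxP
    obtain ⟨y, hy_def⟩ : ∃ y, y = u * x⁻¹ * u⁻¹ := ⟨_, rfl⟩
    have hy : y ∈ (P : Subgroup G) := by
      have : y = x⁻¹ * ⁅x, u⁆ := by
        rw [commutatorElement_def, hy_def]; group
      rw [this]
      exact mul_mem hx' hgP
    have hA : Z ≤ Subgroup.centralizer ({y} : Set G) := by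
      intro z hz
      rw [Subgroup.mem_centralizer_iff]
      intro w hw
      rw [Set.mem_singleton_iff] at hw
      subst hw
      exact hZ hz w hy
    have hB : Z.map (MulAut.conj u).toMonoidHom ≤ Subgroup.centralizer ({y} : Set G) := by
      rintro - ⟨z, hz, rfl⟩
      rw [Subgroup.mem_centralizer_iff]
      intro w hw
      rw [Set.mem_singleton_iff] at hw
      subst hw
      have h1 : x⁻¹ * z = z * x⁻¹ := hZ hz x⁻¹ hx'
      show w * (u * z * u⁻¹) = (u * z * u⁻¹) * w
      rw [hy_def]
      calc u * x⁻¹ * u⁻¹ * (u * z * u⁻¹) = u * (x⁻¹ * z) * u⁻¹ := by group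
        _ = u * (z * x⁻¹) * u⁻¹ := by rw [h1]
        _ = (u * z * u⁻¹) * (u * x⁻¹ * u⁻¹) := by group
    have hZp : IsPGroup p Z := P.isPGroup'.to_le hZP
    have hZp' : IsPGroup p (Z.map (MulAut.conj u).toMonoidHom) := hZp.map _
    obtain ⟨c, hc, Q, hQA, hQB⟩ := Cfsg.Agent.Lib.Lead.exists_conj_le_common_sylow
      (Subgroup.centralizer ({y} : Set G)) Z (Z.map (MulAut.conj u).toMonoidHom) hA hB hZp hZp'
    obtain ⟨h, rfl⟩ := MulAction.exists_smul_eq G P Q
    have hmemQ : ∀ w : G, w ∈ ((h • P : Sylow p G) : Subgroup G) → h⁻¹ * w * h ∈ (P : Subgroup G) := by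
      intro w hw
      rw [Sylow.smul_def] at hw
      have hw' : w ∈ MulAut.conj h • (P : Subgroup G) := hw
      rw [Subgroup.mem_pointwise_smul_iff_inv_smul_mem] at hw'
      simpa [MulAut.smul_def, MulAut.conj_apply] using hw'
    have h1 : h⁻¹ ∈ Subgroup.normalizer (Z : Set G) := by
      apply hnorm
      intro z hz
      have := hmemQ z (hQA hz)
      simpa using this
    have h2 : h⁻¹ * c * u ∈ Subgroup.normalizer (Z : Set G) := by
      apply hnorm
      intro z hz
      have := hmemQ _ (hQB _ ⟨z, hz, rfl⟩)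
      have e : h⁻¹ * c * u * z * (h⁻¹ * c * u)⁻¹ = h⁻¹ * (c * (MulAut.conj u).toMonoidHom z * c⁻¹) * h := by
        show _ = h⁻¹ * (c * (u * z * u⁻¹) * c⁻¹) * h
        group
      rw [e]; exact this
    have h3 : c * u ∈ Subgroup.normalizer (Z : Set G) := by
      have := mul_mem (inv_mem h1) h2
      simpa [mul_assoc] using this
    have hcy : c * y * c⁻¹ = y := by
      have := (Subgroup.mem_centralizer_iff.mp hc) y (Set.mem_singleton y)
      rw [← this, mul_inv_cancel_right]
    have hg : ⁅x, u⁆ = ⁅x, c * u⁆ := by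
      rw [commutatorElement_def, commutatorElement_def]
      calc x * u * x⁻¹ * u⁻¹ = x * y := by rw [hy_def]; group
        _ = x * (c * y * c⁻¹) := by rw [hcy]
        _ = x * (c * u) * x⁻¹ * (c * u)⁻¹ := by rw [hy_def]; group
    rw [SetLike.mem_coe, hg]
    exact Subgroup.commutator_mem_commutator (hZn hxP) h3
  · apply inf_le_inf_right
    rw [commutator_def]
    exact Subgroup.commutator_mono le_top le_top

end Cfsg.Agent.S0077
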