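import Cfsg.Statements.S0082
import Mathlib
import Cfsg.Agent.Lib.Lead.Transfer
-- import your own Cfsg.Agent.* helpers here

set_option autoImplicit false
open Cfsg

namespace Cfsg.Agent.S0082

/-- With a cyclic Sylow p-subgroup, either there is a normal p-complement or the elements of order prime to p generate the whole group. -/
theorem result {G : Type*} [Group G] [Finite G] {p : ℕ} [Fact p.Prime] (P : Sylow p G) (hP : IsCyclic P) : Cfsg.HasNormalPComplement p G ∨ Cfsg.pResidual p G = ⊤ := by
  haveI := hP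
  rcases Sylow.normalizer_le_centralizer_or_le_commutator P with h | h
  · exact Or.inl (Cfsg.Agent.Lib.Lead.hasNormalPComplement_of_normalizer_le_centralizer P h)
  · right
    apply Cfsg.Agent.Lib.Lead.pResidual_eq_top_of_sylow_le P
    refine le_trans h (Cfsg.Agent.Lib.Lead.commutator_le_pResidual P ?_)
    intro a ha b hb
    obtain ⟨g, hg⟩ := hP.exists_generator
    obtain ⟨i, hi⟩ := Subgroup.mem_zpowers_iff.mp (hg ⟨a, ha⟩)
    obtain ⟨j, hj⟩ := Subgroup.mem_zpowers_iff.mp (hg ⟨b, hb⟩)
    have h1 : (⟨a, ha⟩ : P) * ⟨b, hb⟩ = ⟨b, hb⟩ * ⟨a, ha⟩ := by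
      rw [← hi, ← hj, ← zpow_add, ← zpow_add, add_comm]
    exact congrArg Subtype.val h1

end Cfsg.Agent.S0082
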