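import Cfsg.Statements.S0083
import Mathlib
import Cfsg.Agent.Lib.Lead.Transfer
-- import your own Cfsg.Agent.* helpers here

set_option autoImplicit false
open Cfsg

namespace Cfsg.Agent.S0083

/-- For an abelian Sylow p-subgroup P, a normal p-complement exists exactly when the normalizer of P is an internal direct product of P with some subgroup. -/
theorem result {G : Type*} [Group G] [Finite G] {p : ℕ} [Fact p.Prime] (P : Sylow p G) (hP : IsMulCommutative P) : Cfsg.HasNormalPComplement p G ↔ ∃ Q : Subgroup G, Q ≤ Subgroup.centralizer (P : Set G) ∧ Q ⊓ (P : Subgroup G) = ⊥ ∧ Q ⊔ (P : Subgroup G) = Subgroup.normalizer (P : Set G) := by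
  classical
  have hPc : (P : Subgroup G) ≤ Subgroup.centralizer (P : Set G) := by
    intro x hx
    rw [Subgroup.mem_centralizer_iff]
    intro y hy
    exact congrArg Subtype.val (hP.is_comm.comm ⟨y, hy⟩ ⟨x, hx⟩)
  constructor
  · rintro ⟨P', K, hKn, hK⟩
    haveI := hKn
    have hcard' : Nat.card K * Nat.card (P' : Subgroup G) = Nat.card G := hK.card_mul_card
    have hPP' : Nat.card (P : Subgroup G) = Nat.card (P' : Subgroup G) := by
      rw [Sylow.card_eq_multiplicity, Sylow.card_eq_multiplicity]
    have hKidx : Nat.card K = (P : Subgroup G).index := by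
      have h1 := (P : Subgroup G).card_mul_index
      have hpos : 0 < Nat.card (P : Subgroup G) := Nat.card_pos
      apply Nat.eq_of_mul_eq_mul_left hpos
      rw [h1, ← hcard', hPP', mul_comm]
    have hcop : Nat.Coprime (Nat.card K) (Nat.card (P : Subgroup G)) := by
      rw [hKidx]; exact P.card_coprime_index.symm
    have hKP : Subgroup.IsComplement' K (P : Subgroup G) :=
      Subgroup.isComplement'_of_coprime (by rw [hPP']; exact hcard') hcop
    have hdisj : K ⊓ (P : Subgroup G) = ⊥ := hKP.disjoint.eq_bot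
    have hsup : K ⊔ (P : Subgroup G) = ⊤ := hKP.sup_eq_top
    refine ⟨K ⊓ Subgroup.normalizer (P : Set G), ?_, ?_, ?_⟩
    · rintro q ⟨hqK, hqN⟩
      rw [Subgroup.mem_centralizer_iff]
      intro x hx
      have h1 : q * x * q⁻¹ * x⁻¹ ∈ K := by
        have h0 : x * q⁻¹ * x⁻¹ ∈ K := hKn.conj_mem _ (K.inv_mem hqK) x
        have h00 := K.mul_mem hqK h0
        have e : q * x * q⁻¹ * x⁻¹ = q * (x * q⁻¹ * x⁻¹) := by group
        rw [e]; exact h00
      have h2 : q * x * q⁻¹ * x⁻¹ ∈ (P : Subgroup G) := by
        have h0 : q * x * q⁻¹ ∈ (P : Subgroup G) := (Subgroup.mem_normalizer_iff.mp hqN x).mp hx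
        exact Subgroup.mul_mem _ h0 (Subgroup.inv_mem _ hx)
      have h3 : q * x * q⁻¹ * x⁻¹ ∈ K ⊓ (P : Subgroup G) := ⟨h1, h2⟩
      rw [hdisj, Subgroup.mem_bot] at h3
      have h4 : q * x = x * q := by
        have h5 := congrArg (· * x * q) h3
        simpa [mul_assoc] using h5
      exact h4.symm
    · rw [eq_bot_iff, ← hdisj]
      exact inf_le_inf_right _ inf_le_left
    · apply le_antisymm
      · exact sup_le inf_le_right Subgroup.le_normalizer
      · intro g hg
        have hg' : g ∈ K ⊔ (P : Subgroup G) := hsup ▸ Subgroup.mem_top g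
        have hPK : (P : Subgroup G) ≤ Subgroup.normalizer (K : Set G) := by
          rw [Subgroup.normalizer_eq_top]; exact le_top
        obtain ⟨k, hk, x, hx, rfl⟩ := Cfsg.Agent.Lib.Lead.mem_sup_of_le_normalizer hPK hg'
        have hkN : k ∈ Subgroup.normalizer (P : Set G) := by
          have h0 := Subgroup.mul_mem _ hg (Subgroup.inv_mem _ (Subgroup.le_normalizer hx))
          simpa using h0
        exact Subgroup.mul_mem _ (Subgroup.mem_sup_left ⟨hk, hkN⟩) (Subgroup.mem_sup_right hx)
  · rintro ⟨Q, hQC, -, hQN⟩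
    apply Cfsg.Agent.Lib.Lead.hasNormalPComplement_of_normalizer_le_centralizer P
    rw [← hQN]
    exact sup_le hQC hPc

end Cfsg.Agent.S0083
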