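import Cfsg.Statements.S0084
import Mathlib
-- import your own Cfsg.Agent.* helpers here

set_option autoImplicit false
open Cfsg

namespace Cfsg.Agent.S0084

/-- A group whose Sylow 2-subgroups are Klein four-groups and whose order is prime to 3 has a normal 2-complement. -/
theorem result {G : Type*} [Group G] [Finite G] (T : Sylow 2 G) (hT : IsKleinFour T) (h3 : ¬ 3 ∣ Nat.card G) : Cfsg.HasNormalPComplement 2 G := by
  classical
  haveI : Fact (Nat.Prime 2) := ⟨Nat.prime_two⟩
  haveI : IsKleinFour (T : Subgroup G) := hT
  haveI : IsMulCommutative (T : Subgroup G) := IsKleinFour.isMulCommutative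
  have hNC : Subgroup.normalizer ((T : Subgroup G) : Set G) ≤ Subgroup.centralizer ((T : Subgroup G) : Set G) := by
    have key := Subgroup.card_dvd_of_injective _
      (QuotientGroup.kerLift_injective (T : Subgroup G).normalizerMonoidHom)
    rw [Subgroup.normalizerMonoidHom_ker, ← Subgroup.index, ← Subgroup.relIndex] at key
    have h24 : Nat.card (MulAut (T : Subgroup G)) ∣ 24 := by
      have h1 := Subgroup.card_dvd_of_injective (MulAut.toPerm (T : Subgroup G))
        (fun a b h => MulEquiv.toEquiv_injective h)
      rw [Nat.card_perm, IsKleinFour.card_four (G := (T : Subgroup G))] at h1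
      exact h1
    refine Subgroup.relIndex_eq_one.mp (Nat.eq_one_of_dvd_coprimes ?_ dvd_rfl (key.trans h24))
    have c2 : Nat.Coprime ((Subgroup.centralizer ((T : Subgroup G) : Set G)).relIndex
        (Subgroup.normalizer ((T : Subgroup G) : Set G))) 2 := by
      apply Nat.Coprime.coprime_dvd_left (Subgroup.relIndex_dvd_of_le_left _ (T : Subgroup G).le_centralizer)
      apply Nat.Coprime.coprime_dvd_left (Subgroup.relIndex_dvd_index_of_le (T : Subgroup G).le_normalizer)
      rw [Nat.coprime_comm, Nat.Prime.coprime_iff_not_dvd Nat.prime_two]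
      exact T.not_dvd_index
    have c3 : Nat.Coprime ((Subgroup.centralizer ((T : Subgroup G) : Set G)).relIndex
        (Subgroup.normalizer ((T : Subgroup G) : Set G))) 3 := by
      apply Nat.Coprime.coprime_dvd_left (Subgroup.relIndex_dvd_card ..)
      apply Nat.Coprime.coprime_dvd_left (Subgroup.card_subgroup_dvd_card _)
      rw [Nat.coprime_comm, Nat.Prime.coprime_iff_not_dvd Nat.prime_three]
      exact h3
    have e : (24 : ℕ) = 2 ^ 3 * 3 := by norm_num
    rw [e]
    exact (c2.pow_right 3).mul_right c3
  exact ⟨T, (MonoidHom.transferSylow T hNC).ker, inferInstance,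
    MonoidHom.ker_transferSylow_isComplement' T hNC⟩

end Cfsg.Agent.S0084
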