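import Cfsg.Statements.S0088
import Mathlib
import Cfsg.Agent.Lib.Lead.Transfer
-- import your own Cfsg.Agent.* helpers here

set_option autoImplicit false
open Cfsg

namespace Cfsg.Agent.S0088

/-- An abelian Hall subgroup meets G' ∩ Z(G) trivially. -/
theorem result {G : Type*} [Group G] [Finite G] (H : Subgroup G) (hc : IsMulCommutative H) (hHall : Nat.Coprime (Nat.card H) H.index) : H ⊓ commutator G ⊓ Subgroup.center G = ⊥ := by
  classical
  haveI := hc
  rw [eq_bot_iff]
  rintro z ⟨⟨hzH, hzG'⟩, hzZ⟩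
  have h1 := Cfsg.Agent.Lib.Lead.central_commutator_pow_index H z hzG' hzZ
  have ho1 : orderOf z ∣ H.index := orderOf_dvd_of_pow_eq_one h1
  have ho2 : orderOf z ∣ Nat.card H := by
    have := orderOf_dvd_natCard (⟨z, hzH⟩ : H)
    rwa [Subgroup.orderOf_mk] at this
  have h3 := Nat.eq_one_of_dvd_coprimes hHall ho2 ho1
  rw [orderOf_eq_one_iff] at h3
  rw [Subgroup.mem_bot]
  exact h3

end Cfsg.Agent.S0088
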