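import Cfsg.Statements.S0089
import Mathlib
import Cfsg.Agent.Lib.Lead.Transfer
import Cfsg.Agent.S0088
-- import your own Cfsg.Agent.* helpers here

set_option autoImplicit false
open Cfsg

namespace Cfsg.Agent.S0089

/-- When all Sylow subgroups are abelian, the derived subgroup meets the centre trivially. -/
theorem result {G : Type*} [Group G] [Finite G] (h : ∀ p : ℕ, p.Prime → ∀ P : Sylow p G, IsMulCommutative P) : commutator G ⊓ Subgroup.center G = ⊥ := by
  classical
  rw [eq_bot_iff]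
  rintro z ⟨hzG', hzZ⟩
  rw [Subgroup.mem_bot]
  by_contra hz1
  have ho : orderOf z ≠ 1 := fun h' => hz1 (orderOf_eq_one_iff.mp h')
  obtain ⟨p, hp, hpd⟩ := Nat.exists_prime_and_dvd ho
  haveI : Fact p.Prime := ⟨hp⟩
  have hwo : orderOf (z ^ (orderOf z / p)) = p := orderOf_pow_orderOf_div (orderOf_pos z).ne' hpd
  have hpg : IsPGroup p (Subgroup.zpowers (z ^ (orderOf z / p))) := by
    apply IsPGroup.of_card (n := 1)
    rw [Nat.card_zpowers, hwo, pow_one]
  obtain ⟨P, hP⟩ := hpg.exists_le_sylow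
  have hwP : z ^ (orderOf z / p) ∈ (P : Subgroup G) := hP (Subgroup.mem_zpowers _)
  have hS := Cfsg.Agent.S0088.result (P : Subgroup G) (h p hp P) P.card_coprime_index
  have hmem : z ^ (orderOf z / p) ∈ (P : Subgroup G) ⊓ commutator G ⊓ Subgroup.center G :=
    ⟨⟨hwP, Subgroup.pow_mem _ hzG' _⟩, Subgroup.pow_mem _ hzZ _⟩
  rw [hS, Subgroup.mem_bot] at hmem
  rw [hmem, orderOf_one] at hwo
  exact hp.one_lt.ne hwo

end Cfsg.Agent.S0089
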