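import Cfsg.Statements.S0090
import Mathlib
import Cfsg.Agent.Lib.Lead.Transfer
import Cfsg.Agent.S0088
import Cfsg.Agent.S0055
-- import your own Cfsg.Agent.* helpers here

set_option autoImplicit false
open Cfsg

namespace Cfsg.Agent.S0090

open scoped commutatorElement

/-- An abelian normal Hall subgroup A splits as the internal direct product of G' ∩ A and Z(G) ∩ A, and [A, G] = G' ∩ A. -/
theorem result {G : Type*} [Group G] [Finite G] (A : Subgroup G) [A.Normal] (hc : IsMulCommutative A) (hHall : Nat.Coprime (Nat.card A) A.index) : ⁅A, (⊤ : Subgroup G)⁆ = commutator G ⊓ A ∧ (commutator G ⊓ A) ⊓ (Subgroup.center G ⊓ A) = ⊥ ∧ (commutator G ⊓ A) ⊔ (Subgroup.center G ⊓ A) = A := by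
  classical
  haveI := hc
  have hcomm : ∀ x ∈ A, ∀ y ∈ A, x * y = y * x := fun x hx y hy =>
    congrArg Subtype.val (hc.is_comm.comm ⟨x, hx⟩ ⟨y, hy⟩)
  obtain ⟨H, hH⟩ := Subgroup.exists_right_complement'_of_coprime hHall
  have hHA : H ≤ Subgroup.normalizer (A : Set G) := by
    rw [Subgroup.normalizer_eq_top]; exact le_top
  have hcop : (Nat.card H).Coprime (Nat.card A) := by
    rw [← hH.symm.index_eq_card]; exact hHall.symm
  obtain ⟨h55a, h55b⟩ := Cfsg.Agent.S0055.result H A hHA hcop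
  have hS88 := Cfsg.Agent.S0088.result A hc hHall
  have hsup : A ⊔ H = ⊤ := hH.sup_eq_top
  -- C_A(H) ≤ Z(G) ⊓ A
  have hCZ : A ⊓ Subgroup.centralizer (H : Set G) ≤ Subgroup.center G ⊓ A := by
    rintro x ⟨hxA, hxC⟩
    refine ⟨Subgroup.mem_center_iff.mpr ?_, hxA⟩
    have hle : A ⊔ H ≤ Subgroup.centralizer {x} := by
      apply sup_le
      · intro a ha
        rw [Subgroup.mem_centralizer_singleton_iff]
        exact hcomm a ha x hxA
      · intro h hh
        rw [Subgroup.mem_centralizer_singleton_iff]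
        exact (Subgroup.mem_centralizer_iff.mp hxC h hh)
    intro g
    have hg : g ∈ Subgroup.centralizer {x} := hle (hsup ▸ Subgroup.mem_top g)
    rw [Subgroup.mem_centralizer_singleton_iff] at hg
    exact hg
  have hAHtop : ⁅A, H⁆ ≤ ⁅A, (⊤ : Subgroup G)⁆ := Subgroup.commutator_mono le_rfl le_top
  have hAtop : ⁅A, (⊤ : Subgroup G)⁆ ≤ commutator G ⊓ A := by
    apply le_inf
    · rw [commutator_def]; exact Subgroup.commutator_mono le_top le_rfl
    · exact Subgroup.commutator_le_left A ⊤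
  have h2 : (commutator G ⊓ A) ⊓ (Subgroup.center G ⊓ A) = ⊥ := by
    rw [eq_bot_iff, ← hS88]
    rintro x ⟨⟨hx1, hx2⟩, hx3, -⟩
    exact ⟨⟨hx2, hx1⟩, hx3⟩
  refine ⟨?_, h2, ?_⟩
  · apply le_antisymm hAtop
    rintro x ⟨hxG, hxA⟩
    have hx' : x ∈ ⁅A, H⁆ ⊔ (A ⊓ Subgroup.centralizer (H : Set G)) := by
      rw [sup_comm, h55b]; exact hxA
    have hnorm : A ⊓ Subgroup.centralizer (H : Set G) ≤ Subgroup.normalizer ((⁅A, H⁆ : Subgroup G) : Set G) :=
      le_trans inf_le_left (Cfsg.Agent.Lib.Lead.le_normalizer_commutator A H)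
    obtain ⟨d, hd, c, hcC, rfl⟩ := Cfsg.Agent.Lib.Lead.mem_sup_of_le_normalizer hnorm hx'
    have hdG : d ∈ commutator G := (hAtop (hAHtop hd)).1
    have hcG : c ∈ commutator G := by
      have := Subgroup.mul_mem _ (Subgroup.inv_mem _ hdG) hxG
      simpa using this
    have hc1 : c ∈ (commutator G ⊓ A) ⊓ (Subgroup.center G ⊓ A) := ⟨⟨hcG, hcC.1⟩, hCZ hcC⟩
    rw [h2, Subgroup.mem_bot] at hc1
    rw [hc1, mul_one]
    exact hAHtop hd
  · apply le_antisymm (sup_le inf_le_right inf_le_right)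
    have hle : A ⊓ Subgroup.centralizer (H : Set G) ⊔ ⁅A, H⁆ ≤ commutator G ⊓ A ⊔ Subgroup.center G ⊓ A :=
      sup_le (le_trans hCZ le_sup_right) (le_trans (le_trans hAHtop hAtop) le_sup_left)
    calc A = A ⊓ Subgroup.centralizer (H : Set G) ⊔ ⁅A, H⁆ := h55b.symm
      _ ≤ _ := hle

end Cfsg.Agent.S0090
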