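import Cfsg.Statements.S0093
import Mathlib
import Cfsg.Statements.S0093
import Cfsg.Agent.Lib.Lead.Nilpotent
import Cfsg.Agent.Lib.Lead.PFrat
import Cfsg.Agent.Lib.Helper4.Frattini

set_option autoImplicit false
open Cfsg
open scoped commutatorElement

namespace Cfsg.Agent.S0093

open scoped commutatorElement

def critW {P : Type*} [Group P] (p : ℕ) (Z : Subgroup P) [hZn : Z.Normal] : Subgroup P where
  carrier := {x | (∀ g : P, ⁅x, g⁆ ∈ Z) ∧ x ^ p ∈ Z}
  one_mem' := ⟨fun g => by simp, by simp⟩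
  mul_mem' := by
    rintro x y ⟨hx1, hx2⟩ ⟨hy1, hy2⟩
    refine ⟨fun g => ?_, ?_⟩
    · have e : ⁅x * y, g⁆ = x * ⁅y, g⁆ * x⁻¹ * ⁅x, g⁆ := by
        simp only [commutatorElement_def]; group
      rw [e]
      exact Z.mul_mem (hZn.conj_mem _ (hy1 g) x) (hx1 g)
    · rw [← QuotientGroup.eq_one_iff (N := Z)]
      have hc : Commute (x : P ⧸ Z) (y : P ⧸ Z) := by
        have h1 : ((⁅x, y⁆ : P) : P ⧸ Z) = 1 := (QuotientGroup.eq_one_iff _).mpr (hx1 y)
        have h2 : ⁅(x : P ⧸ Z), (y : P ⧸ Z)⁆ = 1 := by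
          rw [← h1]
          simp [commutatorElement_def]
        exact commutatorElement_eq_one_iff_mul_comm.mp h2
      rw [QuotientGroup.mk_pow, QuotientGroup.mk_mul, hc.mul_pow, ← QuotientGroup.mk_pow, ← QuotientGroup.mk_pow,
        (QuotientGroup.eq_one_iff _).mpr hx2, (QuotientGroup.eq_one_iff _).mpr hy2, one_mul]
  inv_mem' := by
    rintro x ⟨hx1, hx2⟩
    refine ⟨fun g => ?_, ?_⟩
    · have e : ⁅x⁻¹, g⁆ = x⁻¹ * (⁅x, g⁆)⁻¹ * x⁻¹⁻¹ := by
        simp only [commutatorElement_def]; group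
      rw [e]
      exact hZn.conj_mem _ (Z.inv_mem (hx1 g)) x⁻¹
    · rw [inv_pow]; exact Z.inv_mem hx2

theorem mem_critW {P : Type*} [Group P] {p : ℕ} {Z : Subgroup P} [Z.Normal] {x : P} :
    x ∈ critW p Z ↔ (∀ g : P, ⁅x, g⁆ ∈ Z) ∧ x ^ p ∈ Z := Iff.rfl

theorem critW_char {P : Type*} [Group P] (p : ℕ) (Z : Subgroup P) [hZ : Z.Characteristic] :
    (critW p Z).Characteristic := by
  rw [Subgroup.characteristic_iff_map_le]
  intro ϕ
  rintro _ ⟨x, hx, rfl⟩
  have hmap := Subgroup.characteristic_iff_map_eq.mp hZ ϕ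
  have hx : x ∈ critW p Z := hx
  rw [mem_critW] at hx ⊢
  constructor
  · intro g
    have h1 : ϕ.toMonoidHom ⁅x, ϕ.symm g⁆ ∈ Z.map ϕ.toMonoidHom := ⟨_, hx.1 _, rfl⟩
    rw [hmap] at h1
    have e : ϕ.toMonoidHom ⁅x, ϕ.symm g⁆ = ⁅ϕ.toMonoidHom x, g⁆ := by
      rw [map_commutatorElement]
      simp
    rw [← e]; exact h1
  · have h1 : ϕ.toMonoidHom (x ^ p) ∈ Z.map ϕ.toMonoidHom := ⟨_, hx.2, rfl⟩
    rw [hmap, map_pow] at h1
    exact h1

/-- Every finite p-group has a critical subgroup: a characteristic subgroup H whose Frattini subgroup and whose commutator with the whole group lie in the centre of H, and whose centralizer is contained in H. -/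
theorem result {P : Type*} [Group P] [Finite P] {p : ℕ} [Fact p.Prime] (hP : IsPGroup p P) : ∃ H : Subgroup P, H.Characteristic ∧ (frattini H).map H.subtype ≤ Subgroup.centralizer (H : Set P) ∧ ⁅H, (⊤ : Subgroup P)⁆ ≤ H ⊓ Subgroup.centralizer (H : Set P) ∧ Subgroup.centralizer (H : Set P) ≤ H := by
  have hp : p.Prime := Fact.out
  have hne : Nonempty {H : Subgroup P // H.Characteristic ∧ (frattini ↥H).map H.subtype ≤ Subgroup.centralizer (H : Set P) ∧ ⁅H, (⊤ : Subgroup P)⁆ ≤ H ⊓ Subgroup.centralizer (H : Set P)} := by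
    refine ⟨⟨⊥, Subgroup.botCharacteristic, ?_, ?_⟩⟩
    · rintro _ ⟨y, -, rfl⟩
      have : (y : P) = 1 := Subgroup.mem_bot.mp y.2
      rw [Subgroup.coe_subtype, this]
      exact Subgroup.one_mem _
    · rw [Subgroup.commutator_bot_left]; exact bot_le
  obtain ⟨⟨H, hHc, hHΦ, hHcomm⟩, hmax⟩ := Finite.exists_max
    (fun X : {H : Subgroup P // H.Characteristic ∧ (frattini ↥H).map H.subtype ≤ Subgroup.centralizer (H : Set P) ∧ ⁅H, (⊤ : Subgroup P)⁆ ≤ H ⊓ Subgroup.centralizer (H : Set P)} => Nat.card ↥X.1)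
  refine ⟨H, hHc, hHΦ, hHcomm, ?_⟩
  by_contra hCH
  haveI := hHc
  obtain ⟨Z, hZdef⟩ : ∃ Z : Subgroup P, Z = H ⊓ Subgroup.centralizer (H : Set P) := ⟨_, rfl⟩
  haveI hZc : Z.Characteristic := by rw [hZdef]; infer_instance
  haveI hZn : Z.Normal := inferInstance
  haveI hWc : (critW p Z).Characteristic := critW_char p Z
  have hZH : Z ≤ H := by rw [hZdef]; exact inf_le_left
  have hZC : Z ≤ Subgroup.centralizer (H : Set P) := by rw [hZdef]; exact inf_le_right
  have hHW : H ≤ critW p Z := by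
    intro x hx
    rw [mem_critW]
    constructor
    · intro g
      rw [hZdef]
      exact hHcomm (Subgroup.commutator_mem_commutator hx (Subgroup.mem_top g))
    · rw [hZdef]
      refine ⟨H.pow_mem hx p, ?_⟩
      apply hHΦ
      have hHp : IsPGroup p ↥H := hP.to_subgroup H
      exact ⟨⟨x, hx⟩ ^ p, (Cfsg.Agent.Lib.Lead.commutator_le_frattini_and_pow_mem hHp).2 ⟨x, hx⟩, rfl⟩
  have hH'W : H ⊔ (Subgroup.centralizer (H : Set P) ⊓ critW p Z) ≤ critW p Z := sup_le hHW inf_le_right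
  have hZcH' : Z ≤ Subgroup.centralizer ((H ⊔ (Subgroup.centralizer (H : Set P) ⊓ critW p Z) : Subgroup P) : Set P) := by
    rw [Subgroup.le_centralizer_iff]
    apply sup_le
    · exact Subgroup.le_centralizer_iff.mp hZC
    · exact inf_le_left.trans (Subgroup.centralizer_le (SetLike.coe_subset_coe.mpr hZH))
  have hZH' : Z ≤ H ⊔ (Subgroup.centralizer (H : Set P) ⊓ critW p Z) := hZH.trans le_sup_left
  have hgood : (H ⊔ (Subgroup.centralizer (H : Set P) ⊓ critW p Z)).Characteristic ∧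
      (frattini ↥(H ⊔ (Subgroup.centralizer (H : Set P) ⊓ critW p Z))).map (H ⊔ (Subgroup.centralizer (H : Set P) ⊓ critW p Z)).subtype ≤
        Subgroup.centralizer ((H ⊔ (Subgroup.centralizer (H : Set P) ⊓ critW p Z) : Subgroup P) : Set P) ∧
      ⁅H ⊔ (Subgroup.centralizer (H : Set P) ⊓ critW p Z), (⊤ : Subgroup P)⁆ ≤
        (H ⊔ (Subgroup.centralizer (H : Set P) ⊓ critW p Z)) ⊓
          Subgroup.centralizer ((H ⊔ (Subgroup.centralizer (H : Set P) ⊓ critW p Z) : Subgroup P) : Set P) := by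
    refine ⟨inferInstance, ?_, ?_⟩
    · have hfr : frattini ↥(H ⊔ (Subgroup.centralizer (H : Set P) ⊓ critW p Z)) ≤
          Z.subgroupOf (H ⊔ (Subgroup.centralizer (H : Set P) ⊓ critW p Z)) := by
        apply Cfsg.Agent.Lib.Helper4.frattini_le_of_comm_pow (p := p)
        · intro x y
          rw [Subgroup.mem_subgroupOf]
          exact (mem_critW.mp (hH'W x.2)).1 (y : P)
        · intro x
          rw [Subgroup.mem_subgroupOf]
          exact (mem_critW.mp (hH'W x.2)).2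
      rintro _ ⟨y, hy, rfl⟩
      exact hZcH' (Subgroup.mem_subgroupOf.mp (hfr hy))
    · rw [Subgroup.commutator_le]
      intro x hx g _
      have := (mem_critW.mp (hH'W hx)).1 g
      exact ⟨hZH' this, hZcH' this⟩
  have hcard := hmax ⟨H ⊔ (Subgroup.centralizer (H : Set P) ⊓ critW p Z), hgood⟩
  have heq : H = H ⊔ (Subgroup.centralizer (H : Set P) ⊓ critW p Z) :=
    Subgroup.eq_of_le_of_card_ge le_sup_left hcard
  have hKH : Subgroup.centralizer (H : Set P) ⊓ critW p Z ≤ H := by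
    have : Subgroup.centralizer (H : Set P) ⊓ critW p Z ≤ H ⊔ (Subgroup.centralizer (H : Set P) ⊓ critW p Z) := le_sup_right
    rw [← heq] at this
    exact this
  haveI hQnil : Group.IsNilpotent (P ⧸ Z) := (hP.to_quotient Z).isNilpotent
  have hCn : (Subgroup.centralizer (H : Set P)).Normal := inferInstance
  haveI hCbar : ((Subgroup.centralizer (H : Set P)).map (QuotientGroup.mk' Z)).Normal :=
    hCn.map _ (QuotientGroup.mk'_surjective Z)
  have hCne : (Subgroup.centralizer (H : Set P)).map (QuotientGroup.mk' Z) ≠ ⊥ := by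
    intro h
    rw [Subgroup.map_eq_bot_iff, QuotientGroup.ker_mk'] at h
    exact hCH (h.trans hZH)
  have hmeet := Cfsg.Agent.Lib.Lead.normal_inf_center_ne_bot _ hCne
  obtain ⟨⟨c, hc⟩, hc1⟩ := Subgroup.ne_bot_iff_exists_ne_one.mp hmeet
  have hc1' : c ≠ 1 := fun h => hc1 (Subtype.ext h)
  obtain ⟨k, hk⟩ := (hP.to_quotient Z) c
  obtain ⟨j, hj, hjo⟩ := (Nat.dvd_prime_pow hp).mp (orderOf_dvd_of_pow_eq_one hk)
  have hj0 : j ≠ 0 := by
    intro h0
    rw [h0, pow_zero] at hjo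
    exact hc1' (orderOf_eq_one_iff.mp hjo)
  have hd1 : c ^ (p ^ (j - 1)) ≠ 1 := by
    apply pow_ne_one_of_lt_orderOf (pow_pos hp.pos _).ne'
    rw [hjo]
    exact Nat.pow_lt_pow_right hp.one_lt (by omega)
  have hdp : (c ^ (p ^ (j - 1))) ^ p = 1 := by
    rw [← pow_mul, ← pow_succ, Nat.sub_add_cancel (Nat.pos_of_ne_zero hj0), ← hjo]
    exact pow_orderOf_eq_one c
  have hdmem := Subgroup.pow_mem _ hc (p ^ (j - 1))
  obtain ⟨x, hxC, hxd⟩ := hdmem.1
  have hxW : x ∈ critW p Z := by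
    rw [mem_critW]
    constructor
    · intro g
      rw [← QuotientGroup.eq_one_iff (N := Z)]
      have h1 : ((⁅x, g⁆ : P) : P ⧸ Z) = ⁅(QuotientGroup.mk' Z x), (QuotientGroup.mk' Z g)⁆ := by
        simp [commutatorElement_def]
      rw [h1, hxd, commutatorElement_eq_one_iff_mul_comm]
      exact (Subgroup.mem_center_iff.mp hdmem.2 _).symm
    · rw [← QuotientGroup.eq_one_iff (N := Z), QuotientGroup.mk_pow]
      have : (x : P ⧸ Z) = c ^ (p ^ (j - 1)) := hxd
      rw [this]; exact hdp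
  have hxZ : x ∈ Z := by
    rw [hZdef]
    exact ⟨hKH ⟨hxC, hxW⟩, hxC⟩
  apply hd1
  rw [← hxd]
  exact (QuotientGroup.eq_one_iff x).mpr hxZ

end Cfsg.Agent.S0093
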