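import Cfsg.Statements.S0094
import Mathlib
import Cfsg.Agent.Lib.Lead.PFrat
-- import your own Cfsg.Agent.* helpers here

set_option autoImplicit false
open Cfsg

namespace Cfsg.Agent.S0094

open scoped commutatorElement

/-- In a special p-group every central element has order dividing p. -/
theorem result {P : Type*} [Group P] [Finite P] {p : ℕ} [Fact p.Prime] (h : Cfsg.IsSpecial p P) (z : P) (hz : z ∈ Subgroup.center P) : z ^ p = 1 := by
  obtain ⟨hP, hfr, hcom⟩ := h
  have hcl : ∀ w ∈ commutator P, w ^ p = 1 := by
    intro w hw
    have hw' := hw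
    rw [commutator_eq_closure] at hw'
    induction hw' using Subgroup.closure_induction with
    | mem w hw1 =>
      obtain ⟨x, y, rfl⟩ := hw1
      have hc : ⁅x, y⁆ ∈ Subgroup.center P := by rw [← hcom]; exact hw
      have hpow : ∀ n : ℕ, ⁅x ^ n, y⁆ = ⁅x, y⁆ ^ n := by
        intro n
        induction n with
        | zero => simp
        | succ n ih =>
          have e : ⁅x ^ (n + 1), y⁆ = x * ⁅x ^ n, y⁆ * x⁻¹ * ⁅x, y⁆ := by
            simp only [commutatorElement_def]; group
          rw [e, ih]
          have hcn : ⁅x, y⁆ ^ n ∈ Subgroup.center P := Subgroup.pow_mem _ hc n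
          have h1 := Subgroup.mem_center_iff.mp hcn x
          rw [h1, mul_inv_cancel_right, pow_succ]
      rw [← hpow p]
      have hxp : x ^ p ∈ Subgroup.center P := by
        rw [← hfr]; exact (Cfsg.Agent.Lib.Lead.commutator_le_frattini_and_pow_mem hP).2 x
      rw [commutatorElement_def]
      have h2 := Subgroup.mem_center_iff.mp hxp y
      rw [← h2]; group
    | one => simp
    | mul a b ha hb iha ihb =>
      have haC : a ∈ commutator P := by rw [commutator_eq_closure]; exact ha
      have hbC : b ∈ commutator P := by rw [commutator_eq_closure]; exact hb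
      have hac : a ∈ Subgroup.center P := by rw [← hcom]; exact haC
      have hab : Commute a b := (Subgroup.mem_center_iff.mp hac b).symm
      rw [hab.mul_pow, iha haC, ihb hbC, one_mul]
    | inv a ha iha =>
      have haC : a ∈ commutator P := by rw [commutator_eq_closure]; exact ha
      rw [inv_pow, iha haC, inv_one]
  exact hcl z (hcom ▸ hz)

end Cfsg.Agent.S0094
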