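import Cfsg.Statements.S0096
import Mathlib
import Cfsg.Agent.Lib.Helper6.ClassTwoPow
-- import your own Cfsg.Agent.* helpers here

set_option autoImplicit false
open Cfsg
open scoped commutatorElement

namespace Cfsg.Agent.S0096

/-- For odd p, in a p-group of class at most two the elements of order dividing p generate a subgroup of exponent dividing p. -/
theorem result {P : Type*} [Group P] [Finite P] {p : ℕ} [Fact p.Prime] (hp : p ≠ 2) (hP : IsPGroup p P) (h2 : ⁅commutator P, (⊤ : Subgroup P)⁆ = ⊥) (g : P) (hg : g ∈ Subgroup.closure {x : P | x ^ p = 1}) : g ^ p = 1 := by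
  classical
  have hp' : p.Prime := Fact.out
  have hcent : ∀ c ∈ commutator P, ∀ z : P, Commute c z := by
    intro c hc z
    have h1 : commutator P ≤ Subgroup.centralizer ((⊤ : Subgroup P) : Set P) :=
      Subgroup.commutator_eq_bot_iff_le_centralizer.mp h2
    have h3 := Subgroup.mem_centralizer_iff.mp (h1 hc) z (Subgroup.mem_top z)
    exact h3.symm
  have hdvd : p ∣ p.choose 2 := by
    have h2le := hp'.two_le
    exact hp'.dvd_choose_self (by norm_num) (by omega)
  have key : ∀ x y : P, x ^ p = 1 → y ^ p = 1 → (x * y) ^ p = 1 := by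
    intro x y hx hy
    obtain ⟨c, hc⟩ : ∃ c : P, c = y⁻¹ * x⁻¹ * y * x := ⟨_, rfl⟩
    have hcm : c ∈ commutator P := by
      have h5 : c = ⁅y⁻¹, x⁻¹⁆ := by rw [commutatorElement_def, hc]; simp
      rw [h5, commutator_def]
      exact Subgroup.commutator_mem_commutator (Subgroup.mem_top _) (Subgroup.mem_top _)
    have h1 : y * x = x * y * c := by rw [hc]; group
    have hcx := hcent c hcm x
    have hcy := hcent c hcm y
    have h3 := Cfsg.Agent.Lib.Helper6.pow_mul_of_central_comm x y c h1 hcy p
    rw [hy, one_mul, mul_one] at h3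
    have hcp : c ^ p = 1 := by
      have h6 : x * c ^ p = x * 1 := by rw [mul_one]; exact h3.symm
      exact mul_left_cancel h6
    have h4 := Cfsg.Agent.Lib.Helper6.mul_pow_of_central_comm x y c h1 hcx hcy p
    rw [h4, hx, hy, one_mul, one_mul]
    obtain ⟨m, hm⟩ := hdvd
    rw [hm, pow_mul, hcp, one_pow]
  induction hg using Subgroup.closure_induction with
  | mem x hx => exact hx
  | one => exact one_pow p
  | mul x y _ _ hx hy => exact key x y hx hy
  | inv x _ hx => rw [inv_pow, hx, inv_one]

end Cfsg.Agent.S0096
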