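import Cfsg.Statements.S0097
import Mathlib
import Cfsg.Agent.Lib.Helper6.ClassTwoPow
import Cfsg.Agent.Lib.Lead.PFrat
import Cfsg.Agent.S0096
-- import your own Cfsg.Agent.* helpers here

set_option autoImplicit false
open Cfsg
open scoped commutatorElement

namespace Cfsg.Agent.S0097

/-- For odd p and E extraspecial, the subgroup generated by the elements of order dividing p has exponent dividing p and index at most p. -/
theorem result {E : Type*} [Group E] [Finite E] {p : ℕ} [Fact p.Prime] (hp : p ≠ 2) (h : Cfsg.IsExtraspecial p E) : (Subgroup.closure {x : E | x ^ p = 1}).index ≤ p ∧ ∀ g ∈ Subgroup.closure {x : E | x ^ p = 1}, g ^ p = 1 := by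
  classical
  have hp' : p.Prime := Fact.out
  obtain ⟨⟨hPG, hfrat, hcomm⟩, hZ⟩ := h
  have h2 : ⁅commutator E, (⊤ : Subgroup E)⁆ = ⊥ := by
    rw [Subgroup.commutator_eq_bot_iff_le_centralizer, hcomm]
    intro z hz
    rw [Subgroup.mem_centralizer_iff]
    intro g _
    exact Subgroup.mem_center_iff.mp hz g
  refine ⟨?_, fun g hg => Cfsg.Agent.S0096.result hp hPG h2 g hg⟩
  obtain ⟨-, hpow⟩ := Cfsg.Agent.Lib.Lead.commutator_le_frattini_and_pow_mem hPG
  have hpowc : ∀ x : E, x ^ p ∈ Subgroup.center E := fun x => hfrat ▸ hpow x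
  have hdvd : p ∣ p.choose 2 := by
    have h2le := hp'.two_le
    exact hp'.dvd_choose_self (by norm_num) (by omega)
  have hmul : ∀ x y : E, (x * y) ^ p = x ^ p * y ^ p := by
    intro x y
    obtain ⟨c, hc⟩ : ∃ c : E, c = y⁻¹ * x⁻¹ * y * x := ⟨_, rfl⟩
    have hcm : c ∈ Subgroup.center E := by
      rw [← hcomm]
      have h5 : c = ⁅y⁻¹, x⁻¹⁆ := by rw [commutatorElement_def, hc]; simp
      rw [h5, commutator_def]
      exact Subgroup.commutator_mem_commutator (Subgroup.mem_top _) (Subgroup.mem_top _)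
    have h1 : y * x = x * y * c := by rw [hc]; group
    have hcx : Commute c x := (Subgroup.mem_center_iff.mp hcm x).symm
    have hcy : Commute c y := (Subgroup.mem_center_iff.mp hcm y).symm
    have hcp : c ^ p = 1 := by
      have h6 := pow_card_eq_one' (G := Subgroup.center E) (x := ⟨c, hcm⟩)
      rw [hZ] at h6
      exact congrArg Subtype.val h6
    have h4 := Cfsg.Agent.Lib.Helper6.mul_pow_of_central_comm x y c h1 hcx hcy p
    rw [h4]
    obtain ⟨m, hm⟩ := hdvd
    rw [hm, pow_mul, hcp, one_pow, mul_one]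
  let φ : E →* Subgroup.center E :=
    { toFun := fun x => ⟨x ^ p, hpowc x⟩
      map_one' := Subtype.ext (one_pow p)
      map_mul' := fun x y => Subtype.ext (hmul x y) }
  have hker : φ.ker ≤ Subgroup.closure {x : E | x ^ p = 1} := by
    intro x hx
    apply Subgroup.subset_closure
    have h6 : φ x = 1 := hx
    exact congrArg Subtype.val h6
  have h5 : (Subgroup.closure {x : E | x ^ p = 1}).index ∣ φ.ker.index :=
    Subgroup.index_dvd_of_le hker
  have h6 : φ.ker.index = Nat.card φ.range := Subgroup.index_ker φ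
  have h7 : Nat.card φ.range ≤ p := by
    rw [← hZ]; exact Subgroup.card_le_card_group _
  have h8 : 0 < φ.ker.index := Nat.pos_of_ne_zero Subgroup.index_ne_zero_of_finite
  exact (Nat.le_of_dvd h8 h5).trans (h6 ▸ h7)

end Cfsg.Agent.S0097
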