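import Cfsg.Statements.S0101
import Mathlib
import Cfsg.Agent.Lib.Lead.PFrat
-- import your own Cfsg.Agent.* helpers here

set_option autoImplicit false
open Cfsg

namespace Cfsg.Agent.S0101

/-- In a perfect central extension, the kernel meets each Sylow p-subgroup P inside the Frattini subgroup of P. -/
theorem result {H : Type*} {G : Type*} [Group H] [Group G] [Finite H] (σ : H →* G) (hσ : Function.Surjective σ) (hc : σ.ker ≤ Subgroup.center H) (hH : commutator H = ⊤) {p : ℕ} [Fact p.Prime] (P : Sylow p H) : σ.ker ⊓ (P : Subgroup H) ≤ (frattini P).map (P : Subgroup H).subtype := by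
  classical
  rintro z ⟨hzk, hzP⟩
  have hzZ : z ∈ Subgroup.center H := hc hzk
  have hzC : z ∈ commutator H := hH ▸ Subgroup.mem_top z
  have key : ∀ (k : ℕ) (g₀ : H), g₀⁻¹ * z ^ k * g₀ ∈ (P : Subgroup H) → g₀⁻¹ * z ^ k * g₀ = z ^ k := by
    intro k g₀ _
    have hck : z ^ k ∈ Subgroup.center H := Subgroup.pow_mem _ hzZ k
    have := Subgroup.mem_center_iff.mp hck g₀
    rw [mul_assoc, ← this, inv_mul_cancel_left]
  have h1 := MonoidHom.transfer_eq_pow (Abelianization.of (G := (P : Subgroup H))) z key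
  have h2 : MonoidHom.transfer (Abelianization.of (G := (P : Subgroup H))) z = 1 :=
    Abelianization.commutator_subset_ker (MonoidHom.transfer (Abelianization.of (G := (P : Subgroup H)))) hzC
  rw [h2] at h1
  have h3 : (⟨z ^ (P : Subgroup H).index, MonoidHom.transfer_eq_pow_aux z key⟩ : (P : Subgroup H))
      ∈ commutator (P : Subgroup H) := by
    rw [← Abelianization.ker_of]
    exact h1.symm
  have h4 : (⟨z, hzP⟩ : (P : Subgroup H)) ^ (P : Subgroup H).index ∈ commutator (P : Subgroup H) := h3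
  have hcop : Nat.Coprime (P : Subgroup H).index (orderOf (⟨z, hzP⟩ : (P : Subgroup H))) :=
    Nat.Coprime.coprime_dvd_right (orderOf_dvd_natCard _) P.card_coprime_index.symm
  obtain ⟨m, hm⟩ := exists_pow_eq_self_of_coprime hcop
  have h5 : (⟨z, hzP⟩ : (P : Subgroup H)) ∈ commutator (P : Subgroup H) := by
    rw [← hm]; exact Subgroup.pow_mem _ h4 m
  have h6 := (Cfsg.Agent.Lib.Lead.commutator_le_frattini_and_pow_mem (G := (P : Subgroup H)) P.isPGroup').1 h5
  exact ⟨⟨z, hzP⟩, h6, rfl⟩

end Cfsg.Agent.S0101
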