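import Cfsg.Statements.S0102
import Mathlib
import Cfsg.Statements.S0102
import Cfsg.Agent.Lib.Helper4.Basic

set_option autoImplicit false
open Cfsg
open scoped commutatorElement

namespace Cfsg.Agent.S0102

open scoped commutatorElement

/-- A finite perfect group with cyclic Sylow p-subgroups has no perfect central extension whose kernel has order divisible by p. -/
theorem result {G : Type*} {H : Type*} [Group G] [Group H] [Finite G] [Finite H] (hG : commutator G = ⊤) {p : ℕ} [Fact p.Prime] (hcyc : ∀ P : Sylow p G, IsCyclic P) (σ : H →* G) (hσ : Function.Surjective σ) (hz : σ.ker ≤ Subgroup.center H) (hH : commutator H = ⊤) : ¬ p ∣ Nat.card σ.ker := by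
  intro hdvd
  have hp : p.Prime := Fact.out
  obtain ⟨P⟩ : Nonempty (Sylow p H) := inferInstance
  have hPcomm : ∀ a b : ↥(P : Subgroup H), a * b = b * a := by
    have hfp : IsPGroup p ↥(σ.comp (P : Subgroup H).subtype).range := by
      rw [MonoidHom.range_eq_map]
      exact (IsPGroup.of_equiv P.isPGroup' Subgroup.topEquiv.symm).map _
    obtain ⟨S, hS⟩ := hfp.exists_le_sylow
    haveI := hcyc S
    haveI : IsCyclic ↥(σ.comp (P : Subgroup H).subtype).range :=
      isCyclic_of_injective (Subgroup.inclusion hS) (Subgroup.inclusion_injective hS)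
    intro a b
    apply commutative_of_cyclic_center_quotient (σ.comp (P : Subgroup H).subtype).rangeRestrict _ a b
    intro x hx
    rw [MonoidHom.mem_ker] at hx
    have hx' : σ (x : H) = 1 := by
      have := congrArg Subtype.val hx
      simpa using this
    have hxc : (x : H) ∈ Subgroup.center H := hz (MonoidHom.mem_ker.mpr hx')
    rw [Subgroup.mem_center_iff]
    intro g
    apply Subtype.ext
    exact Subgroup.mem_center_iff.mp hxc (g : H)
  letI : CommGroup ↥(P : Subgroup H) := { (inferInstance : Group ↥(P : Subgroup H)) with mul_comm := hPcomm }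
  have hT : ∀ h : H, (MonoidHom.transfer (MonoidHom.id ↥(P : Subgroup H)) : H →* ↥(P : Subgroup H)) h = 1 := by
    intro h
    have hmem : h ∈ commutator H := by rw [hH]; trivial
    exact (Abelianization.commutator_subset_ker (MonoidHom.transfer (MonoidHom.id ↥(P : Subgroup H)) : H →* ↥(P : Subgroup H))) hmem
  obtain ⟨z, hz0⟩ := exists_prime_orderOf_dvd_card' p hdvd
  have hzc : (z : H) ∈ Subgroup.center H := hz z.2
  have hzo : orderOf (z : H) = p := by rw [Subgroup.orderOf_coe]; exact hz0
  have key := MonoidHom.transfer_eq_pow (MonoidHom.id ↥(P : Subgroup H)) (z : H) (by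
    intro k g₀ _
    have h1 := Subgroup.mem_center_iff.mp (Subgroup.pow_mem _ hzc k) g₀
    rw [mul_assoc, ← h1, inv_mul_cancel_left])
  rw [hT] at key
  have h1 : (z : H) ^ (P : Subgroup H).index = 1 := by
    have := congrArg Subtype.val key
    simpa using this.symm
  have hd : p ∣ (P : Subgroup H).index := by
    have := orderOf_dvd_of_pow_eq_one h1
    rwa [hzo] at this
  exact P.not_dvd_index hd

end Cfsg.Agent.S0102
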