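import Cfsg.Statements.S0103
import Mathlib
-- import your own Cfsg.Agent.* helpers here

set_option autoImplicit false
open Cfsg

namespace Cfsg.Agent.S0103

/-- If a Sylow p-subgroup P intersects every distinct conjugate trivially, then its normalizer controls fusion in P. -/
theorem result {G : Type*} [Group G] [Finite G] {p : ℕ} [Fact p.Prime] (P : Sylow p G) (hTI : ∀ g : G, (P : Subgroup G).map (MulAut.conj g).toMonoidHom ≠ (P : Subgroup G) → (P : Subgroup G) ⊓ (P : Subgroup G).map (MulAut.conj g).toMonoidHom = ⊥) (x y : G) (hx : x ∈ P) (hy : y ∈ P) (hc : ∃ g : G, g * x * g⁻¹ = y) : ∃ n ∈ Subgroup.normalizer (P : Set G), n * x * n⁻¹ = y := by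
  obtain ⟨g, rfl⟩ := hc
  by_cases hx1 : x = 1
  · subst hx1
    exact ⟨1, Subgroup.one_mem _, by simp⟩
  · by_cases hg : (P : Subgroup G).map (MulAut.conj g).toMonoidHom = (P : Subgroup G)
    · refine ⟨g, ?_, rfl⟩
      rw [Subgroup.mem_set_normalizer_iff]
      intro h
      constructor
      · intro hh
        have : g * h * g⁻¹ ∈ (P : Subgroup G).map (MulAut.conj g).toMonoidHom := ⟨h, hh, rfl⟩
        rwa [hg] at this
      · intro hh
        have hh' : g * h * g⁻¹ ∈ (P : Subgroup G) := hh
        rw [← hg] at hh'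
        obtain ⟨k, hk, hk2⟩ := hh'
        have : k = h := by
          have h3 : g * k * g⁻¹ = g * h * g⁻¹ := hk2
          simpa using h3
        rw [← this]
        exact hk
    · have h0 := hTI g hg
      exfalso
      apply hx1
      have hmem : g * x * g⁻¹ ∈ (P : Subgroup G) ⊓ (P : Subgroup G).map (MulAut.conj g).toMonoidHom :=
        ⟨hy, ⟨x, hx, rfl⟩⟩
      rw [h0, Subgroup.mem_bot] at hmem
      simpa using hmem

end Cfsg.Agent.S0103
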