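import Cfsg.Statements.S0104
import Mathlib
import Cfsg.Agent.Lib.Lead.Basic
import Cfsg.Agent.Lib.Lead.BaerSuzuki
import Cfsg.Agent.Lib.Lead.Invol2
-- import your own Cfsg.Agent.* helpers here

set_option autoImplicit false
open Cfsg

namespace Cfsg.Agent.S0104

/-- A subgroup Z of a Sylow p-subgroup P that is normalized by N_G(P) is weakly closed in P exactly when it is normal in every Sylow p-subgroup containing it. -/
theorem result {G : Type*} [Group G] [Finite G] {p : ℕ} [Fact p.Prime] (P : Sylow p G) (Z : Subgroup G) (hZP : Z ≤ (P : Subgroup G)) (hZN : Subgroup.normalizer (P : Set G) ≤ Subgroup.normalizer (Z : Set G)) : Cfsg.IsWeaklyClosed Z P ↔ ∀ R : Sylow p G, Z ≤ (R : Subgroup G) → (R : Subgroup G) ≤ Subgroup.normalizer (Z : Set G) := by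
  classical
  have hmapZ : ∀ g : G, g ∈ Subgroup.normalizer (Z : Set G) →
      Z.map (MulAut.conj g).toMonoidHom = Z := by
    intro g hg
    ext x
    constructor
    · rintro ⟨z, hz, rfl⟩
      exact (Subgroup.mem_normalizer_iff.mp hg z).mp hz
    · intro hx
      refine ⟨g⁻¹ * x * g, ?_, ?_⟩
      · have h1 := (Subgroup.mem_normalizer_iff.mp (Subgroup.inv_mem _ hg) x).mp hx
        simpa using h1
      · show g * (g⁻¹ * x * g) * g⁻¹ = x
        group
  constructor
  · rintro ⟨-, hwc⟩ R hZR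
    obtain ⟨g, hg⟩ := MulAction.exists_smul_eq G P R
    have h1 : Z.map (MulAut.conj g⁻¹).toMonoidHom ≤ (P : Subgroup G) := by
      rintro _ ⟨z, hz, rfl⟩
      have hzR : z ∈ (R : Subgroup G) := hZR hz
      rw [← hg, Sylow.coe_subgroup_smul, Cfsg.Agent.Lib.Lead.mem_conj_smul] at hzR
      show g⁻¹ * z * g⁻¹⁻¹ ∈ (P : Subgroup G)
      rw [inv_inv]
      exact hzR
    have h2 := hwc g⁻¹ h1
    have hgN : g ∈ Subgroup.normalizer (Z : Set G) := by
      have h3 : g⁻¹ ∈ Subgroup.normalizer (Z : Set G) := by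
        apply Cfsg.Agent.Lib.Lead.mem_normalizer_of_conj_le
        intro d hd
        have h4 : (MulAut.conj g⁻¹).toMonoidHom d ∈ Z.map (MulAut.conj g⁻¹).toMonoidHom :=
          Subgroup.mem_map_of_mem _ hd
        rw [h2] at h4
        exact h4
      have h5 := Subgroup.inv_mem _ h3
      rwa [inv_inv] at h5
    intro r hr
    rw [← hg, Sylow.coe_subgroup_smul, Cfsg.Agent.Lib.Lead.mem_conj_smul] at hr
    have h3 : g⁻¹ * r * g ∈ Subgroup.normalizer (Z : Set G) := hZN (Subgroup.le_normalizer hr)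
    have h4 : r = g * (g⁻¹ * r * g) * g⁻¹ := by group
    rw [h4]
    exact Subgroup.mul_mem _ (Subgroup.mul_mem _ hgN h3) (Subgroup.inv_mem _ hgN)
  · intro hall
    refine ⟨hZP, fun g hg => ?_⟩
    have hZR : Z ≤ ((g⁻¹ • P : Sylow p G) : Subgroup G) := by
      intro z hz
      rw [Sylow.coe_subgroup_smul, Cfsg.Agent.Lib.Lead.mem_conj_smul, inv_inv]
      exact hg (Subgroup.mem_map_of_mem _ hz)
    have hRN := hall (g⁻¹ • P) hZR
    have hPN : (P : Subgroup G) ≤ Subgroup.normalizer (Z : Set G) := Subgroup.le_normalizer.trans hZN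
    have hQ : IsPGroup p (((g⁻¹ • P : Sylow p G) : Subgroup G).subgroupOf
        (Subgroup.normalizer (Z : Set G))) := (g⁻¹ • P : Sylow p G).isPGroup'.comap_subtype
    obtain ⟨h, hh⟩ := Cfsg.Agent.Lib.Lead.exists_conj_into_sylow (P.subtype hPN) _ hQ
    have hkey : (h : G) * g⁻¹ ∈ Subgroup.normalizer ((P : Subgroup G) : Set G) := by
      apply Cfsg.Agent.Lib.Lead.mem_normalizer_of_conj_le
      intro d hd
      have hd' : g⁻¹ * d * g ∈ ((g⁻¹ • P : Sylow p G) : Subgroup G) := by
        rw [Sylow.coe_subgroup_smul, Cfsg.Agent.Lib.Lead.mem_conj_smul, inv_inv]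
        have e : g * (g⁻¹ * d * g) * g⁻¹ = d := by group
        rw [e]; exact hd
      have h1 := hh ⟨g⁻¹ * d * g, hRN hd'⟩ (by rw [Subgroup.mem_subgroupOf]; exact hd')
      rw [Sylow.coe_subtype, Subgroup.mem_subgroupOf] at h1
      have e2 : (h : G) * g⁻¹ * d * ((h : G) * g⁻¹)⁻¹ = (h : G) * (g⁻¹ * d * g) * (h : G)⁻¹ := by group
      rw [e2]
      exact h1
    have hgN : g ∈ Subgroup.normalizer (Z : Set G) := by
      have h1 := hZN hkey
      have h2 : g⁻¹ ∈ Subgroup.normalizer (Z : Set G) := by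
        have e : g⁻¹ = (h : G)⁻¹ * ((h : G) * g⁻¹) := by group
        rw [e]
        exact Subgroup.mul_mem _ (Subgroup.inv_mem _ h.2) h1
      have h5 := Subgroup.inv_mem _ h2
      rwa [inv_inv] at h5
    exact hmapZ g hgN

end Cfsg.Agent.S0104
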