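import Cfsg.Statements.S0107
import Mathlib
import Cfsg.Agent.Lib.Helper6.Dih
import Cfsg.Agent.Lib.Helper5.ThompsonTransfer
import Cfsg.Agent.Lib.Helper6.RealElt

set_option autoImplicit false
open Cfsg

namespace Cfsg.Agent.S0107


/-- A finite group with no nontrivial 2-group quotient and dihedral Sylow 2-subgroups of order at least 8 has a single class of involutions. -/
theorem result {G : Type*} [Group G] [Finite G] (T : Sylow 2 G) (n : ℕ) (hn : 2 ≤ n) (hT : Nonempty ((T : Subgroup G) ≃* DihedralGroup (2 ^ n))) (hO : Cfsg.pResidual 2 G = ⊤) (x y : G) (hx : orderOf x = 2) (hy : orderOf y = 2) : ∃ g : G, g * x * g⁻¹ = y := by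
  classical
  obtain ⟨e⟩ := hT
  obtain ⟨hD, hord⟩ := Cfsg.Agent.Lib.Helper6.dihLike_of_equiv (T : Subgroup G) (2 ^ n) e
  generalize ((e.symm (DihedralGroup.r 1) : ↥(T : Subgroup G)) : G) = ρ at hD hord
  have hMT : Subgroup.zpowers ρ ≤ (T : Subgroup G) := Subgroup.zpowers_le.mpr hD.1
  have hn' : 2 ^ n = 2 ^ (n - 1) * 2 := by
    rw [← pow_succ]; congr 1; omega
  have hrel : (Subgroup.zpowers ρ).relIndex (T : Subgroup G) = 2 := by
    have h1 := ((Subgroup.zpowers ρ).subgroupOf (T : Subgroup G)).card_mul_index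
    rw [Nat.card_congr (Subgroup.subgroupOfEquivOfLe hMT).toEquiv, Nat.card_zpowers, hord,
      Nat.card_congr e.toEquiv, DihedralGroup.nat_card] at h1
    have h2 : 2 ^ n * ((Subgroup.zpowers ρ).subgroupOf (T : Subgroup G)).index = 2 ^ n * 2 := by
      rw [h1]; ring
    exact Nat.eq_of_mul_eq_mul_left (by positivity) h2
  have hoddT : Odd (T : Subgroup G).index := Nat.odd_iff.mpr (by
    have := T.not_dvd_index
    omega)
  have hno2 : ∀ N : Subgroup G, N.index ≠ 2 := by
    intro N hN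
    have h1 := Cfsg.Agent.Lib.Helper6.pResidual_le_of_index_two N hN
    rw [hO, top_le_iff] at h1
    rw [h1, Subgroup.index_top] at hN
    omega
  have key : ∀ u : G, orderOf u = 2 → ∃ r : G, r⁻¹ * u * r ∈ Subgroup.zpowers ρ := by
    intro u hu
    by_contra hcon
    push Not at hcon
    obtain ⟨N, hN, _⟩ := Cfsg.Agent.Lib.Helper5.transfer_index_two (T : Subgroup G)
      (Subgroup.zpowers ρ) hrel hoddT u (by
        intro r k hk hmem
        rw [hu] at hk
        rcases (Nat.dvd_prime Nat.prime_two).mp hk with rfl | rfl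
        · rw [pow_one]
          constructor
          · intro h; exact absurd h (hcon r)
          · intro h; exact absurd h (by decide)
        · have h2 : u ^ 2 = 1 := by rw [← hu]; exact pow_orderOf_eq_one u
          rw [h2]
          constructor
          · intro _; exact even_two
          · intro _
            have : r⁻¹ * 1 * r = 1 := by group
            rw [this]; exact one_mem _)
    exact hno2 N hN
  have hinv : ∀ a ∈ Subgroup.zpowers ρ, orderOf a = 2 → a = ρ ^ (2 ^ (n - 1)) := by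
    intro a ha hoa
    have hfin : IsOfFinOrder ρ := isOfFinOrder_of_finite ρ
    obtain ⟨i, hi⟩ := (mem_powers_iff_mem_zpowers.mpr ha)
    replace hi : ρ ^ i = a := hi
    subst hi
    have h1 : ρ ^ (i * 2) = 1 := by rw [pow_mul, ← hoa]; exact pow_orderOf_eq_one _
    have h2 : 2 ^ (n - 1) * 2 ∣ i * 2 := by
      rw [← hn', ← hord]; exact orderOf_dvd_of_pow_eq_one h1
    have h3 : ¬ 2 ^ (n - 1) * 2 ∣ i := by
      intro h
      rw [← hn', ← hord] at h
      have : ρ ^ i = 1 := orderOf_dvd_iff_pow_eq_one.mp h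
      rw [this, orderOf_one] at hoa
      omega
    have h4 : 2 ^ (n - 1) ∣ i := Nat.dvd_of_mul_dvd_mul_right (by norm_num) h2
    obtain ⟨q, rfl⟩ := h4
    have h5 : ¬ 2 ∣ q := fun h => h3 (Nat.mul_dvd_mul_left _ h)
    obtain ⟨m, rfl⟩ : Odd q := Nat.odd_iff.mpr (by omega)
    rw [show 2 ^ (n - 1) * (2 * m + 1) = (2 ^ (n - 1) * 2) * m + 2 ^ (n - 1) by ring, ← hn',
      pow_add, pow_mul, ← hord, pow_orderOf_eq_one, one_pow, one_mul]
  obtain ⟨r1, h1⟩ := key x hx
  obtain ⟨r2, h2⟩ := key y hy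
  have e1 := hinv _ h1 (by
    have := Cfsg.Agent.Lib.Helper6.orderOf_conj_eq r1⁻¹ x
    rw [inv_inv] at this
    rw [this, hx])
  have e2 := hinv _ h2 (by
    have := Cfsg.Agent.Lib.Helper6.orderOf_conj_eq r2⁻¹ y
    rw [inv_inv] at this
    rw [this, hy])
  refine ⟨r2 * r1⁻¹, ?_⟩
  have h3 : r2 * r1⁻¹ * x * (r2 * r1⁻¹)⁻¹ = r2 * (r1⁻¹ * x * r1) * r2⁻¹ := by group
  rw [h3, e1, ← e2]
  group

end Cfsg.Agent.S0107
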