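import Cfsg.Statements.S0110
import Mathlib
set_option autoImplicit false
open Cfsg

namespace Cfsg.Agent.S0110


universe u v

theorem card_hom_le (p : ℕ) [Fact p.Prime] (C : Type v) [Group C] (hC : Nat.card C = p) :
    ∀ (n : ℕ) (A : Type u) [Group A] [Finite A], Nat.card A ≤ n →
      Nat.card (A →* C) ≤ Nat.card A := by
  have hp : p.Prime := Fact.out
  haveI : Finite C := Nat.finite_of_card_ne_zero (by rw [hC]; exact hp.ne_zero)
  intro n
  induction n with
  | zero =>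
    intro A _ _ h
    have := Nat.card_pos (α := A)
    omega
  | succ n ih =>
    intro A _ _ hA
    haveI : Finite (A →* C) :=
      Finite.of_injective (fun f : A →* C => (f : A → C)) DFunLike.coe_injective
    by_cases htriv : ∀ ψ : A →* C, ψ = 1
    · haveI : Subsingleton (A →* C) := ⟨fun a b => (htriv a).trans (htriv b).symm⟩
      have h1 : Nat.card (A →* C) ≤ 1 := Finite.card_le_one_iff_subsingleton.mpr inferInstance
      have := Nat.card_pos (α := A)
      omega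
    · push Not at htriv
      obtain ⟨φ₀, hφ₀⟩ := htriv
      obtain ⟨a, ha⟩ : ∃ a, φ₀ a ≠ 1 := by
        by_contra hcon
        push Not at hcon
        exact hφ₀ (MonoidHom.ext hcon)
      obtain ⟨K, hK⟩ : ∃ K : Subgroup A, K = φ₀.ker := ⟨_, rfl⟩
      have hgen : ∀ x : A, ∃ i : ℤ, x * a ^ (-i) ∈ K := by
        intro x
        have h1 : φ₀ x ∈ Subgroup.zpowers (φ₀ a) := by
          rw [zpowers_eq_top_of_prime_card hC ha]; trivial
        obtain ⟨i, hi⟩ := Subgroup.mem_zpowers_iff.mp h1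
        refine ⟨i, ?_⟩
        rw [hK, MonoidHom.mem_ker, map_mul, map_zpow, ← hi, zpow_neg, mul_inv_cancel]
      have hinj : Function.Injective (fun ψ : A →* C => (ψ.comp K.subtype, ψ a)) := by
        intro ψ ψ' h
        have h1 : ψ.comp K.subtype = ψ'.comp K.subtype := congrArg Prod.fst h
        have h2 : ψ a = ψ' a := congrArg Prod.snd h
        apply MonoidHom.ext
        intro x
        obtain ⟨i, hi⟩ := hgen x
        have h3 : ψ (x * a ^ (-i)) = ψ' (x * a ^ (-i)) := DFunLike.congr_fun h1 ⟨_, hi⟩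
        have h5 : ∀ θ : A →* C, θ x = θ (x * a ^ (-i)) * θ a ^ i := by
          intro θ
          rw [← map_zpow, ← map_mul]
          congr 1
          group
        rw [h5 ψ, h5 ψ', h3, h2]
      haveI : Finite (↥K →* C) :=
        Finite.of_injective (fun f : ↥K →* C => (f : ↥K → C)) DFunLike.coe_injective
      have hcard := Nat.card_le_card_of_injective _ hinj
      rw [Nat.card_prod, hC] at hcard
      have hidx : K.index = p := by
        rw [hK, Subgroup.index_ker]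
        have h1 : Nat.card φ₀.range ∣ p := by
          have h := Subgroup.card_subgroup_dvd_card φ₀.range
          rwa [hC] at h
        rcases (Nat.dvd_prime hp).mp h1 with h | h
        · exfalso
          have h0 : φ₀.range = ⊥ := Subgroup.card_eq_one.mp h
          have h2 : φ₀ a ∈ φ₀.range := ⟨a, rfl⟩
          rw [h0, Subgroup.mem_bot] at h2
          exact ha h2
        · exact h
      have hmul := Subgroup.card_mul_index K
      rw [hidx] at hmul
      have hKle : Nat.card K ≤ n := by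
        have := hp.two_le
        have hpos : 0 < Nat.card K := Nat.card_pos
        nlinarith
      have hih := ih K hKle
      calc Nat.card (A →* C) ≤ Nat.card (↥K →* C) * p := hcard
        _ ≤ Nat.card K * p := Nat.mul_le_mul_right _ hih
        _ = Nat.card A := hmul
theorem result {G : Type*} [Group G] [Finite G] {p : ℕ} [Fact p.Prime] (hG : IsPGroup p G) (E : Subgroup G) (hE : Cfsg.IsExtraspecial p E) (h : ⁅(⊤ : Subgroup G), E⁆ ≤ E ⊓ Subgroup.centralizer (E : Set G)) : E ⊔ Subgroup.centralizer (E : Set G) = ⊤ := by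

  classical
  obtain ⟨⟨hEp, hfr, hcomm⟩, hZcard⟩ := hE
  have hp : p.Prime := Fact.out
  have hc : ∀ (g e : G), e ∈ E → g * e * g⁻¹ * e⁻¹ ∈ E ⊓ Subgroup.centralizer (E : Set G) := by
    intro g e he
    apply h
    rw [← commutatorElement_def]
    exact Subgroup.commutator_mem_commutator (Subgroup.mem_top g) he
  have hcE : ∀ (g e : G), e ∈ E → g * e * g⁻¹ * e⁻¹ ∈ E :=
    fun g e he => (Subgroup.mem_inf.mp (hc g e he)).1
  have hcC : ∀ (g e : G), e ∈ E → ∀ x ∈ E, x * (g * e * g⁻¹ * e⁻¹) = (g * e * g⁻¹ * e⁻¹) * x := by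
    intro g e he x hx
    have h1 := (Subgroup.mem_inf.mp (hc g e he)).2
    rw [Subgroup.mem_centralizer_iff] at h1
    exact h1 x hx
  have hcen : ∀ (g : G) (e : ↥E),
      (⟨g * (e : G) * g⁻¹ * (e : G)⁻¹, hcE g e e.2⟩ : ↥E) ∈ Subgroup.center ↥E := by
    intro g e
    rw [Subgroup.mem_center_iff]
    intro x
    apply Subtype.ext
    exact hcC g e e.2 x x.2
  obtain ⟨φ, hφ⟩ : ∃ φ : G → (↥E →* ↥(Subgroup.center ↥E)), ∀ (g : G) (e : ↥E),
      (((φ g e : ↥(Subgroup.center ↥E)) : ↥E) : G) = g * (e : G) * g⁻¹ * (e : G)⁻¹ := by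
    refine ⟨fun g => MonoidHom.mk'
      (fun e => ⟨⟨g * (e : G) * g⁻¹ * (e : G)⁻¹, hcE g e e.2⟩, hcen g e⟩) ?_, fun g e => rfl⟩
    intro e₁ e₂
    apply Subtype.ext; apply Subtype.ext
    show g * ((e₁ : G) * (e₂ : G)) * g⁻¹ * ((e₁ : G) * (e₂ : G))⁻¹ =
      (g * (e₁ : G) * g⁻¹ * (e₁ : G)⁻¹) * (g * (e₂ : G) * g⁻¹ * (e₂ : G)⁻¹)
    have h2 : Commute (e₁ : G) (g * (e₂ : G) * g⁻¹ * (e₂ : G)⁻¹) := hcC g e₂ e₂.2 e₁ e₁.2
    have h3 := h2.inv_left.eq
    calc g * ((e₁ : G) * (e₂ : G)) * g⁻¹ * ((e₁ : G) * (e₂ : G))⁻¹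
        = (g * (e₁ : G) * g⁻¹) * ((g * (e₂ : G) * g⁻¹ * (e₂ : G)⁻¹) * (e₁ : G)⁻¹) := by group
      _ = (g * (e₁ : G) * g⁻¹) * ((e₁ : G)⁻¹ * (g * (e₂ : G) * g⁻¹ * (e₂ : G)⁻¹)) := by rw [h3]
      _ = (g * (e₁ : G) * g⁻¹ * (e₁ : G)⁻¹) * (g * (e₂ : G) * g⁻¹ * (e₂ : G)⁻¹) := by group
  haveI : Finite ↥E := inferInstance
  haveI hfinT : Finite (↥E →* ↥(Subgroup.center ↥E)) :=
    Finite.of_injective (fun f : ↥E →* ↥(Subgroup.center ↥E) => (f : ↥E → ↥(Subgroup.center ↥E)))
      DFunLike.coe_injective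
  have hker : ∀ ψ : ↥E →* ↥(Subgroup.center ↥E), Subgroup.center ↥E ≤ ψ.ker := by
    intro ψ
    have h0 : commutator ↥E ≤ ψ.ker := by
      rw [commutator_eq_closure, Subgroup.closure_le]
      rintro _ ⟨a, b, rfl⟩
      rw [SetLike.mem_coe, MonoidHom.mem_ker, map_commutatorElement,
        commutatorElement_eq_one_iff_commute]
      apply Subtype.ext
      exact Subgroup.mem_center_iff.mp (ψ b).2 (ψ a : ↥E)
    rwa [hcomm] at h0
  have hT : Nat.card (↥E →* ↥(Subgroup.center ↥E)) ≤ Nat.card (↥E ⧸ Subgroup.center ↥E) := by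
    have hinj : Function.Injective (fun ψ : ↥E →* ↥(Subgroup.center ↥E) =>
        QuotientGroup.lift (Subgroup.center ↥E) ψ (hker ψ)) := by
      intro ψ ψ' h'
      have h'' : QuotientGroup.lift (Subgroup.center ↥E) ψ (hker ψ) =
          QuotientGroup.lift (Subgroup.center ↥E) ψ' (hker ψ') := h'
      apply MonoidHom.ext
      intro x
      exact DFunLike.congr_fun h'' (x : ↥E ⧸ Subgroup.center ↥E)
    haveI : Finite (↥E ⧸ Subgroup.center ↥E →* ↥(Subgroup.center ↥E)) :=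
      Finite.of_injective (fun f : ↥E ⧸ Subgroup.center ↥E →* ↥(Subgroup.center ↥E) =>
        (f : ↥E ⧸ Subgroup.center ↥E → ↥(Subgroup.center ↥E))) DFunLike.coe_injective
    exact (Nat.card_le_card_of_injective _ hinj).trans (card_hom_le p _ hZcard _ _ le_rfl)
  have hΨ : Function.Injective (fun q : ↥E ⧸ Subgroup.center ↥E => φ ((q.out : ↥E) : G)) := by
    intro q q' hqq
    have hqq' : φ ((q.out : ↥E) : G) = φ ((q'.out : ↥E) : G) := hqq
    have h4 : (q.out : ↥E)⁻¹ * (q'.out : ↥E) ∈ Subgroup.center ↥E := by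
      rw [Subgroup.mem_center_iff]
      intro x
      apply Subtype.ext
      have h1 := hφ ((q.out : ↥E) : G) x
      have h2 := hφ ((q'.out : ↥E) : G) x
      rw [hqq'] at h1
      have h3 : ((q.out : ↥E) : G) * (x : G) * ((q.out : ↥E) : G)⁻¹ =
          ((q'.out : ↥E) : G) * (x : G) * ((q'.out : ↥E) : G)⁻¹ :=
        mul_right_cancel (h1.symm.trans h2)
      show (x : G) * (((q.out : ↥E) : G)⁻¹ * ((q'.out : ↥E) : G)) =
        (((q.out : ↥E) : G)⁻¹ * ((q'.out : ↥E) : G)) * (x : G)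
      calc (x : G) * (((q.out : ↥E) : G)⁻¹ * ((q'.out : ↥E) : G))
          = ((q.out : ↥E) : G)⁻¹ * (((q.out : ↥E) : G) * (x : G) * ((q.out : ↥E) : G)⁻¹) *
              ((q'.out : ↥E) : G) := by group
        _ = ((q.out : ↥E) : G)⁻¹ * (((q'.out : ↥E) : G) * (x : G) * ((q'.out : ↥E) : G)⁻¹) *
              ((q'.out : ↥E) : G) := by rw [h3]
        _ = (((q.out : ↥E) : G)⁻¹ * ((q'.out : ↥E) : G)) * (x : G) := by group
    rw [← QuotientGroup.out_eq' q, ← QuotientGroup.out_eq' q']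
    exact QuotientGroup.eq.mpr h4
  have hbij := Function.Injective.bijective_of_nat_card_le hΨ hT
  rw [eq_top_iff]
  intro g _
  obtain ⟨q, hq⟩ := hbij.2 (φ g)
  have hq' : φ ((q.out : ↥E) : G) = φ g := hq
  have hcent : ((q.out : ↥E) : G)⁻¹ * g ∈ Subgroup.centralizer (E : Set G) := by
    rw [Subgroup.mem_centralizer_iff]
    intro x hx
    have h1 := hφ ((q.out : ↥E) : G) ⟨x, hx⟩
    have h2 := hφ g ⟨x, hx⟩
    rw [hq'] at h1
    have h3 : ((q.out : ↥E) : G) * x * ((q.out : ↥E) : G)⁻¹ = g * x * g⁻¹ :=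
      mul_right_cancel (h1.symm.trans h2)
    calc x * (((q.out : ↥E) : G)⁻¹ * g)
        = ((q.out : ↥E) : G)⁻¹ * (((q.out : ↥E) : G) * x * ((q.out : ↥E) : G)⁻¹) * g := by group
      _ = ((q.out : ↥E) : G)⁻¹ * (g * x * g⁻¹) * g := by rw [h3]
      _ = ((q.out : ↥E) : G)⁻¹ * g * x := by group
  have hg : g = ((q.out : ↥E) : G) * (((q.out : ↥E) : G)⁻¹ * g) := by group
  rw [hg]
  exact Subgroup.mul_mem _ (Subgroup.mem_sup_left (q.out).2) (Subgroup.mem_sup_right hcent)

end Cfsg.Agent.S0110
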