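import Cfsg.Statements.S0111
import Mathlib
-- import your own Cfsg.Agent.* helpers here

set_option autoImplicit false
open Cfsg

namespace Cfsg.Agent.S0111

/-- The Thompson transfer lemma states that an involution of a Sylow 2-subgroup P lying outside a subgroup Q of index 2 in P either lies outside some normal subgroup of index 2 in G or is conjugate to an element of Q. -/
theorem result {G : Type*} [Group G] [Finite G] (P : Sylow 2 G) (Q : Subgroup G) (hQP : Q ≤ (P : Subgroup G)) (hQi : Q.relIndex (P : Subgroup G) = 2) (u : G) (hu : orderOf u = 2) (huP : u ∈ (P : Subgroup G)) (huQ : u ∉ Q) : (∃ M : Subgroup G, M.Normal ∧ M.index = 2 ∧ u ∉ M) ∨ ∃ g : G, g * u * g⁻¹ ∈ Q := by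
  classical
  by_contra hcon
  push_neg at hcon
  obtain ⟨hM, hconj⟩ := hcon
  have hidx : (Q.subgroupOf (P : Subgroup G)).index = 2 := hQi
  let ϕ : (P : Subgroup G) →* ℤˣ :=
    { toFun := fun x => if (x : G) ∈ Q then 1 else -1
      map_one' := by simp [Q.one_mem]
      map_mul' := by
        intro x y
        have key := Subgroup.mul_mem_iff_of_index_two hidx (a := x) (b := y)
        simp only [Subgroup.mem_subgroupOf, Subgroup.coe_mul] at key
        by_cases hx : (x : G) ∈ Q <;> by_cases hy : (y : G) ∈ Q <;> simp [hx, hy, key] }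
  have hϕ : ∀ (x : G) (hx : x ∈ (P : Subgroup G)), ϕ ⟨x, hx⟩ = if x ∈ Q then 1 else -1 := fun x hx => rfl
  let V : G →* ℤˣ := MonoidHom.transfer ϕ
  have hu2 : u ^ 2 = 1 := by
    have := pow_orderOf_eq_one u
    rwa [hu] at this
  have hVu : V u = -1 := by
    haveI : Fintype (Quotient (MulAction.orbitRel (Subgroup.zpowers u) (G ⧸ (P : Subgroup G)))) :=
      Fintype.ofFinite _
    show MonoidHom.transfer ϕ u = -1
    rw [MonoidHom.transfer_eq_prod_quotient_orbitRel_zpowers_quot]
    have hm : ∀ q : Quotient (MulAction.orbitRel (Subgroup.zpowers u) (G ⧸ (P : Subgroup G))),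
        Function.minimalPeriod (u • ·) q.out = 1 ∨ Function.minimalPeriod (u • ·) q.out = 2 := by
      intro q
      have hd : Function.minimalPeriod (u • ·) q.out ∣ orderOf u := MulAction.period_dvd_orderOf u q.out
      rw [hu] at hd
      rcases (Nat.dvd_prime Nat.prime_two).mp hd with h | h
      · exact Or.inl h
      · exact Or.inr h
    have hfac : ∀ q : Quotient (MulAction.orbitRel (Subgroup.zpowers u) (G ⧸ (P : Subgroup G))),
        ϕ ⟨q.out.out⁻¹ * u ^ Function.minimalPeriod (u • ·) q.out * q.out.out,
          QuotientGroup.out_conj_pow_minimalPeriod_mem (P : Subgroup G) u q.out⟩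
          = (-1) ^ Function.minimalPeriod (u • ·) q.out := by
      intro q
      rw [hϕ]
      rcases hm q with h | h
      · have hnot : q.out.out⁻¹ * u ^ Function.minimalPeriod (u • ·) q.out * q.out.out ∉ Q := by
          rw [h, pow_one]
          have := hconj (q.out.out⁻¹)
          simpa using this
        rw [if_neg hnot, h, pow_one]
      · have hin : q.out.out⁻¹ * u ^ Function.minimalPeriod (u • ·) q.out * q.out.out ∈ Q := by
          rw [h, hu2]; simp [Q.one_mem]
        rw [if_pos hin, h]; norm_num
    rw [Finset.prod_congr rfl (fun q _ => hfac q), Finset.prod_pow_eq_pow_sum]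
    have hsum : ∑ q : Quotient (MulAction.orbitRel (Subgroup.zpowers u) (G ⧸ (P : Subgroup G))),
        Function.minimalPeriod (u • ·) q.out = (P : Subgroup G).index := by
      haveI : ∀ q : Quotient (MulAction.orbitRel (Subgroup.zpowers u) (G ⧸ (P : Subgroup G))),
          Finite (ZMod (Function.minimalPeriod (u • ·) q.out)) := by
        intro q
        rcases hm q with h | h <;> rw [h] <;> infer_instance
      have e := Subgroup.quotientEquivSigmaZMod (P : Subgroup G) u
      have h1 := Nat.card_congr e
      rw [Nat.card_sigma] at h1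
      simp only [Nat.card_zmod] at h1
      rw [Subgroup.index, h1]
    rw [hsum]
    have hodd : Odd (P : Subgroup G).index := by
      have := P.not_dvd_index
      exact Nat.odd_iff.mpr (Nat.two_dvd_ne_zero.mp this)
    exact Odd.neg_one_pow hodd
  have hker : V.ker.index = 2 := by
    rw [Subgroup.index_eq_two_iff]
    refine ⟨u, fun b => ?_⟩
    rw [MonoidHom.mem_ker, MonoidHom.mem_ker, map_mul, hVu]
    rcases Int.units_eq_one_or (V b) with h | h
    · rw [h]; simp [Xor]
    · rw [h]; simp [Xor]
  have := hM V.ker (MonoidHom.normal_ker V) hker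
  rw [MonoidHom.mem_ker, hVu] at this
  exact absurd this (by decide)

end Cfsg.Agent.S0111
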