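import Cfsg.Statements.S0119
import Mathlib
import Cfsg.Statements.S0119
import Cfsg.Agent.S0093
import Cfsg.Agent.Lib.Lead.PFrat
import Cfsg.Agent.Lib.Helper4.Frattini

set_option autoImplicit false
open Cfsg
open scoped commutatorElement

namespace Cfsg.Agent.S0119

open scoped commutatorElement

theorem fixed_pow_mem_commutator19 {G : Type*} [Group G] (A : Subgroup (MulAut G)) [Finite ↥A]
    (hGA : Subgroup.closure {x : G | ∃ g : G, ∃ a ∈ A, x = g⁻¹ * a g} = ⊤) (z : G)
    (hz : ∀ a ∈ A, a z = z) : z ^ Nat.card ↥A ∈ commutator G := by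
  classical
  haveI : Fintype ↥A := Fintype.ofFinite _
  let N : G →* Abelianization G :=
    ∏ a : ↥A, (Abelianization.of.comp (MulEquiv.toMonoidHom (a : MulAut G)))
  have hN : ∀ g : G, N g = ∏ a : ↥A, Abelianization.of ((a : MulAut G) g) := by
    intro g
    simp only [N, MonoidHom.finset_prod_apply]
    rfl
  have hinv : ∀ (b : ↥A) (g : G), N ((b : MulAut G) g) = N g := by
    intro b g
    rw [hN, hN]
    have := Equiv.prod_comp (Equiv.mulRight b)
      (fun a : ↥A => Abelianization.of ((a : MulAut G) g))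
    rw [← this]
    apply Finset.prod_congr rfl
    intro a _
    rfl
  have hker : Subgroup.closure {x : G | ∃ g : G, ∃ a ∈ A, x = g⁻¹ * a g} ≤ N.ker := by
    rw [Subgroup.closure_le]
    rintro x ⟨g, a, ha, rfl⟩
    show N _ = 1
    rw [map_mul, map_inv, hinv ⟨a, ha⟩ g, inv_mul_cancel]
  rw [hGA] at hker
  have hNz : N z = 1 := hker (Subgroup.mem_top z)
  rw [hN] at hNz
  have hconst : ∀ a : ↥A, Abelianization.of ((a : MulAut G) z) = Abelianization.of z := by
    intro a
    rw [hz a a.2]
  rw [Finset.prod_congr rfl (fun a _ => hconst a), Finset.prod_const, Finset.card_univ,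
    ← Nat.card_eq_fintype_card, ← map_pow] at hNz
  rw [← Abelianization.ker_of, MonoidHom.mem_ker]
  exact hNz

theorem pow_comm_left19 {G : Type*} [Group G] (hc : ∀ x y : G, ⁅x, y⁆ ∈ Subgroup.center G) (x y : G) :
    ∀ m : ℕ, ⁅x ^ m, y⁆ = ⁅x, y⁆ ^ m := by
  intro m
  induction m with
  | zero => simp
  | succ m ih =>
    have e : ⁅x ^ (m + 1), y⁆ = x ^ m * ⁅x, y⁆ * (x ^ m)⁻¹ * ⁅x ^ m, y⁆ := by
      rw [pow_succ]
      simp only [commutatorElement_def]
      group
    have h1 := Subgroup.mem_center_iff.mp (hc x y) (x ^ m)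
    rw [e, ih, h1, mul_inv_cancel_right, pow_succ']

theorem pow_comm_right19 {G : Type*} [Group G] (hc : ∀ x y : G, ⁅x, y⁆ ∈ Subgroup.center G) (x y : G)
    (m : ℕ) : ⁅x, y ^ m⁆ = ⁅x, y⁆ ^ m := by
  rw [← commutatorElement_inv, pow_comm_left19 hc y x m, ← inv_pow, commutatorElement_inv]

/-- If a p'-group A of automorphisms of a p-group G satisfies G = [G, A] and acts trivially on every characteristic abelian subgroup, then G is special with centre equal to the fixed points of A. -/
theorem result {G : Type*} [Group G] [Finite G] {p : ℕ} [Fact p.Prime] (hG : IsPGroup p G) (A : Subgroup (MulAut G)) (hA : Nat.Coprime (Nat.card A) p) (hGA : Subgroup.closure {x : G | ∃ g : G, ∃ a ∈ A, x = g⁻¹ * a g} = ⊤) (hchar : ∀ H : Subgroup G, H.Characteristic → IsMulCommutative H → ∀ a ∈ A, ∀ h ∈ H, a h = h) : Cfsg.IsSpecial p G ∧ (∀ g : G, (g ∈ Subgroup.center G ↔ ∀ a ∈ A, a g = g)) := by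
  have hp : p.Prime := Fact.out
  have hcen : ∀ H : Subgroup G, H.Characteristic → IsMulCommutative ↥H → H ≤ Subgroup.center G := by
    intro H hHc hHab
    haveI := hHc
    have hHn : H.Normal := inferInstance
    have hle : Subgroup.closure {x : G | ∃ g : G, ∃ a ∈ A, x = g⁻¹ * a g} ≤ Subgroup.centralizer (H : Set G) := by
      rw [Subgroup.closure_le]
      rintro x ⟨g, a, ha, rfl⟩
      show g⁻¹ * a g ∈ Subgroup.centralizer (H : Set G)
      rw [Subgroup.mem_centralizer_iff]
      intro h hh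
      have h1 := hchar H hHc hHab a ha (g * h * g⁻¹) (hHn.conj_mem h hh g)
      have h2 := hchar H hHc hHab a ha h hh
      rw [map_mul, map_mul, map_inv, h2] at h1
      have e : g⁻¹ * a g * h = g⁻¹ * (a g * h * (a g)⁻¹) * a g := by group
      rw [e, h1]; group
    rw [hGA] at hle
    intro h hh
    rw [Subgroup.mem_center_iff]
    intro g
    exact (Subgroup.mem_centralizer_iff.mp (hle (Subgroup.mem_top g)) h hh).symm
  have hZfix : ∀ g ∈ Subgroup.center G, ∀ a ∈ A, a g = g := fun g hg a ha =>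
    hchar (Subgroup.center G) inferInstance inferInstance a ha g hg
  have hcomm : commutator G ≤ Subgroup.center G := by
    obtain ⟨H, hHc, -, hHcomm, hCH⟩ := Cfsg.Agent.S0093.result hG
    haveI := hHc
    have hZHab : IsMulCommutative ↥(H ⊓ Subgroup.centralizer (H : Set G)) := by
      refine ⟨⟨fun x y => ?_⟩⟩
      apply Subtype.ext
      exact (Subgroup.mem_centralizer_iff.mp y.2.2 (x : G) x.2.1)
    have hZH : H ⊓ Subgroup.centralizer (H : Set G) ≤ Subgroup.center G := hcen _ inferInstance hZHab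
    have t2 : ⁅⁅H, (⊤ : Subgroup G)⁆, (⊤ : Subgroup G)⁆ = ⊥ := by
      rw [eq_bot_iff, Subgroup.commutator_le]
      intro c hc g _
      rw [Subgroup.mem_bot, commutatorElement_eq_one_iff_mul_comm]
      exact (Subgroup.mem_center_iff.mp (hZH (hHcomm hc)) g).symm
    have t1 : ⁅⁅(⊤ : Subgroup G), H⁆, (⊤ : Subgroup G)⁆ = ⊥ := by
      rw [Subgroup.commutator_comm ⊤ H]; exact t2
    have t3 : ⁅⁅(⊤ : Subgroup G), (⊤ : Subgroup G)⁆, H⁆ = ⊥ := Subgroup.commutator_commutator_eq_bot_of_rotate t1 t2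
    have h1 : commutator G ≤ Subgroup.centralizer (H : Set G) := by
      rw [commutator_def]
      exact Subgroup.commutator_eq_bot_iff_le_centralizer.mp t3
    exact (le_inf (h1.trans hCH) h1).trans hZH
  have hcc : ∀ x y : G, ⁅x, y⁆ ∈ Subgroup.center G := fun x y =>
    hcomm (by rw [commutator_def]; exact Subgroup.commutator_mem_commutator (Subgroup.mem_top x) (Subgroup.mem_top y))
  have hfixcomm : ∀ z : G, (∀ a ∈ A, a z = z) → z ∈ commutator G := by
    intro z hz
    have h1 := fixed_pow_mem_commutator19 A hGA z hz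
    obtain ⟨k, hk⟩ := hG z
    have hcop : (Nat.card ↥A).Coprime (orderOf z) := by
      obtain ⟨j, -, hj⟩ := (Nat.dvd_prime_pow hp).mp (orderOf_dvd_of_pow_eq_one hk)
      rw [hj]
      exact Nat.Coprime.pow_right j hA
    obtain ⟨m, hm⟩ := exists_pow_eq_self_of_coprime hcop
    rw [← hm]
    exact Subgroup.pow_mem _ h1 m
  have hdesc : ∀ j : ℕ, 1 ≤ j → (∀ x : G, x ^ (p ^ (j + 1)) ∈ Subgroup.center G) →
      ∀ x : G, x ^ (p ^ j) ∈ Subgroup.center G := by
    intro j hj hQ
    have hSc : ∀ a ∈ {y : G | ∃ x : G, y = x ^ (p ^ j)}, ∀ b ∈ {y : G | ∃ x : G, y = x ^ (p ^ j)}, a * b = b * a := by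
      rintro a ⟨x, rfl⟩ b ⟨y, rfl⟩
      rw [← commutatorElement_eq_one_iff_mul_comm, pow_comm_right19 hcc, ← pow_comm_left19 hcc,
        commutatorElement_eq_one_iff_mul_comm]
      have h1 : (x ^ p ^ j) ^ p ^ j ∈ Subgroup.center G := by
        have e : (x ^ p ^ j) ^ p ^ j = (x ^ p ^ (j + 1)) ^ p ^ (j - 1) := by
          rw [← pow_mul, ← pow_mul, ← pow_add, ← pow_add]
          congr 2
          omega
        rw [e]
        exact Subgroup.pow_mem _ (hQ x) _
      exact (Subgroup.mem_center_iff.mp h1 y).symm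
    have hDchar : (Subgroup.closure {y : G | ∃ x : G, y = x ^ (p ^ j)}).Characteristic := by
      rw [Subgroup.characteristic_iff_map_le]
      intro ϕ
      rw [MonoidHom.map_closure]
      apply Subgroup.closure_mono
      rintro _ ⟨y, ⟨x, rfl⟩, rfl⟩
      exact ⟨ϕ x, by simp⟩
    have hDab : IsMulCommutative ↥(Subgroup.closure {y : G | ∃ x : G, y = x ^ (p ^ j)}) :=
      ⟨⟨(Subgroup.closureCommGroupOfComm hSc).mul_comm⟩⟩
    have hD := hcen _ hDchar hDab
    intro x
    exact hD (Subgroup.subset_closure ⟨x, rfl⟩)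
  have hpow : ∀ x : G, x ^ p ∈ Subgroup.center G := by
    obtain ⟨n, hn⟩ := IsPGroup.iff_card.mp hG
    have hup : ∀ k : ℕ, ∀ x : G, x ^ (p ^ (n + k)) ∈ Subgroup.center G := by
      intro k x
      have : x ^ (p ^ (n + k)) = 1 := by
        rw [pow_add, pow_mul, ← hn, pow_card_eq_one', one_pow]
      rw [this]; exact Subgroup.one_mem _
    have hdown : ∀ k : ℕ, (∀ x : G, x ^ (p ^ (1 + k)) ∈ Subgroup.center G) →
        ∀ x : G, x ^ (p ^ 1) ∈ Subgroup.center G := by
      intro k
      induction k with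
      | zero => intro h; exact h
      | succ k ih =>
        intro h
        apply ih
        apply hdesc (1 + k) (by omega)
        intro x
        have := h x
        rwa [← add_assoc] at this
    intro x
    have h2 := hdown n (fun x => by rw [add_comm]; exact hup 1 x) x
    rwa [pow_one] at h2
  have hfrat : frattini G = Subgroup.center G := by
    apply le_antisymm
    · exact Cfsg.Agent.Lib.Helper4.frattini_le_of_comm_pow (p := p) (Subgroup.center G) hcc hpow
    · intro z hz
      exact (Cfsg.Agent.Lib.Lead.commutator_le_frattini_and_pow_mem hG).1 (hfixcomm z (hZfix z hz))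
  have hcomm_eq : commutator G = Subgroup.center G :=
    le_antisymm hcomm (fun z hz => hfixcomm z (hZfix z hz))
  refine ⟨⟨hG, hfrat, hcomm_eq⟩, fun g => ⟨fun hg => hZfix g hg, fun hg => hcomm (hfixcomm g hg)⟩⟩

end Cfsg.Agent.S0119
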