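import Cfsg.Statements.S0120
import Mathlib
import Cfsg.Agent.Lib.Helper6.OmegaCent

set_option autoImplicit false
open Cfsg

namespace Cfsg.Agent.S0120


/-- For odd p, a p'-automorphism of a p-group acting trivially on the elements of order dividing p is trivial. -/
theorem result {G : Type*} [Group G] [Finite G] {p : ℕ} [Fact p.Prime] (hp : p ≠ 2) (hG : IsPGroup p G) (a : MulAut G) (ha : Nat.Coprime (orderOf a) p) (h : ∀ x : G, x ^ p = 1 → a x = x) : a = 1 := by
  classical
  let Z : Subgroup (MulAut G) := Subgroup.zpowers a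
  let φ : Z →* MulAut G := Z.subtype
  haveI : Finite (G ⋊[φ] Z) := Finite.of_equiv _ SemidirectProduct.equivProd.symm
  let P : Subgroup (G ⋊[φ] Z) := (SemidirectProduct.inl : G →* G ⋊[φ] Z).range
  let A : Subgroup (G ⋊[φ] Z) := (SemidirectProduct.inr : Z →* G ⋊[φ] Z).range
  have hAcard : Nat.card A = orderOf a := by
    rw [← Nat.card_congr (MonoidHom.ofInjective
      (SemidirectProduct.inr_injective (φ := φ))).toEquiv, Nat.card_zpowers]
  have hPp : IsPGroup p P :=
    hG.of_surjective (SemidirectProduct.inl : G →* G ⋊[φ] Z).rangeRestrict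
      (MonoidHom.rangeRestrict_surjective _)
  have hconj : ∀ (z : Z) (g : G), (SemidirectProduct.inr z : G ⋊[φ] Z) *
      SemidirectProduct.inl g * (SemidirectProduct.inr z)⁻¹ =
      SemidirectProduct.inl ((z : MulAut G) g) := by
    intro z g
    rw [← map_inv, ← SemidirectProduct.inl_aut]
    rfl
  have hAP : A ≤ Subgroup.normalizer (P : Set (G ⋊[φ] Z)) := by
    haveI : P.Normal := by
      show ((SemidirectProduct.inl : G →* G ⋊[φ] Z).range).Normal
      rw [SemidirectProduct.range_inl_eq_ker_rightHom]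
      infer_instance
    rw [Subgroup.normalizer_eq_top_iff.mpr this]
    exact le_top
  have hzfix : ∀ (z : Z) (g : G), a g = g → (z : MulAut G) g = g := by
    intro z g hg
    obtain ⟨k, hk⟩ := Subgroup.mem_zpowers_iff.mp z.2
    rw [← hk]
    have : ∀ n : ℕ, (a ^ n) g = g := by
      intro n
      induction n with
      | zero => simp
      | succ n ih => rw [pow_succ, MulAut.mul_apply, hg, ih]
    have hinv : ∀ (b : MulAut G), b g = g → b⁻¹ g = g := by
      intro b hb
      conv_lhs => rw [← hb]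
      simp
    rcases Int.eq_nat_or_neg k with ⟨n, rfl | rfl⟩
    · rw [zpow_natCast]; exact this n
    · rw [zpow_neg, zpow_natCast]; exact hinv _ (this n)
  have hΩ : ∀ x ∈ P, (x ^ p = 1 ∨ (p = 2 ∧ x ^ 4 = 1)) → ∀ b ∈ A, b * x * b⁻¹ = x := by
    rintro x ⟨g, rfl⟩ hx b ⟨z, rfl⟩
    rw [hconj]
    congr 1
    apply hzfix
    apply h
    rcases hx with hx | ⟨h2, _⟩
    · rw [← map_pow] at hx
      exact SemidirectProduct.inl_injective (by rw [hx, map_one])
    · exact absurd h2 hp
  have key := Cfsg.Agent.Lib.Helper6.centralizes_of_centralizes_omega A P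
    (by rw [hAcard]; exact ha) hPp hAP hΩ
  ext g
  have h1 : (SemidirectProduct.inr (⟨a, Subgroup.mem_zpowers a⟩ : Z) : G ⋊[φ] Z) ∈ A :=
    ⟨_, rfl⟩
  have h2 := key h1 (SemidirectProduct.inl g) ⟨g, rfl⟩
  have h3 := hconj ⟨a, Subgroup.mem_zpowers a⟩ g
  have h4 : (SemidirectProduct.inl (a g) : G ⋊[φ] Z) = SemidirectProduct.inl g := by
    rw [← h3, ← h2]
    group
  exact SemidirectProduct.inl_injective h4

end Cfsg.Agent.S0120
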