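import Cfsg.Statements.S0121
import Mathlib
-- import your own Cfsg.Agent.* helpers here

set_option autoImplicit false
open Cfsg

namespace Cfsg.Agent.S0121

/-- A p'-automorphism of a p-group acting trivially on a critical subgroup is trivial. -/
theorem result {G : Type*} [Group G] [Finite G] {p : ℕ} [Fact p.Prime] (hG : IsPGroup p G) (H : Subgroup G) (hH : H.Characteristic) (h1 : (frattini H).map H.subtype ≤ Subgroup.centralizer (H : Set G)) (h2 : ⁅H, (⊤ : Subgroup G)⁆ ≤ H ⊓ Subgroup.centralizer (H : Set G)) (h3 : Subgroup.centralizer (H : Set G) ≤ H) (a : MulAut G) (ha : Nat.Coprime (orderOf a) p) (h : ∀ x ∈ H, a x = x) : a = 1 := by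
  apply MulEquiv.ext
  intro g
  have hn : H.Normal := inferInstance
  have hc : g⁻¹ * a g ∈ Subgroup.centralizer (H : Set G) := by
    rw [Subgroup.mem_centralizer_iff]
    intro x hx
    have hx' : g * x * g⁻¹ ∈ H := hn.conj_mem x hx g
    have e := h _ hx'
    rw [map_mul, map_mul, map_inv, h x hx] at e
    have : g⁻¹ * a g * x = x * (g⁻¹ * a g) := by
      calc g⁻¹ * a g * x = g⁻¹ * (a g * x * (a g)⁻¹) * a g := by group
        _ = g⁻¹ * (g * x * g⁻¹) * a g := by rw [e]
        _ = x * (g⁻¹ * a g) := by group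
    exact this.symm
  have hcH := h3 hc
  have hac : a (g⁻¹ * a g) = g⁻¹ * a g := h _ hcH
  have hpow : ∀ k : ℕ, (a ^ k) g = g * (g⁻¹ * a g) ^ k := by
    intro k
    induction k with
    | zero => simp
    | succ k ih =>
      rw [pow_succ', MulAut.mul_apply, ih, map_mul, map_pow, hac, pow_succ' (g⁻¹ * a g)]
      simp [mul_assoc]
  have hk := hpow (orderOf a)
  rw [pow_orderOf_eq_one, MulAut.one_apply] at hk
  have hc1 : (g⁻¹ * a g) ^ orderOf a = 1 := by
    have h5 : g * (g⁻¹ * a g) ^ orderOf a = g * 1 := by rw [mul_one]; exact hk.symm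
    exact mul_left_cancel h5
  obtain ⟨n, hn⟩ := hG (g⁻¹ * a g)
  have hcop : Nat.Coprime (orderOf a) (p ^ n) := Nat.Coprime.pow_right n ha
  have h6 : g⁻¹ * a g = 1 := by
    have hd1 : orderOf (g⁻¹ * a g) ∣ orderOf a := orderOf_dvd_of_pow_eq_one hc1
    have hd2 : orderOf (g⁻¹ * a g) ∣ p ^ n := orderOf_dvd_of_pow_eq_one hn
    have h7 := Nat.eq_one_of_dvd_coprimes hcop hd1 hd2
    exact orderOf_eq_one_iff.mp h7
  rw [MulAut.one_apply]
  exact (inv_mul_eq_one.mp h6).symm

end Cfsg.Agent.S0121
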