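import Cfsg.Statements.S0123
import Mathlib
import Cfsg.Agent.Lib.Helper2.Class3
set_option autoImplicit false
open Cfsg

namespace Cfsg.Agent.S0123


open Cfsg.Agent.Lib.Helper2.Class3
theorem result {R : Type*} [Group R] [Finite R] {p : ℕ} [Fact p.Prime] (hR : IsPGroup p R) (hcl : (p ≠ 2 ∧ ⁅commutator R, (⊤ : Subgroup R)⁆ = ⊥) ∨ (3 < p ∧ ⁅⁅commutator R, (⊤ : Subgroup R)⁆, (⊤ : Subgroup R)⁆ = ⊥)) (hder : commutator R ≤ Subgroup.closure {x : R | x ^ p = 1}) (x y : R) : (x * y) ^ p = x ^ p * y ^ p := by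

  have hp : p.Prime := Fact.out
  have hcl3 : ⁅⁅commutator R, (⊤ : Subgroup R)⁆, (⊤ : Subgroup R)⁆ = ⊥ := by
    rcases hcl with ⟨-, h⟩ | ⟨-, h⟩
    · rw [h, Subgroup.commutator_bot_left]
    · exact h
  have hle : ⁅commutator R, (⊤ : Subgroup R)⁆ ≤ commutator R := Subgroup.commutator_le_left _ _
  have hdvd2 : p ∣ p.choose 2 := by
    have h2 : 2 < p := by
      rcases hcl with ⟨h, -⟩ | ⟨h, -⟩
      · have := hp.two_le; omega
      · omega
    exact hp.dvd_choose_self (by norm_num) h2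
  obtain ⟨c, d, e, hc, hd', he', h1, h2, h3, hd, he⟩ := setup hcl3 x y
  -- exponent of the closure
  have hexp : ∀ g : R, g ∈ Subgroup.closure {x : R | x ^ p = 1} → g ^ p = 1 := by
    rcases hcl with ⟨hp2, h⟩ | ⟨hp3, h⟩
    · intro g hg
      apply closure_pow_eq_one p _ g hg
      intro a b ha hb
      obtain ⟨c', d', e', -, hd'', he'', k1, k2, k3, kd, ke⟩ := setup hcl3 a b
      rw [h, Subgroup.mem_bot] at hd'' he''
      obtain ⟨hA, -⟩ := orders p a b c' d' e' k1 k2 k3 kd ke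
      obtain ⟨-, hcd⟩ := hA ha
      rw [hd'', one_pow, mul_one] at hcd
      rw [mul_pow_formula a b c' d' e' k1 k2 k3 kd ke p, ha, hb,
        pow_eq_one_of_dvd p c' hcd _ hdvd2, hd'', he'']
      simp
    · intro g hg
      exact omega_exp p hp hp3 h g hg
  have hcp : c ^ p = 1 := hexp c (hder hc)
  have hdp : d ^ p = 1 := hexp d (hder (hle hd'))
  have hep : e ^ p = 1 := hexp e (hder (hle he'))
  have hd3 : d ^ (p.choose 3) = 1 := by
    rcases hcl with ⟨hp2, h⟩ | ⟨hp3, h⟩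
    · rw [h, Subgroup.mem_bot] at hd'
      rw [hd', one_pow]
    · exact pow_eq_one_of_dvd p d hdp _ (hp.dvd_choose_self (by norm_num) hp3)
  have he3 : e ^ (p.choose 3 + (p + 1).choose 3) = 1 := by
    rcases hcl with ⟨hp2, h⟩ | ⟨hp3, h⟩
    · rw [h, Subgroup.mem_bot] at he'
      rw [he', one_pow]
    · have hdvd3 : p ∣ p.choose 3 := hp.dvd_choose_self (by norm_num) hp3
      have hdvd3' : p ∣ (p + 1).choose 3 := by
        rw [Nat.choose_succ_succ p 2]; exact dvd_add hdvd2 hdvd3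
      exact pow_eq_one_of_dvd p e hep _ (dvd_add hdvd3 hdvd3')
  rw [mul_pow_formula x y c d e h1 h2 h3 hd he p, pow_eq_one_of_dvd p c hcp _ hdvd2, hd3, he3]
  simp

end Cfsg.Agent.S0123
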