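import Cfsg.Statements.S0125
import Mathlib
import Cfsg.Statements.S0125
import Cfsg.Agent.Lib.Helper8.Syl
import Cfsg.Agent.Lib.Helper2.Comp7
import Cfsg.Agent.Lib.Helper4.WC

set_option autoImplicit false
open Cfsg
open scoped commutatorElement

namespace Cfsg.Agent.S0125

open Cfsg.Agent.Lib Cfsg.Agent.Lib.Helper8
open scoped commutatorElement

/-- The centralizer of a self-centralizing normal subgroup A of a Sylow p-subgroup is the direct product of A with a normal p'-subgroup. -/
theorem result {G : Type*} [Group G] [Finite G] {p : ℕ} [Fact p.Prime] (R : Sylow p G) (A : Subgroup G) (hAR : A ≤ (R : Subgroup G)) (hAn : (R : Subgroup G) ≤ Subgroup.normalizer (A : Set G)) (hC : (R : Subgroup G) ⊓ Subgroup.centralizer (A : Set G) = A) : ∃ H : Subgroup G, H ≤ Subgroup.centralizer (A : Set G) ∧ Nat.Coprime (Nat.card H) p ∧ Subgroup.centralizer (A : Set G) ≤ Subgroup.normalizer (H : Set G) ∧ H ⊓ A = ⊥ ∧ H ⊔ A = Subgroup.centralizer (A : Set G) := by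
  have hp : p.Prime := Fact.out
  have hAC : A ≤ Subgroup.centralizer (A : Set G) := by
    have : (R : Subgroup G) ⊓ Subgroup.centralizer (A : Set G) ≤ Subgroup.centralizer (A : Set G) := inf_le_right
    rwa [hC] at this
  have hS1 : SylIn p (R : Subgroup G) (Subgroup.normalizer (A : Set G)) := (sylIn_top R).mono hAn le_top
  have hS2 : SylIn p ((R : Subgroup G) ⊓ Subgroup.centralizer (A : Set G)) (Subgroup.centralizer (A : Set G)) :=
    hS1.inf_of_normal (Subgroup.centralizer_le_normalizer _) (Helper2.Comp.le_normalizer_centralizer le_rfl)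
  rw [hC] at hS2
  obtain ⟨P', hP'⟩ := (sylIn_iff hAC).mp hS2
  have hcen : ∀ c : ↥(Subgroup.centralizer (A : Set G)), c ∈ Subgroup.centralizer ((P' : Subgroup ↥(Subgroup.centralizer (A : Set G))) : Set ↥(Subgroup.centralizer (A : Set G))) := by
    intro c
    rw [Subgroup.mem_centralizer_iff]
    intro x hx
    have hx' : x ∈ (P' : Subgroup ↥(Subgroup.centralizer (A : Set G))) := hx
    rw [hP', Subgroup.mem_subgroupOf] at hx'
    apply Subtype.ext
    exact (Subgroup.mem_centralizer_iff.mp c.2) (x : G) hx'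
  have hP : Subgroup.normalizer ((P' : Subgroup ↥(Subgroup.centralizer (A : Set G))) : Set ↥(Subgroup.centralizer (A : Set G))) ≤
      Subgroup.centralizer ((P' : Subgroup ↥(Subgroup.centralizer (A : Set G))) : Set ↥(Subgroup.centralizer (A : Set G))) :=
    fun c _ => hcen c
  have hcompl := MonoidHom.ker_transferSylow_isComplement' P' hP
  have hnd := MonoidHom.not_dvd_card_ker_transferSylow P' hP
  refine ⟨(MonoidHom.transferSylow P' hP).ker.map (Subgroup.centralizer (A : Set G)).subtype,
    Subgroup.map_subtype_le _, ?_, ?_, ?_, ?_⟩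
  · rw [Subgroup.card_map_of_injective (Subgroup.subtype_injective _)]
    exact ((Nat.Prime.coprime_iff_not_dvd hp).mpr hnd).symm
  · apply Helper4.le_normalizer_of_forall_conj
    rintro c hc _ ⟨k, hk, rfl⟩
    refine ⟨⟨c, hc⟩ * k * ⟨c, hc⟩⁻¹, ?_, rfl⟩
    exact (MonoidHom.normal_ker (MonoidHom.transferSylow P' hP)).conj_mem k hk ⟨c, hc⟩
  · rw [eq_bot_iff]
    rintro x ⟨⟨k, hk, rfl⟩, hxA⟩
    have hkP : k ∈ (P' : Subgroup ↥(Subgroup.centralizer (A : Set G))) := by
      rw [hP', Subgroup.mem_subgroupOf]; exact hxA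
    have hk1 : k ∈ (MonoidHom.transferSylow P' hP).ker ⊓ (P' : Subgroup ↥(Subgroup.centralizer (A : Set G))) := ⟨hk, hkP⟩
    rw [hcompl.disjoint.eq_bot, Subgroup.mem_bot] at hk1
    rw [Subgroup.mem_bot, hk1]
    rfl
  · apply le_antisymm (sup_le (Subgroup.map_subtype_le _) hAC)
    intro c hc
    have h1 : (⟨c, hc⟩ : ↥(Subgroup.centralizer (A : Set G))) ∈
        (MonoidHom.transferSylow P' hP).ker ⊔ (P' : Subgroup ↥(Subgroup.centralizer (A : Set G))) := by
      rw [hcompl.sup_eq_top]; exact Subgroup.mem_top _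
    have h2 : c ∈ ((MonoidHom.transferSylow P' hP).ker ⊔ (P' : Subgroup ↥(Subgroup.centralizer (A : Set G)))).map
        (Subgroup.centralizer (A : Set G)).subtype := ⟨_, h1, rfl⟩
    have h3 : (P' : Subgroup ↥(Subgroup.centralizer (A : Set G))).map (Subgroup.centralizer (A : Set G)).subtype = A := by
      rw [hP', Subgroup.map_subgroupOf_eq_of_le hAC]
    rw [Subgroup.map_sup, h3] at h2
    exact h2

end Cfsg.Agent.S0125
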