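import Cfsg.Statements.S0129
import Mathlib
import Cfsg.Agent.Lib.Lead.NormalEA
import Cfsg.Agent.Lib.Lead.Hall
set_option autoImplicit false
open Cfsg

namespace Cfsg.Agent.S0129


universe u

theorem exists_max_sub {G : Type u} [Group G] [Finite G] {p : ℕ} [Fact p.Prime] (hG : IsPGroup p G)
    (A : Subgroup G) [hAn : A.Normal] (hA : A ≠ ⊥) :
    ∃ B : Subgroup G, B.Normal ∧ B ≤ A ∧ Nat.card A = p * Nat.card B ∧
      ∀ g : G, ∀ x ∈ A, g * x * g⁻¹ * x⁻¹ ∈ B := by
  classical
  obtain ⟨B, -, hBmax⟩ := Finite.exists_le_maximal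
    (p := fun N : Subgroup G => N.Normal ∧ N ≤ A ∧ N ≠ A) (a := ⊥)
    ⟨inferInstance, bot_le, fun h => hA h.symm⟩
  obtain ⟨⟨hBn, hBA, hBne⟩, hmax⟩ := hBmax
  haveI := hBn
  obtain ⟨π, hπ⟩ : ∃ π : G →* G ⧸ B, π = QuotientGroup.mk' B := ⟨_, rfl⟩
  have hπk : ∀ x : G, π x = 1 ↔ x ∈ B := by
    intro x; rw [hπ]; exact QuotientGroup.eq_one_iff x
  have hπs : Function.Surjective π := by rw [hπ]; exact QuotientGroup.mk'_surjective _
  haveI hAbn : (A.map π).Normal := hAn.map π hπs
  have hAb : A.map π ≠ ⊥ := by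
    intro h
    apply hBne
    apply le_antisymm hBA
    intro x hx
    have : π x ∈ A.map π := ⟨x, hx, rfl⟩
    rw [h, Subgroup.mem_bot] at this
    exact (hπk x).mp this
  have hQ : IsPGroup p (G ⧸ B) := hG.to_quotient B
  obtain ⟨zb, hzbA, hzbc, hzbo⟩ := Cfsg.Agent.Lib.Lead.exists_central_order_p hQ (A.map π) hAb
  have hZc : Subgroup.zpowers zb ≤ Subgroup.center (G ⧸ B) := Subgroup.zpowers_le.mpr hzbc
  haveI hZn : (Subgroup.zpowers zb).Normal := Cfsg.Agent.Lib.Lead.normal_of_le_center' hZc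
  obtain ⟨D, hD⟩ : ∃ D : Subgroup G, D = (Subgroup.zpowers zb).comap π := ⟨_, rfl⟩
  have hDn : D.Normal := by rw [hD]; exact hZn.comap π
  have hBD : B ≤ D := by
    intro x hx
    rw [hD, Subgroup.mem_comap, (hπk x).mpr hx]; exact one_mem _
  have hDA : D ≤ A := by
    intro x hx
    rw [hD, Subgroup.mem_comap] at hx
    have h1 : π x ∈ A.map π := (Subgroup.zpowers_le.mpr hzbA) hx
    obtain ⟨y, hy, hyx⟩ := h1
    have h2 : π (y⁻¹ * x) = 1 := by rw [map_mul, map_inv, hyx, inv_mul_cancel]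
    have h3 : y⁻¹ * x ∈ A := hBA ((hπk _).mp h2)
    have : x = y * (y⁻¹ * x) := by group
    rw [this]; exact A.mul_mem hy h3
  have hDeqA : D = A := by
    by_contra hne
    have h1 : D ≤ B := hmax ⟨hDn, hDA, hne⟩ hBD
    obtain ⟨z, hz⟩ := hπs zb
    have hzD : z ∈ D := by rw [hD, Subgroup.mem_comap, hz]; exact Subgroup.mem_zpowers zb
    have h2 : π z = 1 := (hπk z).mpr (h1 hzD)
    rw [hz] at h2
    rw [h2, orderOf_one] at hzbo
    exact (Fact.out : p.Prime).one_lt.ne hzbo
  refine ⟨B, hBn, hBA, ?_, ?_⟩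
  · rw [← hDeqA, hD, hπ, Cfsg.Agent.Lib.Lead.card_comap_mk, Nat.card_zpowers, hzbo, mul_comm]
  · intro g x hx
    rw [← hDeqA, hD, Subgroup.mem_comap] at hx
    have h1 : π x ∈ Subgroup.center (G ⧸ B) := hZc hx
    apply (hπk _).mp
    simp only [map_mul, map_inv]
    have h2 := Subgroup.mem_center_iff.mp h1 (π g)
    rw [h2]; group

theorem index_cent_le {G : Type u} [Group G] [Finite G] {p : ℕ} [Fact p.Prime] (hG : IsPGroup p G) :
    ∀ (a : ℕ) (A : Subgroup G), A.Normal → Nat.card A = p ^ a →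
      (Subgroup.centralizer (A : Set G)).index ≤ p ^ (∑ i ∈ Finset.range a, i) := by
  classical
  have hp : p.Prime := Fact.out
  intro a
  induction a with
  | zero =>
    intro A hAn hA
    rw [pow_zero] at hA
    have : A = ⊥ := Subgroup.card_eq_one.mp hA
    rw [this]
    have h : Subgroup.centralizer (((⊥ : Subgroup G) : Set G)) = ⊤ := by
      ext g; simp [Subgroup.mem_centralizer_iff]
    rw [h, Subgroup.index_top]; simp
  | succ a ih =>
    intro A hAn hA
    haveI := hAn
    have hAne : A ≠ ⊥ := by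
      intro h; rw [h, Subgroup.card_bot] at hA
      have := Nat.one_lt_pow (n := a + 1) (by omega) hp.one_lt
      omega
    obtain ⟨B, hBn, hBA, hcard, hcomm⟩ := exists_max_sub hG A hAne
    haveI := hBn
    have hB : Nat.card B = p ^ a := by
      rw [hA, pow_succ, mul_comm] at hcard
      exact (Nat.eq_of_mul_eq_mul_left hp.pos hcard).symm
    have ih' := ih B hBn hB
    obtain ⟨CA, hCA⟩ : ∃ CA : Subgroup G, CA = Subgroup.centralizer (A : Set G) := ⟨_, rfl⟩
    obtain ⟨CB, hCB⟩ : ∃ CB : Subgroup G, CB = Subgroup.centralizer (B : Set G) := ⟨_, rfl⟩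
    rw [← hCA]; rw [← hCB] at ih'
    have hle : CA ≤ CB := by rw [hCA, hCB]; exact Subgroup.centralizer_le hBA
    have hrel : CA.relIndex CB ≤ p ^ a := by
      obtain ⟨x, hxA, hxB⟩ : ∃ x ∈ A, x ∉ B := by
        by_contra hcon
        push Not at hcon
        have : A = B := le_antisymm hcon hBA
        rw [this] at hcard
        have hpos : 0 < Nat.card B := Nat.card_pos
        have := hp.one_lt
        nlinarith
      have hgen : A ≤ B ⊔ Subgroup.zpowers x := by
        have h1 : B ⊔ Subgroup.zpowers x ≤ A := sup_le hBA (Subgroup.zpowers_le.mpr hxA)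
        have h2 : Nat.card B ∣ Nat.card ↥(B ⊔ Subgroup.zpowers x) :=
          Subgroup.card_dvd_of_le le_sup_left
        have h3 : Nat.card ↥(B ⊔ Subgroup.zpowers x) ∣ Nat.card A := Subgroup.card_dvd_of_le h1
        have h4 : Nat.card ↥(B ⊔ Subgroup.zpowers x) ≠ Nat.card B := by
          intro h
          have : B = B ⊔ Subgroup.zpowers x := Subgroup.eq_of_le_of_card_ge le_sup_left h.le
          apply hxB
          rw [this]
          exact (le_sup_right : Subgroup.zpowers x ≤ _) (Subgroup.mem_zpowers x)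
        obtain ⟨k, hk⟩ := h2
        rw [hk, hcard] at h3
        have hpos : 0 < Nat.card B := Nat.card_pos
        have h5 : k ∣ p := by
          have : Nat.card B * k ∣ Nat.card B * p := by rwa [mul_comm (Nat.card B) p]
          exact (Nat.mul_dvd_mul_iff_left hpos).mp this
        rcases (Nat.dvd_prime hp).mp h5 with h | h
        · rw [h, mul_one] at hk; exact absurd hk h4
        · have : Nat.card ↥(B ⊔ Subgroup.zpowers x) = Nat.card A := by
            rw [hk, h, hcard, mul_comm]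
          exact (Subgroup.eq_of_le_of_card_ge h1 this.ge).ge
      have hkey : ∀ w : G, w ∈ CB → w * x = x * w → w ∈ CA := by
        intro w h3 h2
        rw [hCA, Subgroup.mem_centralizer_iff]
        intro y hy
        have h5 : B ⊔ Subgroup.zpowers x ≤ Subgroup.centralizer {w} := by
          apply sup_le
          · intro b hb
            rw [Subgroup.mem_centralizer_iff]
            intro w' hw
            rw [Set.mem_singleton_iff] at hw
            rw [hw]
            rw [hCB, Subgroup.mem_centralizer_iff] at h3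
            exact (h3 b hb).symm
          · rw [Subgroup.zpowers_le, Subgroup.mem_centralizer_iff]
            intro w' hw
            rw [Set.mem_singleton_iff] at hw
            rw [hw]; exact h2
        have h6 := h5 (hgen hy)
        rw [Subgroup.mem_centralizer_iff] at h6
        exact (h6 _ rfl).symm
      have hfB : ∀ g : G, g * x * g⁻¹ * x⁻¹ ∈ B := fun g => hcomm g x hxA
      have hinj : Function.Injective (fun q : ↥CB ⧸ CA.subgroupOf CB =>
          (⟨((q.out : ↥CB) : G) * x * ((q.out : ↥CB) : G)⁻¹ * x⁻¹, hfB _⟩ : ↥B)) := by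
        intro q q' h
        have h' : ((q.out : ↥CB) : G) * x * ((q.out : ↥CB) : G)⁻¹ * x⁻¹ =
            ((q'.out : ↥CB) : G) * x * ((q'.out : ↥CB) : G)⁻¹ * x⁻¹ := congrArg Subtype.val h
        have h1 : ((q.out : ↥CB) : G) * x * ((q.out : ↥CB) : G)⁻¹ =
            ((q'.out : ↥CB) : G) * x * ((q'.out : ↥CB) : G)⁻¹ := mul_right_cancel h'
        have h2 : (((q.out : ↥CB) : G)⁻¹ * ((q'.out : ↥CB) : G)) * x =
            x * (((q.out : ↥CB) : G)⁻¹ * ((q'.out : ↥CB) : G)) := by
          calc (((q.out : ↥CB) : G)⁻¹ * ((q'.out : ↥CB) : G)) * x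
              = ((q.out : ↥CB) : G)⁻¹ * (((q'.out : ↥CB) : G) * x * ((q'.out : ↥CB) : G)⁻¹) *
                  ((q'.out : ↥CB) : G) := by group
            _ = ((q.out : ↥CB) : G)⁻¹ * (((q.out : ↥CB) : G) * x * ((q.out : ↥CB) : G)⁻¹) *
                  ((q'.out : ↥CB) : G) := by rw [h1]
            _ = x * (((q.out : ↥CB) : G)⁻¹ * ((q'.out : ↥CB) : G)) := by group
        have h3 : ((q.out : ↥CB) : G)⁻¹ * ((q'.out : ↥CB) : G) ∈ CB :=
          CB.mul_mem (CB.inv_mem q.out.2) q'.out.2
        have h4 : ((q.out : ↥CB) : G)⁻¹ * ((q'.out : ↥CB) : G) ∈ CA := hkey _ h3 h2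
        rw [← QuotientGroup.out_eq' q, ← QuotientGroup.out_eq' q']
        rw [QuotientGroup.eq]
        exact Subgroup.mem_subgroupOf.mpr h4
      have := Nat.card_le_card_of_injective _ hinj
      rw [hB] at this
      exact this
    rw [← Subgroup.relIndex_mul_index hle, Finset.sum_range_succ, pow_add, mul_comm]
    exact Nat.mul_le_mul ih' hrel
theorem result {G : Type*} [Group G] [Finite G] {p : ℕ} [Fact p.Prime] (hG : IsPGroup p G) (A : Subgroup G) [A.Normal] (hA : IsMulCommutative A) (hmax : ∀ B : Subgroup G, B.Normal → IsMulCommutative B → A ≤ B → B = A) (a : ℕ) (ha : Nat.card A = p ^ a) : Nat.card G ≤ p ^ (a * (a + 1) / 2) := by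

  classical
  have hp : p.Prime := Fact.out
  have hAC : A ≤ Subgroup.centralizer (A : Set G) := by
    intro x hx
    rw [Subgroup.mem_centralizer_iff]
    intro y hy
    exact congrArg Subtype.val (hA.is_comm.comm ⟨y, hy⟩ ⟨x, hx⟩)
  have hCA : Subgroup.centralizer (A : Set G) = A := by
    by_contra hne
    obtain ⟨C, hC⟩ : ∃ C : Subgroup G, C = Subgroup.centralizer (A : Set G) := ⟨_, rfl⟩
    rw [← hC] at hne hAC
    haveI hCn : C.Normal := by rw [hC]; infer_instance
    obtain ⟨π, hπ⟩ : ∃ π : G →* G ⧸ A, π = QuotientGroup.mk' A := ⟨_, rfl⟩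
    have hπk : ∀ x : G, π x = 1 ↔ x ∈ A := by
      intro x; rw [hπ]; exact QuotientGroup.eq_one_iff x
    have hπs : Function.Surjective π := by rw [hπ]; exact QuotientGroup.mk'_surjective _
    haveI hCbn : (C.map π).Normal := hCn.map π hπs
    have hCb : C.map π ≠ ⊥ := by
      intro h
      apply hne
      apply le_antisymm _ hAC
      intro x hx
      have : π x ∈ C.map π := ⟨x, hx, rfl⟩
      rw [h, Subgroup.mem_bot] at this
      exact (hπk x).mp this
    have hQ : IsPGroup p (G ⧸ A) := hG.to_quotient A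
    obtain ⟨zb, hzbC, hzbc, hzbo⟩ := Cfsg.Agent.Lib.Lead.exists_central_order_p hQ (C.map π) hCb
    have hZc : Subgroup.zpowers zb ≤ Subgroup.center (G ⧸ A) := Subgroup.zpowers_le.mpr hzbc
    haveI hZn : (Subgroup.zpowers zb).Normal := Cfsg.Agent.Lib.Lead.normal_of_le_center' hZc
    obtain ⟨z, hzC, hz⟩ := hzbC
    obtain ⟨D, hD⟩ : ∃ D : Subgroup G, D = (Subgroup.zpowers zb).comap π := ⟨_, rfl⟩
    have hDn : D.Normal := by rw [hD]; exact hZn.comap π
    have hAD : A ≤ D := by
      intro x hx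
      rw [hD, Subgroup.mem_comap, (hπk x).mpr hx]; exact one_mem _
    have hzD : z ∈ D := by rw [hD, Subgroup.mem_comap, hz]; exact Subgroup.mem_zpowers zb
    have hdecomp : ∀ y ∈ D, ∃ k : ℤ, ∃ c ∈ A, y = z ^ k * c := by
      intro y hy
      rw [hD, Subgroup.mem_comap] at hy
      obtain ⟨k, hk⟩ := Subgroup.mem_zpowers_iff.mp hy
      refine ⟨k, (z ^ k)⁻¹ * y, ?_, by group⟩
      apply (hπk _).mp
      rw [map_mul, map_inv, map_zpow, hz, hk, inv_mul_cancel]
    have hzc : ∀ c ∈ A, ∀ k : ℤ, c * z ^ k = z ^ k * c := by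
      intro c hc k
      have hzC' : z ∈ Subgroup.centralizer (A : Set G) := by rw [← hC]; exact hzC
      rw [Subgroup.mem_centralizer_iff] at hzC'
      have h1 : Commute c z := hzC' c hc
      exact (h1.zpow_right k).eq
    have hDcomm : IsMulCommutative D := by
      refine ⟨⟨fun y₁ y₂ => ?_⟩⟩
      obtain ⟨k, c, hc, h1⟩ := hdecomp y₁ y₁.2
      obtain ⟨l, d, hd, h2⟩ := hdecomp y₂ y₂.2
      apply Subtype.ext
      show (y₁ : G) * (y₂ : G) = (y₂ : G) * (y₁ : G)
      rw [h1, h2]
      have hcd : c * d = d * c := congrArg Subtype.val (hA.is_comm.comm ⟨c, hc⟩ ⟨d, hd⟩)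
      calc z ^ k * c * (z ^ l * d) = z ^ k * (c * z ^ l) * d := by group
        _ = z ^ k * (z ^ l * c) * d := by rw [hzc c hc l]
        _ = z ^ k * z ^ l * (c * d) := by group
        _ = z ^ l * z ^ k * (d * c) := by rw [hcd, ← zpow_add, ← zpow_add, add_comm]
        _ = z ^ l * (z ^ k * d) * c := by group
        _ = z ^ l * (d * z ^ k) * c := by rw [hzc d hd k]
        _ = z ^ l * d * (z ^ k * c) := by group
    have hDA := hmax D hDn hDcomm hAD
    have h1 : π z = 1 := (hπk z).mpr (by rw [← hDA]; exact hzD)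
    rw [hz] at h1
    rw [h1, orderOf_one] at hzbo
    exact hp.one_lt.ne hzbo
  have hidx := index_cent_le hG a A inferInstance ha
  rw [hCA] at hidx
  have hmul := Subgroup.card_mul_index A
  rw [← hmul, ha]
  have hsum : a * (a + 1) / 2 = (∑ i ∈ Finset.range a, i) + a := by
    have h2 := Finset.sum_range_id_mul_two a
    have h3 : a * (a + 1) = ((∑ i ∈ Finset.range a, i) + a) * 2 := by
      rw [add_mul, h2]
      rcases Nat.eq_zero_or_pos a with h0 | h0
      · rw [h0]
      · obtain ⟨b, hb⟩ : ∃ b, a = b + 1 := ⟨a - 1, by omega⟩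
        rw [hb, Nat.add_sub_cancel]; ring
    rw [h3, Nat.mul_div_cancel _ (by norm_num)]
  rw [hsum, pow_add, mul_comm]
  exact Nat.mul_le_mul_right _ hidx

end Cfsg.Agent.S0129
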