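import Cfsg.Statements.S0131
import Mathlib
-- import your own Cfsg.Agent.* helpers here

set_option autoImplicit false
open Cfsg

namespace Cfsg.Agent.S0131

open scoped commutatorElement

/-- P/P' has a normal complement in G exactly when the focal subgroup G' ∩ P is as small as possible, namely P'. -/
theorem result {G : Type*} [Group G] [Finite G] {p : ℕ} [Fact p.Prime] (P : Sylow p G) : (∃ N : Subgroup G, N.Normal ∧ N ⊓ (P : Subgroup G) = ⁅(P : Subgroup G), (P : Subgroup G)⁆ ∧ N ⊔ (P : Subgroup G) = ⊤) ↔ commutator G ⊓ (P : Subgroup G) = ⁅(P : Subgroup G), (P : Subgroup G)⁆ := by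
  classical
  constructor
  · rintro ⟨N, hN, hNP, hsup⟩
    apply le_antisymm
    · rw [← hNP]
      apply inf_le_inf_right
      rw [commutator_def, Subgroup.commutator_le]
      intro g₁ _ g₂ _
      have hg₁ : g₁ ∈ N ⊔ (P : Subgroup G) := by rw [hsup]; trivial
      have hg₂ : g₂ ∈ N ⊔ (P : Subgroup G) := by rw [hsup]; trivial
      obtain ⟨n₁, hn₁, x₁, hx₁, rfl⟩ := Subgroup.mem_sup_of_normal_left.mp hg₁
      obtain ⟨n₂, hn₂, x₂, hx₂, rfl⟩ := Subgroup.mem_sup_of_normal_left.mp hg₂
      have key : ∀ z : G, z ∈ N ↔ QuotientGroup.mk' N z = 1 := fun z => (QuotientGroup.eq_one_iff z).symm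
      rw [key, map_commutatorElement]
      have e1 : QuotientGroup.mk' N (n₁ * x₁) = QuotientGroup.mk' N x₁ := by
        rw [map_mul, (key n₁).mp hn₁, one_mul]
      have e2 : QuotientGroup.mk' N (n₂ * x₂) = QuotientGroup.mk' N x₂ := by
        rw [map_mul, (key n₂).mp hn₂, one_mul]
      rw [e1, e2, ← map_commutatorElement, ← key]
      have : ⁅x₁, x₂⁆ ∈ ⁅(P : Subgroup G), (P : Subgroup G)⁆ := Subgroup.commutator_mem_commutator hx₁ hx₂
      rw [← hNP] at this
      exact this.1
    · apply le_inf _ (Subgroup.commutator_le_self _)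
      rw [commutator_def]
      exact Subgroup.commutator_mono le_top le_top
  · intro h
    refine ⟨(Subgroup.transferFocal (P : Subgroup G)).ker, inferInstance, ?_, ?_⟩
    · rw [Subgroup.ker_transferFocal_inf_eq_focalSubgroup, ← h, Subgroup.commutator_inf_eq_focalSubgroup]
    · rw [eq_top_iff]
      intro g _
      obtain ⟨y, hy⟩ := Subgroup.focalSubgroupOf.pow_index_surjective P (Subgroup.transferFocal (P : Subgroup G) g)
      obtain ⟨x, rfl⟩ := QuotientGroup.mk'_surjective _ y
      have hx : Subgroup.transferFocal (P : Subgroup G) (x : G) = Subgroup.transferFocal (P : Subgroup G) g := by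
        rw [Subgroup.transferFocal_eq_pow]; exact hy
      have hk : g * (x : G)⁻¹ ∈ (Subgroup.transferFocal (P : Subgroup G)).ker := by
        rw [MonoidHom.mem_ker, map_mul, map_inv, hx, mul_inv_cancel]
      have : g = g * (x : G)⁻¹ * x := by group
      rw [this]
      exact Subgroup.mul_mem_sup hk x.2

end Cfsg.Agent.S0131
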