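import Cfsg.Statements.S0132
import Mathlib
import Cfsg.Agent.Lib.Helper6.FrobNC
import Cfsg.Agent.Lib.Helper6.NilpComm

set_option autoImplicit false
open Cfsg

namespace Cfsg.Agent.S0132


open Cfsg.Agent.Lib.Helper6

/-- A minimal non-p-nilpotent finite group is a minimal non-nilpotent group with a normal Sylow p-subgroup. -/
theorem result {G : Type*} [Group G] [Finite G] {p : ℕ} [Fact p.Prime] (h1 : ¬ Cfsg.HasNormalPComplement p G) (h2 : ∀ H : Subgroup G, H ≠ ⊤ → Cfsg.HasNormalPComplement p H) : (∀ H : Subgroup G, H ≠ ⊤ → Group.IsNilpotent H) ∧ ¬ Group.IsNilpotent G ∧ ∀ P : Sylow p G, (P : Subgroup G).Normal := by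
  have hp : p.Prime := Fact.out
  have hnF : ¬ FrobCond p G := fun hF => h1 (frobenius_npc hF)
  unfold FrobCond at hnF
  push Not at hnF
  obtain ⟨Q, hQ, g, hgN, hcop, hgC⟩ := hnF
  have hK : Q ⊔ Subgroup.zpowers g = ⊤ := by
    by_contra hne
    obtain ⟨PK, NK, hNn, hc⟩ := h2 _ hne
    haveI := hNn
    have hFK := frobCond_of_complement PK NK hc
    obtain ⟨K, hKdef⟩ : ∃ K : Subgroup G, K = Q ⊔ Subgroup.zpowers g := ⟨_, rfl⟩
    rw [← hKdef] at hFK
    have hgK : g ∈ K := by
      rw [hKdef]; exact (le_sup_right : Subgroup.zpowers g ≤ _) (Subgroup.mem_zpowers g)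
    have hQK : Q ≤ K := by rw [hKdef]; exact le_sup_left
    have hn1 : (⟨g, hgK⟩ : ↥K) ∈ Subgroup.normalizer ((Q.subgroupOf K : Subgroup ↥K) : Set ↥K) := by
      rw [Subgroup.mem_normalizer_iff]
      intro y
      rw [Subgroup.mem_subgroupOf, Subgroup.mem_subgroupOf]
      exact (Subgroup.mem_normalizer_iff.mp hgN) y
    have hn2 : (orderOf (⟨g, hgK⟩ : ↥K)).Coprime p := by
      rw [Subgroup.orderOf_mk]; exact hcop
    have h3 := hFK (Q.subgroupOf K) hQ.comap_subtype ⟨g, hgK⟩ hn1 hn2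
    apply hgC
    rw [Subgroup.mem_centralizer_iff]
    intro a ha
    have h4 := (Subgroup.mem_centralizer_iff.mp h3) ⟨a, hQK ha⟩ (Subgroup.mem_subgroupOf.mpr ha)
    exact congrArg Subtype.val h4
  have hQn : Q.Normal := by
    rw [← Subgroup.normalizer_eq_top_iff]
    apply top_le_iff.mp
    rw [← hK]
    exact sup_le Subgroup.le_normalizer (Subgroup.zpowers_le.mpr hgN)
  haveI := hQn
  have htop : Subgroup.zpowers (QuotientGroup.mk' Q g) = ⊤ := by
    have h3 : (Q ⊔ Subgroup.zpowers g).map (QuotientGroup.mk' Q) = ⊤ := by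
      rw [hK]; exact Subgroup.map_top_of_surjective _ (QuotientGroup.mk'_surjective Q)
    rw [Subgroup.map_sup, MonoidHom.map_zpowers, QuotientGroup.map_mk'_self, bot_sup_eq] at h3
    exact h3
  have hmemz : ∀ a : G ⧸ Q, a ∈ Subgroup.zpowers (QuotientGroup.mk' Q g) := by
    intro a; rw [htop]; exact Subgroup.mem_top a
  have hcomm : ∀ a b : G ⧸ Q, a * b = b * a := by
    intro a b
    obtain ⟨i, rfl⟩ := Subgroup.mem_zpowers_iff.mp (hmemz a)
    obtain ⟨j, rfl⟩ := Subgroup.mem_zpowers_iff.mp (hmemz b)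
    rw [← zpow_add, ← zpow_add, add_comm]
  have hidx : Q.index ∣ orderOf g := by
    rw [Subgroup.index_eq_card, ← orderOf_eq_card_of_forall_mem_zpowers hmemz]
    exact orderOf_map_dvd _ g
  have hQidx : ¬ p ∣ Q.index := by
    intro hdvd
    have h3 : p ∣ Nat.gcd (orderOf g) p := Nat.dvd_gcd (hdvd.trans hidx) dvd_rfl
    rw [hcop] at h3
    exact hp.one_lt.ne' (Nat.dvd_one.mp h3)
  have mem_of_pelt : ∀ (x : G) (k : ℕ), x ^ p ^ k = 1 → x ∈ Q := by
    intro x k hx
    rw [← QuotientGroup.eq_one_iff]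
    have h3 : (x : G ⧸ Q) ^ p ^ k = 1 := by
      rw [← QuotientGroup.mk_pow, hx]; rfl
    have h4 : (x : G ⧸ Q) ^ Q.index = 1 := by
      rw [Subgroup.index_eq_card]; exact pow_card_eq_one'
    have h5 : (p ^ k).Coprime Q.index :=
      Nat.Coprime.pow_left k ((Nat.Prime.coprime_iff_not_dvd hp).mpr hQidx)
    have h6 : (x : G ⧸ Q) ^ Nat.gcd (p ^ k) Q.index = 1 := pow_gcd_eq_one.mpr ⟨h3, h4⟩
    rw [Nat.Coprime.gcd_eq_one h5, pow_one] at h6
    exact h6
  have hsyl : ∀ P : Sylow p G, Q = (P : Subgroup G) := by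
    intro P
    apply P.is_maximal' hQ
    intro x hx
    obtain ⟨k, hk⟩ := P.isPGroup' ⟨x, hx⟩
    apply mem_of_pelt x k
    have := congrArg Subtype.val hk
    simpa using this
  refine ⟨?_, ?_, ?_⟩
  · intro H hH
    obtain ⟨PH, NH, hNn, hc⟩ := h2 H hH
    haveI := hNn
    have hPQ : (PH : Subgroup H) ≤ Q.subgroupOf H := by
      intro x hx
      rw [Subgroup.mem_subgroupOf]
      obtain ⟨k, hk⟩ := PH.isPGroup' ⟨x, hx⟩
      apply mem_of_pelt (x : G) k
      have h3 := congrArg Subtype.val hk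
      have h4 : x ^ p ^ k = 1 := by simpa using h3
      have h5 := congrArg Subtype.val h4
      simpa using h5
    have hNcard : (Nat.card NH).Coprime p := by
      rw [← hc.index_eq_card]
      exact ((Nat.Prime.coprime_iff_not_dvd hp).mpr PH.not_dvd_index).symm
    have hdisj : NH ⊓ Q.subgroupOf H = ⊥ := by
      apply disjoint_iff.mp
      apply Subgroup.disjoint_of_coprime_natCard
      obtain ⟨j, hj⟩ := IsPGroup.iff_card.mp (hQ.comap_subtype (K := H))
      have hj' : Nat.card ↥(Q.subgroupOf H) = p ^ j := hj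
      rw [hj']
      exact Nat.Coprime.pow_right j hNcard
    haveI hQHn : (Q.subgroupOf H).Normal := Subgroup.Normal.subgroupOf hQn H
    have hcent : NH ≤ Subgroup.center ↥H := by
      intro n hn
      rw [Subgroup.mem_center_iff]
      intro h
      obtain ⟨⟨⟨n', hn'⟩, ⟨q, hq⟩⟩, hnq⟩ := hc.2 h
      have hnq' : n' * q = h := hnq
      have hc1 : Commute n q :=
        Subgroup.commute_of_normal_of_disjoint NH (Q.subgroupOf H) hNn hQHn
          (disjoint_iff.mpr hdisj) n q hn (hPQ hq)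
      have hc2 : n * n' = n' * n := by
        have h3 : n * n' * n⁻¹ * n'⁻¹ ∈ NH := mul_mem (mul_mem (mul_mem hn hn') (inv_mem hn)) (inv_mem hn')
        have h4 : n * n' * n⁻¹ * n'⁻¹ ∈ Q.subgroupOf H := by
          rw [Subgroup.mem_subgroupOf, ← QuotientGroup.eq_one_iff]
          have e : (((n * n' * n⁻¹ * n'⁻¹ : ↥H) : G) : G ⧸ Q)
              = ((n : G) : G ⧸ Q) * ((n' : G) : G ⧸ Q) * ((n : G) : G ⧸ Q)⁻¹ * ((n' : G) : G ⧸ Q)⁻¹ := by
            simp
          rw [e, hcomm ((n : G) : G ⧸ Q) ((n' : G) : G ⧸ Q)]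
          group
        have h5 : n * n' * n⁻¹ * n'⁻¹ ∈ NH ⊓ Q.subgroupOf H := Subgroup.mem_inf.mpr ⟨h3, h4⟩
        rw [hdisj, Subgroup.mem_bot] at h5
        calc n * n' = (n * n' * n⁻¹ * n'⁻¹) * (n' * n) := by group
          _ = n' * n := by rw [h5, one_mul]
      rw [← hnq']
      calc n' * q * n = n' * (q * n) := by group
        _ = n' * (n * q) := by rw [hc1.eq]
        _ = (n' * n) * q := by group
        _ = (n * n') * q := by rw [hc2]
        _ = n * (n' * q) := by group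
    haveI : Group.IsNilpotent (↥H ⧸ NH) := by
      apply IsPGroup.isNilpotent (p := p)
      obtain ⟨k, hk⟩ := IsPGroup.iff_card.mp PH.isPGroup'
      apply IsPGroup.of_card (n := k)
      rw [← Subgroup.index_eq_card, ← hk]
      exact hc.symm.index_eq_card
    exact Subgroup.isNilpotent_of_ker_le_center (QuotientGroup.mk' NH)
      (by rw [QuotientGroup.ker_mk']; exact hcent)
  · intro hnil
    apply hgC
    rw [Subgroup.mem_centralizer_iff]
    intro a ha
    obtain ⟨k, hk⟩ := (IsPGroup.iff_orderOf.mp hQ) ⟨a, ha⟩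
    rw [Subgroup.orderOf_mk] at hk
    exact (commute_of_pelt_of_coprime hnil hk hcop).eq
  · intro P
    rw [← hsyl P]; exact hQn

end Cfsg.Agent.S0132
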