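import Cfsg.Statements.S0158
import Mathlib
import Cfsg.Agent.Lib.Helper7.FS
import Cfsg.Agent.Lib.Lead.Char17
-- import your own Cfsg.Agent.* helpers here

set_option autoImplicit false
open Cfsg

namespace Cfsg.Agent.S0158

/-- The Frobenius–Schur indicator of an irreducible complex representation of a finite group — the average over s of the character at s * s — is 0, 1 or −1, and it vanishes exactly when some character value is not real. -/
theorem result {G : Type*} [Group G] [Fintype G] {V : Type*} [AddCommGroup V] [Module ℂ V] [FiniteDimensional ℂ V] (ρ : Representation ℂ G V) [ρ.IsIrreducible] : ((Nat.card G : ℂ)⁻¹ * ∑ s : G, ρ.character (s * s) = 0 ∨ (Nat.card G : ℂ)⁻¹ * ∑ s : G, ρ.character (s * s) = 1 ∨ (Nat.card G : ℂ)⁻¹ * ∑ s : G, ρ.character (s * s) = -1) ∧ ((Nat.card G : ℂ)⁻¹ * ∑ s : G, ρ.character (s * s) = 0 ↔ ∃ s : G, (ρ.character s).im ≠ 0) := by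
  classical
  let χ : Cfsg.IrrCharacter G := ⟨ρ.character, Cfsg.Agent.Lib.Lead.isIrrCharacter_of_rep ρ⟩
  obtain ⟨h1, h2⟩ := Cfsg.Agent.Lib.Helper7.FS.fs_cases χ
  by_cases hreal : ∀ g : G, (ρ.character g).im = 0
  · have h3 := h1 hreal
    constructor
    · rcases h3 with h | h
      · right; left; exact h
      · right; right; exact h
    · constructor
      · intro h0
        exfalso
        rcases h3 with h | h
        · have h4 : (Nat.card G : ℂ)⁻¹ * ∑ s : G, ρ.character (s * s) = 1 := h
          rw [h0] at h4
          exact zero_ne_one h4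
        · have h4 : (Nat.card G : ℂ)⁻¹ * ∑ s : G, ρ.character (s * s) = -1 := h
          rw [h0] at h4
          norm_num at h4
      · rintro ⟨s, hs⟩
        exact absurd (hreal s) hs
  · have h3 := h2 hreal
    constructor
    · left; exact h3
    · constructor
      · intro _
        push Not at hreal
        exact hreal
      · intro _
        exact h3

end Cfsg.Agent.S0158
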