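import Cfsg.Statements.S0170
import Mathlib
import Cfsg.Agent.Lib.Lead.Gram
-- import your own Cfsg.Agent.* helpers here

set_option autoImplicit false
open Cfsg

namespace Cfsg.Agent.S0170

/-- Exceptional characters. Let S be a subset of a finite group contained in its normalizer N and meeting its conjugates by elements outside N only in the identity. Given n ≥ 2 distinct irreducible characters of N of equal degree that vanish on N away from S, there exist a sign ε and n distinct irreducible characters θ_i of G such that inducing χ_i − χ_j to G gives ε (θ_i − θ_j) for all i, j. -/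
theorem result {G : Type*} [Group G] [Fintype G] (S : Set G) (hSN : S ⊆ Subgroup.normalizer S) (hTI : ∀ g : G, g ∉ Subgroup.normalizer S → ∀ s ∈ S, g * s * g⁻¹ ∈ S → s = 1) (n : ℕ) (hn : 2 ≤ n) (χ : Fin n → (Subgroup.normalizer S → ℂ)) (hirr : ∀ i, Cfsg.IsIrrCharacter (Subgroup.normalizer S) (χ i)) (hinj : Function.Injective χ) (hvan : ∀ i, ∀ x : Subgroup.normalizer S, (x : G) ∉ S → χ i x = 0) (hdeg : ∀ i j, χ i 1 = χ j 1) : ∃ ε : ℂ, (ε = 1 ∨ ε = -1) ∧ ∃ θ : Fin n → (G → ℂ), (∀ i, Cfsg.IsIrrCharacter G (θ i)) ∧ Function.Injective θ ∧ ∀ i j, Cfsg.indFun (Subgroup.normalizer S) (χ i) - Cfsg.indFun (Subgroup.normalizer S) (χ j) = ε • (θ i - θ j) := by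
  classical
  haveI : Fintype (Subgroup.normalizer S) := Fintype.ofFinite _
  let i₀ : Fin n := ⟨0, by omega⟩
  let τ : Fin n → (G → ℂ) := fun i =>
    Cfsg.indFun (Subgroup.normalizer S) (χ i) - Cfsg.indFun (Subgroup.normalizer S) (χ i₀)
  have hsub : ∀ θ₁ θ₂ : Subgroup.normalizer S → ℂ,
      Cfsg.indFun (Subgroup.normalizer S) (θ₁ - θ₂)
        = Cfsg.indFun (Subgroup.normalizer S) θ₁ - Cfsg.indFun (Subgroup.normalizer S) θ₂ := by
    intro θ₁ θ₂
    funext g
    rw [Pi.sub_apply, Cfsg.Agent.Lib.Lead.indFun_apply, Cfsg.Agent.Lib.Lead.indFun_apply,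
      Cfsg.Agent.Lib.Lead.indFun_apply, ← mul_sub, ← Finset.sum_sub_distrib]
    congr 1
    apply Finset.sum_congr rfl
    intro x _
    by_cases hx : x⁻¹ * g * x ∈ Subgroup.normalizer S
    · rw [Cfsg.Agent.Lib.Lead.extendByZero_mem' _ _ hx, Cfsg.Agent.Lib.Lead.extendByZero_mem' _ _ hx,
        Cfsg.Agent.Lib.Lead.extendByZero_mem' _ _ hx, Pi.sub_apply]
    · rw [Cfsg.Agent.Lib.Lead.extendByZero_not_mem _ _ hx,
        Cfsg.Agent.Lib.Lead.extendByZero_not_mem _ _ hx,
        Cfsg.Agent.Lib.Lead.extendByZero_not_mem _ _ hx, sub_zero]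
  have hone' : ∀ θ : Subgroup.normalizer S → ℂ, Cfsg.indFun (Subgroup.normalizer S) θ 1
      = (Nat.card (Subgroup.normalizer S) : ℂ)⁻¹ * ((Fintype.card G : ℂ) * θ 1) := by
    intro θ
    rw [Cfsg.Agent.Lib.Lead.indFun_apply]
    congr 1
    have h1 : ∀ x : G, Cfsg.extendByZero (Subgroup.normalizer S) θ (x⁻¹ * 1 * x) = θ 1 := by
      intro x
      have h2 : x⁻¹ * 1 * x = ((1 : Subgroup.normalizer S) : G) := by simp
      rw [h2, Cfsg.Agent.Lib.Lead.extendByZero_mem]
    rw [Finset.sum_congr rfl (fun x _ => h1 x), Finset.sum_const, Finset.card_univ, nsmul_eq_mul]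
  have h0 : τ i₀ = 0 := sub_self _
  have hgen : ∀ i, Cfsg.IsGeneralizedCharacter G (τ i) := by
    intro i
    exact ⟨_, _, Cfsg.Agent.Lib.Lead.isCharacter_indFun _ _
        (Cfsg.Agent.Lib.Lead.isCharacter_of_irr (hirr i)),
      Cfsg.Agent.Lib.Lead.isCharacter_indFun _ _
        (Cfsg.Agent.Lib.Lead.isCharacter_of_irr (hirr i₀)), rfl⟩
  have hone : ∀ i, τ i 1 = 0 := by
    intro i
    show Cfsg.indFun (Subgroup.normalizer S) (χ i) 1
      - Cfsg.indFun (Subgroup.normalizer S) (χ i₀) 1 = 0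
    rw [hone', hone', hdeg i i₀, sub_self]
  have hcl : ∀ i, Cfsg.IsClassFunction (Subgroup.normalizer S) (χ i) := fun i =>
    Cfsg.Agent.Lib.Lead.isClassFunction_of_irr
      (⟨χ i, hirr i⟩ : Cfsg.IrrCharacter (Subgroup.normalizer S))
  have hinn : ∀ i j, Cfsg.classInner (χ i) (χ j) = if i = j then 1 else 0 := by
    intro i j
    have h := Cfsg.Agent.Lib.Lead.irr_inner
      (⟨χ i, hirr i⟩ : Cfsg.IrrCharacter (Subgroup.normalizer S)) ⟨χ j, hirr j⟩
    rw [h]
    by_cases hij : i = j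
    · rw [if_pos hij, if_pos (by rw [hij])]
    · rw [if_neg hij, if_neg]
      intro h2
      exact hij (hinj (congrArg Subtype.val h2))
  have hgram : ∀ i j, i ≠ i₀ → j ≠ i₀ →
      Cfsg.classInner (τ i) (τ j) = if i = j then 2 else 1 := by
    intro i j hi hj
    show Cfsg.classInner
      (Cfsg.indFun (Subgroup.normalizer S) (χ i) - Cfsg.indFun (Subgroup.normalizer S) (χ i₀))
      (Cfsg.indFun (Subgroup.normalizer S) (χ j) - Cfsg.indFun (Subgroup.normalizer S) (χ i₀)) = _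
    rw [← hsub, ← hsub, Cfsg.Agent.Lib.Lead.indFun_TI_inner S hTI (χ i - χ i₀) (χ j - χ i₀)
      (Cfsg.Agent.Lib.Lead.isClassFunction_sub (hcl i) (hcl i₀))
      (Cfsg.Agent.Lib.Lead.isClassFunction_sub (hcl j) (hcl i₀))
      (fun x hx => by rw [Pi.sub_apply, hvan i x hx, hvan i₀ x hx, sub_zero])
      (fun x hx => by rw [Pi.sub_apply, hvan j x hx, hvan i₀ x hx, sub_zero])
      (by rw [Pi.sub_apply, hdeg i i₀, sub_self])]
    rw [Cfsg.Agent.Lib.Lead.classInner_sub_left, Cfsg.Agent.Lib.Lead.classInner_sub_right,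
      Cfsg.Agent.Lib.Lead.classInner_sub_right, hinn, hinn, hinn, hinn, if_neg hi,
      if_neg (show ¬ i₀ = j from fun h => hj h.symm), if_pos (rfl : i₀ = i₀)]
    by_cases hij : i = j
    · rw [if_pos hij, if_pos hij]; norm_num
    · rw [if_neg hij, if_neg hij]; norm_num
  obtain ⟨ε, hε, μ, hμ, hμinj, hτ⟩ := Cfsg.Agent.Lib.Lead.gram_lemma n i₀ τ h0 hgen hone hgram
  refine ⟨ε, hε, μ, hμ, hμinj, ?_⟩
  intro i j
  have h1 : Cfsg.indFun (Subgroup.normalizer S) (χ i) - Cfsg.indFun (Subgroup.normalizer S) (χ j)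
      = τ i - τ j := by
    show _ = (Cfsg.indFun (Subgroup.normalizer S) (χ i)
      - Cfsg.indFun (Subgroup.normalizer S) (χ i₀))
      - (Cfsg.indFun (Subgroup.normalizer S) (χ j) - Cfsg.indFun (Subgroup.normalizer S) (χ i₀))
    abel
  rw [h1, hτ i, hτ j, ← smul_sub]
  congr 1
  abel

end Cfsg.Agent.S0170
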