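import Cfsg.Statements.S0174
import Mathlib
import Cfsg.Agent.Lib.Lead.Char18
-- import your own Cfsg.Agent.* helpers here

set_option autoImplicit false
open Cfsg

namespace Cfsg.Agent.S0174

/-- The Clifford Theorem for characters: if θ is an irreducible character of a finite group G, N is a normal subgroup and χ is an irreducible character of N occurring in the restriction of θ, then θ restricted to N equals e times the sum of the distinct G-conjugates of χ, where e is the inner product of the restriction with χ. -/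
theorem result {G : Type*} [Group G] [Fintype G] (N : Subgroup G) [Fintype N] (hN : N.Normal) (θ : G → ℂ) (hθ : Cfsg.IsIrrCharacter G θ) (χ : N → ℂ) (hχ : Cfsg.IsIrrCharacter N χ) (hconst : Cfsg.classInner (fun n : N => θ n) χ ≠ 0) : (fun n : N => θ n) = Cfsg.classInner (fun n : N => θ n) χ • ∑ᶠ ψ ∈ {ψ : N → ℂ | ∃ g : G, ψ = fun n : N => χ ⟨g * n * g⁻¹, hN.conj_mem n n.2 g⟩}, ψ := by
  classical
  haveI := hN
  haveI : Fintype (Cfsg.IrrCharacter G) := Fintype.ofFinite _
  haveI : Fintype (Cfsg.IrrCharacter N) := Fintype.ofFinite _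
  set C : Set (N → ℂ) :=
    {ψ : N → ℂ | ∃ g : G, ψ = fun n : N => χ ⟨g * n * g⁻¹, hN.conj_mem n n.2 g⟩} with hC
  set r : N → ℂ := fun n : N => θ n with hr
  let Θ : Cfsg.IrrCharacter G := ⟨θ, hθ⟩
  have hθcl : Cfsg.IsClassFunction G θ := Cfsg.Agent.Lib.Lead.isClassFunction_of_irr Θ
  have hrchar : Cfsg.IsCharacter N r :=
    Cfsg.Agent.Lib.Lead.isCharacter_restrict N (Cfsg.Agent.Lib.Lead.isCharacter_of_irr hθ)
  have hconj : ∀ g : G, Cfsg.classInner r (Cfsg.Agent.Lib.Lead.conjFun N χ g)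
      = Cfsg.classInner r χ := by
    intro g
    unfold Cfsg.classInner
    congr 1
    apply Fintype.sum_equiv (MulAut.conjNormal g : N ≃* N).toEquiv
    intro n
    have h1 : ((MulAut.conjNormal g n : N) : G) = g * n * g⁻¹ := MulAut.conjNormal_apply g n
    have h2 : (MulAut.conjNormal g n : N) = ⟨g * n * g⁻¹, hN.conj_mem n n.2 g⟩ := Subtype.ext h1
    show θ n * (starRingEnd ℂ) (χ ⟨g * n * g⁻¹, hN.conj_mem n n.2 g⟩)
      = θ ((MulAut.conjNormal g n : N) : G) * (starRingEnd ℂ) (χ (MulAut.conjNormal g n))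
    rw [h2]
    show θ n * _ = θ (g * n * g⁻¹) * _
    rw [hθcl n g]
  have hI : Cfsg.IsCharacter G (Cfsg.indFun N χ) :=
    Cfsg.Agent.Lib.Lead.isCharacter_indFun N χ (Cfsg.Agent.Lib.Lead.isCharacter_of_irr hχ)
  obtain ⟨m, hm⟩ := Cfsg.Agent.Lib.Lead.isCharacter_decomp hI
  have hmθ : m Θ ≠ 0 := by
    intro h0
    have h1 : Cfsg.classInner (Cfsg.indFun N χ) θ = (m Θ : ℂ) := by
      rw [hm]; exact Cfsg.Agent.Lib.Lead.classInner_nat_comb (fun φ => (m φ : ℂ)) Θ
    rw [Cfsg.Agent.Lib.Lead.frobenius_reciprocity N χ θ hθcl, h0, Nat.cast_zero] at h1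
    apply hconst
    rw [← Cfsg.Agent.Lib.Lead.classInner_conj_symm, h1, map_zero]
  have hzero : ∀ ψ : Cfsg.IrrCharacter N, ψ.1 ∉ C → Cfsg.classInner r ψ.1 = 0 := by
    intro ψ hψ
    have h1 : Cfsg.classInner (fun n : N => Cfsg.indFun N χ n) ψ.1 = 0 := by
      rw [Cfsg.Agent.Lib.Lead.indFun_restrict_normal, Cfsg.Agent.Lib.Lead.classInner_smul_left,
        Cfsg.Agent.Lib.Lead.classInner_sum_left, Finset.sum_eq_zero, mul_zero]
      intro x _
      have h2 := Cfsg.Agent.Lib.Lead.irr_inner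
        (⟨Cfsg.Agent.Lib.Lead.conjFun N χ x, Cfsg.Agent.Lib.Lead.isIrrCharacter_conjFun N hχ x⟩ :
          Cfsg.IrrCharacter N) ψ
      rw [h2, if_neg]
      intro heq
      apply hψ
      exact ⟨x, (congrArg Subtype.val heq).symm⟩
    have h2 : (fun n : N => Cfsg.indFun N χ n)
        = ∑ φ : Cfsg.IrrCharacter G, (m φ : ℂ) • (fun n : N => φ.1 n) := by
      funext n
      rw [hm]
      simp [Finset.sum_apply]
    rw [h2, Cfsg.Agent.Lib.Lead.classInner_sum_left] at h1
    have hnat : ∀ φ : Cfsg.IrrCharacter G, ∃ k : ℕ,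
        Cfsg.classInner (fun n : N => φ.1 n) ψ.1 = (k : ℂ) := fun φ =>
      Cfsg.Agent.Lib.Lead.classInner_char_nat
        (Cfsg.Agent.Lib.Lead.isCharacter_restrict N (Cfsg.Agent.Lib.Lead.isCharacter_of_irr φ.2))
        (Cfsg.Agent.Lib.Lead.isCharacter_of_irr ψ.2)
    choose k hk using hnat
    have h3 : ∑ φ : Cfsg.IrrCharacter G, m φ * k φ = 0 := by
      have h4 : ((∑ φ : Cfsg.IrrCharacter G, m φ * k φ : ℕ) : ℂ) = 0 := by
        rw [← h1]
        push_cast
        apply Finset.sum_congr rfl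
        intro φ _
        rw [Cfsg.Agent.Lib.Lead.classInner_smul_left, hk]
      exact_mod_cast h4
    have h4 := (Finset.sum_eq_zero_iff.mp h3) Θ (Finset.mem_univ _)
    rcases Nat.mul_eq_zero.mp h4 with h5 | h5
    · exact absurd h5 hmθ
    · show Cfsg.classInner (fun n : N => Θ.1 n) ψ.1 = 0
      rw [hk, h5, Nat.cast_zero]
  have hexp := Cfsg.Agent.Lib.Lead.class_fn_expand' r
    (Cfsg.Agent.Lib.Lead.isClassFunction_of_char hrchar)
  have hcoef : ∀ φ : Cfsg.IrrCharacter N, Cfsg.classInner r φ.1 • φ.1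
      = if φ.1 ∈ C then Cfsg.classInner r χ • φ.1 else 0 := by
    intro φ
    by_cases h : φ.1 ∈ C
    · rw [if_pos h]
      obtain ⟨g, hg⟩ := h
      congr 1
      have h6 : φ.1 = Cfsg.Agent.Lib.Lead.conjFun N χ g := hg
      rw [h6]
      exact hconj g
    · rw [if_neg h, hzero φ h, zero_smul]
  set F : Finset (Cfsg.IrrCharacter N) :=
    Finset.univ.filter (fun φ : Cfsg.IrrCharacter N => φ.1 ∈ C) with hF
  have hfin : ∑ᶠ ψ ∈ C, ψ = ∑ φ ∈ F, φ.1 := by
    have hCeq : C = ↑(F.image Subtype.val) := by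
      ext ψ
      rw [Finset.coe_image, Set.mem_image]
      constructor
      · intro hψ
        obtain ⟨g, hg⟩ := hψ
        have hirr : Cfsg.IsIrrCharacter N ψ := by
          have h6 : ψ = Cfsg.Agent.Lib.Lead.conjFun N χ g := hg
          rw [h6]
          exact Cfsg.Agent.Lib.Lead.isIrrCharacter_conjFun N hχ g
        refine ⟨⟨ψ, hirr⟩, ?_, rfl⟩
        rw [Finset.mem_coe, hF, Finset.mem_filter]
        exact ⟨Finset.mem_univ _, ⟨g, hg⟩⟩
      · rintro ⟨φ, hφ, rfl⟩
        rw [Finset.mem_coe, hF, Finset.mem_filter] at hφ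
        exact hφ.2
    calc ∑ᶠ ψ ∈ C, ψ = ∑ᶠ ψ ∈ (↑(F.image Subtype.val) : Set (N → ℂ)), ψ := by rw [← hCeq]
      _ = ∑ ψ ∈ F.image Subtype.val, ψ := finsum_mem_coe_finset _ _
      _ = ∑ φ ∈ F, φ.1 := Finset.sum_image (fun a _ b _ h => Subtype.ext h)
  rw [hfin, Finset.smul_sum, hF, Finset.sum_filter]
  rw [← Finset.sum_congr rfl (fun φ _ => hcoef φ)]
  exact hexp

end Cfsg.Agent.S0174
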