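import Cfsg.Statements.S0179
import Mathlib
import Cfsg.Agent.Lib.Lead.Char18
import Cfsg.Agent.Lib.Helper7.Schur
-- import your own Cfsg.Agent.* helpers here

set_option autoImplicit false
open Cfsg

namespace Cfsg.Agent.S0179

/-- The degree of an irreducible complex representation of a finite group divides the index of the centre. -/
theorem result {G : Type*} [Group G] [Finite G] {V : Type*} [AddCommGroup V] [Module ℂ V] [FiniteDimensional ℂ V] (ρ : Representation ℂ G V) [ρ.IsIrreducible] : Module.finrank ℂ V ∣ (Subgroup.center G).index := by
  exact Cfsg.Agent.Lib.Lead.deg_dvd_index_of_scalar ρ (Subgroup.center G)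
    (fun z hz => Cfsg.Agent.Lib.Helper7.central_scalar ρ z hz)

end Cfsg.Agent.S0179
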