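import Cfsg.Statements.S0180
import Mathlib
import Cfsg.Agent.Lib.Lead.Galois
-- import your own Cfsg.Agent.* helpers here

set_option autoImplicit false
open Cfsg

namespace Cfsg.Agent.S0180

/-- Every irreducible complex character of a finite group takes only rational values if and only if g is conjugate to g ^ m for every element g and every m coprime to the group order. -/
theorem result {G : Type*} [Group G] [Finite G] : (∀ χ : Cfsg.IrrCharacter G, ∀ g : G, ∃ q : ℚ, (χ : G → ℂ) g = (q : ℂ)) ↔ ∀ m : ℕ, m.Coprime (Nat.card G) → ∀ g : G, IsConj g (g ^ m) := by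
  classical
  haveI : NeZero (Nat.card G) := ⟨Nat.card_pos.ne'⟩
  let φ₀ : CyclotomicField (Nat.card G) ℚ →ₐ[ℚ] ℂ := IsAlgClosed.lift
  have hgN : ∀ g : G, g ^ Nat.card G = 1 := fun g => pow_card_eq_one'
  constructor
  · intro hrat m hm g
    rw [Cfsg.Agent.Lib.Lead.isConj_iff_irr]
    intro χ
    obtain ⟨n, ρ, hρ, hρχ⟩ := χ.2
    obtain ⟨x, hx1, -, hx3⟩ := Cfsg.Agent.Lib.Lead.char_galois (Nat.card G) ρ hgN φ₀ g
    obtain ⟨σ, hσ⟩ := Cfsg.Agent.Lib.Lead.cyc_exists_embed (Nat.card G) φ₀ m hm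
    obtain ⟨q, hq⟩ := hrat χ g
    have h1 : x = algebraMap ℚ (CyclotomicField (Nat.card G) ℚ) q := by
      apply φ₀.toRingHom.injective
      show φ₀ x = φ₀ (algebraMap ℚ (CyclotomicField (Nat.card G) ℚ) q)
      rw [hx1, AlgHom.commutes, hρχ, hq, eq_ratCast]
    have h2 := hx3 σ m hσ
    rw [h1, AlgHom.commutes, eq_ratCast, hρχ] at h2
    rw [hq, h2]
  · intro hconj χ g
    obtain ⟨n, ρ, hρ, hρχ⟩ := χ.2
    obtain ⟨x, hx1, -, hx3⟩ := Cfsg.Agent.Lib.Lead.char_galois (Nat.card G) ρ hgN φ₀ g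
    have hcl : Cfsg.IsClassFunction G χ.1 := Cfsg.Agent.Lib.Lead.isClassFunction_of_irr χ
    have hall : ∀ σ : CyclotomicField (Nat.card G) ℚ →ₐ[ℚ] ℂ, σ x = χ.1 g := by
      intro σ
      obtain ⟨m, hm, hσm⟩ := Cfsg.Agent.Lib.Lead.cyc_embed_pow (Nat.card G) φ₀ σ
      rw [hx3 σ m hσm, hρχ]
      exact (Cfsg.Agent.Lib.Lead.isClassFunction_conj_eq hcl (hconj m hm g)).symm
    have htr := trace_eq_sum_embeddings (K := ℚ) (L := CyclotomicField (Nat.card G) ℚ) ℂ (x := x)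
    rw [Finset.sum_congr rfl (fun σ _ => hall σ), Finset.sum_const, nsmul_eq_mul, eq_ratCast] at htr
    have hcard : ((Finset.univ : Finset (CyclotomicField (Nat.card G) ℚ →ₐ[ℚ] ℂ)).card : ℂ) ≠ 0 := by
      have : (Finset.univ : Finset (CyclotomicField (Nat.card G) ℚ →ₐ[ℚ] ℂ)).Nonempty :=
        ⟨φ₀, Finset.mem_univ _⟩
      exact_mod_cast this.card_pos.ne'
    refine ⟨Algebra.trace ℚ (CyclotomicField (Nat.card G) ℚ) x
      / ((Finset.univ : Finset (CyclotomicField (Nat.card G) ℚ →ₐ[ℚ] ℂ)).card : ℚ), ?_⟩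
    push_cast
    rw [htr]
    field_simp

end Cfsg.Agent.S0180
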