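import Cfsg.Statements.S0181
import Mathlib
import Cfsg.Agent.Lib.Lead.Char18
-- import your own Cfsg.Agent.* helpers here

set_option autoImplicit false
open Cfsg

namespace Cfsg.Agent.S0181

/-- Let H be a normal subgroup of a finite group G and ρ an irreducible complex representation whose kernel does not contain H. If g commutes with no non-identity element of H, then the character of ρ vanishes at g. -/
theorem result {G : Type*} [Group G] [Finite G] {V : Type*} [AddCommGroup V] [Module ℂ V] [FiniteDimensional ℂ V] (ρ : Representation ℂ G V) [ρ.IsIrreducible] (H : Subgroup G) [H.Normal] (hker : ∃ h ∈ H, ρ h ≠ LinearMap.id) (g : G) (hg : ∀ h ∈ H, h * g = g * h → h = 1) : ρ.character g = 0 := by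
  classical
  haveI : Fintype H := Fintype.ofFinite H
  haveI hnt : Nontrivial V := ((Cfsg.Agent.Lib.Lead.irr_iff ρ).mp inferInstance).1
  have hirr := ((Cfsg.Agent.Lib.Lead.irr_iff ρ).mp inferInstance).2
  let e : Module.End ℂ V := ∑ h : H, ρ (h : G)
  -- `e` commutes with `ρ x`
  have hcomm : ∀ x : G, ρ x * e = e * ρ x := by
    intro x
    show ρ x * ∑ h : H, ρ (h : G) = (∑ h : H, ρ (h : G)) * ρ x
    rw [Finset.mul_sum, Finset.sum_mul]
    rw [← Equiv.sum_comp (MulAut.conjNormal x : H ≃* H).toEquiv (fun h : H => ρ (h : G) * ρ x)]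
    apply Finset.sum_congr rfl
    intro h _
    show ρ x * ρ (h : G) = ρ ((MulAut.conjNormal x h : H) : G) * ρ x
    rw [MulAut.conjNormal_apply, ← map_mul, ← map_mul]
    congr 1
    group
  have habs : ∀ h' : H, ρ (h' : G) * e = e := by
    intro h'
    show ρ (h' : G) * ∑ h : H, ρ (h : G) = ∑ h : H, ρ (h : G)
    rw [Finset.mul_sum]
    rw [← Equiv.sum_comp (Equiv.mulLeft h') (fun h : H => ρ (h : G))]
    apply Finset.sum_congr rfl
    intro h _
    show ρ (h' : G) * ρ (h : G) = ρ ((h' * h : H) : G)
    rw [← map_mul]; rfl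
  have he : e = 0 := by
    have hinv : ∀ x : G, ∀ v ∈ LinearMap.range e, ρ x v ∈ LinearMap.range e := by
      rintro x _ ⟨w, rfl⟩
      refine ⟨ρ x w, ?_⟩
      have := congrArg (fun f : Module.End ℂ V => f w) (hcomm x)
      exact this.symm
    rcases hirr _ hinv with h1 | h1
    · exact LinearMap.range_eq_bot.mp h1
    · exfalso
      obtain ⟨h, hh, hne⟩ := hker
      apply hne
      apply LinearMap.ext
      intro v
      have hv : v ∈ LinearMap.range e := by rw [h1]; trivial
      obtain ⟨w, rfl⟩ := hv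
      have := congrArg (fun f : Module.End ℂ V => f w) (habs ⟨h, hh⟩)
      exact this
  -- `χ (g h) = χ g` for `h ∈ H`
  have hconj : ∀ h : H, ρ.character (g * (h : G)) = ρ.character g := by
    let ψ : H → H := fun h' => ⟨g⁻¹ * (h' : G) * g * (h' : G)⁻¹,
      H.mul_mem (by
        have := ‹H.Normal›.conj_mem (h' : G) h'.2 g⁻¹
        simpa using this) (H.inv_mem h'.2)⟩
    have hψ : Function.Injective ψ := by
      intro a b hab
      have h1 : g⁻¹ * (a : G) * g * (a : G)⁻¹ = g⁻¹ * (b : G) * g * (b : G)⁻¹ :=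
        congrArg Subtype.val hab
      have h2 : ((b : G)⁻¹ * (a : G)) * g = g * ((b : G)⁻¹ * (a : G)) := by
        have h3 : (a : G) * g * (a : G)⁻¹ = (b : G) * g * (b : G)⁻¹ := by
          have := congrArg (fun t => g * t) h1
          simpa [mul_assoc] using this
        calc ((b : G)⁻¹ * (a : G)) * g = (b : G)⁻¹ * ((a : G) * g * (a : G)⁻¹) * (a : G) := by group
          _ = (b : G)⁻¹ * ((b : G) * g * (b : G)⁻¹) * (a : G) := by rw [h3]
          _ = g * ((b : G)⁻¹ * (a : G)) := by group
      have h4 := hg _ (H.mul_mem (H.inv_mem b.2) a.2) h2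
      apply Subtype.ext
      exact (inv_mul_eq_one.mp h4).symm
    have hψs : Function.Surjective ψ := Finite.surjective_of_injective hψ
    intro h
    obtain ⟨h', hh'⟩ := hψs h
    have h1 : g⁻¹ * (h' : G) * g * (h' : G)⁻¹ = (h : G) := congrArg Subtype.val hh'
    have h2 : g * (h : G) = (h' : G) * g * (h' : G)⁻¹ := by rw [← h1]; group
    rw [h2]
    exact Representation.char_conj ρ g h'
  have htr : LinearMap.trace ℂ V (ρ g * e) = (Nat.card H : ℂ) * ρ.character g := by
    show LinearMap.trace ℂ V (ρ g * ∑ h : H, ρ (h : G)) = _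
    rw [Finset.mul_sum, map_sum]
    have h1 : ∀ h : H, LinearMap.trace ℂ V (ρ g * ρ (h : G)) = ρ.character g := by
      intro h
      rw [← map_mul]
      exact hconj h
    rw [Finset.sum_congr rfl (fun h _ => h1 h), Finset.sum_const, Finset.card_univ,
      nsmul_eq_mul, Nat.card_eq_fintype_card]
  rw [he, mul_zero, map_zero] at htr
  have hH : (Nat.card H : ℂ) ≠ 0 := by exact_mod_cast Nat.card_pos.ne'
  rcases mul_eq_zero.mp htr.symm with h | h
  · exact absurd h hH
  · exact h

end Cfsg.Agent.S0181
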