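import Cfsg.Statements.S0186
import Mathlib
import Cfsg.Agent.Lib.Lead.Faithful
-- import your own Cfsg.Agent.* helpers here

set_option autoImplicit false
open Cfsg

namespace Cfsg.Agent.S0186

/-- Let G be a finite simple group of order n and p a prime dividing n. If G has more than n / p^2 conjugacy classes, then every Sylow p-subgroup of G is abelian. -/
theorem result {G : Type*} [Group G] [Finite G] [IsSimpleGroup G] (p : ℕ) [Fact p.Prime] (hp : p ∣ Nat.card G) (hmany : Nat.card G < p ^ 2 * Nat.card (ConjClasses G)) (P : Sylow p G) (a b : G) (ha : a ∈ P) (hb : b ∈ P) : a * b = b * a := by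
  classical
  haveI : Fintype G := Fintype.ofFinite G
  haveI : Fintype (Cfsg.IrrCharacter G) := Fintype.ofFinite _
  have hpp : p.Prime := Fact.out
  by_cases hp2 : p ^ 2 ∣ Nat.card G
  · -- find nontrivial χ with degree < p
    have hex : ∃ χ : Cfsg.IrrCharacter G, χ ≠ Cfsg.Agent.Lib.Lead.irrOne G ∧
        ∃ d : ℕ, d < p ∧ χ.1 1 = (d : ℂ) := by
      by_contra hcon
      push_neg at hcon
      choose d hdpos hd using fun χ : Cfsg.IrrCharacter G => Cfsg.Agent.Lib.Lead.irr_one_eq_nat χ
      have hdge : ∀ χ, χ ≠ Cfsg.Agent.Lib.Lead.irrOne G → p ≤ d χ := by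
        intro χ hχ
        by_contra hlt
        exact hcon χ hχ (d χ) (not_le.mp hlt) (hd χ)
      have hsum : ∑ χ : Cfsg.IrrCharacter G, (d χ) ^ 2 = Nat.card G := by
        have h := Cfsg.Agent.Lib.Lead.sum_deg_sq (G := G)
        rw [finsum_eq_sum_of_fintype] at h
        have h2 : ∑ χ : Cfsg.IrrCharacter G, ((χ : G → ℂ) 1) ^ 2
            = ((∑ χ : Cfsg.IrrCharacter G, (d χ) ^ 2 : ℕ) : ℂ) := by
          push_cast
          apply Finset.sum_congr rfl
          intro χ _
          rw [hd χ]
        rw [h2] at h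
        exact_mod_cast h
      have hlow : (Fintype.card (Cfsg.IrrCharacter G) - 1) * p ^ 2 + 1
          ≤ ∑ χ : Cfsg.IrrCharacter G, (d χ) ^ 2 := by
        rw [← Finset.add_sum_erase Finset.univ _ (Finset.mem_univ (Cfsg.Agent.Lib.Lead.irrOne G))]
        have h1 : 1 ≤ (d (Cfsg.Agent.Lib.Lead.irrOne G)) ^ 2 := Nat.one_le_pow _ _ (hdpos _)
        have h2 : (Fintype.card (Cfsg.IrrCharacter G) - 1) * p ^ 2
            ≤ ∑ χ ∈ Finset.univ.erase (Cfsg.Agent.Lib.Lead.irrOne G), (d χ) ^ 2 := by
          have : (Finset.univ.erase (Cfsg.Agent.Lib.Lead.irrOne G)).card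
              = Fintype.card (Cfsg.IrrCharacter G) - 1 := by
            rw [Finset.card_erase_of_mem (Finset.mem_univ _), Finset.card_univ]
          rw [← this, ← smul_eq_mul, ← Finset.sum_const]
          apply Finset.sum_le_sum
          intro χ hχ
          exact Nat.pow_le_pow_left (hdge χ (Finset.ne_of_mem_erase hχ)) 2
        omega
      have hk : Fintype.card (Cfsg.IrrCharacter G) = Nat.card (ConjClasses G) := by
        rw [← Nat.card_eq_fintype_card]; exact Cfsg.Agent.Lib.Lead.card_irr
      rw [hsum, hk] at hlow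
      obtain ⟨m, hm⟩ := hp2
      rw [hm] at hlow hmany
      have h3 : m < Nat.card (ConjClasses G) := lt_of_mul_lt_mul_left hmany (Nat.zero_le _)
      have h4 : (Nat.card (ConjClasses G) - 1) * p ^ 2 < p ^ 2 * m := by omega
      have h5 : Nat.card (ConjClasses G) - 1 < m := by
        rw [mul_comm] at h4
        exact lt_of_mul_lt_mul_left h4 (Nat.zero_le _)
      omega
    obtain ⟨χ, hχ1, d, hdp, hχd⟩ := hex
    obtain ⟨n, ρ, hρ, hρχ⟩ := χ.2
    have hn : Module.finrank ℂ (Fin n → ℂ) = d := by
      have h1 : ρ.character 1 = (Module.finrank ℂ (Fin n → ℂ) : ℂ) := Representation.char_one ρ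
      have h2 : ρ.character 1 = (d : ℂ) := by rw [hρχ]; exact hχd
      rw [h1] at h2
      exact_mod_cast h2
    -- ρ is injective
    have hinj : Function.Injective ρ := by
      have hker : (MonoidHom.ker ρ).Normal := MonoidHom.normal_ker ρ
      rcases IsSimpleGroup.eq_bot_or_eq_top_of_normal (MonoidHom.ker ρ) hker with h | h
      · intro a b hab
        have h1 : a⁻¹ * b ∈ MonoidHom.ker ρ := by
          rw [MonoidHom.mem_ker, map_mul, ← hab, ← map_mul, inv_mul_cancel, map_one]
        rw [h, Subgroup.mem_bot] at h1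
        exact (inv_mul_eq_one.mp h1)
      · exfalso
        have htriv : ∀ g : G, ρ g = 1 := by
          intro g
          have : g ∈ MonoidHom.ker ρ := by rw [h]; trivial
          exact this
        have h1 := Cfsg.Agent.Lib.Lead.finrank_one_of_irr_trivial ρ htriv
        apply hχ1
        apply Subtype.ext
        show χ.1 = fun _ => 1
        rw [← hρχ]
        funext g
        show LinearMap.trace ℂ _ (ρ g) = 1
        rw [htriv g, LinearMap.trace_one, h1, Nat.cast_one]
    let σ : Representation ℂ P (Fin n → ℂ) := ρ.comp (P : Subgroup G).subtype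
    have hσ : Function.Injective σ := by
      intro x y hxy
      have : ρ (x : G) = ρ (y : G) := hxy
      exact Subtype.ext (hinj this)
    have hdeg : ∀ q : ℕ, q.Prime → q ∣ Nat.card P → Module.finrank ℂ (Fin n → ℂ) < q := by
      intro q hq hqd
      obtain ⟨k, hk⟩ := (IsPGroup.iff_card.mp P.isPGroup')
      rw [hk] at hqd
      have := (Nat.prime_dvd_prime_iff_eq hq hpp).mp (hq.dvd_of_dvd_pow hqd)
      rw [this, hn]
      exact hdp
    have := Cfsg.Agent.Lib.Lead.comm_of_faithful_small σ hσ hdeg ⟨a, ha⟩ ⟨b, hb⟩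
    exact congrArg Subtype.val this
  · -- `|P| = p`
    have hn0 : Nat.card G ≠ 0 := Nat.card_pos.ne'
    have hcard : Nat.card P = p := by
      rw [Sylow.card_eq_multiplicity]
      have h1 : 1 ≤ (Nat.card G).factorization p := by
        rw [← Nat.Prime.pow_dvd_iff_le_factorization hpp hn0, pow_one]; exact hp
      have h2 : ¬ 2 ≤ (Nat.card G).factorization p := by
        rw [← Nat.Prime.pow_dvd_iff_le_factorization hpp hn0]; exact hp2
      have h3 : (Nat.card G).factorization p = 1 := by omega
      rw [h3, pow_one]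
    haveI : IsCyclic P := isCyclic_of_prime_card hcard
    obtain ⟨g, hg⟩ := IsCyclic.exists_generator (α := P)
    obtain ⟨i, hi⟩ := Subgroup.mem_zpowers_iff.mp (hg ⟨a, ha⟩)
    obtain ⟨j, hj⟩ := Subgroup.mem_zpowers_iff.mp (hg ⟨b, hb⟩)
    have : (⟨a, ha⟩ : P) * ⟨b, hb⟩ = ⟨b, hb⟩ * ⟨a, ha⟩ := by
      rw [← hi, ← hj, ← zpow_add, ← zpow_add, add_comm]
    exact congrArg Subtype.val this

end Cfsg.Agent.S0186
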