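import Cfsg.Statements.S0187
import Mathlib
import Cfsg.Agent.Lib.Lead.Char9
-- import your own Cfsg.Agent.* helpers here

set_option autoImplicit false
open Cfsg

namespace Cfsg.Agent.S0187

/-- A finite group is commutative if and only if every irreducible complex character has degree 1. -/
theorem result {G : Type*} [Group G] [Finite G] : (∀ a b : G, a * b = b * a) ↔ ∀ χ : Cfsg.IrrCharacter G, (χ : G → ℂ) 1 = 1 := by
  classical
  constructor
  · intro hcomm χ
    haveI : IsMulCommutative G := ⟨⟨hcomm⟩⟩
    obtain ⟨n, ρ, hρ, hρχ⟩ := χ.2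
    haveI := hρ
    rw [← hρχ, Representation.char_one,
      Representation.IsIrreducible.finrank_eq_one_of_isMulCommutative ρ]
    simp
  · intro hall
    haveI : Fintype (Cfsg.IrrCharacter G) := Fintype.ofFinite _
    have h1 := Cfsg.Agent.Lib.Lead.sum_deg_sq (G := G)
    rw [finsum_eq_sum_of_fintype] at h1
    have h2 : ∑ χ : Cfsg.IrrCharacter G, (χ : G → ℂ) 1 ^ 2
        = (Nat.card (Cfsg.IrrCharacter G) : ℂ) := by
      rw [Finset.sum_congr rfl (fun χ _ => by rw [hall χ, one_pow])]
      simp [Nat.card_eq_fintype_card]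
    rw [h2] at h1
    have h3 : Nat.card (Cfsg.IrrCharacter G) = Nat.card G := by exact_mod_cast h1
    rw [Cfsg.Agent.Lib.Lead.card_irr] at h3
    have hbij : Function.Bijective (ConjClasses.mk : G → ConjClasses G) :=
      Function.Surjective.bijective_of_nat_card_le ConjClasses.mk_surjective (le_of_eq h3.symm)
    intro a b
    have h4 : ConjClasses.mk (a * b * a⁻¹) = ConjClasses.mk b := by
      rw [ConjClasses.mk_eq_mk_iff_isConj]
      exact (isConj_iff.mpr ⟨a, rfl⟩ : IsConj b (a * b * a⁻¹)).symm
    have h5 := hbij.1 h4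
    calc a * b = a * b * a⁻¹ * a := by group
      _ = b * a := by rw [h5]

end Cfsg.Agent.S0187
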