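import Cfsg.Statements.S0189
import Mathlib
import Cfsg.Agent.Lib.Lead.Char9
-- import your own Cfsg.Agent.* helpers here

set_option autoImplicit false
open Cfsg

namespace Cfsg.Agent.S0189

/-- If a complex character of a finite group vanishes at every non-identity element of a Sylow p-subgroup P, then |P| divides its degree. -/
theorem result {G : Type*} [Group G] [Finite G] (p : ℕ) [Fact p.Prime] (P : Sylow p G) (χ : G → ℂ) (hχ : Cfsg.IsCharacter G χ) (hvan : ∀ g : G, g ∈ P → g ≠ 1 → χ g = 0) : ∃ k : ℕ, χ 1 = (Nat.card P : ℂ) * k := by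
  classical
  haveI : Fintype G := Fintype.ofFinite G
  haveI : Fintype (P : Subgroup G) := Fintype.ofFinite _
  obtain ⟨n, hn⟩ := Cfsg.Agent.Lib.Lead.classInner_char_nat
    (Cfsg.Agent.Lib.Lead.isCharacter_restrict (P : Subgroup G) hχ)
    (Cfsg.Agent.Lib.Lead.isCharacter_one (G := (P : Subgroup G)))
  refine ⟨n, ?_⟩
  unfold Cfsg.classInner at hn
  beta_reduce at hn
  rw [Finset.sum_eq_single (1 : (P : Subgroup G))] at hn
  · have hP : (Nat.card (P : Subgroup G) : ℂ) ≠ 0 := by exact_mod_cast Nat.card_pos.ne'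
    simp only [map_one, mul_one, Subgroup.coe_one] at hn
    rw [← hn]
    field_simp
  · intro x _ hx
    rw [hvan x x.2 (fun h => hx (Subtype.ext h)), zero_mul]
  · intro h; exact absurd (Finset.mem_univ _) h

end Cfsg.Agent.S0189
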