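import Cfsg.Statements.S0192
import Mathlib
import Cfsg.Agent.Lib.Lead.Char10
-- import your own Cfsg.Agent.* helpers here

set_option autoImplicit false
open Cfsg

namespace Cfsg.Agent.S0192

/-- Brauer's generation criterion. Let G be a finite simple group, H₁ and H₂ subgroups, and χ a non-principal irreducible character. If the multiplicity of the principal character in χ restricted to H₁ ⊓ H₂ is less than the sum of the corresponding multiplicities for H₁ and H₂, then H₁ and H₂ do not generate G. -/
theorem result {G : Type*} [Group G] [Fintype G] [IsSimpleGroup G] (H₁ H₂ : Subgroup G) [Fintype H₁] [Fintype H₂] [Fintype ↥(H₁ ⊓ H₂)] (χ : G → ℂ) (hχ : Cfsg.IsIrrCharacter G χ) (hχ1 : χ ≠ fun _ => 1) (hlt : (Cfsg.classInner (fun x : ↥(H₁ ⊓ H₂) => χ x) (fun _ => 1)).re < (Cfsg.classInner (fun x : H₁ => χ x) (fun _ => 1)).re + (Cfsg.classInner (fun x : H₂ => χ x) (fun _ => 1)).re) : H₁ ⊔ H₂ ≠ ⊤ := by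
  classical
  obtain ⟨n, ρ, hρ, rfl⟩ := hχ
  intro htop
  have hinv : ∀ (H : Subgroup G) [Fintype H],
      Cfsg.classInner (fun x : H => ρ.character x) (fun _ => 1)
        = (Module.finrank ℂ (Representation.invariants (ρ.comp H.subtype)) : ℂ) := by
    intro H _
    haveI : Invertible (Nat.card H : ℂ) :=
      invertibleOfNonzero (by exact_mod_cast Nat.card_pos.ne')
    rw [← Representation.card_inv_mul_sum_char_eq_finrank]
    unfold Cfsg.classInner
    congr 1
    apply Finset.sum_congr rfl
    intro x _
    simp [Representation.character]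
  rw [hinv, hinv, hinv] at hlt
  simp only [Complex.natCast_re] at hlt
  set I1 := Representation.invariants (ρ.comp H₁.subtype) with hI1
  set I2 := Representation.invariants (ρ.comp H₂.subtype) with hI2
  set I12 := Representation.invariants (ρ.comp (H₁ ⊓ H₂).subtype) with hI12
  have hlt' : Module.finrank ℂ I12 < Module.finrank ℂ I1 + Module.finrank ℂ I2 := by
    exact_mod_cast hlt
  have hle : I1 ⊔ I2 ≤ I12 := by
    apply sup_le
    · intro v hv
      rw [hI1, Representation.mem_invariants] at hv
      rw [hI12, Representation.mem_invariants]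
      intro g
      exact hv ⟨g, g.2.1⟩
    · intro v hv
      rw [hI2, Representation.mem_invariants] at hv
      rw [hI12, Representation.mem_invariants]
      intro g
      exact hv ⟨g, g.2.2⟩
  have hfin := Submodule.finrank_sup_add_finrank_inf_eq I1 I2
  have h1 : Module.finrank ℂ ↥(I1 ⊔ I2) ≤ Module.finrank ℂ I12 := Submodule.finrank_mono hle
  have hpos : 0 < Module.finrank ℂ ↥(I1 ⊓ I2) := by omega
  have hne : I1 ⊓ I2 ≠ ⊥ := by
    intro h
    rw [h] at hpos
    simp at hpos
  obtain ⟨v, hv, hv0⟩ := (Submodule.ne_bot_iff _).mp hne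
  have hv1 : ∀ g : H₁, ρ g v = v := (Representation.mem_invariants _ v).mp hv.1
  have hv2 : ∀ g : H₂, ρ g v = v := (Representation.mem_invariants _ v).mp hv.2
  let St : Subgroup G :=
    { carrier := {g | ρ g v = v}
      one_mem' := by simp
      mul_mem' := by
        intro a b ha hb
        simp only [Set.mem_setOf_eq] at *
        rw [map_mul, Module.End.mul_apply, hb, ha]
      inv_mem' := by
        intro a ha
        simp only [Set.mem_setOf_eq] at *
        have h2 := congrArg (ρ a⁻¹) ha
        rw [← Module.End.mul_apply, ← map_mul, inv_mul_cancel, map_one] at h2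
        simpa using h2.symm }
  have hH1 : H₁ ≤ St := fun h hh => hv1 ⟨h, hh⟩
  have hH2 : H₂ ≤ St := fun h hh => hv2 ⟨h, hh⟩
  have hSt : St = ⊤ := top_le_iff.mp (htop ▸ sup_le hH1 hH2)
  have hfix : ∀ g : G, ρ g v = v := by
    intro g
    have : g ∈ St := by rw [hSt]; exact Subgroup.mem_top g
    exact this
  obtain ⟨hV, hall⟩ := (Cfsg.Agent.Lib.Lead.irr_iff ρ).mp hρ
  rcases hall (Submodule.span ℂ {v}) (by
    intro g w hw
    obtain ⟨c, rfl⟩ := Submodule.mem_span_singleton.mp hw
    rw [map_smul, hfix]
    exact Submodule.smul_mem _ _ (Submodule.mem_span_singleton_self v)) with h | h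
  · apply hv0
    have h2 := Submodule.mem_span_singleton_self (R := ℂ) v
    rw [h, Submodule.mem_bot] at h2
    exact h2
  · apply hχ1
    have htriv : ∀ g : G, ρ g = 1 := by
      intro g
      apply LinearMap.ext
      intro w
      have hw : w ∈ Submodule.span ℂ {v} := by rw [h]; exact Submodule.mem_top
      obtain ⟨c, rfl⟩ := Submodule.mem_span_singleton.mp hw
      rw [map_smul, hfix]
      rfl
    haveI := hρ
    have h1dim := Cfsg.Agent.Lib.Lead.finrank_one_of_irr_trivial ρ htriv
    funext g
    unfold Representation.character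
    rw [htriv g, LinearMap.trace_one, h1dim]
    simp

end Cfsg.Agent.S0192
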