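import Cfsg.Statements.S0195
import Mathlib
-- import your own Cfsg.Agent.* helpers here

set_option autoImplicit false
open Cfsg

namespace Cfsg.Agent.S0195

/-- Let A be a subgroup of G that equals the centralizer of each of its non-identity elements. If g lies outside the normalizer of A, then the only element of A conjugated by g into A is the identity (A is a trivial-intersection set). -/
theorem result {G : Type*} [Group G] [Finite G] (A : Subgroup G) (hA : ∀ x ∈ A, x ≠ 1 → Subgroup.centralizer ({x} : Set G) = A) (g : G) (hg : g ∉ Subgroup.normalizer (A : Set G)) (x : G) (hx : x ∈ A) (hgx : g * x * g⁻¹ ∈ A) : x = 1 := by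
  by_contra hx1
  apply hg
  have hy1 : g * x * g⁻¹ ≠ 1 := by
    intro h
    apply hx1
    have h2 : x = g⁻¹ * (g * x * g⁻¹) * g := by group
    rw [h2, h]; group
  have hC1 := hA x hx hx1
  have hC2 := hA _ hgx hy1
  rw [Subgroup.mem_normalizer_iff]
  intro n
  constructor
  · intro hn
    have hn' : n ∈ Subgroup.centralizer ({x} : Set G) := by rw [hC1]; exact hn
    have h3 := Subgroup.mem_centralizer_iff.mp hn' x rfl
    have h4 : g * n * g⁻¹ ∈ Subgroup.centralizer ({g * x * g⁻¹} : Set G) := by
      rw [Subgroup.mem_centralizer_iff]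
      intro y hy
      rw [Set.mem_singleton_iff] at hy
      rw [hy]
      calc g * x * g⁻¹ * (g * n * g⁻¹) = g * (x * n) * g⁻¹ := by group
        _ = g * (n * x) * g⁻¹ := by rw [h3]
        _ = g * n * g⁻¹ * (g * x * g⁻¹) := by group
    rw [hC2] at h4
    exact h4
  · intro hn
    have hn' : g * n * g⁻¹ ∈ Subgroup.centralizer ({g * x * g⁻¹} : Set G) := by rw [hC2]; exact hn
    have h3 := Subgroup.mem_centralizer_iff.mp hn' _ rfl
    have h4 : n ∈ Subgroup.centralizer ({x} : Set G) := by
      rw [Subgroup.mem_centralizer_iff]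
      intro y hy
      rw [Set.mem_singleton_iff] at hy
      rw [hy]
      calc x * n = g⁻¹ * ((g * x * g⁻¹) * (g * n * g⁻¹)) * g := by group
        _ = g⁻¹ * ((g * n * g⁻¹) * (g * x * g⁻¹)) * g := by rw [h3]
        _ = n * x := by group
    rw [hC1] at h4
    exact h4

end Cfsg.Agent.S0195
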