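import Cfsg.Statements.S0196
import Mathlib
import Cfsg.Agent.Lib.Lead.Action
-- import your own Cfsg.Agent.* helpers here

set_option autoImplicit false
open Cfsg

namespace Cfsg.Agent.S0196

/-- Let A be a subgroup of a finite group G that equals the centralizer of each of its non-identity elements, and let N be its normalizer. Then the index of A in N divides |A| − 1 (N/A permutes the non-identity elements of A in orbits of full length). -/
theorem result {G : Type*} [Group G] [Finite G] (A : Subgroup G) (hA : ∀ x ∈ A, x ≠ 1 → Subgroup.centralizer ({x} : Set G) = A) : (A.subgroupOf (Subgroup.normalizer (A : Set G))).index ∣ Nat.card A - 1 := by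
  classical
  let X : Type _ := ↥((A : Set G) \ {1})
  letI : MulAction (Subgroup.normalizer (A : Set G)) X :=
    { smul := fun n x => ⟨(n : G) * x * (n : G)⁻¹, by
        refine ⟨(Subgroup.mem_normalizer_iff.mp n.2 x).mp x.2.1, ?_⟩
        intro h
        apply x.2.2
        rw [Set.mem_singleton_iff] at h ⊢
        have h2 : (x : G) = (n : G)⁻¹ * ((n : G) * x * (n : G)⁻¹) * n := by group
        rw [h2, h]; group⟩
      one_smul := fun x => by
        apply Subtype.ext
        show ((1 : Subgroup.normalizer (A : Set G)) : G) * x
          * ((1 : Subgroup.normalizer (A : Set G)) : G)⁻¹ = x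
        simp
      mul_smul := fun a b x => by
        apply Subtype.ext
        show ((a * b : Subgroup.normalizer (A : Set G)) : G) * x
          * ((a * b : Subgroup.normalizer (A : Set G)) : G)⁻¹
          = (a : G) * ((b : G) * x * (b : G)⁻¹) * (a : G)⁻¹
        simp [mul_assoc] }
  have hstab : ∀ x : X, MulAction.stabilizer (Subgroup.normalizer (A : Set G)) x
      = A.subgroupOf (Subgroup.normalizer (A : Set G)) := by
    intro x
    ext n
    rw [MulAction.mem_stabilizer_iff, Subgroup.mem_subgroupOf]
    have hx1 : (x : G) ≠ 1 := fun h => x.2.2 (Set.mem_singleton_iff.mpr h)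
    have hC := hA x x.2.1 hx1
    constructor
    · intro h
      have h2 : (n : G) * x * (n : G)⁻¹ = x := congrArg Subtype.val h
      have hgoal : (n : G) ∈ Subgroup.centralizer ({(x : G)} : Set G) := by
        rw [Subgroup.mem_centralizer_iff]
        intro y hy
        rw [Set.mem_singleton_iff] at hy
        rw [hy]
        calc (x : G) * n = (n : G) * x * (n : G)⁻¹ * n := by rw [h2]
          _ = n * x := by group
      rw [hC] at hgoal
      exact hgoal
    · intro h
      have h' : (n : G) ∈ Subgroup.centralizer ({(x : G)} : Set G) := by rw [hC]; exact h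
      rw [Subgroup.mem_centralizer_iff] at h'
      have h2 := h' x rfl
      apply Subtype.ext
      show (n : G) * x * (n : G)⁻¹ = x
      rw [← h2]; group
  have h1 := Cfsg.Agent.Lib.Lead.index_dvd_card_of_stabilizer_eq _ hstab
  have h2 : Nat.card X = Nat.card A - 1 := by
    show Nat.card ↥((A : Set G) \ {1}) = Nat.card A - 1
    rw [Nat.card_coe_set_eq, Set.ncard_diff_singleton_of_mem (Subgroup.one_mem A),
      ← Nat.card_coe_set_eq]
    rfl
  rw [h2] at h1
  exact h1

end Cfsg.Agent.S0196
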