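import Cfsg.Statements.S0200
import Mathlib
import Cfsg.Agent.Lib.Lead.BaerSuzuki
-- import your own Cfsg.Agent.* helpers here

set_option autoImplicit false
open Cfsg

namespace Cfsg.Agent.S0200

/-- An involution lying in no normal 2-subgroup of a finite group inverts a nontrivial element of odd order (a consequence of the Baer–Suzuki Theorem). -/
theorem result {G : Type*} [Group G] [Finite G] (t : G) (ht : orderOf t = 2) (hO : ∀ N : Subgroup G, N.Normal → IsPGroup 2 N → t ∉ N) : ∃ h : G, h ≠ 1 ∧ Odd (orderOf h) ∧ t * h * t⁻¹ = h⁻¹ := by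
  classical
  by_contra hcon
  push Not at hcon
  haveI : Fact (Nat.Prime 2) := ⟨Nat.prime_two⟩
  have ht2 : t * t = 1 := by rw [← sq, ← ht, pow_orderOf_eq_one]
  have htinv : t⁻¹ = t := inv_eq_of_mul_eq_one_left ht2
  have hD : ∀ c : G, c * c = 1 → IsPGroup 2 (Subgroup.closure ({t, c} : Set G)) := by
    intro c hc
    have hcinv : c⁻¹ = c := inv_eq_of_mul_eq_one_left hc
    have hconj : t * (t * c) * t⁻¹ = (t * c)⁻¹ := by
      calc t * (t * c) * t⁻¹ = (t * t) * c * t⁻¹ := by group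
        _ = c * t⁻¹ := by rw [ht2, one_mul]
        _ = c⁻¹ * t⁻¹ := by rw [hcinv]
        _ = (t * c)⁻¹ := by rw [mul_inv_rev]
    have hn0 : orderOf (t * c) ≠ 0 := (orderOf_pos (t * c)).ne'
    obtain ⟨k, m, hm, hkm⟩ := Nat.exists_eq_two_pow_mul_odd hn0
    have hm1 : m = 1 := by
      by_contra hne
      have hord : orderOf ((t * c) ^ (2 ^ k)) = m := by
        rw [orderOf_pow' (t * c) (pow_ne_zero k two_ne_zero), hkm,
          Nat.gcd_eq_right (Dvd.intro _ rfl)]
        exact Nat.mul_div_cancel_left m (pow_pos two_pos k)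
      apply hcon ((t * c) ^ (2 ^ k))
      · intro h1
        rw [h1, orderOf_one] at hord
        exact hne hord.symm
      · rw [hord]; exact hm
      · have h2 : t * (t * c) ^ (2 ^ k) * t⁻¹ = (t * (t * c) * t⁻¹) ^ (2 ^ k) := conj_pow.symm
        rw [h2, hconj, inv_pow]
    rw [hm1, mul_one] at hkm
    have hU : IsPGroup 2 (Subgroup.zpowers (t * c)) :=
      IsPGroup.of_card (n := k) (by rw [Nat.card_zpowers, hkm])
    have hT : IsPGroup 2 (Subgroup.zpowers t) :=
      IsPGroup.of_card (n := 1) (by rw [Nat.card_zpowers, ht, pow_one])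
    have hTN : Subgroup.zpowers t ≤ Subgroup.normalizer (Subgroup.zpowers (t * c) : Set G) := by
      rw [Subgroup.zpowers_le]
      apply Cfsg.Agent.Lib.Lead.mem_normalizer_of_conj_le
      intro d hd
      obtain ⟨j, rfl⟩ := Subgroup.mem_zpowers_iff.mp hd
      have h2 : t * (t * c) ^ j * t⁻¹ = (t * (t * c) * t⁻¹) ^ j := conj_zpow.symm
      rw [h2, hconj]
      exact Subgroup.zpow_mem _ (Subgroup.inv_mem _ (Subgroup.mem_zpowers (t * c))) j
    have hsup := IsPGroup.to_sup_of_normal_left' hU hT hTN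
    apply hsup.to_le
    rw [Subgroup.closure_le]
    intro x hx
    rcases hx with hx | hx
    · rw [hx]
      exact (le_sup_right : Subgroup.zpowers t ≤ _) (Subgroup.mem_zpowers t)
    · rw [Set.mem_singleton_iff] at hx
      rw [hx]
      have h3 : t⁻¹ * (t * c) ∈ Subgroup.zpowers (t * c) ⊔ Subgroup.zpowers t :=
        Subgroup.mul_mem _
        ((le_sup_right : Subgroup.zpowers t ≤ _) (Subgroup.inv_mem _ (Subgroup.mem_zpowers t)))
        ((le_sup_left : Subgroup.zpowers (t * c) ≤ _) (Subgroup.mem_zpowers (t * c)))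
      rwa [inv_mul_cancel_left] at h3
  let K : Set G := {k | ∃ g : G, k = g * t * g⁻¹}
  have hKn : ∀ k ∈ K, ∀ g : G, g * k * g⁻¹ ∈ K := by
    rintro k ⟨g₁, rfl⟩ g
    exact ⟨g * g₁, by group⟩
  have hK2 : ∀ a ∈ K, ∀ b ∈ K, IsPGroup 2 (Subgroup.closure ({a, b} : Set G)) := by
    rintro a ⟨g₁, rfl⟩ b ⟨g₂, rfl⟩
    obtain ⟨w, hw⟩ : ∃ w : G, w = g₁⁻¹ * g₂ := ⟨_, rfl⟩
    have hg2 : g₂ = g₁ * w := by rw [hw, mul_inv_cancel_left]
    have hcc : (w * t * w⁻¹) * (w * t * w⁻¹) = 1 := by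
      have h4 : w * t * w⁻¹ * (w * t * w⁻¹) = w * (t * t) * w⁻¹ := by
        simp only [mul_assoc, inv_mul_cancel_left]
      rw [h4, ht2, mul_one, mul_inv_cancel]
    have h1 : IsPGroup 2 ((Subgroup.closure ({t, w * t * w⁻¹} : Set G)).map (MulAut.conj g₁).toMonoidHom) :=
      (hD _ hcc).map (MulAut.conj g₁).toMonoidHom
    apply h1.to_le
    rw [Subgroup.closure_le]
    intro y hy
    rcases hy with hy | hy
    · rw [hy]
      refine ⟨t, Subgroup.subset_closure (Set.mem_insert _ _), ?_⟩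
      show (MulAut.conj g₁) t = _
      rw [MulAut.conj_apply]
    · rw [Set.mem_singleton_iff] at hy
      rw [hy]
      refine ⟨w * t * w⁻¹,
        Subgroup.subset_closure (Set.mem_insert_of_mem _ (Set.mem_singleton _)), ?_⟩
      show (MulAut.conj g₁) (w * t * w⁻¹) = _
      rw [MulAut.conj_apply, hg2]
      simp only [mul_assoc, mul_inv_rev]
  have hp := Cfsg.Agent.Lib.Lead.baer_suzuki_elt K hKn hK2
  exact hO _ (Cfsg.Agent.Lib.Lead.closure_normal_of_conj_invariant K hKn) hp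
    (Subgroup.subset_closure ⟨1, by group⟩)

end Cfsg.Agent.S0200
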