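import Cfsg.Statements.S0203
import Mathlib
import Cfsg.Agent.Lib.Lead.Klein
-- import your own Cfsg.Agent.* helpers here

set_option autoImplicit false
open Cfsg

namespace Cfsg.Agent.S0203

/-- If a Sylow 2-subgroup P of a finite group G is a Klein four-group, then G has three classes of involutions if and only if P has a normal complement in G. -/
theorem result {G : Type*} [Group G] [Finite G] (P : Sylow 2 G) (hP : IsKleinFour (P : Subgroup G)) : Nat.card {C : ConjClasses G // ∃ t : G, orderOf t = 2 ∧ ConjClasses.mk t = C} = 3 ↔ ∃ N : Subgroup G, N.Normal ∧ Subgroup.IsComplement' N (P : Subgroup G) := by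
  classical
  haveI : Fact (Nat.Prime 2) := ⟨Nat.prime_two⟩
  obtain ⟨a, b, ha, hb, ha1, hb1, hne, haa, hbb, hab, hcomm, hall⟩ :=
    Cfsg.Agent.Lib.Lead.klein_elts (P : Subgroup G) hP
  obtain ⟨h3, h1⟩ := Cfsg.Agent.Lib.Lead.klein_count P a b ha hb ha1 hb1 hne haa hbb hcomm hall
  have hc1 : a * b ≠ 1 := by
    intro h
    apply hne
    calc a = a * (b * b) := by rw [hbb, mul_one]
      _ = (a * b) * b := by rw [mul_assoc]
      _ = b := by rw [h, one_mul]
  constructor
  · intro hcard
    have hno : ¬ (IsConj a b ∨ IsConj a (a * b) ∨ IsConj b (a * b)) := by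
      intro h
      have := h1 h
      omega
    push Not at hno
    obtain ⟨n1, n2, n3⟩ := hno
    have key : ∀ x y : G, (x = 1 ∨ x = a ∨ x = b ∨ x = a * b) →
        (y = 1 ∨ y = a ∨ y = b ∨ y = a * b) → IsConj x y → x = y := by
      intro x y hx hy hc
      rcases hx with h | h | h | h <;> rcases hy with h' | h' | h' | h' <;>
        rw [h, h'] at hc <;> rw [h, h'] <;>
        first
          | exact absurd (isConj_one_right.mp hc) ha1
          | exact absurd (isConj_one_right.mp hc) hb1
          | exact absurd (isConj_one_right.mp hc) hc1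
          | exact absurd (isConj_one_left.mp hc) ha1
          | exact absurd (isConj_one_left.mp hc) hb1
          | exact absurd (isConj_one_left.mp hc) hc1
          | exact absurd hc n1
          | exact absurd hc.symm n1
          | exact absurd hc n2
          | exact absurd hc.symm n2
          | exact absurd hc n3
          | exact absurd hc.symm n3
    have hNC : Subgroup.normalizer (P : Set G) ≤ Subgroup.centralizer (P : Set G) := by
      intro n hn
      rw [Subgroup.mem_centralizer_iff]
      intro x hx
      have hx' : x ∈ (P : Subgroup G) := hx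
      have h5 : n * x * n⁻¹ ∈ (P : Subgroup G) := (Subgroup.mem_normalizer_iff.mp hn x).mp hx'
      have h6 := key x _ (hall x hx') (hall _ h5) (isConj_iff.mpr ⟨n, rfl⟩)
      calc x * n = (n * x * n⁻¹) * n := by rw [← h6]
        _ = n * x := by group
    exact ⟨(MonoidHom.transferSylow P hNC).ker, inferInstance,
      MonoidHom.ker_transferSylow_isComplement' P hNC⟩
  · rintro ⟨N, hN, hc⟩
    apply h3
    have hPc : ∀ x ∈ (P : Subgroup G), ∀ y ∈ (P : Subgroup G), IsConj x y → x = y := by
      intro x hx y hy hcj
      obtain ⟨g, hg⟩ := isConj_iff.mp hcj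
      obtain ⟨⟨n, p⟩, hnp, -⟩ := hc.existsUnique g
      have hnp' : (n : G) * (p : G) = g := hnp
      have h7 : y = (n : G) * x * (n : G)⁻¹ := by
        rw [← hg, ← hnp']
        have h8 : (p : G) * x = x * (p : G) := hcomm _ p.2 x hx
        calc (n : G) * (p : G) * x * ((n : G) * (p : G))⁻¹
            = n * (p * x) * (p : G)⁻¹ * (n : G)⁻¹ := by group
          _ = n * (x * p) * (p : G)⁻¹ * (n : G)⁻¹ := by rw [h8]
          _ = n * x * (n : G)⁻¹ := by group
      have h9 : y * x⁻¹ ∈ N := by
        rw [h7]
        have h12 : (n : G) * x * (n : G)⁻¹ * x⁻¹ = n * (x * (n : G)⁻¹ * x⁻¹) := by group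
        rw [h12]
        exact N.mul_mem n.2 (hN.conj_mem _ (N.inv_mem n.2) x)
      have h10 : y * x⁻¹ ∈ (P : Subgroup G) := Subgroup.mul_mem _ hy (Subgroup.inv_mem _ hx)
      have h11 : y * x⁻¹ = 1 := Subgroup.disjoint_def.mp hc.disjoint h9 h10
      exact (mul_inv_eq_one.mp h11).symm
    have hcP : a * b ∈ (P : Subgroup G) := Subgroup.mul_mem _ ha hb
    refine ⟨fun h => hne (hPc a ha b hb h), fun h => ?_, fun h => ?_⟩
    · have h2 := hPc a ha (a * b) hcP h
      apply hb1
      have h4 : a * 1 = a * b := by rw [mul_one]; exact h2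
      exact (mul_left_cancel h4).symm
    · have h2 := hPc b hb (a * b) hcP h
      apply ha1
      have h4 : 1 * b = a * b := by rw [one_mul]; exact h2
      exact (mul_right_cancel h4).symm

end Cfsg.Agent.S0203
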