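import Cfsg.Statements.S0211
import Mathlib
import Cfsg.Agent.Lib.Lead.Dihedral
-- import your own Cfsg.Agent.* helpers here

set_option autoImplicit false
open Cfsg

namespace Cfsg.Agent.S0211

/-- Let x, y be involutions with xy of even order n and z = (xy)^(n/2). Then xz is conjugate to x by an element of the subgroup generated by x, y if and only if 4 divides n. -/
theorem result {G : Type*} [Group G] [Finite G] (x y : G) (hx : orderOf x = 2) (hy : orderOf y = 2) (heven : Even (orderOf (x * y))) : (∃ d ∈ Subgroup.closure ({x, y} : Set G), d * x * d⁻¹ = x * (x * y) ^ (orderOf (x * y) / 2)) ↔ 4 ∣ orderOf (x * y) := by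
  have hn2 : orderOf (x * y) = 2 * (orderOf (x * y) / 2) := (Nat.two_mul_div_two_of_even heven).symm
  constructor
  · rintro ⟨d, hd, hdx⟩
    obtain ⟨j, hj⟩ := Cfsg.Agent.Lib.Lead.conj_invol_of_mem_closure hx hy hd
    have h1 := Cfsg.Agent.Lib.Lead.invol_mul_zpow hx hy ((orderOf (x * y) / 2 : ℕ) : ℤ)
    rw [zpow_natCast] at h1
    have h2 : (x * y) ^ (2 * j) = (x * y) ^ (-((orderOf (x * y) / 2 : ℕ) : ℤ)) :=
      mul_right_cancel (hj.symm.trans (hdx.trans h1))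
    have h3 : (x * y) ^ (2 * j + ((orderOf (x * y) / 2 : ℕ) : ℤ)) = 1 := by
      rw [zpow_add, h2, ← zpow_add, neg_add_cancel, zpow_zero]
    have h4 : ((orderOf (x * y) : ℕ) : ℤ) ∣ 2 * j + ((orderOf (x * y) / 2 : ℕ) : ℤ) :=
      orderOf_dvd_iff_zpow_eq_one.mpr h3
    have h5 : (2 : ℤ) ∣ ((orderOf (x * y) : ℕ) : ℤ) := by exact_mod_cast heven.two_dvd
    have h6 := dvd_trans h5 h4
    omega
  · intro h4
    obtain ⟨c, hc⟩ := h4
    refine ⟨(x * y) ^ (c : ℤ), Cfsg.Agent.Lib.Lead.zpow_mem_closure_pair x y c, ?_⟩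
    have h1 : (x * y) ^ (c : ℤ) * x * ((x * y) ^ (c : ℤ))⁻¹ = (x * y) ^ (2 * (c : ℤ)) * x := by
      rw [mul_assoc, ← zpow_neg, Cfsg.Agent.Lib.Lead.invol_mul_zpow hx hy, neg_neg, ← mul_assoc, ← zpow_add, two_mul]
    have h2 : orderOf (x * y) / 2 = 2 * c := by omega
    rw [h1, h2]
    have h3 := Cfsg.Agent.Lib.Lead.invol_mul_zpow hx hy ((2 * c : ℕ) : ℤ)
    rw [zpow_natCast] at h3
    rw [h3]
    congr 1
    have h5 : (x * y) ^ ((4 * c : ℕ) : ℤ) = 1 := by rw [zpow_natCast, ← hc, pow_orderOf_eq_one]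
    have h6 : (2 * (c : ℤ)) = ((4 * c : ℕ) : ℤ) + (-((2 * c : ℕ) : ℤ)) := by push_cast; ring
    rw [h6, zpow_add, h5, one_mul]

end Cfsg.Agent.S0211
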