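import Cfsg.Statements.S0212
import Mathlib
import Cfsg.Agent.Lib.Lead.Invol2
import Cfsg.Agent.Lib.Lead.BF1
-- import your own Cfsg.Agent.* helpers here

set_option autoImplicit false
open Cfsg

namespace Cfsg.Agent.S0212

/-- The Brauer–Fowler bound: if G is a finite simple group and t an involution of G whose centralizer has order n, then |G| ≤ (2n^2)!. -/
theorem result {G : Type*} [Group G] [Finite G] [IsSimpleGroup G] (t : G) (ht : orderOf t = 2) : Nat.card G ≤ Nat.factorial (2 * (Nat.card (Subgroup.centralizer ({t} : Set G))) ^ 2) := by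
  classical
  obtain ⟨n, hn⟩ : ∃ n : ℕ, n = Nat.card (Subgroup.centralizer ({t} : Set G)) := ⟨_, rfl⟩
  rw [← hn]
  by_cases hA : Nat.card G ≤ 2 * n ^ 2
  · exact le_trans hA (Nat.self_le_factorial _)
  push Not at hA
  by_contra hbig
  push Not at hbig
  have hnpos : 0 < n := by rw [hn]; exact Nat.card_pos
  have hcenter : Subgroup.center G = ⊥ := by
    rcases IsSimpleGroup.eq_bot_or_eq_top_of_normal (Subgroup.center G) inferInstance with h | h
    · exact h
    · exfalso
      have h1 : Subgroup.centralizer ({t} : Set G) = ⊤ := by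
        rw [eq_top_iff]
        intro x _
        rw [Subgroup.mem_centralizer_singleton_iff]
        have hx : x ∈ Subgroup.center G := by rw [h]; trivial
        exact (Subgroup.mem_center_iff.mp hx t).symm
      rw [h1, Subgroup.card_top] at hn
      rw [hn] at hA
      nlinarith [Nat.card_pos (α := G)]
  have hidx : ∀ H : Subgroup G, H ≠ ⊤ → 2 * n ^ 2 + 1 ≤ H.index := by
    intro H hH
    by_contra hlt
    push Not at hlt
    have h1 := Cfsg.Agent.Lib.Lead.simple_card_le_factorial_index H hH
    have h2 : H.index.factorial ≤ (2 * n ^ 2).factorial := Nat.factorial_le (by omega)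
    omega
  have hB : ∀ g : G, g ≠ 1 → 2 * n ^ 2 + 1 ≤ (Subgroup.centralizer ({g} : Set G)).index := by
    intro g hg
    apply hidx
    intro htop
    apply hg
    have h0 : g ∈ Subgroup.center G := by
      rw [Subgroup.mem_center_iff]
      intro x
      have hx : x ∈ Subgroup.centralizer ({g} : Set G) := by rw [htop]; trivial
      exact Subgroup.mem_centralizer_singleton_iff.mp hx
    rw [hcenter, Subgroup.mem_bot] at h0
    exact h0
  have h1 := Cfsg.Agent.Lib.Lead.class_eq_lower (G := G) (2 * n ^ 2 + 1) hB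
  have h2 := Cfsg.Agent.Lib.Lead.invol_sq_le_classes_mul_card (G := G)
  have h3 : Nat.card G ≤ Nat.card {t : G // orderOf t = 2} * n := by
    rw [← Cfsg.Agent.Lib.Lead.card_conj_mul_card_centralizer t, ← hn]
    apply Nat.mul_le_mul_right
    apply Nat.card_le_card_of_injective (fun x : {x : G // IsConj t x} => (⟨x.1, by
      obtain ⟨g, hg⟩ := isConj_iff.mp x.2
      rw [← hg, Cfsg.Agent.Lib.Lead.orderOf_conj_eq]; exact ht⟩ : {x : G // orderOf x = 2}))
    intro a b hab
    exact Subtype.ext (congrArg (fun z : {x : G // orderOf x = 2} => z.1) hab)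
  obtain ⟨m, hm⟩ : ∃ m : ℕ, m = Nat.card {t : G // orderOf t = 2} := ⟨_, rfl⟩
  obtain ⟨k, hk⟩ : ∃ k : ℕ, k = Nat.card (ConjClasses G) := ⟨_, rfl⟩
  obtain ⟨N, hN⟩ : ∃ N : ℕ, N = Nat.card G := ⟨_, rfl⟩
  rw [← hm, ← hk, ← hN] at h2
  rw [← hk, ← hN] at h1
  rw [← hm, ← hN] at h3
  rw [← hN] at hA
  have h5 : N < k * n ^ 2 := by
    by_contra hle
    push Not at hle
    have h6 : (m + 1) ^ 2 * n ^ 2 ≤ k * N * n ^ 2 := Nat.mul_le_mul_right _ h2
    have h7 : N * N ≤ m * n * (m * n) := Nat.mul_le_mul h3 h3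
    have h8 : k * N * n ^ 2 ≤ N * N := by
      calc k * N * n ^ 2 = N * (k * n ^ 2) := by ring
        _ ≤ N * N := Nat.mul_le_mul_left _ hle
    have h9 : m * n * (m * n) < (m + 1) ^ 2 * n ^ 2 := by
      have h11 : 0 < n ^ 2 := by positivity
      nlinarith
    omega
  have h10 : k * (2 * n ^ 2 + 1) = 2 * (k * n ^ 2) + k := by ring
  omega

end Cfsg.Agent.S0212
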