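import Cfsg.Statements.S0216
import Mathlib
import Cfsg.Agent.Lib.Lead.Invol2
import Cfsg.Agent.S0208
import Cfsg.Agent.S0209
import Cfsg.Agent.S0211
-- import your own Cfsg.Agent.* helpers here

set_option autoImplicit false
open Cfsg

namespace Cfsg.Agent.S0216

/-- For an involution u in a Sylow 2-subgroup P of a finite group G, the following are equivalent: no G-conjugate of u other than u lies in P; every commutator of u with an element of G has odd order. -/
theorem result {G : Type*} [Group G] [Finite G] (P : Sylow 2 G) (u : G) (hu : orderOf u = 2) (huP : u ∈ P) : (∀ g : G, g * u * g⁻¹ ∈ P → g * u * g⁻¹ = u) ↔ (∀ g : G, Odd (orderOf (u * g * u⁻¹ * g⁻¹))) := by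
  haveI : Fact (Nat.Prime 2) := ⟨Nat.prime_two⟩
  have huu := Cfsg.Agent.Lib.Lead.mul_self_of_orderOf_eq_two hu
  have hui := Cfsg.Agent.Lib.Lead.inv_eq_self_of_orderOf_eq_two hu
  have huP' : u ∈ (P : Subgroup G) := huP
  constructor
  · intro hiso g
    have hov : orderOf (g * u * g⁻¹) = 2 := by
      rw [Cfsg.Agent.Lib.Lead.orderOf_conj_eq]; exact hu
    obtain ⟨v, hv⟩ : ∃ v : G, v = g * u * g⁻¹ := ⟨_, rfl⟩
    rw [← hv] at hov
    have heq : u * g * u⁻¹ * g⁻¹ = u * v := by rw [hv, hui]; group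
    rw [heq]
    obtain ⟨k, j, hkm, hord⟩ := Cfsg.Agent.Lib.Lead.orderOf_odd_part (u * v)
    have hinv : u * (u * v) ^ (2 * j + 1) * u⁻¹ = ((u * v) ^ (2 * j + 1))⁻¹ := by
      rw [← conj_pow, Cfsg.Agent.Lib.Lead.conj_mul_of_involutions hu hov, inv_pow]
    have hQ := Cfsg.Agent.Lib.Lead.isPGroup_sup_zpowers_of_invert u _ hu k hord hinv
    have hconj := Cfsg.Agent.Lib.Lead.invol_mul_odd_pow u v hu hov j
    have hmemQ : (((u * v) ^ j)⁻¹ * g) * u * (((u * v) ^ j)⁻¹ * g)⁻¹ ∈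
        (Subgroup.zpowers ((u * v) ^ (2 * j + 1)) ⊔ Subgroup.zpowers u : Subgroup G) := by
      have e : (((u * v) ^ j)⁻¹ * g) * u * (((u * v) ^ j)⁻¹ * g)⁻¹ = u * (u * v) ^ (2 * j + 1) := by
        rw [hconj, hv]; group
      rw [e]
      exact Subgroup.mul_mem _ (Cfsg.Agent.Lib.Lead.mem_sup_zpowers_right _ _)
        (Cfsg.Agent.Lib.Lead.mem_sup_zpowers_left _ _)
    have h5 := Cfsg.Agent.Lib.Lead.sylow_isolated_transfer P u hiso _ hQ
      (Cfsg.Agent.Lib.Lead.mem_sup_zpowers_right _ _) _ hmemQ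
    have e : (((u * v) ^ j)⁻¹ * g) * u * (((u * v) ^ j)⁻¹ * g)⁻¹ = u * (u * v) ^ (2 * j + 1) := by
      rw [hconj, hv]; group
    rw [e] at h5
    have h6 : (u * v) ^ (2 * j + 1) = 1 := by
      have h7 : u * (u * v) ^ (2 * j + 1) = u * 1 := by rw [mul_one]; exact h5
      exact mul_left_cancel h7
    rw [h6, orderOf_one] at hord
    rw [hkm, ← hord, one_mul]
    exact ⟨j, rfl⟩
  · intro h g hg
    have hmem : u * g * u⁻¹ * g⁻¹ ∈ (P : Subgroup G) := by
      have e : u * g * u⁻¹ * g⁻¹ = u * (g * u * g⁻¹)⁻¹ := by group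
      rw [e]; exact Subgroup.mul_mem _ huP' (Subgroup.inv_mem _ hg)
    obtain ⟨k, hk⟩ := (IsPGroup.iff_orderOf.mp P.2) ⟨_, hmem⟩
    rw [Subgroup.orderOf_mk] at hk
    have hodd := h g
    rw [hk] at hodd
    have hk0 : k = 0 := by
      by_contra hne
      have h2 : Even (2 ^ k) := (Nat.even_pow).mpr ⟨even_two, hne⟩
      exact (Nat.not_odd_iff_even.mpr h2) hodd
    rw [hk0, pow_zero, orderOf_eq_one_iff] at hk
    calc g * u * g⁻¹ = (u * g * u⁻¹ * g⁻¹)⁻¹ * u := by group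
      _ = u := by rw [hk, inv_one, one_mul]

end Cfsg.Agent.S0216
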