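import Cfsg.Statements.S0218
import Mathlib
import Cfsg.Agent.Lib.Lead.Invol
-- import your own Cfsg.Agent.* helpers here

set_option autoImplicit false
open Cfsg

namespace Cfsg.Agent.S0218

/-- The generalized quaternion group of order 2^(n+3) contains exactly one element of order 2. -/
theorem result (n : ℕ) : Nat.card {x : QuaternionGroup (2 ^ (n + 1)) // orderOf x = 2} = 1 := by
  have hm : 0 < 2 ^ (n + 1) := by positivity
  have : NeZero (2 ^ (n + 1)) := ⟨hm.ne'⟩
  have : NeZero (2 * 2 ^ (n + 1)) := ⟨by positivity⟩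
  have key : ∀ i : ZMod (2 * 2 ^ (n + 1)), i + i = 0 → i ≠ 0 → i = ((2 ^ (n + 1) : ℕ) : ZMod (2 * 2 ^ (n + 1))) := by
    intro i hi hi0
    have h1 : ((i.val + i.val : ℕ) : ZMod (2 * 2 ^ (n + 1))) = 0 := by
      push_cast
      rw [ZMod.natCast_zmod_val]
      exact hi
    rw [ZMod.natCast_eq_zero_iff] at h1
    have h2 : i.val < 2 * 2 ^ (n + 1) := ZMod.val_lt i
    have h3 : i.val ≠ 0 := by
      intro h
      apply hi0
      rw [← ZMod.natCast_zmod_val i, h, Nat.cast_zero]
    have h4 : i.val = 2 ^ (n + 1) := by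
      obtain ⟨c, hc⟩ := h1
      have hc1 : c < 2 := by
        by_contra hcc
        push Not at hcc
        have : 2 * 2 ^ (n + 1) * 2 ≤ 2 * 2 ^ (n + 1) * c := Nat.mul_le_mul_left _ hcc
        omega
      have hc2 : c ≠ 0 := by
        intro h
        rw [h] at hc
        omega
      have hc3 : c = 1 := by omega
      rw [hc3] at hc
      omega
    rw [← ZMod.natCast_zmod_val i, h4]
  rw [Nat.card_eq_one_iff_unique]
  constructor
  · constructor
    rintro ⟨x, hx⟩ ⟨y, hy⟩
    apply Subtype.ext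
    have aux : ∀ z : QuaternionGroup (2 ^ (n + 1)), orderOf z = 2 →
        z = QuaternionGroup.a ((2 ^ (n + 1) : ℕ) : ZMod (2 * 2 ^ (n + 1))) := by
      intro z hz
      cases z with
      | a i =>
        have h1 : QuaternionGroup.a i * QuaternionGroup.a i = (1 : QuaternionGroup (2 ^ (n + 1))) :=
          Cfsg.Agent.Lib.Lead.mul_self_of_orderOf_eq_two hz
        have h2 : QuaternionGroup.a i ≠ (1 : QuaternionGroup (2 ^ (n + 1))) :=
          Cfsg.Agent.Lib.Lead.ne_one_of_orderOf_eq_two hz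
        rw [QuaternionGroup.a_mul_a, QuaternionGroup.one_def] at h1
        rw [QuaternionGroup.one_def] at h2
        have h3 : i + i = 0 := by injection h1
        have h4 : i ≠ 0 := fun h => h2 (by rw [h])
        rw [key i h3 h4]
      | xa i =>
        rw [QuaternionGroup.orderOf_xa] at hz
        omega
    exact (aux x hx).trans (aux y hy).symm
  · refine ⟨⟨QuaternionGroup.a ((2 ^ (n + 1) : ℕ) : ZMod (2 * 2 ^ (n + 1))), ?_⟩⟩
    rw [Cfsg.Agent.Lib.Lead.orderOf_eq_two_iff_ne_one_and_mul_self]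
    constructor
    · rw [QuaternionGroup.one_def]
      intro h
      have h1 : ((2 ^ (n + 1) : ℕ) : ZMod (2 * 2 ^ (n + 1))) = 0 := by injection h
      rw [ZMod.natCast_eq_zero_iff] at h1
      have := Nat.le_of_dvd hm h1
      omega
    · rw [QuaternionGroup.a_mul_a, QuaternionGroup.one_def]
      congr 1
      have : ((2 ^ (n + 1) : ℕ) : ZMod (2 * 2 ^ (n + 1))) + ((2 ^ (n + 1) : ℕ) : ZMod (2 * 2 ^ (n + 1)))
          = ((2 * 2 ^ (n + 1) : ℕ) : ZMod (2 * 2 ^ (n + 1))) := by
        push_cast; ring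
      rw [this, ZMod.natCast_self]

end Cfsg.Agent.S0218
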