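import Cfsg.Statements.S0220
import Mathlib
import Cfsg.Agent.Lib.Lead.IndexTwo
import Cfsg.Agent.Lib.Lead.Thompson
import Cfsg.Agent.Lib.Lead.BaerSuzuki
import Cfsg.Agent.Lib.Lead.Invol2
import Cfsg.Agent.Lib.Helper1.Schmidt
import Cfsg.Agent.Lib.Helper6.CycSylow
-- import your own Cfsg.Agent.* helpers here

set_option autoImplicit false
open Cfsg

namespace Cfsg.Agent.S0220

/-- If x is an involution of a finite group G and a Sylow 2-subgroup of the centralizer of x is cyclic, then G has a subgroup of index 2; in particular G is not simple unless it has order 2. -/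
theorem result {G : Type*} [Group G] [Finite G] (x : G) (hx : orderOf x = 2) (S : Sylow 2 ↥(Subgroup.centralizer ({x} : Set G))) (hS : IsCyclic (S : Subgroup ↥(Subgroup.centralizer ({x} : Set G)))) : ∃ H : Subgroup G, H.index = 2 := by
  classical
  haveI : Fact (Nat.Prime 2) := ⟨Nat.prime_two⟩
  obtain ⟨C, hCdef⟩ : ∃ C : Subgroup G, C = Subgroup.centralizer ({x} : Set G) := ⟨_, rfl⟩
  subst hCdef
  have hxC : x ∈ Subgroup.centralizer ({x} : Set G) := by
    rw [Subgroup.mem_centralizer_iff]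
    intro y hy
    rw [Set.mem_singleton_iff] at hy
    rw [hy]
  obtain ⟨s, hs⟩ := IsCyclic.exists_generator (α := (S : Subgroup (Subgroup.centralizer ({x} : Set G))))
  obtain ⟨S', hS'⟩ : ∃ S' : Subgroup G, S' = (S : Subgroup (Subgroup.centralizer ({x} : Set G))).map
      (Subgroup.centralizer ({x} : Set G)).subtype := ⟨_, rfl⟩
  have hS'C : S' ≤ Subgroup.centralizer ({x} : Set G) := by
    rw [hS']; exact Subgroup.map_subtype_le _
  have hS'p : IsPGroup 2 S' := by rw [hS']; exact S.isPGroup'.map _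
  have hS'z : S' = Subgroup.zpowers ((s : Subgroup.centralizer ({x} : Set G)) : G) := by
    rw [hS']
    ext y
    constructor
    · rintro ⟨c, hc, rfl⟩
      obtain ⟨k, hk⟩ := Subgroup.mem_zpowers_iff.mp (hs ⟨c, hc⟩)
      refine Subgroup.mem_zpowers_iff.mpr ⟨k, ?_⟩
      have h1 := congrArg (fun t : (S : Subgroup (Subgroup.centralizer ({x} : Set G))) =>
        ((t : Subgroup.centralizer ({x} : Set G)) : G)) hk
      simpa using h1
    · intro hy
      obtain ⟨k, rfl⟩ := Subgroup.mem_zpowers_iff.mp hy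
      exact ⟨(s : Subgroup.centralizer ({x} : Set G)) ^ k, Subgroup.zpow_mem _ s.2 k, by simp⟩
  have hmax : ∀ c : G, c ∈ Subgroup.centralizer ({x} : Set G) → (∀ y ∈ S', c * y * c⁻¹ ∈ S') →
      (∃ k, orderOf c = 2 ^ k) → c ∈ S' := by
    rintro c hc hnorm ⟨k, hk⟩
    have h1 : (⟨c, hc⟩ : Subgroup.centralizer ({x} : Set G)) ∈
        (S : Subgroup (Subgroup.centralizer ({x} : Set G))) := by
      apply Cfsg.Agent.Lib.Helper6.mem_sylow_of_mem_normalizer S (k := k)
      · rw [Subgroup.orderOf_mk]; exact hk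
      · apply Cfsg.Agent.Lib.Lead.mem_normalizer_of_conj_le
        intro d hd
        have h2 := hnorm (d : G) (by rw [hS']; exact ⟨d, hd, rfl⟩)
        rw [hS'] at h2
        obtain ⟨e, he, hee⟩ := h2
        have h3 : e = ⟨c, hc⟩ * d * (⟨c, hc⟩ : Subgroup.centralizer ({x} : Set G))⁻¹ :=
          Subtype.ext (by simpa using hee)
        rw [← h3]; exact he
    rw [hS']; exact ⟨⟨c, hc⟩, h1, rfl⟩
  have hxS' : x ∈ S' := by
    apply hmax x hxC
    · intro y hy
      have h1 : x * y * x⁻¹ = y := by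
        have hyC := hS'C hy
        have h2 := (Subgroup.mem_centralizer_iff.mp hyC) x rfl
        rw [h2]; group
      rw [h1]; exact hy
    · exact ⟨1, by rw [hx, pow_one]⟩
  obtain ⟨T, hT⟩ := hS'p.exists_le_sylow
  have hTS : (T : Subgroup G) = S' := by
    by_contra hne
    have hlt : S' < (T : Subgroup G) := lt_of_le_of_ne hT (Ne.symm hne)
    obtain ⟨n, hnT, hnN, hnS⟩ := Cfsg.Agent.Lib.Helper1.nilpotent_normalizer_grow
      (T : Subgroup G) S' (T.isPGroup'.isNilpotent) hlt
    have h1 : n * x * n⁻¹ ∈ S' := (Subgroup.mem_normalizer_iff.mp hnN x).mp hxS'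
    have h2 : n * x * n⁻¹ = x := by
      rw [hS'z] at h1 hxS'
      exact Cfsg.Agent.Lib.Lead.unique_invol_zpowers _ _ _ h1 hxS'
        (by rw [Cfsg.Agent.Lib.Lead.orderOf_conj_eq]; exact hx) hx
    have hnC : n ∈ Subgroup.centralizer ({x} : Set G) := by
      rw [Subgroup.mem_centralizer_iff]
      intro y hy
      rw [Set.mem_singleton_iff] at hy
      subst hy
      calc y * n = (n * y * n⁻¹) * n := by rw [h2]
        _ = n * y := by group
    apply hnS
    apply hmax n hnC (fun y hy => (Subgroup.mem_normalizer_iff.mp hnN y).mp hy)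
    obtain ⟨k, hk⟩ := (IsPGroup.iff_orderOf.mp T.isPGroup') ⟨n, hnT⟩
    exact ⟨k, by rw [← hk, Subgroup.orderOf_mk]⟩
  have hTcyc : IsCyclic (T : Subgroup G) := by
    rw [hTS, hS'z]; infer_instance
  have heven : Even (Nat.card G) := by
    have h1 := orderOf_dvd_natCard x
    rw [hx] at h1
    exact even_iff_two_dvd.mpr h1
  exact Cfsg.Agent.Lib.Lead.exists_index_two_of_cyclic_sylow heven T hTcyc

end Cfsg.Agent.S0220
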