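import Cfsg.Statements.S0228
import Mathlib
-- import your own Cfsg.Agent.* helpers here

set_option autoImplicit false
open Cfsg

namespace Cfsg.Agent.S0228

/-- A group of order 12 in which no involution is central is isomorphic to the alternating group on four letters. -/
theorem result {G : Type*} [Group G] [Finite G] (hG : Nat.card G = 12) (hz : ∀ z : G, orderOf z = 2 → z ∉ Subgroup.center G) : Nonempty (G ≃* alternatingGroup (Fin 4)) := by
  classical
  haveI : Fact (Nat.Prime 3) := ⟨Nat.prime_three⟩
  haveI : Fact (Nat.Prime 2) := ⟨Nat.prime_two⟩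
  obtain ⟨P, hPcard⟩ := Sylow.exists_subgroup_card_pow_prime (G := G) 3 (n := 1)
    (by rw [hG]; norm_num)
  rw [pow_one] at hPcard
  obtain ⟨T, hTcard⟩ := Sylow.exists_subgroup_card_pow_prime (G := G) 2 (n := 2)
    (by rw [hG]; norm_num)
  have hidx : P.index = 4 := by
    have h1 := Subgroup.card_mul_index P
    rw [hPcard, hG] at h1
    omega
  let φ : G →* Equiv.Perm (G ⧸ P) := MulAction.toPermHom G (G ⧸ P)
  have hkerle : φ.ker ≤ P := by
    have h1 : P.normalCore = φ.ker := Subgroup.normalCore_eq_ker P
    rw [← h1]; exact Subgroup.normalCore_le P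
  have hker : φ.ker = ⊥ := by
    by_contra hne
    -- then P is normal
    have hkerP : φ.ker = P := by
      apply Subgroup.eq_of_le_of_card_ge hkerle
      have h1 : Nat.card φ.ker ∣ 3 := hPcard ▸ Subgroup.card_dvd_of_le hkerle
      have h2 : Nat.card φ.ker ≠ 1 := fun h => hne (Subgroup.card_eq_one.mp h)
      rcases (Nat.dvd_prime Nat.prime_three).mp h1 with h3 | h3
      · exact absurd h3 h2
      · rw [hPcard, h3]
    have hPn : P.Normal := hkerP ▸ (inferInstance : φ.ker.Normal)
    -- generator a of P
    have hP1 : 1 < Nat.card P := by rw [hPcard]; norm_num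
    haveI : Nontrivial P := Finite.one_lt_card_iff_nontrivial.mp hP1
    obtain ⟨a', ha'⟩ := exists_ne (1 : P)
    obtain ⟨a, haP, ha1⟩ : ∃ a : G, a ∈ P ∧ a ≠ 1 := by
      refine ⟨a'.1, a'.2, ?_⟩
      intro h
      exact ha' (Subtype.ext h)
    have ha3 : a ^ 3 = 1 := by
      have h1 := pow_card_eq_one' (G := P) (x := ⟨a, haP⟩)
      rw [hPcard] at h1
      exact congrArg Subtype.val h1
    have hao : orderOf a = 3 := orderOf_eq_prime ha3 ha1
    have hPelts : ∀ x ∈ P, x = 1 ∨ x = a ∨ x = a⁻¹ := by
      have hz : Subgroup.zpowers a = P := by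
        apply Subgroup.eq_of_le_of_card_ge (Subgroup.zpowers_le.mpr haP)
        rw [Nat.card_zpowers, hao, hPcard]
      intro x hx
      rw [← hz] at hx
      obtain ⟨k, rfl⟩ := Subgroup.mem_zpowers_iff.mp hx
      have h1 : a ^ k = a ^ (k % 3) := by
        have := zpow_mod_orderOf a k
        rw [hao] at this
        exact this.symm
      have h2 : 0 ≤ k % 3 := Int.emod_nonneg k (by norm_num)
      have h3 : k % 3 < 3 := Int.emod_lt_of_pos k (by norm_num)
      have ha2 : a ^ (2 : ℤ) = a⁻¹ := by
        have h4 : a * a ^ (2 : ℤ) = 1 := by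
          have : a * a ^ (2 : ℤ) = a ^ (3 : ℕ) := by
            rw [zpow_ofNat]; rw [pow_succ' a 2]
          rw [this, ha3]
        exact eq_inv_of_mul_eq_one_right h4
      rw [h1]
      interval_cases (k % 3)
      · left; simp
      · right; left; simp
      · right; right; exact ha2
    have hconj : ∀ t : G, t * a * t⁻¹ = a ∨ t * a * t⁻¹ = a⁻¹ := by
      intro t
      rcases hPelts _ (hPn.conj_mem a haP t) with h | h | h
      · exfalso
        apply ha1
        have : a = t⁻¹ * (t * a * t⁻¹) * t := by group
        rw [this, h]; group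
      · left; exact h
      · right; exact h
    have hTab : ∀ u ∈ T, ∀ v ∈ T, u * v = v * u := by
      intro u hu v hv
      have h1 := IsPGroup.commutative_of_card_eq_prime_sq hTcard ⟨u, hu⟩ ⟨v, hv⟩
      exact congrArg Subtype.val h1
    have hT4 : ∀ t ∈ T, t ^ 4 = 1 := by
      intro t ht
      have h1 := pow_card_eq_one' (G := T) (x := ⟨t, ht⟩)
      rw [hTcard] at h1
      exact congrArg Subtype.val h1
    have hex : ∃ z ∈ T, z ≠ 1 ∧ z * z = 1 ∧ z * a * z⁻¹ = a := by
      by_cases hsq : ∃ t ∈ T, t * t ≠ 1
      · obtain ⟨t, ht, htt⟩ := hsq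
        refine ⟨t * t, T.mul_mem ht ht, htt, ?_, ?_⟩
        · have h44 := hT4 t ht
          have e4 : t * t * (t * t) = t ^ 4 := by
            simp only [pow_succ, pow_zero, one_mul, mul_assoc]
          rw [e4, h44]
        · rcases hconj t with h | h
          · calc t * t * a * (t * t)⁻¹ = t * (t * a * t⁻¹) * t⁻¹ := by group
              _ = a := by rw [h, h]
          · have h' : t * a⁻¹ * t⁻¹ = a := by
              have : t * a⁻¹ * t⁻¹ = (t * a * t⁻¹)⁻¹ := by group
              rw [this, h, inv_inv]
            calc t * t * a * (t * t)⁻¹ = t * (t * a * t⁻¹) * t⁻¹ := by group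
              _ = a := by rw [h, h']
      · push Not at hsq
        have hT1 : 1 < Nat.card T := by rw [hTcard]; norm_num
        haveI : Nontrivial T := Finite.one_lt_card_iff_nontrivial.mp hT1
        obtain ⟨u', hu'⟩ := exists_ne (1 : T)
        have hu1 : (u' : G) ≠ 1 := fun h => hu' (Subtype.ext h)
        have huu := hsq u' u'.2
        rcases hconj u' with h | h
        · exact ⟨u', u'.2, hu1, huu, h⟩
        · have huo : orderOf (u' : G) = 2 := orderOf_eq_prime (by rw [sq]; exact huu) hu1
          have hlt : Subgroup.zpowers (u' : G) < T := by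
            refine lt_of_le_of_ne (Subgroup.zpowers_le.mpr u'.2) ?_
            intro heq
            have h1 : Nat.card (Subgroup.zpowers (u' : G)) = Nat.card T := by rw [heq]
            rw [Nat.card_zpowers, huo, hTcard] at h1
            norm_num at h1
          obtain ⟨v, hvT, hvz⟩ := SetLike.exists_of_lt hlt
          have hvv := hsq v hvT
          rcases hconj v with h2 | h2
          · refine ⟨v, hvT, ?_, hvv, h2⟩
            intro hv1
            exact hvz (hv1 ▸ Subgroup.one_mem _)
          · refine ⟨u' * v, T.mul_mem u'.2 hvT, ?_, hsq _ (T.mul_mem u'.2 hvT), ?_⟩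
            · intro h1
              apply hvz
              have hv : v = (u' : G)⁻¹ := eq_inv_of_mul_eq_one_right h1
              rw [hv]
              exact Subgroup.inv_mem _ (Subgroup.mem_zpowers _)
            · have h' : (u' : G) * a⁻¹ * (u' : G)⁻¹ = a := by
                have : (u' : G) * a⁻¹ * (u' : G)⁻¹ = ((u' : G) * a * (u' : G)⁻¹)⁻¹ := by group
                rw [this, h, inv_inv]
              calc (u' : G) * v * a * ((u' : G) * v)⁻¹ = u' * (v * a * v⁻¹) * (u' : G)⁻¹ := by group
                _ = a := by rw [h2, h']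
    obtain ⟨z, hzT, hz1, hzz, hza⟩ := hex
    have hzo : orderOf z = 2 := orderOf_eq_prime (by rw [sq]; exact hzz) hz1
    apply hz z hzo
    have hza' : z * a = a * z := by
      calc z * a = (z * a * z⁻¹) * z := by group
        _ = a * z := by rw [hza]
    have hPC : P ≤ Subgroup.centralizer ({z} : Set G) := by
      intro x hx
      rw [Subgroup.mem_centralizer_iff]
      intro y hy
      rw [Set.mem_singleton_iff] at hy
      subst hy
      rcases hPelts x hx with h | h | h
      · rw [h, one_mul, mul_one]
      · rw [h]; exact hza'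
      · rw [h]
        calc y * a⁻¹ = a⁻¹ * (a * y) * a⁻¹ := by group
          _ = a⁻¹ * (y * a) * a⁻¹ := by rw [hza']
          _ = a⁻¹ * y := by group
    have hTC : T ≤ Subgroup.centralizer ({z} : Set G) := by
      intro x hx
      rw [Subgroup.mem_centralizer_iff]
      intro y hy
      rw [Set.mem_singleton_iff] at hy
      subst hy
      exact hTab y hzT x hx
    have h3 : 3 ∣ Nat.card (Subgroup.centralizer ({z} : Set G)) := hPcard ▸ Subgroup.card_dvd_of_le hPC
    have h4 : 4 ∣ Nat.card (Subgroup.centralizer ({z} : Set G)) := by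
      have := Subgroup.card_dvd_of_le hTC
      rw [hTcard] at this
      exact this
    have h12 : 12 ∣ Nat.card (Subgroup.centralizer ({z} : Set G)) :=
      Nat.Coprime.mul_dvd_of_dvd_of_dvd (by norm_num : Nat.Coprime 4 3) h4 h3
    have htop : Subgroup.centralizer ({z} : Set G) = ⊤ := by
      apply Subgroup.eq_top_of_card_eq
      apply le_antisymm (Subgroup.card_le_card_group _)
      rw [hG]
      exact Nat.le_of_dvd Nat.card_pos h12
    rw [Subgroup.mem_center_iff]
    intro g
    have hg : g ∈ Subgroup.centralizer ({z} : Set G) := htop ▸ Subgroup.mem_top g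
    exact ((Subgroup.mem_centralizer_iff.mp hg) z rfl).symm
  have hφinj : Function.Injective φ := (MonoidHom.ker_eq_bot_iff φ).mp hker
  have hcardq : Nat.card (G ⧸ P) = 4 := hidx
  let e : (G ⧸ P) ≃ Fin 4 := (Finite.equivFin (G ⧸ P)).trans (finCongr hcardq)
  let ψ : G →* Equiv.Perm (Fin 4) := (e.permCongrHom).toMonoidHom.comp φ
  have hψinj : Function.Injective ψ := by
    intro a b hab
    apply hφinj
    exact e.permCongrHom.injective hab
  have hRcard : Nat.card ψ.range = Nat.card G :=
    (Nat.card_congr (MonoidHom.ofInjective hψinj).toEquiv).symm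
  have hperm : Nat.card (Equiv.Perm (Fin 4)) = 24 := by
    rw [Nat.card_perm, Nat.card_fin]; rfl
  have hRidx : ψ.range.index = 2 := by
    have h1 := Subgroup.card_mul_index ψ.range
    rw [hRcard, hperm, hG] at h1
    omega
  have hR : ψ.range = alternatingGroup (Fin 4) :=
    Equiv.Perm.eq_alternatingGroup_of_index_eq_two hRidx
  exact ⟨(MonoidHom.ofInjective hψinj).trans (MulEquiv.subgroupCongr hR)⟩

end Cfsg.Agent.S0228
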