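import Cfsg.Statements.S0229
import Mathlib
import Cfsg.Agent.Lib.Lead.Invol2
import Cfsg.Agent.S0208
import Cfsg.Agent.S0209
import Cfsg.Agent.S0211
-- import your own Cfsg.Agent.* helpers here

set_option autoImplicit false
open Cfsg

namespace Cfsg.Agent.S0229

/-- Let t be an involution of a Sylow 2-subgroup S of a finite group G, conjugate in G to no other element of S, and let s be an involution of G not conjugate to t. Then the order of st is twice an odd number. -/
theorem result {G : Type*} [Group G] [Finite G] (S : Sylow 2 G) (t : G) (ht : orderOf t = 2) (htS : t ∈ S) (hiso : ∀ g : G, g * t * g⁻¹ ∈ S → g * t * g⁻¹ = t) (s : G) (hs : orderOf s = 2) (hns : ¬ IsConj s t) : orderOf (s * t) % 4 = 2 := by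
  haveI : Fact (Nat.Prime 2) := ⟨Nat.prime_two⟩
  have htt := Cfsg.Agent.Lib.Lead.mul_self_of_orderOf_eq_two ht
  have hti := Cfsg.Agent.Lib.Lead.inv_eq_self_of_orderOf_eq_two ht
  have hord : orderOf (s * t) = orderOf (t * s) := by
    have e : s * t = t⁻¹ * (t * s) * t⁻¹⁻¹ := by group
    rw [e, Cfsg.Agent.Lib.Lead.orderOf_conj_eq]
  rcases Nat.even_or_odd (orderOf (s * t)) with heven | hodd
  · have hnot4 : ¬ 4 ∣ orderOf (s * t) := by
      intro h4
      rw [hord] at h4 heven
      obtain ⟨d, hd, hdt⟩ := (Cfsg.Agent.S0211.result t s ht hs heven).mpr h4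
      obtain ⟨hz2, hzt, hzs⟩ := Cfsg.Agent.S0209.result t s ht hs heven
      obtain ⟨z, hz⟩ : ∃ z : G, z = (t * s) ^ (orderOf (t * s) / 2) := ⟨_, rfl⟩
      rw [← hz] at hz2 hzt hzs hdt
      have hzi := Cfsg.Agent.Lib.Lead.inv_eq_self_of_orderOf_eq_two hz2
      have hinv : t * z * t⁻¹ = z⁻¹ := by
        rw [hzi, ← hzt.eq, mul_inv_cancel_right]
      have hQ := Cfsg.Agent.Lib.Lead.isPGroup_sup_zpowers_of_invert t z ht 1 (by rw [hz2, pow_one]) hinv
      have hmemQ : d * t * d⁻¹ ∈ (Subgroup.zpowers z ⊔ Subgroup.zpowers t : Subgroup G) := by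
        rw [hdt]
        exact Subgroup.mul_mem _ (Cfsg.Agent.Lib.Lead.mem_sup_zpowers_right _ _)
          (Cfsg.Agent.Lib.Lead.mem_sup_zpowers_left _ _)
      have h5 := Cfsg.Agent.Lib.Lead.sylow_isolated_transfer S t hiso _ hQ
        (Cfsg.Agent.Lib.Lead.mem_sup_zpowers_right _ _) _ hmemQ
      rw [hdt] at h5
      have h6 : z = 1 := by
        have h7 : t * z = t * 1 := by rw [mul_one]; exact h5
        exact mul_left_cancel h7
      rw [h6, orderOf_one] at hz2
      omega
    obtain ⟨r, hr⟩ := heven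
    omega
  · exfalso
    obtain ⟨d, -, hd⟩ := Cfsg.Agent.S0208.result s t hs ht hodd
    exact hns (isConj_iff.mpr ⟨d, hd⟩)

end Cfsg.Agent.S0229
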