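import Cfsg.Statements.S0230
import Mathlib
import Cfsg.Agent.Lib.Lead.Invol2
import Cfsg.Agent.Lib.Lead.Char4
import Cfsg.Agent.S0208
import Cfsg.Agent.S0209
-- import your own Cfsg.Agent.* helpers here

set_option autoImplicit false
open Cfsg

namespace Cfsg.Agent.S0230

/-- Let G be a finite group with two non-conjugate involutions, and let t be an involution whose centralizer has maximal order among centralizers of involutions. Then |G| < |C_G(t)|^3. -/
theorem result {G : Type*} [Group G] [Finite G] (s t : G) (hs : orderOf s = 2) (ht : orderOf t = 2) (hnc : ¬ IsConj s t) (hmax : ∀ u : G, orderOf u = 2 → Nat.card (Subgroup.centralizer ({u} : Set G)) ≤ Nat.card (Subgroup.centralizer ({t} : Set G))) : Nat.card G < Nat.card (Subgroup.centralizer ({t} : Set G)) ^ 3 := by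
  classical
  haveI : Fintype G := Fintype.ofFinite G
  obtain ⟨ct, hct⟩ : ∃ ct : ℕ, ct = Nat.card (Subgroup.centralizer ({t} : Set G)) := ⟨_, rfl⟩
  rw [← hct]
  let K : Finset G := Finset.univ.filter (fun x => IsConj t x)
  let Z : Finset G := Finset.univ.filter (fun z => orderOf z = 2 ∧ z * s = s * z)
  let C : G → Finset G := fun z => Finset.univ.filter (fun x => x * z = z * x)
  have hsub : K ⊆ Z.biUnion C := by
    intro x hx
    have hxt : IsConj t x := (Finset.mem_filter.mp hx).2
    obtain ⟨g, hg⟩ := isConj_iff.mp hxt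
    have hox : orderOf x = 2 := by rw [← hg, Cfsg.Agent.Lib.Lead.orderOf_conj_eq]; exact ht
    have heven : Even (orderOf (s * x)) := by
      by_contra hodd
      rw [Nat.not_even_iff_odd] at hodd
      obtain ⟨d, -, hd⟩ := Cfsg.Agent.S0208.result s x hs hox hodd
      exact hnc ((isConj_iff.mpr ⟨d, hd⟩).trans hxt.symm)
    obtain ⟨hz2, hzs, hzx⟩ := Cfsg.Agent.S0209.result s x hs hox heven
    rw [Finset.mem_biUnion]
    refine ⟨(s * x) ^ (orderOf (s * x) / 2), ?_, ?_⟩
    · exact Finset.mem_filter.mpr ⟨Finset.mem_univ _, hz2, hzs.eq⟩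
    · exact Finset.mem_filter.mpr ⟨Finset.mem_univ _, hzx.eq.symm⟩
  have hcardK : K.card * ct = Nat.card G := by
    rw [← Cfsg.Agent.Lib.Lead.card_conj_mul_card_centralizer t, hct]
    congr 1
    rw [Nat.card_eq_fintype_card, Fintype.card_subtype]
  have hcardC : ∀ z : G, (C z).card = Nat.card (Subgroup.centralizer ({z} : Set G)) := by
    intro z
    have h1 : (C z).card = Nat.card {x : G // x * z = z * x} := by
      rw [Nat.card_eq_fintype_card, Fintype.card_subtype]
    rw [h1]
    exact Nat.card_congr (Equiv.subtypeEquivRight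
      (fun x => (Subgroup.mem_centralizer_singleton_iff).symm))
  have hZ : Z.card < (C s).card := by
    apply Finset.card_lt_card
    rw [Finset.ssubset_iff_of_subset]
    · refine ⟨1, Finset.mem_filter.mpr ⟨Finset.mem_univ _, by simp⟩, ?_⟩
      intro h1
      have h2 := (Finset.mem_filter.mp h1).2.1
      rw [orderOf_one] at h2
      omega
    · intro z hz
      exact Finset.mem_filter.mpr ⟨Finset.mem_univ _, (Finset.mem_filter.mp hz).2.2⟩
  have hcs : (C s).card ≤ ct := by rw [hcardC, hct]; exact hmax s hs
  have h1 : K.card ≤ Z.card * ct := by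
    calc K.card ≤ (Z.biUnion C).card := Finset.card_le_card hsub
      _ ≤ ∑ z ∈ Z, (C z).card := Finset.card_biUnion_le
      _ ≤ Z.card • ct := by
          apply Finset.sum_le_card_nsmul
          intro z hz
          rw [hcardC, hct]
          exact hmax z (Finset.mem_filter.mp hz).2.1
      _ = Z.card * ct := by rw [smul_eq_mul]
  have h4 : 0 < ct := by rw [hct]; exact Nat.card_pos
  calc Nat.card G = K.card * ct := hcardK.symm
    _ ≤ (Z.card * ct) * ct := Nat.mul_le_mul_right _ h1
    _ < (ct * ct) * ct := by
        apply Nat.mul_lt_mul_of_pos_right _ h4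
        exact Nat.mul_lt_mul_of_pos_right (by omega) h4
    _ = ct ^ 3 := by ring

end Cfsg.Agent.S0230
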