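import Cfsg.Statements.S0231
import Mathlib
import Cfsg.Agent.Lib.Lead.Invol2
import Cfsg.Agent.Lib.Lead.Char4
import Cfsg.Agent.S0208
import Cfsg.Agent.S0209
-- import your own Cfsg.Agent.* helpers here

set_option autoImplicit false
open scoped Pointwise
open Cfsg

namespace Cfsg.Agent.S0231

/-- Let T be a Sylow 2-subgroup of the finite group G which is not normal and which intersects every other Sylow 2-subgroup trivially. Then G has a single conjugacy class of involutions. -/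
theorem result {G : Type*} [Group G] [Finite G] (T : Sylow 2 G) (hnn : ¬ (T : Subgroup G).Normal) (hTI : ∀ g : G, MulAut.conj g • (T : Subgroup G) ≠ T → MulAut.conj g • (T : Subgroup G) ⊓ T = ⊥) (s t : G) (hs : orderOf s = 2) (ht : orderOf t = 2) : IsConj s t := by
  haveI : Fact (Nat.Prime 2) := ⟨Nat.prime_two⟩
  have hTI' : ∀ g : G, ∀ x ∈ (T : Subgroup G), x ≠ 1 → g * x * g⁻¹ ∈ (T : Subgroup G) →
      ∀ y ∈ (T : Subgroup G), g * y * g⁻¹ ∈ (T : Subgroup G) := by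
    intro g x hx hx1 hgx y hy
    by_cases hne : MulAut.conj g • (T : Subgroup G) = T
    · rw [← hne]
      have h2 := Subgroup.smul_mem_pointwise_smul y (MulAut.conj g) (T : Subgroup G) hy
      simpa [MulAut.smul_def] using h2
    · exfalso
      have h1 := hTI g hne
      have h2 : g * x * g⁻¹ ∈ MulAut.conj g • (T : Subgroup G) := by
        have h2 := Subgroup.smul_mem_pointwise_smul x (MulAut.conj g) (T : Subgroup G) hx
        simpa [MulAut.smul_def] using h2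
      have h3 : g * x * g⁻¹ ∈ (MulAut.conj g • (T : Subgroup G) ⊓ T : Subgroup G) := ⟨h2, hgx⟩
      rw [h1, Subgroup.mem_bot] at h3
      apply hx1
      calc x = g⁻¹ * (g * x * g⁻¹) * g := by group
        _ = 1 := by rw [h3]; group
  have hB : ∀ a b : G, orderOf a = 2 → orderOf b = 2 → Commute a b → ∀ g : G,
      g * a * g⁻¹ ∈ (T : Subgroup G) → g * b * g⁻¹ ∈ (T : Subgroup G) := by
    intro a b ha hb hab g hga
    have hbi := Cfsg.Agent.Lib.Lead.inv_eq_self_of_orderOf_eq_two hb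
    have hinv : a * b * a⁻¹ = b⁻¹ := by rw [hbi, hab.eq, mul_inv_cancel_right]
    have hQ := Cfsg.Agent.Lib.Lead.isPGroup_sup_zpowers_of_invert a b ha 1 (by rw [hb, pow_one]) hinv
    obtain ⟨h, key⟩ := Cfsg.Agent.Lib.Lead.exists_conj_into_sylow T _ hQ
    have ha' := key a (Cfsg.Agent.Lib.Lead.mem_sup_zpowers_right _ _)
    have hb' := key b (Cfsg.Agent.Lib.Lead.mem_sup_zpowers_left _ _)
    have ha1 : h * a * h⁻¹ ≠ 1 := by
      intro h0
      have h7 : orderOf (h * a * h⁻¹) = 2 := by rw [Cfsg.Agent.Lib.Lead.orderOf_conj_eq]; exact ha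
      rw [h0, orderOf_one] at h7; omega
    have e1 : (g * h⁻¹) * (h * a * h⁻¹) * (g * h⁻¹)⁻¹ = g * a * g⁻¹ := by group
    have h5 := hTI' (g * h⁻¹) _ ha' ha1 (by rw [e1]; exact hga) _ hb'
    have e2 : (g * h⁻¹) * (h * b * h⁻¹) * (g * h⁻¹)⁻¹ = g * b * g⁻¹ := by group
    rwa [e2] at h5
  have hC : ∀ a b : G, orderOf a = 2 → orderOf b = 2 → ¬ IsConj a b → ∀ g : G,
      g * a * g⁻¹ ∈ (T : Subgroup G) → g * b * g⁻¹ ∈ (T : Subgroup G) := by
    intro a b ha hb hnc g hga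
    have heven : Even (orderOf (a * b)) := by
      by_contra hodd
      rw [Nat.not_even_iff_odd] at hodd
      obtain ⟨d, -, hd⟩ := Cfsg.Agent.S0208.result a b ha hb hodd
      exact hnc (isConj_iff.mpr ⟨d, hd⟩)
    obtain ⟨hz2, hza, hzb⟩ := Cfsg.Agent.S0209.result a b ha hb heven
    have h1 := hB a _ ha hz2 hza.symm g hga
    exact hB _ b hz2 hb hzb g h1
  by_contra hnc
  have hex : ∃ g₀ : G, ∃ y ∈ (T : Subgroup G), g₀ * y * g₀⁻¹ ∉ (T : Subgroup G) := by
    by_contra hcon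
    push Not at hcon
    exact hnn ⟨fun n hn g => hcon g n hn⟩
  obtain ⟨g₀, y, hy, hgy⟩ := hex
  have hpg : IsPGroup 2 (Subgroup.zpowers s) :=
    IsPGroup.of_card (n := 1) (by rw [Nat.card_zpowers, hs, pow_one])
  obtain ⟨g, key⟩ := Cfsg.Agent.Lib.Lead.exists_conj_into_sylow T _ hpg
  have hgs : g * s * g⁻¹ ∈ (T : Subgroup G) := key s (Subgroup.mem_zpowers s)
  have hgt := hC s t hs ht hnc g hgs
  have hos' : orderOf (g * s * g⁻¹) = 2 := by rw [Cfsg.Agent.Lib.Lead.orderOf_conj_eq]; exact hs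
  have hot' : orderOf (g * t * g⁻¹) = 2 := by rw [Cfsg.Agent.Lib.Lead.orderOf_conj_eq]; exact ht
  have hos'' : orderOf (g₀ * (g * s * g⁻¹) * g₀⁻¹) = 2 := by
    rw [Cfsg.Agent.Lib.Lead.orderOf_conj_eq]; exact hos'
  have hnc' : ¬ IsConj (g * t * g⁻¹) (g₀ * (g * s * g⁻¹) * g₀⁻¹) := by
    intro hc
    apply hnc
    have h1 : IsConj t (g * t * g⁻¹) := isConj_iff.mpr ⟨g, rfl⟩
    have h2 : IsConj s (g₀ * (g * s * g⁻¹) * g₀⁻¹) := isConj_iff.mpr ⟨g₀ * g, by group⟩
    exact h2.trans (hc.symm.trans h1.symm)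
  have h5 := hC _ _ hot' hos'' hnc' 1 (by simpa using hgt)
  have h6 : g₀ * (g * s * g⁻¹) * g₀⁻¹ ∈ (T : Subgroup G) := by simpa using h5
  have hs1 : g * s * g⁻¹ ≠ 1 := by
    intro h0; rw [h0, orderOf_one] at hos'; omega
  exact hgy (hTI' g₀ _ hgs hs1 h6 y hy)

end Cfsg.Agent.S0231
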