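import Cfsg.Statements.S0234
import Mathlib
import Cfsg.Agent.Lib.Lead.BF2
-- import your own Cfsg.Agent.* helpers here

set_option autoImplicit false
open Cfsg

namespace Cfsg.Agent.S0234

/-- In a finite simple group G of even order greater than 2, the number n of involutions satisfies 3n < |G|. -/
theorem result {G : Type*} [Group G] [Finite G] [IsSimpleGroup G] (heven : Even (Nat.card G)) (hgt : 2 < Nat.card G) : 3 * Nat.card {t : G // orderOf t = 2} < Nat.card G := by
  classical
  haveI : Fintype (Cfsg.IrrCharacter G) := Fintype.ofFinite _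
  have hna : ∃ a b : G, a * b ≠ b * a := by
    by_contra hcon
    push Not at hcon
    letI : CommGroup G := { ‹Group G› with mul_comm := hcon }
    have hp := IsSimpleGroup.prime_card (α := G)
    have h2 := (Nat.Prime.even_iff hp).mp heven
    omega
  have h1 := Cfsg.Agent.Lib.Lead.invol_add_one_le_sum_deg (G := G)
  have h2 := Cfsg.Agent.Lib.Lead.sum_deg_sq_nat (G := G)
  have h3 : ∀ χ : Cfsg.IrrCharacter G, 3 * Cfsg.charDegree χ.1 ≤
      (Cfsg.charDegree χ.1) ^ 2 + (if χ = Cfsg.Agent.Lib.Lead.irrOne G then 2 else 0) := by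
    intro χ
    by_cases hχ : χ = Cfsg.Agent.Lib.Lead.irrOne G
    · rw [if_pos hχ, hχ]
      have h5 : Cfsg.charDegree (Cfsg.Agent.Lib.Lead.irrOne G).1 = 1 := by
        have h6 := (Cfsg.Agent.Lib.Helper7.DZ.charDegree_spec (Cfsg.Agent.Lib.Lead.irrOne G)).2.1
        have h7 : ((Cfsg.Agent.Lib.Lead.irrOne G).1 1 : ℂ) = 1 := rfl
        rw [h7] at h6
        exact_mod_cast h6.symm
      rw [h5]; norm_num
    · rw [if_neg hχ, add_zero]
      have h8 := Cfsg.Agent.Lib.Lead.simple_deg_ge_three hna χ hχ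
      nlinarith
  have h4 : 3 * ∑ χ : Cfsg.IrrCharacter G, Cfsg.charDegree χ.1 ≤ Nat.card G + 2 := by
    rw [Finset.mul_sum, ← h2]
    calc ∑ χ : Cfsg.IrrCharacter G, 3 * Cfsg.charDegree χ.1
        ≤ ∑ χ : Cfsg.IrrCharacter G, ((Cfsg.charDegree χ.1) ^ 2 +
            (if χ = Cfsg.Agent.Lib.Lead.irrOne G then 2 else 0)) :=
          Finset.sum_le_sum (fun χ _ => h3 χ)
      _ = ∑ χ : Cfsg.IrrCharacter G, (Cfsg.charDegree χ.1) ^ 2 + 2 := by
          rw [Finset.sum_add_distrib]
          congr 1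
          simp
  omega

end Cfsg.Agent.S0234
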