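import Cfsg.Statements.S0235
import Mathlib
import Cfsg.Agent.Lib.Lead.Invol
-- import your own Cfsg.Agent.* helpers here

set_option autoImplicit false
open Cfsg

namespace Cfsg.Agent.S0235

/-- If x² ≠ 1, the ordered pairs (u, v) of involutions with uv = x correspond bijectively to the involutions t with t x t⁻¹ = x⁻¹ (via (u, v) ↦ u), so the two counts agree. -/
theorem result {G : Type*} [Group G] [Finite G] (x : G) (hx : x ^ 2 ≠ 1) : Nat.card {p : G × G // orderOf p.1 = 2 ∧ orderOf p.2 = 2 ∧ p.1 * p.2 = x} = Nat.card {t : G // orderOf t = 2 ∧ t * x * t⁻¹ = x⁻¹} := by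
  apply Nat.card_congr
  refine ⟨fun p => ⟨p.1.1, p.2.1, ?_⟩, fun t => ⟨(t.1, t.1 * x), t.2.1, ?_, ?_⟩, ?_, ?_⟩
  · obtain ⟨⟨u, v⟩, hu, hv, huv⟩ := p
    simp only at huv hu hv
    show u * x * u⁻¹ = x⁻¹
    rw [← huv]
    exact Cfsg.Agent.Lib.Lead.conj_mul_of_involutions hu hv
  · obtain ⟨t, ht, htx⟩ := t
    show orderOf (t * x) = 2
    rw [Cfsg.Agent.Lib.Lead.orderOf_eq_two_iff_ne_one_and_mul_self]
    have hti := Cfsg.Agent.Lib.Lead.inv_eq_self_of_orderOf_eq_two ht
    have ht' := Cfsg.Agent.Lib.Lead.mul_self_of_orderOf_eq_two ht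
    rw [hti] at htx
    constructor
    · intro h1
      have h2 : x = t := by
        have h3 := eq_inv_of_mul_eq_one_right h1
        rw [h3, hti]
      apply hx
      rw [h2, pow_two, ht']
    · calc t * x * (t * x) = (t * x * t) * x := by group
        _ = 1 := by rw [htx, inv_mul_cancel]
  · obtain ⟨t, ht, htx⟩ := t
    show t * (t * x) = x
    rw [← mul_assoc, Cfsg.Agent.Lib.Lead.mul_self_of_orderOf_eq_two ht, one_mul]
  · rintro ⟨⟨u, v⟩, hu, hv, huv⟩
    simp only at huv hu hv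
    apply Subtype.ext
    apply Prod.ext
    · rfl
    · show u * x = v
      rw [← huv, ← mul_assoc, Cfsg.Agent.Lib.Lead.mul_self_of_orderOf_eq_two hu, one_mul]
  · rintro ⟨t, ht, htx⟩
    rfl

end Cfsg.Agent.S0235
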