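import Cfsg.Statements.S0236
import Mathlib
import Cfsg.Agent.Lib.Lead.Invol
-- import your own Cfsg.Agent.* helpers here

set_option autoImplicit false
open Cfsg

namespace Cfsg.Agent.S0236

/-- If x is an involution, the number of ordered pairs (u, v) of involutions with uv = x, plus one, equals the number of involutions in the centralizer of x. -/
theorem result {G : Type*} [Group G] [Finite G] (x : G) (hx : orderOf x = 2) : Nat.card {p : G × G // orderOf p.1 = 2 ∧ orderOf p.2 = 2 ∧ p.1 * p.2 = x} + 1 = Nat.card {t : G // orderOf t = 2 ∧ Commute t x} := by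
  have hx1 := Cfsg.Agent.Lib.Lead.ne_one_of_orderOf_eq_two hx
  have hxx := Cfsg.Agent.Lib.Lead.mul_self_of_orderOf_eq_two hx
  rw [← Cfsg.Agent.Lib.Lead.card_subtype_and_ne_add_one (fun t : G => orderOf t = 2 ∧ Commute t x) x ⟨hx, Commute.refl x⟩]
  congr 1
  apply Nat.card_congr
  refine ⟨fun p => ⟨p.1.1, ⟨p.2.1, ?_⟩, ?_⟩, fun t => ⟨(t.1, t.1 * x), t.2.1.1, ?_, ?_⟩, ?_, ?_⟩
  · obtain ⟨⟨u, v⟩, hu, hv, huv⟩ := p
    simp only at huv hu hv
    show Commute u x
    have h1 := Cfsg.Agent.Lib.Lead.conj_mul_of_involutions hu hv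
    rw [huv, Cfsg.Agent.Lib.Lead.inv_eq_self_of_orderOf_eq_two hx] at h1
    exact mul_inv_eq_iff_eq_mul.mp h1
  · obtain ⟨⟨u, v⟩, hu, hv, huv⟩ := p
    simp only at huv hu hv
    show u ≠ x
    intro h
    rw [← huv] at h
    have : v = 1 := by simpa using h.symm
    exact Cfsg.Agent.Lib.Lead.ne_one_of_orderOf_eq_two hv this
  · obtain ⟨t, ⟨ht, htx⟩, hne⟩ := t
    show orderOf (t * x) = 2
    rw [Cfsg.Agent.Lib.Lead.orderOf_eq_two_iff_ne_one_and_mul_self]
    have hti := Cfsg.Agent.Lib.Lead.inv_eq_self_of_orderOf_eq_two ht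
    have ht' := Cfsg.Agent.Lib.Lead.mul_self_of_orderOf_eq_two ht
    constructor
    · intro h1
      have h3 := eq_inv_of_mul_eq_one_right h1
      rw [hti] at h3
      exact hne h3.symm
    · calc t * x * (t * x) = t * (x * t) * x := by group
        _ = t * (t * x) * x := by rw [htx.eq]
        _ = (t * t) * (x * x) := by group
        _ = 1 := by rw [ht', hxx, one_mul]
  · obtain ⟨t, ⟨ht, htx⟩, hne⟩ := t
    show t * (t * x) = x
    rw [← mul_assoc, Cfsg.Agent.Lib.Lead.mul_self_of_orderOf_eq_two ht, one_mul]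
  · rintro ⟨⟨u, v⟩, hu, hv, huv⟩
    simp only at huv hu hv
    apply Subtype.ext
    apply Prod.ext
    · rfl
    · show u * x = v
      rw [← huv, ← mul_assoc, Cfsg.Agent.Lib.Lead.mul_self_of_orderOf_eq_two hu, one_mul]
  · rintro ⟨t, ⟨ht, htx⟩, hne⟩
    rfl

end Cfsg.Agent.S0236
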