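import Cfsg.Statements.S0237
import Mathlib
-- import your own Cfsg.Agent.* helpers here

set_option autoImplicit false
open Cfsg

namespace Cfsg.Agent.S0237

/-- If x is real (conjugate to x⁻¹) in a finite group G, the number of g with g x g⁻¹ = x⁻¹ equals |C_G(x)|. -/
theorem result {G : Type*} [Group G] [Finite G] (x : G) (hreal : IsConj x x⁻¹) : Nat.card {g : G // g * x * g⁻¹ = x⁻¹} = Nat.card (Subgroup.centralizer ({x} : Set G)) := by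
  obtain ⟨g₀, hg₀⟩ := isConj_iff.mp hreal
  apply Nat.card_congr
  refine ⟨fun g => ⟨g₀⁻¹ * g.1, ?_⟩, fun c => ⟨g₀ * c.1, ?_⟩, ?_, ?_⟩
  · obtain ⟨g, h1⟩ := g
    rw [Subgroup.mem_centralizer_iff]
    intro h hh
    rw [Set.mem_singleton_iff] at hh
    subst hh
    have e1 : g * h = h⁻¹ * g := mul_inv_eq_iff_eq_mul.mp h1
    have e0 : g₀ * h = h⁻¹ * g₀ := mul_inv_eq_iff_eq_mul.mp hg₀
    have e2 : g₀⁻¹ * h⁻¹ = h * g₀⁻¹ := by
      calc g₀⁻¹ * h⁻¹ = g₀⁻¹ * (h⁻¹ * g₀) * g₀⁻¹ := by group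
        _ = g₀⁻¹ * (g₀ * h) * g₀⁻¹ := by rw [e0]
        _ = h * g₀⁻¹ := by group
    show h * (g₀⁻¹ * g) = g₀⁻¹ * g * h
    calc h * (g₀⁻¹ * g) = (h * g₀⁻¹) * g := by group
      _ = (g₀⁻¹ * h⁻¹) * g := by rw [e2]
      _ = g₀⁻¹ * (h⁻¹ * g) := by group
      _ = g₀⁻¹ * (g * h) := by rw [e1]
      _ = g₀⁻¹ * g * h := by group
  · have hc := Subgroup.mem_centralizer_iff.mp c.2 x (Set.mem_singleton x)
    calc g₀ * c.1 * x * (g₀ * c.1)⁻¹ = g₀ * (c.1 * x) * (c.1 : G)⁻¹ * g₀⁻¹ := by group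
      _ = g₀ * (x * c.1) * (c.1 : G)⁻¹ * g₀⁻¹ := by rw [hc]
      _ = g₀ * x * g₀⁻¹ := by group
      _ = x⁻¹ := hg₀
  · intro g; ext; simp
  · intro c; ext; simp

end Cfsg.Agent.S0237
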