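import Cfsg.Statements.S0238
import Mathlib
import Cfsg.Agent.Lib.Lead.Invol
import Cfsg.Agent.S0237
import Cfsg.Agent.S0236
-- import your own Cfsg.Agent.* helpers here

set_option autoImplicit false
open Cfsg

namespace Cfsg.Agent.S0238

/-- For every x in a finite group G, the number c of ordered pairs (u, v) of involutions with uv = x is at most |C_G(x)|; c = 0 when x is not conjugate to x⁻¹; and c + 2 ≤ |C_G(x)| when x is an involution. -/
theorem result {G : Type*} [Group G] [Finite G] (x : G) : Nat.card {p : G × G // orderOf p.1 = 2 ∧ orderOf p.2 = 2 ∧ p.1 * p.2 = x} ≤ Nat.card (Subgroup.centralizer ({x} : Set G)) ∧ (¬ IsConj x x⁻¹ → Nat.card {p : G × G // orderOf p.1 = 2 ∧ orderOf p.2 = 2 ∧ p.1 * p.2 = x} = 0) ∧ (orderOf x = 2 → Nat.card {p : G × G // orderOf p.1 = 2 ∧ orderOf p.2 = 2 ∧ p.1 * p.2 = x} + 2 ≤ Nat.card (Subgroup.centralizer ({x} : Set G))) := by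
  classical
  have hconjpair : ∀ p : {p : G × G // orderOf p.1 = 2 ∧ orderOf p.2 = 2 ∧ p.1 * p.2 = x}, p.1.1 * x * p.1.1⁻¹ = x⁻¹ := by
    rintro ⟨⟨u, v⟩, hu, hv, huv⟩
    simp only at hu hv huv
    show u * x * u⁻¹ = x⁻¹
    rw [← huv]
    exact Cfsg.Agent.Lib.Lead.conj_mul_of_involutions hu hv
  have hinj : Function.Injective (fun p : {p : G × G // orderOf p.1 = 2 ∧ orderOf p.2 = 2 ∧ p.1 * p.2 = x} =>
      (⟨p.1.1, hconjpair p⟩ : {g : G // g * x * g⁻¹ = x⁻¹})) := by
    rintro ⟨⟨u, v⟩, hu, hv, huv⟩ ⟨⟨u', v'⟩, hu', hv', huv'⟩ h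
    simp only at hu hv huv hu' hv' huv'
    have h1 : u = u' := congrArg Subtype.val h
    subst h1
    have h2 : v = v' := by
      have : u * v = u * v' := by rw [huv, huv']
      exact mul_left_cancel this
    subst h2
    rfl
  have hb : ¬ IsConj x x⁻¹ → Nat.card {p : G × G // orderOf p.1 = 2 ∧ orderOf p.2 = 2 ∧ p.1 * p.2 = x} = 0 := by
    intro hnc
    have : IsEmpty {p : G × G // orderOf p.1 = 2 ∧ orderOf p.2 = 2 ∧ p.1 * p.2 = x} :=
      ⟨fun p => hnc (isConj_iff.mpr ⟨p.1.1, hconjpair p⟩)⟩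
    exact Nat.card_of_isEmpty
  refine ⟨?_, hb, ?_⟩
  · by_cases hc : IsConj x x⁻¹
    · rw [← Cfsg.Agent.S0237.result x hc]
      exact Nat.card_le_card_of_injective _ hinj
    · rw [hb hc]; exact Nat.zero_le _
  · intro hx
    have h236 := Cfsg.Agent.S0236.result x hx
    have hC : ∀ t : {t : G // orderOf t = 2 ∧ Commute t x}, t.1 ∈ Subgroup.centralizer ({x} : Set G) := by
      rintro ⟨t, ht, htx⟩
      rw [Subgroup.mem_centralizer_iff]
      intro h hh
      rw [Set.mem_singleton_iff] at hh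
      subst hh
      exact htx.eq.symm
    have hinj2 : Function.Injective (fun t : {t : G // orderOf t = 2 ∧ Commute t x} =>
        (⟨⟨t.1, hC t⟩, trivial, fun h => Cfsg.Agent.Lib.Lead.ne_one_of_orderOf_eq_two t.2.1 (congrArg Subtype.val h)⟩ :
          {c : Subgroup.centralizer ({x} : Set G) // True ∧ c ≠ 1})) := by
      intro t t' h
      apply Subtype.ext
      exact congrArg (fun c => (c.1 : G)) h
    have h3 := Nat.card_le_card_of_injective _ hinj2
    have h4 := Cfsg.Agent.Lib.Lead.card_subtype_and_ne_add_one (fun _ : Subgroup.centralizer ({x} : Set G) => True) 1 trivial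
    have h5 : Nat.card {t : Subgroup.centralizer ({x} : Set G) // True} = Nat.card (Subgroup.centralizer ({x} : Set G)) :=
      Nat.card_congr (Equiv.subtypeUnivEquiv (fun _ => trivial))
    omega

end Cfsg.Agent.S0238
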