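import Cfsg.Statements.S0239
import Mathlib
-- import your own Cfsg.Agent.* helpers here

set_option autoImplicit false
open Cfsg

namespace Cfsg.Agent.S0239

/-- If some nontrivial element x of a finite group G is conjugate to x⁻¹, then |G| is even. -/
theorem result {G : Type*} [Group G] [Finite G] (x : G) (hx : x ≠ 1) (hreal : IsConj x x⁻¹) : Even (Nat.card G) := by
  by_contra hodd
  rw [Nat.not_even_iff_odd] at hodd
  obtain ⟨g, hg⟩ := isConj_iff.mp hreal
  have hgo : Odd (orderOf g) := hodd.of_dvd_nat (orderOf_dvd_natCard g)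
  have e1 : g * x = x⁻¹ * g := mul_inv_eq_iff_eq_mul.mp hg
  have e2 : g * x⁻¹ = x * g := by
    calc g * x⁻¹ = (g * x * g⁻¹)⁻¹ * g := by group
      _ = x * g := by rw [hg, inv_inv]
  have h2 : Commute (g ^ 2) x := by
    show g ^ 2 * x = x * g ^ 2
    rw [pow_two, mul_assoc, e1, ← mul_assoc, e2, mul_assoc]
  obtain ⟨k, hk⟩ := hgo
  have hgk : g = (g ^ 2) ^ (k + 1) := by
    have h3 : 2 * (k + 1) = orderOf g + 1 := by omega
    rw [← pow_mul, h3, pow_succ, pow_orderOf_eq_one, one_mul]
  have h3 : Commute g x := by rw [hgk]; exact h2.pow_left _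
  have h4 : x⁻¹ = x := by rw [← hg, h3.eq, mul_inv_cancel_right]
  have h5 : x ^ 2 = 1 := by
    rw [pow_two]
    nth_rewrite 1 [← h4]
    exact inv_mul_cancel x
  have h6 : orderOf x ∣ 2 := orderOf_dvd_of_pow_eq_one h5
  have h7 : Odd (orderOf x) := hodd.of_dvd_nat (orderOf_dvd_natCard x)
  have h8 : orderOf x = 1 := by
    rcases (Nat.dvd_prime Nat.prime_two).mp h6 with h | h
    · exact h
    · rw [h] at h7; exact absurd h7 (by decide)
  exact hx (orderOf_eq_one_iff.mp h8)

end Cfsg.Agent.S0239
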