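import Cfsg.Statements.S0240
import Mathlib
import Cfsg.Agent.Lib.Lead.Invol
-- import your own Cfsg.Agent.* helpers here

set_option autoImplicit false
open Cfsg

namespace Cfsg.Agent.S0240

/-- Let G be a finite group with n involutions and H a subgroup with |H|·(n+1) > |G|. Then some nontrivial h ∈ H is strongly real in G: an involution t of G satisfies t h t⁻¹ = h⁻¹. -/
theorem result {G : Type*} [Group G] [Finite G] (H : Subgroup G) (hH : Nat.card G < Nat.card H * (Nat.card {t : G // orderOf t = 2} + 1)) : ∃ h : G, h ∈ H ∧ h ≠ 1 ∧ ∃ t : G, orderOf t = 2 ∧ t * h * t⁻¹ = h⁻¹ := by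
  classical
  have : Fintype G := Fintype.ofFinite G
  have hcard : Nat.card (G ⧸ H) < Nat.card {g : G // g⁻¹ = g} := by
    rw [Cfsg.Agent.Lib.Lead.card_inv_eq_self, ← Subgroup.index_eq_card]
    have h1 : Nat.card H * H.index = Nat.card G := H.card_mul_index
    rw [← h1] at hH
    exact Nat.lt_of_mul_lt_mul_left hH
  have : Fintype (G ⧸ H) := Fintype.ofFinite _
  have : Fintype {g : G // g⁻¹ = g} := Fintype.ofFinite _
  rw [Nat.card_eq_fintype_card, Nat.card_eq_fintype_card] at hcard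
  obtain ⟨⟨s, hs⟩, ⟨t, ht⟩, hne, heq⟩ := Fintype.exists_ne_map_eq_of_card_lt
    (fun g : {g : G // g⁻¹ = g} => (g.1 : G ⧸ H)) hcard
  have hne' : s ≠ t := fun h => hne (Subtype.ext h)
  have hmem : s⁻¹ * t ∈ H := QuotientGroup.eq.mp heq
  rw [hs] at hmem
  have hst1 : s * t ≠ 1 := by
    intro h
    have := eq_inv_of_mul_eq_one_left h
    rw [ht] at this
    exact hne' this
  have hinv : s * (s * t) * s⁻¹ = (s * t)⁻¹ := by
    rw [mul_inv_rev, hs, ht]
    have hss : s * s = 1 := by nth_rewrite 1 [← hs]; exact inv_mul_cancel s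
    rw [← mul_assoc, hss, one_mul]
  by_cases hs1 : s = 1
  · subst hs1
    rw [one_mul] at hmem hst1
    have htt : t * t = 1 := by nth_rewrite 1 [← ht]; exact inv_mul_cancel t
    refine ⟨t, hmem, hst1, t, ?_, ?_⟩
    · rw [Cfsg.Agent.Lib.Lead.orderOf_eq_two_iff_ne_one_and_mul_self]
      exact ⟨hst1, htt⟩
    · rw [ht, htt, one_mul]
  · refine ⟨s * t, hmem, hst1, s, ?_, hinv⟩
    rw [Cfsg.Agent.Lib.Lead.orderOf_eq_two_iff_ne_one_and_mul_self]
    refine ⟨hs1, ?_⟩
    nth_rewrite 1 [← hs]; exact inv_mul_cancel s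

end Cfsg.Agent.S0240
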