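import Cfsg.Statements.S0241
import Mathlib
import Cfsg.Agent.Lib.Lead.Invol
-- import your own Cfsg.Agent.* helpers here

set_option autoImplicit false
open Cfsg

namespace Cfsg.Agent.S0241

/-- If x ≠ 1 is conjugate to x⁻¹ in a finite group G and |C_G(x)| is odd, then some involution t satisfies t x t⁻¹ = x⁻¹. -/
theorem result {G : Type*} [Group G] [Finite G] (x : G) (hx : x ≠ 1) (hreal : IsConj x x⁻¹) (hodd : Odd (Nat.card (Subgroup.centralizer ({x} : Set G)))) : ∃ t : G, orderOf t = 2 ∧ t * x * t⁻¹ = x⁻¹ := by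
  obtain ⟨g, hg⟩ := isConj_iff.mp hreal
  have e1 : g * x = x⁻¹ * g := mul_inv_eq_iff_eq_mul.mp hg
  have e2 : g * x⁻¹ = x * g := by
    calc g * x⁻¹ = (g * x * g⁻¹)⁻¹ * g := by group
      _ = x * g := by rw [hg, inv_inv]
  have h2 : Commute (g ^ 2) x := by
    show g ^ 2 * x = x * g ^ 2
    rw [pow_two, mul_assoc, e1, ← mul_assoc, e2, mul_assoc]
  have hxo : Odd (orderOf x) := by
    have h1 : orderOf x ∣ Nat.card (Subgroup.centralizer ({x} : Set G)) := by
      have hxc : x ∈ Subgroup.centralizer ({x} : Set G) := by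
        rw [Subgroup.mem_centralizer_iff]
        intro h hh
        rw [Set.mem_singleton_iff] at hh
        rw [hh]
      have := orderOf_dvd_natCard (⟨x, hxc⟩ : Subgroup.centralizer ({x} : Set G))
      rwa [← Subgroup.orderOf_coe] at this
    exact hodd.of_dvd_nat h1
  have hxne : x⁻¹ ≠ x := by
    intro h
    have h5 : x ^ 2 = 1 := by
      rw [pow_two]
      nth_rewrite 1 [← h]
      exact inv_mul_cancel x
    have h6 : orderOf x ∣ 2 := orderOf_dvd_of_pow_eq_one h5
    have h8 : orderOf x = 1 := by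
      rcases (Nat.dvd_prime Nat.prime_two).mp h6 with h | h
      · exact h
      · rw [h] at hxo; exact absurd hxo (by decide)
    exact hx (orderOf_eq_one_iff.mp h8)
  have hg0 : orderOf g ≠ 0 := (orderOf_pos g).ne'
  obtain ⟨a, m, hm, hn⟩ := Nat.exists_eq_two_pow_mul_odd hg0
  obtain ⟨k, hk⟩ := hm
  have hconj : ∀ j : ℕ, (g * (g ^ 2) ^ j) * x * (g * (g ^ 2) ^ j)⁻¹ = x⁻¹ := by
    intro j
    have hc : Commute ((g ^ 2) ^ j) x := h2.pow_left j
    calc (g * (g ^ 2) ^ j) * x * (g * (g ^ 2) ^ j)⁻¹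
        = g * ((g ^ 2) ^ j * x) * ((g ^ 2) ^ j)⁻¹ * g⁻¹ := by group
      _ = g * (x * (g ^ 2) ^ j) * ((g ^ 2) ^ j)⁻¹ * g⁻¹ := by rw [hc.eq]
      _ = g * x * g⁻¹ := by group
      _ = x⁻¹ := hg
  have hgm : g ^ m = g * (g ^ 2) ^ k := by
    rw [hk, ← pow_mul, pow_succ']
  refine ⟨g ^ m, ?_, ?_⟩
  · rw [Cfsg.Agent.Lib.Lead.orderOf_eq_two_iff_ne_one_and_mul_self]
    constructor
    · intro h1
      have := hconj k
      rw [← hgm, h1] at this
      simp at this
      exact hxne this.symm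
    · have hpow : (g ^ m * g ^ m) ^ (2 ^ a) = 1 := by
        rw [← pow_two, ← pow_mul, ← pow_mul]
        have : m * (2 * 2 ^ a) = orderOf g * 2 := by rw [hn]; ring
        rw [this, pow_mul, pow_orderOf_eq_one, one_pow]
      have hmemC : g ^ m * g ^ m ∈ Subgroup.centralizer ({x} : Set G) := by
        rw [Subgroup.mem_centralizer_iff]
        intro h hh
        rw [Set.mem_singleton_iff] at hh
        subst hh
        have : g ^ m * g ^ m = (g ^ 2) ^ m := by
          rw [← pow_two, ← pow_mul, ← pow_mul, mul_comm]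
        rw [this]
        exact ((h2.pow_left m).eq).symm
      have ho1 : orderOf (g ^ m * g ^ m) ∣ 2 ^ a := orderOf_dvd_of_pow_eq_one hpow
      have ho2 : orderOf (g ^ m * g ^ m) ∣ Nat.card (Subgroup.centralizer ({x} : Set G)) := by
        have := orderOf_dvd_natCard (⟨_, hmemC⟩ : Subgroup.centralizer ({x} : Set G))
        rwa [← Subgroup.orderOf_coe] at this
      have ho3 : Odd (orderOf (g ^ m * g ^ m)) := hodd.of_dvd_nat ho2
      have ho4 : orderOf (g ^ m * g ^ m) = 1 := by
        obtain ⟨b, -, hb⟩ := (Nat.dvd_prime_pow Nat.prime_two).mp ho1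
        rcases Nat.eq_zero_or_pos b with hb0 | hbpos
        · rw [hb, hb0, pow_zero]
        · exfalso
          rw [hb] at ho3
          exact (Nat.not_even_iff_odd.mpr ho3) ((Nat.even_pow' hbpos.ne').mpr even_two)
      exact orderOf_eq_one_iff.mp ho4
  · rw [hgm]; exact hconj k

end Cfsg.Agent.S0241
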