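import Cfsg.Statements.S0244
import Mathlib
-- import your own Cfsg.Agent.* helpers here

set_option autoImplicit false
open Cfsg

namespace Cfsg.Agent.S0244

/-- Sp_2 = SL_2: a matrix on Fin 1 ⊕ Fin 1 lies in Mathlib's symplectic group iff its determinant is 1. -/
theorem result {R : Type*} [CommRing R] (A : Matrix (Fin 1 ⊕ Fin 1) (Fin 1 ⊕ Fin 1) R) : A ∈ Matrix.symplecticGroup (Fin 1) R ↔ A.det = 1 := by
  rw [SymplecticGroup.mem_iff]
  have hdet : A.det = A (Sum.inl 0) (Sum.inl 0) * A (Sum.inr 0) (Sum.inr 0)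
      - A (Sum.inl 0) (Sum.inr 0) * A (Sum.inr 0) (Sum.inl 0) := by
    have h := Matrix.det_reindex_self (finSumFinEquiv (m := 1) (n := 1)) A
    rw [← h, Matrix.det_fin_two]
    rfl
  have hentry : ∀ i j : Fin 1 ⊕ Fin 1, (A * Matrix.J (Fin 1) R * A.transpose) i j
      = A i (Sum.inr 0) * A j (Sum.inl 0) - A i (Sum.inl 0) * A j (Sum.inr 0) := by
    intro i j
    simp [Matrix.mul_apply, Matrix.J, Fintype.sum_sum_type, Matrix.fromBlocks, Matrix.transpose_apply]
    ring
  constructor
  · intro h
    have h1 := congrFun (congrFun h (Sum.inl 0)) (Sum.inr 0)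
    rw [hentry] at h1
    simp [Matrix.J, Matrix.fromBlocks] at h1
    rw [hdet]
    linear_combination (-1 : R) * h1
  · intro h
    rw [hdet] at h
    ext i j
    rw [hentry]
    rcases i with i | i <;> rcases j with j | j <;> fin_cases i <;> fin_cases j <;>
      simp [Matrix.J, Matrix.fromBlocks]
    · ring
    · linear_combination (-1 : R) * h
    · linear_combination h
    · ring

end Cfsg.Agent.S0244
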