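import Cfsg.Statements.S0828
import Mathlib
import Cfsg.Statements.S0828
import Cfsg.Agent.Lib.Helper1.Symp

set_option autoImplicit false
open Cfsg
open scoped commutatorElement

namespace Cfsg.Agent.S0828

open Cfsg.Agent.Lib.Helper1 Matrix Module

theorem card_diff28 {F V : Type*} [Field F] [Fintype F] [AddCommGroup V] [Module F V] [Fintype V] [DecidableEq V]
    (W S : Submodule F V) (h : S ≤ W) [DecidablePred (fun w : V => w ∈ W ∧ w ∉ S)] :
    (Finset.univ.filter (fun w : V => w ∈ W ∧ w ∉ S)).card = Fintype.card F ^ finrank F W - Fintype.card F ^ finrank F S := by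
  classical
  have h1 : Finset.univ.filter (fun w : V => w ∈ W ∧ w ∉ S) = (Finset.univ.filter (fun w : V => w ∈ W)) \ (Finset.univ.filter (fun w : V => w ∈ S)) := by
    ext w; simp
  have hc : ∀ X : Submodule F V, (Finset.univ.filter (fun w : V => w ∈ X)).card = Fintype.card F ^ finrank F X := by
    intro X
    have h2 : Nat.card {w : V // w ∈ X} = Nat.card F ^ finrank F X := Module.natCard_eq_pow_finrank (K := F) (V := X)
    rw [Nat.card_eq_fintype_card, Fintype.card_subtype, Nat.card_eq_fintype_card] at h2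
    exact h2
  have hsub : (Finset.univ.filter (fun w : V => w ∈ S)) ⊆ (Finset.univ.filter (fun w : V => w ∈ W)) := by
    intro w hw
    simp only [Finset.mem_filter, Finset.mem_univ, true_and] at hw ⊢
    exact h hw
  rw [h1, Finset.card_sdiff_of_subset hsub, hc, hc]

theorem nondeg28 {F : Type*} [Field F] (m : ℕ) (v : Fin m ⊕ Fin m → F) (hv : v ≠ 0) : ∃ w, sympForm m F v w ≠ 0 := by
  classical
  obtain ⟨k, hk⟩ : ∃ k, v k ≠ 0 := by
    by_contra hcon; push Not at hcon; exact hv (funext hcon)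
  refine ⟨- (Matrix.J (Fin m) F *ᵥ Pi.single k 1), ?_⟩
  unfold sympForm
  rw [Matrix.mulVec_neg, J_mulVec_J_mulVec, neg_neg, dotProduct_single, mul_one]
  exact hk

def phi28 {F : Type*} [Field F] (m : ℕ) (v : Fin m ⊕ Fin m → F) : (Fin m ⊕ Fin m → F) →ₗ[F] F where
  toFun w := sympForm m F v w
  map_add' := sympForm_add_right m v
  map_smul' c w := by
    simp only [RingHom.id_apply, smul_eq_mul]
    exact sympForm_smul_right m c v w

theorem finrank_ker28 {F : Type*} [Field F] (m : ℕ) (v : Fin m ⊕ Fin m → F) (hv : v ≠ 0) :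
    finrank F (LinearMap.ker (phi28 m v)) + 1 = 2 * m := by
  obtain ⟨w, hw⟩ := nondeg28 m v hv
  have hsurj : Function.Surjective (phi28 m v) := by
    intro t
    refine ⟨(t / sympForm m F v w) • w, ?_⟩
    show sympForm m F v ((t / sympForm m F v w) • w) = t
    rw [sympForm_smul_right, div_mul_cancel₀ _ hw]
  have h1 := LinearMap.finrank_range_add_finrank_ker (phi28 m v)
  rw [LinearMap.range_eq_top.mpr hsurj, finrank_top, Module.finrank_self, Module.finrank_fintype_fun_eq_card, Fintype.card_sum, Fintype.card_fin] at h1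
  omega

theorem ti_span28 {F : Type*} [Field F] (m : ℕ) (v w : Fin m ⊕ Fin m → F) (h : sympForm m F v w = 0) :
    ∀ x ∈ Submodule.span F {v, w}, ∀ y ∈ Submodule.span F {v, w}, sympForm m F x y = 0 := by
  intro x hx y hy
  obtain ⟨a, b, rfl⟩ := Submodule.mem_span_pair.mp hx
  obtain ⟨c, d, rfl⟩ := Submodule.mem_span_pair.mp hy
  have h' : sympForm m F w v = 0 := by rw [sympForm_swap, h, neg_zero]
  simp only [sympForm_add_left, sympForm_add_right, sympForm_smul_left, sympForm_smul_right, sympForm_self, h, h']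
  ring

theorem finrank_pair28 {F V : Type*} [Field F] [AddCommGroup V] [Module F V] (v w : V) (hv : v ≠ 0)
    (hw : w ∉ Submodule.span F {v}) : finrank F (Submodule.span F {v, w}) = 2 := by
  have hli : LinearIndependent F ![w, v] := by
    rw [LinearIndependent.pair_iff]
    intro s t hst
    by_contra hcon
    have hs : s ≠ 0 := by
      intro hs0
      apply hcon
      refine ⟨hs0, ?_⟩
      rw [hs0, zero_smul, zero_add] at hst
      exact (smul_eq_zero.mp hst).resolve_right hv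
    apply hw
    rw [Submodule.mem_span_singleton]
    refine ⟨-(s⁻¹ * t), ?_⟩
    have h1 : s • w = -(t • v) := eq_neg_of_add_eq_zero_left hst
    have h2 : w = s⁻¹ • (s • w) := by rw [smul_smul, inv_mul_cancel₀ hs, one_smul]
    rw [h2, h1, smul_neg, smul_smul, neg_smul]
  have h3 := finrank_span_eq_card hli
  rw [Matrix.range_cons_cons_empty, Fintype.card_fin, Set.pair_comm] at h3
  exact h3

theorem count_v28 {F : Type*} [Field F] [Fintype F] {q : ℕ} (hF : Fintype.card F = q) (v : Fin 2 ⊕ Fin 2 → F) (hv : v ≠ 0) :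
    Nat.card {W : Submodule F (Fin 2 ⊕ Fin 2 → F) // finrank F W = 2 ∧ v ∈ W ∧ ∀ u ∈ W, ∀ w ∈ W, sympForm 2 F u w = 0} = q + 1 := by
  classical
  haveI : Fintype (Submodule F (Fin 2 ⊕ Fin 2 → F)) := Fintype.ofFinite _
  have hq2 : 2 ≤ q := by rw [← hF]; exact Fintype.one_lt_card
  rw [Nat.card_eq_fintype_card, Fintype.card_subtype]
  obtain ⟨tv, htv⟩ : ∃ tv : Finset (Submodule F (Fin 2 ⊕ Fin 2 → F)), tv = Finset.univ.filter (fun W : Submodule F (Fin 2 ⊕ Fin 2 → F) => finrank F W = 2 ∧ v ∈ W ∧ ∀ u ∈ W, ∀ w ∈ W, sympForm 2 F u w = 0) := ⟨_, rfl⟩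
  rw [← htv]
  obtain ⟨K, hK⟩ : ∃ K : Submodule F (Fin 2 ⊕ Fin 2 → F), K = LinearMap.ker (phi28 2 v) := ⟨_, rfl⟩
  have hKmem : ∀ w, w ∈ K ↔ sympForm 2 F v w = 0 := by
    intro w; rw [hK, LinearMap.mem_ker]; rfl
  have hKd : finrank F K = 3 := by
    have h1 := finrank_ker28 2 v hv
    rw [← hK] at h1
    omega
  have hSK : Submodule.span F {v} ≤ K := by
    rw [Submodule.span_singleton_le_iff_mem, hKmem]; exact sympForm_self 2 v
  have hSd : finrank F (Submodule.span F {v}) = 1 := finrank_span_singleton hv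
  obtain ⟨T, hT⟩ : ∃ T : Finset (Fin 2 ⊕ Fin 2 → F), T = Finset.univ.filter (fun w : Fin 2 ⊕ Fin 2 → F => w ∈ K ∧ w ∉ Submodule.span F {v}) := ⟨_, rfl⟩
  have hTmem : ∀ w, w ∈ T ↔ (w ∈ K ∧ w ∉ Submodule.span F {v}) := by
    intro w; rw [hT]; simp
  have htvmem : ∀ W, W ∈ tv ↔ (finrank F W = 2 ∧ v ∈ W ∧ ∀ u ∈ W, ∀ w ∈ W, sympForm 2 F u w = 0) := by
    intro W; rw [htv]; simp
  have hTcard : T.card = q ^ 3 - q := by
    rw [hT, card_diff28 K _ hSK, hKd, hSd, hF, pow_one]
  have hmaps : (T : Set (Fin 2 ⊕ Fin 2 → F)).MapsTo (fun w => Submodule.span F {v, w}) tv := by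
    intro w hw
    have hw' := (hTmem w).mp hw
    have hvw : sympForm 2 F v w = 0 := (hKmem w).mp hw'.1
    exact (htvmem _).mpr ⟨finrank_pair28 v w hv hw'.2, Submodule.subset_span (by simp), ti_span28 2 v w hvw⟩
  have hfib : ∀ W ∈ tv, (T.filter (fun w => Submodule.span F {v, w} = W)).card = q ^ 2 - q := by
    intro W hW
    have hW' := (htvmem W).mp hW
    have hSW : Submodule.span F {v} ≤ W := (Submodule.span_singleton_le_iff_mem _ _).mpr hW'.2.1
    have heq : T.filter (fun w => Submodule.span F {v, w} = W) = Finset.univ.filter (fun w : Fin 2 ⊕ Fin 2 → F => w ∈ W ∧ w ∉ Submodule.span F {v}) := by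
      ext w
      simp only [Finset.mem_filter, Finset.mem_univ, true_and, hTmem]
      constructor
      · rintro ⟨⟨_, h2⟩, h3⟩
        refine ⟨?_, h2⟩
        rw [← h3]; exact Submodule.subset_span (by simp)
      · rintro ⟨h1, h2⟩
        refine ⟨⟨(hKmem w).mpr (hW'.2.2 v hW'.2.1 w h1), h2⟩, ?_⟩
        apply Submodule.eq_of_le_of_finrank_eq
        · rw [Submodule.span_le]
          intro x hx
          rcases hx with rfl | rfl
          · exact hW'.2.1
          · exact h1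
        · rw [finrank_pair28 v w hv h2, hW'.1]
    rw [heq, card_diff28 W _ hSW, hW'.1, hSd, hF, pow_one]
  have hsum := Finset.card_eq_sum_card_fiberwise hmaps
  rw [Finset.sum_congr rfl hfib, Finset.sum_const, smul_eq_mul, hTcard] at hsum
  have h1 : q ≤ q ^ 2 := Nat.le_self_pow (by norm_num) q
  have h3 : q ≤ q ^ 3 := Nat.le_self_pow (by norm_num) q
  have hpos : 0 < q ^ 2 - q := by
    have : q < q ^ 2 := by nlinarith
    omega
  have e : q ^ 3 - q = (q + 1) * (q ^ 2 - q) := by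
    zify [h1, h3]; ring
  rw [e] at hsum
  exact (Nat.eq_of_mul_eq_mul_right hpos hsum).symm

/-- The symplectic generalised quadrangle over a field with q elements: the number of 2-dimensional subspaces of F^4 on which the symplectic form vanishes is (q + 1)(q² + 1), and every non-zero vector lies in exactly q + 1 of them. -/
theorem result {F : Type*} [Field F] [Fintype F] {q : ℕ} (hF : Fintype.card F = q) : Nat.card {W : Submodule F (Fin 2 ⊕ Fin 2 → F) // Module.finrank F W = 2 ∧ ∀ u ∈ W, ∀ v ∈ W, Cfsg.sympForm 2 F u v = 0} = (q + 1) * (q ^ 2 + 1) ∧ ∀ v : Fin 2 ⊕ Fin 2 → F, v ≠ 0 → Nat.card {W : Submodule F (Fin 2 ⊕ Fin 2 → F) // Module.finrank F W = 2 ∧ v ∈ W ∧ ∀ u ∈ W, ∀ w ∈ W, Cfsg.sympForm 2 F u w = 0} = q + 1 := by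
  classical
  haveI : Fintype (Submodule F (Fin 2 ⊕ Fin 2 → F)) := Fintype.ofFinite _
  have hq2 : 2 ≤ q := by rw [← hF]; exact Fintype.one_lt_card
  refine ⟨?_, fun v hv => count_v28 hF v hv⟩
  rw [Nat.card_eq_fintype_card, Fintype.card_subtype]
  obtain ⟨t, ht⟩ : ∃ t : Finset (Submodule F (Fin 2 ⊕ Fin 2 → F)), t = Finset.univ.filter (fun W : Submodule F (Fin 2 ⊕ Fin 2 → F) => finrank F W = 2 ∧ ∀ u ∈ W, ∀ v ∈ W, sympForm 2 F u v = 0) := ⟨_, rfl⟩
  rw [← ht]
  have htmem : ∀ W, W ∈ t ↔ (finrank F W = 2 ∧ ∀ u ∈ W, ∀ v ∈ W, sympForm 2 F u v = 0) := by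
    intro W; rw [ht]; simp
  have h1 : ∑ W ∈ t, (Finset.univ.filter (fun v : Fin 2 ⊕ Fin 2 → F => v ∈ W ∧ v ∉ (⊥ : Submodule F (Fin 2 ⊕ Fin 2 → F)))).card = t.card * (q ^ 2 - 1) := by
    have h5 : ∀ W ∈ t, (Finset.univ.filter (fun v : Fin 2 ⊕ Fin 2 → F => v ∈ W ∧ v ∉ (⊥ : Submodule F (Fin 2 ⊕ Fin 2 → F)))).card = q ^ 2 - 1 := by
      intro W hW
      rw [card_diff28 W ⊥ bot_le, ((htmem W).mp hW).1, finrank_bot, hF, pow_zero]
    rw [Finset.sum_congr rfl h5, Finset.sum_const, smul_eq_mul]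
  have h2 : ∑ W ∈ t, (Finset.univ.filter (fun v : Fin 2 ⊕ Fin 2 → F => v ∈ W ∧ v ∉ (⊥ : Submodule F (Fin 2 ⊕ Fin 2 → F)))).card = ∑ v ∈ Finset.univ.filter (fun v : Fin 2 ⊕ Fin 2 → F => v ≠ 0), (t.filter (fun W => v ∈ W)).card := by
    simp only [Finset.card_filter]
    rw [Finset.sum_comm, Finset.sum_filter]
    apply Finset.sum_congr rfl
    intro v _
    by_cases hv : v = 0
    · simp [hv]
    · simp [hv]
  have h3 : ∀ v ∈ Finset.univ.filter (fun v : Fin 2 ⊕ Fin 2 → F => v ≠ 0), (t.filter (fun W => v ∈ W)).card = q + 1 := by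
    intro v hv
    have hv0 : v ≠ 0 := by simpa using hv
    have h6 := count_v28 hF v hv0
    rw [Nat.card_eq_fintype_card, Fintype.card_subtype] at h6
    rw [← h6]
    congr 1
    ext W
    simp only [Finset.mem_filter, Finset.mem_univ, true_and, htmem]
    tauto
  have h4 : (Finset.univ.filter (fun v : Fin 2 ⊕ Fin 2 → F => v ≠ 0)).card = q ^ 4 - 1 := by
    rw [Finset.filter_ne', Finset.card_erase_of_mem (Finset.mem_univ _), Finset.card_univ, Fintype.card_fun, hF]
    simp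
  rw [h2, Finset.sum_congr rfl h3, Finset.sum_const, smul_eq_mul, h4] at h1
  have hq4 : 1 ≤ q ^ 4 := Nat.one_le_pow _ _ (by omega)
  have hq2' : 1 ≤ q ^ 2 := Nat.one_le_pow _ _ (by omega)
  have hpos : 0 < q ^ 2 - 1 := by
    have : 1 < q ^ 2 := by nlinarith
    omega
  have e : (q ^ 4 - 1) * (q + 1) = ((q + 1) * (q ^ 2 + 1)) * (q ^ 2 - 1) := by
    zify [hq4, hq2']; ring
  rw [e] at h1
  exact (Nat.eq_of_mul_eq_mul_right hpos h1).symm

end Cfsg.Agent.S0828
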