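import Cfsg.Statements.S0245
import Mathlib
import Cfsg.Statements.S0245
import Cfsg.Agent.S0828
import Cfsg.Agent.Lib.Helper1.Symp

set_option autoImplicit false
open Cfsg
open scoped commutatorElement

namespace Cfsg.Agent.S0245

open Cfsg.Agent.Lib.Helper1 Matrix Module
open Cfsg.Agent.S0828

theorem fiber_card45 {F V W : Type*} [Field F] [Fintype F] [AddCommGroup V] [Module F V] [AddCommGroup W] [Module F W]
    [FiniteDimensional F V] [FiniteDimensional F W] (L : V →ₗ[F] W) (hL : Function.Surjective L) (c : W) :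
    Nat.card {v : V // L v = c} * Fintype.card F ^ finrank F W = Fintype.card F ^ finrank F V := by
  obtain ⟨v₀, hv₀⟩ := hL c
  have e : {v : V // L v = c} ≃ LinearMap.ker L :=
    { toFun := fun v => ⟨v.1 - v₀, by rw [LinearMap.mem_ker, map_sub, v.2, hv₀, sub_self]⟩
      invFun := fun w => ⟨w.1 + v₀, by rw [map_add, LinearMap.mem_ker.mp w.2, hv₀, zero_add]⟩
      left_inv := fun v => by ext; simp
      right_inv := fun w => by ext; simp }
  rw [Nat.card_congr e, Module.natCard_eq_pow_finrank (K := F) (V := LinearMap.ker L), Nat.card_eq_fintype_card, ← pow_add]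
  congr 1
  have h1 := LinearMap.finrank_range_add_finrank_ker L
  rw [LinearMap.range_eq_top.mpr hL, finrank_top] at h1
  omega

theorem card_sigma45 {A B : Type*} [Finite A] [Finite B] (P : A → Prop) (Q : A → B → Prop) (c : ℕ)
    (h : ∀ a, P a → Nat.card {b : B // Q a b} = c) :
    Nat.card {x : A × B // P x.1 ∧ Q x.1 x.2} = Nat.card {a : A // P a} * c := by
  classical
  haveI : Fintype {a : A // P a} := Fintype.ofFinite _
  have e : {x : A × B // P x.1 ∧ Q x.1 x.2} ≃ Σ a : {a : A // P a}, {b : B // Q a.1 b} :=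
    { toFun := fun x => ⟨⟨x.1.1, x.2.1⟩, ⟨x.1.2, x.2.2⟩⟩
      invFun := fun s => ⟨(s.1.1, s.2.1), s.1.2, s.2.2⟩
      left_inv := fun x => rfl
      right_inv := fun s => rfl }
  rw [Nat.card_congr e, Nat.card_sigma, Finset.sum_congr rfl (fun a _ => h a.1 a.2), Finset.sum_const, smul_eq_mul,
    Finset.card_univ, Nat.card_eq_fintype_card]

theorem prod_surj45 {F V W : Type*} [Field F] [AddCommGroup V] [Module F V] [AddCommGroup W] [Module F W]
    (L : V →ₗ[F] W) (hL : Function.Surjective L) (φ : V →ₗ[F] F) (y : V) (hy : L y = 0) (hφ : φ y ≠ 0) :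
    Function.Surjective (L.prod φ) := by
  rintro ⟨w, t⟩
  obtain ⟨x₀, hx₀⟩ := hL w
  refine ⟨x₀ + ((t - φ x₀) / φ y) • y, ?_⟩
  refine Prod.ext ?_ ?_
  · show L (x₀ + ((t - φ x₀) / φ y) • y) = w
    rw [map_add, map_smul, hy, smul_zero, add_zero, hx₀]
  · show φ (x₀ + ((t - φ x₀) / φ y) • y) = t
    rw [map_add, map_smul, smul_eq_mul, div_mul_cancel₀ _ hφ]; ring

def IsFr45 {F : Type*} [Field F] (m k : ℕ) (p : (Fin k → Fin m ⊕ Fin m → F) × (Fin k → Fin m ⊕ Fin m → F)) : Prop :=
  (∀ i j, sympForm m F (p.1 i) (p.2 j) = if i = j then 1 else 0) ∧ (∀ i j, sympForm m F (p.1 i) (p.1 j) = 0) ∧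
    (∀ i j, sympForm m F (p.2 i) (p.2 j) = 0)

def Pu45 {F : Type*} [Field F] (m k : ℕ) (p : (Fin k → Fin m ⊕ Fin m → F) × (Fin k → Fin m ⊕ Fin m → F))
    (u : Fin m ⊕ Fin m → F) : Prop :=
  (∀ i, sympForm m F (p.1 i) u = 0) ∧ (∀ i, sympForm m F (p.2 i) u = 0)

def L45 {F : Type*} [Field F] (m k : ℕ) (p : (Fin k → Fin m ⊕ Fin m → F) × (Fin k → Fin m ⊕ Fin m → F)) :
    (Fin m ⊕ Fin m → F) →ₗ[F] (Fin k → F) × (Fin k → F) :=
  (LinearMap.pi (fun i => phi28 m (p.1 i))).prod (LinearMap.pi (fun i => phi28 m (p.2 i)))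

theorem L_zero45 {F : Type*} [Field F] (m k : ℕ) (p : (Fin k → Fin m ⊕ Fin m → F) × (Fin k → Fin m ⊕ Fin m → F))
    (x : Fin m ⊕ Fin m → F) : L45 m k p x = 0 ↔ Pu45 m k p x := by
  constructor
  · intro h
    exact ⟨fun i => congrFun (congrArg Prod.fst h) i, fun i => congrFun (congrArg Prod.snd h) i⟩
  · rintro ⟨h1, h2⟩
    exact Prod.ext (funext h1) (funext h2)

def sec45 {F : Type*} [Field F] (m k : ℕ) (p : (Fin k → Fin m ⊕ Fin m → F) × (Fin k → Fin m ⊕ Fin m → F))
    (a b : Fin k → F) : Fin m ⊕ Fin m → F :=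
  ∑ j, (a j • p.2 j - b j • p.1 j)

theorem L_sec45 {F : Type*} [Field F] (m k : ℕ) (p : (Fin k → Fin m ⊕ Fin m → F) × (Fin k → Fin m ⊕ Fin m → F))
    (hp : IsFr45 m k p) (a b : Fin k → F) : L45 m k p (sec45 m k p a b) = (a, b) := by
  classical
  obtain ⟨h1, h2, h3⟩ := hp
  refine Prod.ext (funext fun i => ?_) (funext fun i => ?_)
  · show phi28 m (p.1 i) (∑ j, (a j • p.2 j - b j • p.1 j)) = a i
    rw [map_sum]
    have : ∀ j, phi28 m (p.1 i) (a j • p.2 j - b j • p.1 j) = if i = j then a j else 0 := by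
      intro j
      rw [map_sub, map_smul, map_smul]
      show a j • sympForm m F (p.1 i) (p.2 j) - b j • sympForm m F (p.1 i) (p.1 j) = _
      rw [h1, h2]; split_ifs <;> simp
    rw [Finset.sum_congr rfl (fun j _ => this j), Finset.sum_ite_eq]; simp
  · show phi28 m (p.2 i) (∑ j, (a j • p.2 j - b j • p.1 j)) = b i
    rw [map_sum]
    have : ∀ j, phi28 m (p.2 i) (a j • p.2 j - b j • p.1 j) = if i = j then b j else 0 := by
      intro j
      rw [map_sub, map_smul, map_smul]
      show a j • sympForm m F (p.2 i) (p.2 j) - b j • sympForm m F (p.2 i) (p.1 j) = _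
      rw [h3, sympForm_swap, h1]
      by_cases h : i = j
      · subst h; simp
      · simp [h, Ne.symm h]
    rw [Finset.sum_congr rfl (fun j _ => this j), Finset.sum_ite_eq]; simp

theorem sec_orth45 {F : Type*} [Field F] (m k : ℕ) (p : (Fin k → Fin m ⊕ Fin m → F) × (Fin k → Fin m ⊕ Fin m → F))
    (u : Fin m ⊕ Fin m → F) (hu : Pu45 m k p u) (a b : Fin k → F) : sympForm m F u (sec45 m k p a b) = 0 := by
  show phi28 m u (∑ j, (a j • p.2 j - b j • p.1 j)) = 0
  rw [map_sum]
  apply Finset.sum_eq_zero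
  intro j _
  rw [map_sub, map_smul, map_smul]
  show a j • sympForm m F u (p.2 j) - b j • sympForm m F u (p.1 j) = 0
  rw [sympForm_swap m u, hu.2 j, sympForm_swap m u, hu.1 j]; simp

theorem ext_count45 {F : Type*} [Field F] [Fintype F] (m k : ℕ) (hk : k < m)
    (p : (Fin k → Fin m ⊕ Fin m → F) × (Fin k → Fin m ⊕ Fin m → F)) (hp : IsFr45 m k p) :
    Nat.card {x : (Fin m ⊕ Fin m → F) × (Fin m ⊕ Fin m → F) //
      (Pu45 m k p x.1 ∧ x.1 ≠ 0) ∧ (Pu45 m k p x.2 ∧ sympForm m F x.1 x.2 = 1)} =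
    (Fintype.card F ^ (m + m - (k + k)) - 1) * Fintype.card F ^ (m + m - (k + k + 1)) := by
  classical
  have hsurj : Function.Surjective (L45 m k p) := fun ab => ⟨sec45 m k p ab.1 ab.2, L_sec45 m k p hp ab.1 ab.2⟩
  have hfV : finrank F (Fin m ⊕ Fin m → F) = m + m := by
    rw [Module.finrank_fintype_fun_eq_card, Fintype.card_sum, Fintype.card_fin]
  have hfW : finrank F ((Fin k → F) × (Fin k → F)) = k + k := by
    rw [Module.finrank_prod, Module.finrank_fin_fun]
  rw [card_sigma45 (fun u => Pu45 m k p u ∧ u ≠ 0) (fun u v => Pu45 m k p v ∧ sympForm m F u v = 1)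
    (Fintype.card F ^ (m + m - (k + k + 1)))]
  · congr 1
    have hker : finrank F (LinearMap.ker (L45 m k p)) = m + m - (k + k) := by
      have h1 := LinearMap.finrank_range_add_finrank_ker (L45 m k p)
      rw [LinearMap.range_eq_top.mpr hsurj, finrank_top, hfV, hfW] at h1
      omega
    have h2 := card_diff28 (LinearMap.ker (L45 m k p)) ⊥ bot_le
    rw [hker, finrank_bot, pow_zero] at h2
    rw [← h2, Nat.card_eq_fintype_card, Fintype.card_subtype]
    apply congrArg
    ext u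
    simp only [Finset.mem_filter, Finset.mem_univ, true_and, LinearMap.mem_ker, Submodule.mem_bot, L_zero45]
  · rintro u ⟨hu, hu0⟩
    obtain ⟨x, hx⟩ := nondeg28 m u hu0
    have hs : Function.Surjective ((L45 m k p).prod (phi28 m u)) := by
      apply prod_surj45 _ hsurj _ (x - sec45 m k p (L45 m k p x).1 (L45 m k p x).2)
      · rw [map_sub, L_sec45 m k p hp]; exact sub_self _
      · rw [map_sub]
        show sympForm m F u x - sympForm m F u (sec45 m k p (L45 m k p x).1 (L45 m k p x).2) ≠ 0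
        rw [sec_orth45 m k p u hu, sub_zero]; exact hx
    have h3 := fiber_card45 _ hs ((0 : (Fin k → F) × (Fin k → F)), (1 : F))
    rw [hfV, Module.finrank_prod, hfW, Module.finrank_self] at h3
    have e : {v : Fin m ⊕ Fin m → F // Pu45 m k p v ∧ sympForm m F u v = 1} ≃
        {v : Fin m ⊕ Fin m → F // ((L45 m k p).prod (phi28 m u)) v = (0, 1)} :=
      Equiv.subtypeEquivRight (fun v => by
        rw [← L_zero45]
        constructor
        · rintro ⟨h1, h2⟩; exact Prod.ext h1 h2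
        · intro h; exact ⟨congrArg Prod.fst h, congrArg Prod.snd h⟩)
    rw [Nat.card_congr e]
    have hq : 0 < Fintype.card F := Fintype.card_pos
    have h4 : Fintype.card F ^ (m + m - (k + k + 1)) * Fintype.card F ^ (k + k + 1) = Fintype.card F ^ (m + m) := by
      rw [← pow_add]; congr 1; omega
    exact Nat.eq_of_mul_eq_mul_right (pow_pos hq (k + k + 1)) (h3.trans h4.symm)

def stepE45 {F : Type*} (m k : ℕ) :
    ((Fin (k+1) → Fin m ⊕ Fin m → F) × (Fin (k+1) → Fin m ⊕ Fin m → F)) ≃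
    ((Fin k → Fin m ⊕ Fin m → F) × (Fin k → Fin m ⊕ Fin m → F)) × ((Fin m ⊕ Fin m → F) × (Fin m ⊕ Fin m → F)) where
  toFun p := ((Fin.tail p.1, Fin.tail p.2), (p.1 0, p.2 0))
  invFun x := ((Fin.cons x.2.1 x.1.1 : Fin (k+1) → Fin m ⊕ Fin m → F), (Fin.cons x.2.2 x.1.2 : Fin (k+1) → Fin m ⊕ Fin m → F))
  left_inv p := Prod.ext (Fin.cons_self_tail _) (Fin.cons_self_tail _)
  right_inv x := by simp

theorem step_iff45 {F : Type*} [Field F] (m k : ℕ)
    (p : (Fin (k+1) → Fin m ⊕ Fin m → F) × (Fin (k+1) → Fin m ⊕ Fin m → F)) :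
    IsFr45 m (k+1) p ↔ (IsFr45 m k (stepE45 m k p).1 ∧ ((Pu45 m k (stepE45 m k p).1 (stepE45 m k p).2.1 ∧ (stepE45 m k p).2.1 ≠ 0) ∧
      (Pu45 m k (stepE45 m k p).1 (stepE45 m k p).2.2 ∧ sympForm m F (stepE45 m k p).2.1 (stepE45 m k p).2.2 = 1))) := by
  constructor
  · rintro ⟨h1, h2, h3⟩
    have h00 := h1 0 0
    rw [if_pos rfl] at h00
    refine ⟨⟨fun i j => ?_, fun i j => h2 _ _, fun i j => h3 _ _⟩, ⟨⟨fun i => h2 _ _, fun i => ?_⟩, ?_⟩,
      ⟨fun i => ?_, fun i => h3 _ _⟩, h00⟩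
    · have := h1 i.succ j.succ
      simp only [Fin.succ_inj] at this
      exact this
    · show sympForm m F (p.2 i.succ) (p.1 0) = 0
      rw [sympForm_swap, h1 0 i.succ, if_neg (Fin.succ_ne_zero i).symm, neg_zero]
    · intro h0
      have h0' : p.1 0 = 0 := h0
      rw [h0'] at h00
      unfold sympForm at h00
      rw [zero_dotProduct] at h00
      exact zero_ne_one h00
    · show sympForm m F (p.1 i.succ) (p.2 0) = 0
      rw [h1 i.succ 0, if_neg (Fin.succ_ne_zero i)]
  · rintro ⟨⟨h1, h2, h3⟩, ⟨⟨hu1, hu2⟩, hu0⟩, ⟨hv1, hv2⟩, huv⟩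
    have hu1' : ∀ i : Fin k, sympForm m F (p.1 i.succ) (p.1 0) = 0 := hu1
    have hu2' : ∀ i : Fin k, sympForm m F (p.2 i.succ) (p.1 0) = 0 := hu2
    have hv1' : ∀ i : Fin k, sympForm m F (p.1 i.succ) (p.2 0) = 0 := hv1
    have hv2' : ∀ i : Fin k, sympForm m F (p.2 i.succ) (p.2 0) = 0 := hv2
    have huv' : sympForm m F (p.1 0) (p.2 0) = 1 := huv
    have h1' : ∀ i j : Fin k, sympForm m F (p.1 i.succ) (p.2 j.succ) = if i = j then 1 else 0 := h1
    have h2' : ∀ i j : Fin k, sympForm m F (p.1 i.succ) (p.1 j.succ) = 0 := h2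
    have h3' : ∀ i j : Fin k, sympForm m F (p.2 i.succ) (p.2 j.succ) = 0 := h3
    refine ⟨fun i j => ?_, fun i j => ?_, fun i j => ?_⟩
    · cases i using Fin.cases with
      | zero =>
        cases j using Fin.cases with
        | zero => rw [if_pos rfl]; exact huv'
        | succ j => rw [if_neg (Fin.succ_ne_zero j).symm, sympForm_swap, hu2' j, neg_zero]
      | succ i =>
        cases j using Fin.cases with
        | zero => rw [if_neg (Fin.succ_ne_zero i)]; exact hv1' i
        | succ j => rw [h1' i j]; simp only [Fin.succ_inj]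
    · cases i using Fin.cases with
      | zero =>
        cases j using Fin.cases with
        | zero => exact sympForm_self m _
        | succ j => rw [sympForm_swap, hu1' j, neg_zero]
      | succ i =>
        cases j using Fin.cases with
        | zero => exact hu1' i
        | succ j => exact h2' i j
    · cases i using Fin.cases with
      | zero =>
        cases j using Fin.cases with
        | zero => exact sympForm_self m _
        | succ j => rw [sympForm_swap, hv2' j, neg_zero]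
      | succ i =>
        cases j using Fin.cases with
        | zero => exact hv2' i
        | succ j => exact h3' i j

theorem frame_count45 {F : Type*} [Field F] [Fintype F] (m : ℕ) : ∀ k, k ≤ m →
    Nat.card {p : (Fin k → Fin m ⊕ Fin m → F) × (Fin k → Fin m ⊕ Fin m → F) // IsFr45 m k p} =
    ∏ j ∈ Finset.range k, ((Fintype.card F ^ (m + m - (j + j)) - 1) * Fintype.card F ^ (m + m - (j + j + 1))) := by
  intro k
  induction k with
  | zero =>
    intro _
    rw [Finset.prod_range_zero, Nat.card_eq_one_iff_unique]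
    exact ⟨inferInstance, ⟨⟨(fun i => i.elim0, fun i => i.elim0), fun i => i.elim0, fun i => i.elim0, fun i => i.elim0⟩⟩⟩
  | succ k ih =>
    intro hk
    rw [Finset.prod_range_succ, ← ih (by omega)]
    rw [Nat.card_congr (Equiv.subtypeEquiv (p := fun p => IsFr45 m (k+1) p)
      (q := fun x : ((Fin k → Fin m ⊕ Fin m → F) × (Fin k → Fin m ⊕ Fin m → F)) × ((Fin m ⊕ Fin m → F) × (Fin m ⊕ Fin m → F)) =>
        IsFr45 m k x.1 ∧ ((Pu45 m k x.1 x.2.1 ∧ x.2.1 ≠ 0) ∧ (Pu45 m k x.1 x.2.2 ∧ sympForm m F x.2.1 x.2.2 = 1)))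
      (stepE45 m k) (step_iff45 m k))]
    have hkm : k < m := by omega
    have hcs := card_sigma45 (A := (Fin k → Fin m ⊕ Fin m → F) × (Fin k → Fin m ⊕ Fin m → F))
      (B := (Fin m ⊕ Fin m → F) × (Fin m ⊕ Fin m → F)) (fun a => IsFr45 m k a)
      (fun a x => (Pu45 m k a x.1 ∧ x.1 ≠ 0) ∧ (Pu45 m k a x.2 ∧ sympForm m F x.1 x.2 = 1))
      ((Fintype.card F ^ (m + m - (k + k)) - 1) * Fintype.card F ^ (m + m - (k + k + 1)))
      (fun a ha => ext_count45 m k hkm a ha)
    exact hcs

def matE45 {F : Type*} (m : ℕ) : Matrix (Fin m ⊕ Fin m) (Fin m ⊕ Fin m) F ≃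
    (Fin m → Fin m ⊕ Fin m → F) × (Fin m → Fin m ⊕ Fin m → F) where
  toFun D := (fun i a => D a (Sum.inr i), fun i a => D a (Sum.inl i))
  invFun p := Matrix.of (fun a b => Sum.elim p.2 p.1 b a)
  left_inv D := by ext a (b | b) <;> rfl
  right_inv p := rfl

theorem mat_iff45 {F : Type*} [Field F] (m : ℕ) (D : Matrix (Fin m ⊕ Fin m) (Fin m ⊕ Fin m) F) :
    D ∈ Matrix.symplecticGroup (Fin m) F ↔ IsFr45 m m (matE45 m D) := by
  have key : ∀ a b, (Dᵀ * Matrix.J (Fin m) F * D) a b = sympForm m F (fun c => D c a) (fun c => D c b) := by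
    intro a b
    rw [Matrix.mul_assoc, Matrix.mul_apply]; rfl
  rw [SymplecticGroup.mem_iff']
  constructor
  · intro h
    have h' : ∀ a b, sympForm m F (fun c => D c a) (fun c => D c b) = Matrix.J (Fin m) F a b := fun a b => by
      rw [← key, h]
    refine ⟨fun i j => ?_, fun i j => ?_, fun i j => ?_⟩
    · show sympForm m F (fun c => D c (Sum.inr i)) (fun c => D c (Sum.inl j)) = _
      rw [h']; simp [Matrix.J, Matrix.one_apply]
    · show sympForm m F (fun c => D c (Sum.inr i)) (fun c => D c (Sum.inr j)) = _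
      rw [h']; simp [Matrix.J]
    · show sympForm m F (fun c => D c (Sum.inl i)) (fun c => D c (Sum.inl j)) = _
      rw [h']; simp [Matrix.J]
  · rintro ⟨h1, h2, h3⟩
    have h1' : ∀ i j : Fin m, sympForm m F (fun c => D c (Sum.inr i)) (fun c => D c (Sum.inl j)) = if i = j then 1 else 0 := h1
    have h2' : ∀ i j : Fin m, sympForm m F (fun c => D c (Sum.inr i)) (fun c => D c (Sum.inr j)) = 0 := h2
    have h3' : ∀ i j : Fin m, sympForm m F (fun c => D c (Sum.inl i)) (fun c => D c (Sum.inl j)) = 0 := h3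
    ext a b
    rw [key]
    rcases a with i | i <;> rcases b with j | j
    · exact (h3' i j).trans (by simp [Matrix.J])
    · rw [sympForm_swap]
      refine (congrArg Neg.neg (h1' j i)).trans ?_
      simp [Matrix.J, Matrix.one_apply, eq_comm]
    · exact (h1' i j).trans (by simp [Matrix.J, Matrix.one_apply])
    · exact (h2' i j).trans (by simp [Matrix.J])

theorem sum_odd45 : ∀ m : ℕ, ∑ i ∈ Finset.range m, (2 * i + 1) = m ^ 2 := by
  intro m
  induction m with
  | zero => simp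
  | succ n ih => rw [Finset.sum_range_succ, ih]; ring

/-- Order of the finite symplectic group: |Sp_{2m}(q)| = q^(m^2) * prod_{i=1}^{m} (q^(2i) - 1). -/
theorem result {F : Type*} [Field F] [Fintype F] {q : ℕ} (hF : Fintype.card F = q) (m : ℕ) : Nat.card (Matrix.symplecticGroup (Fin m) F) = q ^ (m ^ 2) * ∏ i ∈ Finset.range m, (q ^ (2 * (i + 1)) - 1) := by
  classical
  subst hF
  rw [Nat.card_congr (Equiv.subtypeEquiv (matE45 m) (mat_iff45 m)), frame_count45 m m le_rfl]
  have h1 : ∀ j ∈ Finset.range m, ((Fintype.card F ^ (m + m - (j + j)) - 1) * Fintype.card F ^ (m + m - (j + j + 1))) =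
      (fun i => (Fintype.card F ^ (2 * (i + 1)) - 1) * Fintype.card F ^ (2 * i + 1)) (m - 1 - j) := by
    intro j hj
    rw [Finset.mem_range] at hj
    show _ = (Fintype.card F ^ (2 * (m - 1 - j + 1)) - 1) * Fintype.card F ^ (2 * (m - 1 - j) + 1)
    rw [show 2 * (m - 1 - j + 1) = m + m - (j + j) by omega, show 2 * (m - 1 - j) + 1 = m + m - (j + j + 1) by omega]
  have h2 := Finset.prod_range_reflect (fun i => (Fintype.card F ^ (2 * (i + 1)) - 1) * Fintype.card F ^ (2 * i + 1)) m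
  rw [Finset.prod_congr rfl h1, h2, Finset.prod_mul_distrib, Finset.prod_pow_eq_pow_sum, mul_comm,
    sum_odd45]

end Cfsg.Agent.S0245
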