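import Cfsg.Statements.S0250
import Mathlib
import Cfsg.Agent.S0242
import Cfsg.Agent.Lib.Lead.PermIso
-- import your own Cfsg.Agent.* helpers here

set_option autoImplicit false
open Cfsg

namespace Cfsg.Agent.S0250

/-- SL_2(2) is isomorphic to S_3. -/
theorem result {F : Type*} [Field F] [Fintype F] (hF : Fintype.card F = 2) : Nonempty (Matrix.SpecialLinearGroup (Fin 2) F ≃* Equiv.Perm (Fin 3)) := by
  classical
  have hc := Cfsg.Agent.Lib.Lead.card_center_SL (F := F) 2 (by norm_num)
  rw [hF] at hc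
  have hbot : Subgroup.center (Matrix.SpecialLinearGroup (Fin 2) F) = ⊥ :=
    Subgroup.eq_bot_of_card_eq _ (by rw [hc]; decide)
  have hinj : Function.Injective (MulAction.toPermHom (Matrix.SpecialLinearGroup (Fin 2) F)
      (Projectivization F (Fin 2 → F))) := by
    rw [← MonoidHom.ker_eq_bot_iff, Projectivization.SL_mulAction_ker, hbot]
  have hX : Nat.card (Projectivization F (Fin 2 → F)) = 3 := by
    rw [Projectivization.card_of_finrank_two F _ (by simp), Nat.card_eq_fintype_card, hF]
  have hG : Nat.card (Matrix.SpecialLinearGroup (Fin 2) F) = Nat.factorial 3 := by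
    have h1 := Cfsg.Agent.S0242.result (F := F) hF 2 (by norm_num)
    rw [Fin.prod_univ_two] at h1
    have e2 : (2 ^ 2 - 2 ^ ((0 : Fin 2) : ℕ)) * (2 ^ 2 - 2 ^ ((1 : Fin 2) : ℕ)) = 6 := by decide
    have e3 : Nat.factorial 3 = 6 := by decide
    rw [e2] at h1
    rw [e3]
    omega
  exact Cfsg.Agent.Lib.Lead.mulEquiv_perm_of_injective _ hinj 3 hX hG

end Cfsg.Agent.S0250
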