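import Cfsg.Statements.S0251
import Mathlib
import Cfsg.Agent.S0243
import Cfsg.Agent.Lib.Lead.PermIso
-- import your own Cfsg.Agent.* helpers here

set_option autoImplicit false
open Cfsg

namespace Cfsg.Agent.S0251

/-- PSL_2(3) is isomorphic to A_4. -/
theorem result {F : Type*} [Field F] [Fintype F] (hF : Fintype.card F = 3) : Nonempty (Matrix.ProjectiveSpecialLinearGroup (Fin 2) F ≃* alternatingGroup (Fin 4)) := by
  classical
  have hX : Nat.card (Projectivization F (Fin 2 → F)) = 4 := by
    rw [Projectivization.card_of_finrank_two F _ (by simp), Nat.card_eq_fintype_card, hF]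
  have hG : 2 * Nat.card (Matrix.ProjectiveSpecialLinearGroup (Fin 2) F) = Nat.factorial 4 := by
    have h1 := Cfsg.Agent.S0243.result (F := F) hF 2 le_rfl
    rw [Fin.prod_univ_two] at h1
    have e1 : Nat.gcd 2 (3 - 1) = 2 := by decide
    have e2 : (3 ^ 2 - 3 ^ ((0 : Fin 2) : ℕ)) * (3 ^ 2 - 3 ^ ((1 : Fin 2) : ℕ)) = 48 := by decide
    have e3 : Nat.factorial 4 = 24 := by decide
    rw [e1, e2] at h1
    rw [e3]
    omega
  exact Cfsg.Agent.Lib.Lead.mulEquiv_alt_of_injective _
    (Matrix.ProjectiveSpecialLinearGroup.toPermHom_injective (K := F) (ι := Fin 2)) 4 hX hG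

end Cfsg.Agent.S0251
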