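import Cfsg.Statements.S0494
import Mathlib
import Cfsg.Agent.Lib.Helper1.AltIso
import Cfsg.Agent.Lib.Helper1.Orbit
import Cfsg.Agent.Lib.Helper1.Abel

set_option autoImplicit false
open Cfsg

namespace Cfsg.Agent.S0494

/-- A simple group of order 60 is isomorphic to the alternating group of degree 5. -/
theorem result {G : Type*} [Group G] [Finite G] [IsSimpleGroup G]
    (h : Nat.card G = 60) : Nonempty (G ≃* alternatingGroup (Fin 5)) := by
  classical
  have : Fact (Nat.Prime 2) := ⟨Nat.prime_two⟩
  obtain ⟨P⟩ := (inferInstance : Nonempty (Sylow 2 G))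
  have hPcard : Nat.card (P : Subgroup G) = 4 := by
    obtain ⟨k, hk⟩ := IsPGroup.iff_card.mp P.isPGroup'
    have h1 : 2 ^ 2 ∣ Nat.card (P : Subgroup G) :=
      Cfsg.Agent.Lib.Helper1.pow_dvd_sylow_card P 2 (by rw [h]; norm_num)
    have h2 : Nat.card (P : Subgroup G) ∣ 60 := by
      rw [← h]; exact Subgroup.card_subgroup_dvd_card _
    rw [hk] at h1 h2 ⊢
    have hk5 : k < 6 := by
      by_contra hcon
      push Not at hcon
      have h3 : 2 ^ 6 ≤ 2 ^ k := Nat.pow_le_pow_right (by norm_num) hcon
      have h4 := Nat.le_of_dvd (by norm_num) h2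
      omega
    interval_cases k <;> first | (norm_num; done) | (exfalso; revert h1 h2; norm_num)
  obtain ⟨N, hN⟩ : ∃ N : Subgroup G, N = Subgroup.normalizer ((P : Subgroup G) : Set G) :=
    ⟨_, rfl⟩
  have hPN : (P : Subgroup G) ≤ N := by rw [hN]; exact Subgroup.le_normalizer
  have h4N : 4 ∣ Nat.card N := by rw [← hPcard]; exact Subgroup.card_dvd_of_le hPN
  have hidx : N.index * Nat.card N = 60 := by rw [← h]; exact Subgroup.index_mul_card N
  have hidx_cases : N.index = 1 ∨ N.index = 3 ∨ N.index = 5 ∨ N.index = 15 := by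
    obtain ⟨c, hc⟩ := h4N
    rw [hc] at hidx
    have h15 : N.index * c = 15 := by
      have h60 : 4 * (N.index * c) = 60 := by rw [← hidx]; ring
      omega
    have hd : N.index ∣ 15 := ⟨c, h15.symm⟩
    have hmem : N.index ∈ Nat.divisors 15 := Nat.mem_divisors.mpr ⟨hd, by norm_num⟩
    have hdiv : Nat.divisors 15 = {1, 3, 5, 15} := by decide
    rw [hdiv] at hmem
    simpa using hmem
  rcases hidx_cases with h1 | h3 | h5 | h15
  · exfalso
    have hNtop : N = ⊤ := Subgroup.index_eq_one.mp h1
    have hPn : (P : Subgroup G).Normal := by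
      rw [← Subgroup.normalizer_eq_top_iff, ← hN]; exact hNtop
    rcases hPn.eq_bot_or_eq_top with hb | ht
    · rw [hb, Subgroup.card_bot] at hPcard
      omega
    · rw [ht, Subgroup.card_top, h] at hPcard
      omega
  · exfalso
    have hNtop : N ≠ ⊤ := by
      intro ht
      rw [ht, Subgroup.index_top] at h3
      omega
    have hd := Cfsg.Agent.Lib.Helper1.card_dvd_factorial_index N hNtop
    rw [h3, h] at hd
    norm_num [Nat.factorial] at hd
  · exact Cfsg.Agent.Lib.Helper1.mulEquiv_alternatingGroup_of_index N 5 h5 (by rw [h]; decide)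
      (by norm_num)
  · exfalso
    have hNcard : Nat.card N = 4 := by rw [h15] at hidx; omega
    have hNP : N = (P : Subgroup G) :=
      (Subgroup.eq_of_le_of_card_ge hPN (by rw [hNcard, hPcard])).symm
    have hPab : IsMulCommutative (P : Subgroup G) :=
      IsPGroup.isMulCommutative_of_card_eq_prime_sq (p := 2) (by rw [hPcard]; norm_num)
    have hcomm := Cfsg.Agent.Lib.Helper1.comm_of_isMulCommutative hPab
    have hNC : Subgroup.normalizer ((P : Subgroup G) : Set G) ≤
        Subgroup.centralizer ((P : Subgroup G) : Set G) := by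
      rw [← hN, hNP]
      intro g hg
      rw [Subgroup.mem_centralizer_iff]
      intro x hx
      exact hcomm x hx g hg
    have hcompl := MonoidHom.ker_transferSylow_isComplement' P hNC
    have hKcard := hcompl.card_mul_card
    rw [hPcard, h] at hKcard
    rcases Subgroup.Normal.eq_bot_or_eq_top
      (MonoidHom.normal_ker (MonoidHom.transferSylow P hNC)) with hb | ht
    · rw [hb, Subgroup.card_bot] at hKcard
      omega
    · rw [ht, Subgroup.card_top, h] at hKcard
      omega

end Cfsg.Agent.S0494
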