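import Cfsg.Statements.S0252
import Mathlib
import Cfsg.Agent.S0243
import Cfsg.Agent.S0494
-- import your own Cfsg.Agent.* helpers here

set_option autoImplicit false
open Cfsg

namespace Cfsg.Agent.S0252

/-- PSL_2(4) is isomorphic to A_5. -/
theorem result {F : Type*} [Field F] [Fintype F] (hF : Fintype.card F = 4) : Nonempty (Matrix.ProjectiveSpecialLinearGroup (Fin 2) F ≃* alternatingGroup (Fin 5)) := by
  classical
  haveI : IsSimpleGroup (Matrix.ProjectiveSpecialLinearGroup (Fin 2) F) :=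
    Matrix.ProjectiveSpecialLinearGroup.rank_two_simple (by
      rw [Nat.card_eq_fintype_card, hF])
  have h1 := Cfsg.Agent.S0243.result (F := F) hF 2 le_rfl
  have h2 : Nat.card (Matrix.ProjectiveSpecialLinearGroup (Fin 2) F) = 60 := by
    rw [Fin.prod_univ_two] at h1
    have e1 : Nat.gcd 2 (4 - 1) = 1 := by decide
    have e2 : (4 ^ 2 - 4 ^ ((0 : Fin 2) : ℕ)) * (4 ^ 2 - 4 ^ ((1 : Fin 2) : ℕ)) = 180 := by decide
    rw [e1, e2] at h1
    omega
  exact Cfsg.Agent.S0494.result h2

end Cfsg.Agent.S0252
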