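import Cfsg.Statements.S0257
import Mathlib
import Cfsg.Agent.S0242
import Cfsg.Agent.S0251
import Cfsg.Agent.Lib.Lead.QuatLift
-- import your own Cfsg.Agent.* helpers here

set_option autoImplicit false
open Cfsg

namespace Cfsg.Agent.S0257

/-- SL_2(3) has a normal subgroup of index 3 isomorphic to the quaternion group of order 8, and its centre has order 2. -/
theorem result {F : Type*} [Field F] [Fintype F] (hF : Fintype.card F = 3) : (∃ Q : Subgroup (Matrix.SpecialLinearGroup (Fin 2) F), Q.Normal ∧ Q.index = 3 ∧ Nonempty (Q ≃* QuaternionGroup 2)) ∧ Nat.card (Subgroup.center (Matrix.SpecialLinearGroup (Fin 2) F)) = 2 := by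
  classical
  have h3 : (3 : F) = 0 := by
    have := Nat.cast_card_eq_zero F
    rw [hF] at this
    exact_mod_cast this
  have h2 : (2 : F) ≠ 0 := by
    intro h
    have : (1 : F) = 0 := by linear_combination h3 - h
    exact one_ne_zero this
  let x : Matrix.SpecialLinearGroup (Fin 2) F := ⟨!![0, -1; 1, 0], by simp [Matrix.det_fin_two]⟩
  let y : Matrix.SpecialLinearGroup (Fin 2) F := ⟨!![1, 1; 1, -1], by
    simp [Matrix.det_fin_two]; linear_combination (-1 : F) * h3⟩
  let z : Matrix.SpecialLinearGroup (Fin 2) F := ⟨!![-1, 0; 0, -1], by simp [Matrix.det_fin_two]⟩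
  have hxx : x * x = z := by
    apply Subtype.ext
    show (!![0, -1; 1, 0] : Matrix (Fin 2) (Fin 2) F) * !![0, -1; 1, 0] = !![-1, 0; 0, -1]
    ext i j
    fin_cases i <;> fin_cases j <;>
      simp [Matrix.mul_apply, Fin.sum_univ_two]
  have hzz : z * z = 1 := by
    apply Subtype.ext
    show (!![-1, 0; 0, -1] : Matrix (Fin 2) (Fin 2) F) * !![-1, 0; 0, -1] = 1
    ext i j
    fin_cases i <;> fin_cases j <;>
      simp [Matrix.mul_apply, Fin.sum_univ_two]
  have hyy : y * y = z := by
    apply Subtype.ext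
    show (!![1, 1; 1, -1] : Matrix (Fin 2) (Fin 2) F) * !![1, 1; 1, -1] = !![-1, 0; 0, -1]
    ext i j
    fin_cases i <;> fin_cases j <;>
      simp [Matrix.mul_apply, Fin.sum_univ_two] <;> linear_combination h3
  have hxy : x * y * x = y := by
    apply Subtype.ext
    show (!![0, -1; 1, 0] : Matrix (Fin 2) (Fin 2) F) * !![1, 1; 1, -1] * !![0, -1; 1, 0] = !![1, 1; 1, -1]
    ext i j
    fin_cases i <;> fin_cases j <;>
      simp [Matrix.mul_apply, Fin.sum_univ_two]
  have hz1 : z ≠ 1 := by
    intro h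
    have h5 := congrArg (fun g : Matrix.SpecialLinearGroup (Fin 2) F => (g : Matrix (Fin 2) (Fin 2) F) 0 0) h
    simp [z] at h5
    exact h2 (by linear_combination -h5)
  have hx4 : x ^ (2 * 2) = 1 := by
    rw [show (2 * 2 : ℕ) = 2 + 2 from rfl, pow_add, sq, hxx, hzz]
  have hy2 : y ^ 2 = x ^ 2 := by rw [sq, sq, hyy, hxx]
  have hord : orderOf x = 2 * 2 := by
    have h5 : orderOf x = 2 ^ (1 + 1) :=
      orderOf_eq_prime_pow (p := 2) (by rw [pow_one, sq, hxx]; exact hz1) (by simpa using hx4)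
    simpa using h5
  let f := Cfsg.Agent.Lib.Lead.quatHom 2 x y hx4 hy2 hxy
  have hfinj : Function.Injective f :=
    Cfsg.Agent.Lib.Lead.quatHom_injective 2 x y hx4 hy2 hxy hord le_rfl
  have hcardG : Nat.card (Matrix.SpecialLinearGroup (Fin 2) F) = 24 := by
    have h1 := Cfsg.Agent.S0242.result (F := F) hF 2 (by norm_num)
    rw [Fin.prod_univ_two] at h1
    have e2 : (3 ^ 2 - 3 ^ ((0 : Fin 2) : ℕ)) * (3 ^ 2 - 3 ^ ((1 : Fin 2) : ℕ)) = 48 := by decide
    rw [e2] at h1
    omega
  have hcardR : Nat.card f.range = 8 := by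
    rw [← Nat.card_congr (MonoidHom.ofInjective hfinj).toEquiv, Nat.card_eq_fintype_card,
      QuaternionGroup.card]
  obtain ⟨e⟩ := Cfsg.Agent.S0251.result (F := F) hF
  have h4 : Nat.card (Fin 4) = 4 := by simp
  have hVn := alternatingGroup.normal_kleinFour h4
  have hVc := alternatingGroup.kleinFour_card_of_card_eq_four h4
  let π : Matrix.SpecialLinearGroup (Fin 2) F →* alternatingGroup (Fin 4) :=
    e.toMonoidHom.comp (QuotientGroup.mk' (Subgroup.center _))
  have hπ : Function.Surjective π := e.surjective.comp (QuotientGroup.mk'_surjective _)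
  let Q := (alternatingGroup.kleinFour (Fin 4)).comap π
  have hQn : Q.Normal := hVn.comap π
  have hcardA : Nat.card (alternatingGroup (Fin 4)) = 12 := by
    have h5 := two_mul_nat_card_alternatingGroup (α := Fin 4)
    rw [Nat.card_perm, Nat.card_fin] at h5
    have e3 : Nat.factorial 4 = 24 := by decide
    omega
  have hQi : Q.index = 3 := by
    rw [Subgroup.index_comap_of_surjective _ hπ]
    have h5 := Subgroup.card_mul_index (alternatingGroup.kleinFour (Fin 4))
    rw [hVc, hcardA] at h5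
    omega
  have hQc : Nat.card Q = 8 := by
    have h5 := Subgroup.card_mul_index Q
    rw [hQi, hcardG] at h5
    omega
  have hle : f.range ≤ Q := by
    intro g hg
    haveI := hQn
    have h8 : g ^ 8 = 1 := by
      have h5 := pow_card_eq_one' (G := f.range) (x := ⟨g, hg⟩)
      rw [hcardR] at h5
      exact congrArg Subtype.val h5
    have h1 : ((g : Matrix.SpecialLinearGroup (Fin 2) F ⧸ Q)) ^ 3 = 1 := by
      have h5 : Nat.card (Matrix.SpecialLinearGroup (Fin 2) F ⧸ Q) = 3 := hQi
      rw [← h5]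
      exact pow_card_eq_one'
    have h2' : (g : Matrix.SpecialLinearGroup (Fin 2) F ⧸ Q) ^ 8 = 1 := by
      rw [← QuotientGroup.mk_pow, h8]
      rfl
    have h3' : (g : Matrix.SpecialLinearGroup (Fin 2) F ⧸ Q) = 1 := by
      calc (g : Matrix.SpecialLinearGroup (Fin 2) F ⧸ Q)
          = ((g : Matrix.SpecialLinearGroup (Fin 2) F ⧸ Q) ^ 3) ^ 3 *
            ((g : Matrix.SpecialLinearGroup (Fin 2) F ⧸ Q) ^ 8)⁻¹ := by group
        _ = 1 := by rw [h1, h2']; simp
    exact (QuotientGroup.eq_one_iff g).mp h3'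
  have hQR : f.range = Q := Subgroup.eq_of_le_of_card_ge hle (by rw [hcardR, hQc])
  refine ⟨⟨Q, hQn, hQi,
    ⟨(MulEquiv.subgroupCongr hQR).symm.trans (MonoidHom.ofInjective hfinj).symm⟩⟩, ?_⟩
  rw [Cfsg.Agent.Lib.Lead.card_center_SL 2 (by norm_num), hF]
  decide

end Cfsg.Agent.S0257
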