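import Cfsg.Statements.S0267
import Mathlib
import Cfsg.Agent.Lib.Lead.ProjLine
import Cfsg.Agent.S0242
-- import your own Cfsg.Agent.* helpers here

set_option autoImplicit false
open Cfsg

namespace Cfsg.Agent.S0267

/-- SL_2(q) is 3-transitive on the q+1 points of the projective line if and only if q is even. -/
theorem result {F : Type*} [Field F] [Fintype F] : MulAction.IsMultiplyPretransitive (Matrix.SpecialLinearGroup (Fin 2) F) (Projectivization F (Fin 2 → F)) 3 ↔ ringChar F = 2 := by
  constructor
  · intro h
    exact Cfsg.Agent.Lib.Lead.char_two_of_SL_three_trans h (by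
      have h1 := Cfsg.Agent.S0242.result (F := F) rfl 2 (by norm_num)
      rw [Fin.prod_univ_two] at h1
      simpa using h1)
  · intro h
    exact Cfsg.Agent.Lib.Lead.SL_three_trans_of_char_two h

end Cfsg.Agent.S0267
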