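import Cfsg.Statements.S0268
import Mathlib
-- import your own Cfsg.Agent.* helpers here

set_option autoImplicit false
open Cfsg

namespace Cfsg.Agent.S0268

/-- For q odd, -1 is the unique involution of SL_2(q). -/
theorem result {F : Type*} [Field F] [Fintype F] (hF : Odd (Fintype.card F)) (g : Matrix.SpecialLinearGroup (Fin 2) F) (h1 : g ≠ 1) (h2 : g * g = 1) : (g : Matrix (Fin 2) (Fin 2) F) = -1 := by
  have htwo : (2 : F) ≠ 0 := by
    intro h
    have h3 : ringChar F ∣ 2 := by
      have := (ringChar.spec F 2).mp (by exact_mod_cast h)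
      exact this
    have h4 : ringChar F = 2 := by
      rcases (Nat.dvd_prime Nat.prime_two).mp h3 with h5 | h5
      · exact absurd h5 (CharP.ringChar_ne_one)
      · exact h5
    have h5 := FiniteField.even_card_of_char_two h4
    rw [Nat.odd_iff] at hF
    omega
  have hdet : (g : Matrix (Fin 2) (Fin 2) F) 0 0 * (g : Matrix (Fin 2) (Fin 2) F) 1 1
      - (g : Matrix (Fin 2) (Fin 2) F) 0 1 * (g : Matrix (Fin 2) (Fin 2) F) 1 0 = 1 := by
    rw [← Matrix.det_fin_two]; exact g.2
  have hmul : (g : Matrix (Fin 2) (Fin 2) F) * (g : Matrix (Fin 2) (Fin 2) F) = 1 := by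
    have := congrArg (fun x : Matrix.SpecialLinearGroup (Fin 2) F => (x : Matrix (Fin 2) (Fin 2) F)) h2
    simpa using this
  have e1 := congrFun (congrFun hmul 0) 0
  have e2 := congrFun (congrFun hmul 0) 1
  have e3 := congrFun (congrFun hmul 1) 0
  have e4 := congrFun (congrFun hmul 1) 1
  simp only [Matrix.mul_apply, Fin.sum_univ_two, Matrix.one_apply_eq, Matrix.one_apply_ne, ne_eq,
    zero_ne_one, one_ne_zero, not_false_eq_true] at e1 e2 e3 e4
  obtain ⟨a, ha⟩ : ∃ a, a = (g : Matrix (Fin 2) (Fin 2) F) 0 0 := ⟨_, rfl⟩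
  obtain ⟨b, hb⟩ : ∃ b, b = (g : Matrix (Fin 2) (Fin 2) F) 0 1 := ⟨_, rfl⟩
  obtain ⟨c, hc⟩ : ∃ c, c = (g : Matrix (Fin 2) (Fin 2) F) 1 0 := ⟨_, rfl⟩
  obtain ⟨d, hd⟩ : ∃ d, d = (g : Matrix (Fin 2) (Fin 2) F) 1 1 := ⟨_, rfl⟩
  simp only [← ha, ← hb, ← hc, ← hd] at e1 e2 e3 e4 hdet
  have ht : a + d ≠ 0 := by
    intro ht
    have hd' : d = -a := by linear_combination ht
    rw [hd'] at hdet
    apply htwo
    linear_combination -(e1 + hdet)
  have hb0 : b = 0 := by
    have : b * (a + d) = 0 := by linear_combination e2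
    rcases mul_eq_zero.mp this with h | h
    · exact h
    · exact absurd h ht
  have hc0 : c = 0 := by
    have : c * (a + d) = 0 := by linear_combination e3
    rcases mul_eq_zero.mp this with h | h
    · exact h
    · exact absurd h ht
  rw [hb0, hc0] at e1 hdet
  have haa : a * a = 1 := by linear_combination e1
  have had : a * d = 1 := by linear_combination hdet
  have ha0 : a ≠ 0 := by
    intro h; rw [h] at haa; simp at haa
  have hda : d = a := by
    have : a * (d - a) = 0 := by linear_combination had - haa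
    rcases mul_eq_zero.mp this with h | h
    · exact absurd h ha0
    · linear_combination h
  have ha1 : a = 1 ∨ a = -1 := by
    have : (a - 1) * (a + 1) = 0 := by linear_combination haa
    rcases mul_eq_zero.mp this with h | h
    · left; linear_combination h
    · right; linear_combination h
  rcases ha1 with ha1 | ha1
  · exfalso
    apply h1
    apply Subtype.ext
    ext i j
    fin_cases i <;> fin_cases j
    · show (g : Matrix (Fin 2) (Fin 2) F) 0 0 = 1
      rw [← ha, ha1] <;> simp
    · show (g : Matrix (Fin 2) (Fin 2) F) 0 1 = _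
      rw [← hb, hb0] <;> simp
    · show (g : Matrix (Fin 2) (Fin 2) F) 1 0 = _
      rw [← hc, hc0] <;> simp
    · show (g : Matrix (Fin 2) (Fin 2) F) 1 1 = _
      rw [← hd, hda, ha1] <;> simp
  · ext i j
    fin_cases i <;> fin_cases j
    · show (g : Matrix (Fin 2) (Fin 2) F) 0 0 = _
      rw [← ha, ha1] <;> simp
    · show (g : Matrix (Fin 2) (Fin 2) F) 0 1 = _
      rw [← hb, hb0] <;> simp
    · show (g : Matrix (Fin 2) (Fin 2) F) 1 0 = _
      rw [← hc, hc0] <;> simp
    · show (g : Matrix (Fin 2) (Fin 2) F) 1 1 = _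
      rw [← hd, hda, ha1] <;> simp

end Cfsg.Agent.S0268
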