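import Mathlib
import Cfsg.Statements.S0766
import Cfsg.Agent.Lib.Helper1.Symp

set_option autoImplicit false
open Cfsg
open Matrix Cfsg.Agent.Lib.Helper1

namespace Cfsg.Agent.S0766

variable {F : Type*} [Field F] (m : ℕ)

abbrev TG (F : Type*) [Field F] (m : ℕ) : Subgroup (Matrix.symplecticGroup (Fin m) F) :=
  Subgroup.closure {A : Matrix.symplecticGroup (Fin m) F | ∃ (w : Fin m ⊕ Fin m → F) (c : F), (A : Matrix (Fin m ⊕ Fin m) (Fin m ⊕ Fin m) F) = Cfsg.sympTransvection m w c}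

theorem step (x y : Fin m ⊕ Fin m → F) (hxy : sympForm m F x y ≠ 0) :
    ∃ A ∈ TG F m, (A : Matrix (Fin m ⊕ Fin m) (Fin m ⊕ Fin m) F) *ᵥ x = y ∧
      ∀ z, sympForm m F z (x - y) = 0 → (A : Matrix (Fin m ⊕ Fin m) (Fin m ⊕ Fin m) F) *ᵥ z = z := by
  refine ⟨⟨sympTransvection m (x - y) (sympForm m F x y)⁻¹, sympTransvection_mem m _ _⟩,
    Subgroup.subset_closure ⟨_, _, rfl⟩, ?_, ?_⟩
  · show sympTransvection m (x - y) (sympForm m F x y)⁻¹ *ᵥ x = y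
    rw [sympTransvection_mulVec, sympForm_sub_right, sympForm_self, zero_sub, mul_neg,
      inv_mul_cancel₀ hxy]
    simp
  · intro z hz
    show sympTransvection m (x - y) (sympForm m F x y)⁻¹ *ᵥ z = z
    rw [sympTransvection_mulVec, hz, mul_zero, zero_smul, add_zero]

theorem phase1 (u v u' v' : Fin m ⊕ Fin m → F) (h : sympForm m F u v = 1)
    (h' : sympForm m F u' v' = 1) :
    ∃ A ∈ TG F m, (A : Matrix (Fin m ⊕ Fin m) (Fin m ⊕ Fin m) F) *ᵥ u = u' := by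
  by_cases h0 : sympForm m F u u' = 0
  swap
  · obtain ⟨A, hA, hAu, -⟩ := step m u u' h0
    exact ⟨A, hA, hAu⟩
  have hx : ∃ x, sympForm m F u x ≠ 0 ∧ sympForm m F x u' ≠ 0 := by
    by_cases h1 : sympForm m F v u' = 0
    swap
    · exact ⟨v, by rw [h]; exact one_ne_zero, h1⟩
    by_cases h2 : sympForm m F u v' = 0
    swap
    · refine ⟨v', h2, ?_⟩
      rw [sympForm_swap, h']; simp
    · refine ⟨v + v', ?_, ?_⟩
      · rw [sympForm_add_right, h, h2, add_zero]; exact one_ne_zero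
      · rw [sympForm_add_left, h1, zero_add, sympForm_swap, h']; simp
  obtain ⟨x, hx1, hx2⟩ := hx
  obtain ⟨A, hA, hAu, -⟩ := step m u x hx1
  obtain ⟨B, hB, hBx, -⟩ := step m x u' hx2
  refine ⟨B * A, Subgroup.mul_mem _ hB hA, ?_⟩
  show ((B : Matrix (Fin m ⊕ Fin m) (Fin m ⊕ Fin m) F) * (A : Matrix (Fin m ⊕ Fin m) (Fin m ⊕ Fin m) F)) *ᵥ u = u'
  rw [← Matrix.mulVec_mulVec, hAu, hBx]

theorem phase2 (u v v' : Fin m ⊕ Fin m → F) (h : sympForm m F u v = 1)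
    (h' : sympForm m F u v' = 1) :
    ∃ A ∈ TG F m, (A : Matrix (Fin m ⊕ Fin m) (Fin m ⊕ Fin m) F) *ᵥ u = u ∧
      (A : Matrix (Fin m ⊕ Fin m) (Fin m ⊕ Fin m) F) *ᵥ v = v' := by
  by_cases h0 : sympForm m F v v' = 0
  swap
  · obtain ⟨A, hA, hAv, hfix⟩ := step m v v' h0
    refine ⟨A, hA, hfix u ?_, hAv⟩
    rw [sympForm_sub_right, h, h', sub_self]
  · have h1 : sympForm m F v (u + v) ≠ 0 := by
      rw [sympForm_add_right, sympForm_self, add_zero, sympForm_swap, h]; simp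
    have h2 : sympForm m F (u + v) v' ≠ 0 := by
      rw [sympForm_add_left, h', h0, add_zero]; exact one_ne_zero
    obtain ⟨A, hA, hAv, hfixA⟩ := step m v (u + v) h1
    obtain ⟨B, hB, hBv, hfixB⟩ := step m (u + v) v' h2
    have hAu : (A : Matrix (Fin m ⊕ Fin m) (Fin m ⊕ Fin m) F) *ᵥ u = u := by
      apply hfixA
      rw [sympForm_sub_right, sympForm_add_right, sympForm_self, h]; ring
    have hBu : (B : Matrix (Fin m ⊕ Fin m) (Fin m ⊕ Fin m) F) *ᵥ u = u := by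
      apply hfixB
      rw [sympForm_sub_right, sympForm_add_right, sympForm_self, h, h']; ring
    refine ⟨B * A, Subgroup.mul_mem _ hB hA, ?_, ?_⟩
    · show ((B : Matrix (Fin m ⊕ Fin m) (Fin m ⊕ Fin m) F) * (A : Matrix (Fin m ⊕ Fin m) (Fin m ⊕ Fin m) F)) *ᵥ u = u
      rw [← Matrix.mulVec_mulVec, hAu, hBu]
    · show ((B : Matrix (Fin m ⊕ Fin m) (Fin m ⊕ Fin m) F) * (A : Matrix (Fin m ⊕ Fin m) (Fin m ⊕ Fin m) F)) *ᵥ v = v'
      rw [← Matrix.mulVec_mulVec, hAv, hBv]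

theorem result {F : Type*} [Field F] (m : ℕ) (u v u' v' : Fin m ⊕ Fin m → F) (h : Cfsg.sympForm m F u v = 1) (h' : Cfsg.sympForm m F u' v' = 1) : ∃ A ∈ Subgroup.closure {A : Matrix.symplecticGroup (Fin m) F | ∃ (w : Fin m ⊕ Fin m → F) (c : F), (A : Matrix (Fin m ⊕ Fin m) (Fin m ⊕ Fin m) F) = Cfsg.sympTransvection m w c}, (A : Matrix (Fin m ⊕ Fin m) (Fin m ⊕ Fin m) F).mulVec u = u' ∧ (A : Matrix (Fin m ⊕ Fin m) (Fin m ⊕ Fin m) F).mulVec v = v' := by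
  obtain ⟨A, hA, hAu⟩ := phase1 m u v u' v' h h'
  have hf : sympForm m F u' ((A : Matrix (Fin m ⊕ Fin m) (Fin m ⊕ Fin m) F) *ᵥ v) = 1 := by
    rw [← hAu, sympForm_map m A.2, h]
  obtain ⟨B, hB, hBu, hBv⟩ := phase2 m u' _ v' hf h'
  refine ⟨B * A, Subgroup.mul_mem _ hB hA, ?_, ?_⟩
  · show ((B : Matrix (Fin m ⊕ Fin m) (Fin m ⊕ Fin m) F) * (A : Matrix (Fin m ⊕ Fin m) (Fin m ⊕ Fin m) F)) *ᵥ u = u'
    rw [← Matrix.mulVec_mulVec, hAu, hBu]
  · show ((B : Matrix (Fin m ⊕ Fin m) (Fin m ⊕ Fin m) F) * (A : Matrix (Fin m ⊕ Fin m) (Fin m ⊕ Fin m) F)) *ᵥ v = v'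
    rw [← Matrix.mulVec_mulVec, hBv]

end Cfsg.Agent.S0766
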