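import Cfsg.Statements.S0765
import Mathlib
import Cfsg.Statements.S0765
import Cfsg.Agent.S0766

set_option autoImplicit false
open Cfsg
open scoped commutatorElement

namespace Cfsg.Agent.S0765

open Matrix Cfsg.Agent.Lib.Helper1 Cfsg.Agent.S0766

theorem phase1_65 {F : Type*} [Field F] (m : ℕ) (u v u' v' : Fin m ⊕ Fin m → F) (h : sympForm m F u v = 1)
    (h' : sympForm m F u' v' = 1) :
    ∃ A ∈ TG F m, (A : Matrix (Fin m ⊕ Fin m) (Fin m ⊕ Fin m) F) *ᵥ u = u' ∧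
      ∀ z, sympForm m F z u = 0 → sympForm m F z v = 0 → sympForm m F z u' = 0 → sympForm m F z v' = 0 →
        (A : Matrix (Fin m ⊕ Fin m) (Fin m ⊕ Fin m) F) *ᵥ z = z := by
  by_cases h0 : sympForm m F u u' = 0
  swap
  · obtain ⟨A, hA, hAu, hfix⟩ := step m u u' h0
    exact ⟨A, hA, hAu, fun z hz1 _ hz3 _ => hfix z (by rw [sympForm_sub_right, hz1, hz3, sub_zero])⟩
  have hx : ∃ x, sympForm m F u x ≠ 0 ∧ sympForm m F x u' ≠ 0 ∧
      ∀ z, sympForm m F z v = 0 → sympForm m F z v' = 0 → sympForm m F z x = 0 := by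
    by_cases h1 : sympForm m F v u' = 0
    swap
    · exact ⟨v, by rw [h]; exact one_ne_zero, h1, fun z hz _ => hz⟩
    by_cases h2 : sympForm m F u v' = 0
    swap
    · refine ⟨v', h2, ?_, fun z _ hz => hz⟩
      rw [sympForm_swap, h']; simp
    · refine ⟨v + v', ?_, ?_, fun z hz1 hz2 => by rw [sympForm_add_right, hz1, hz2, add_zero]⟩
      · rw [sympForm_add_right, h, h2, add_zero]; exact one_ne_zero
      · rw [sympForm_add_left, h1, zero_add, sympForm_swap, h']; simp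
  obtain ⟨x, hx1, hx2, hx3⟩ := hx
  obtain ⟨A, hA, hAu, hfixA⟩ := step m u x hx1
  obtain ⟨B, hB, hBx, hfixB⟩ := step m x u' hx2
  refine ⟨B * A, Subgroup.mul_mem _ hB hA, ?_, ?_⟩
  · show ((B : Matrix (Fin m ⊕ Fin m) (Fin m ⊕ Fin m) F) * (A : Matrix (Fin m ⊕ Fin m) (Fin m ⊕ Fin m) F)) *ᵥ u = u'
    rw [← Matrix.mulVec_mulVec, hAu, hBx]
  · intro z hz1 hz2 hz3 hz4
    show ((B : Matrix (Fin m ⊕ Fin m) (Fin m ⊕ Fin m) F) * (A : Matrix (Fin m ⊕ Fin m) (Fin m ⊕ Fin m) F)) *ᵥ z = z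
    rw [← Matrix.mulVec_mulVec, hfixA z (by rw [sympForm_sub_right, hz1, hx3 z hz2 hz4, sub_zero]),
      hfixB z (by rw [sympForm_sub_right, hx3 z hz2 hz4, hz3, sub_zero])]

theorem phase2_65 {F : Type*} [Field F] (m : ℕ) (u v v' : Fin m ⊕ Fin m → F) (h : sympForm m F u v = 1)
    (h' : sympForm m F u v' = 1) :
    ∃ A ∈ TG F m, (A : Matrix (Fin m ⊕ Fin m) (Fin m ⊕ Fin m) F) *ᵥ u = u ∧
      (A : Matrix (Fin m ⊕ Fin m) (Fin m ⊕ Fin m) F) *ᵥ v = v' ∧
      ∀ z, sympForm m F z u = 0 → sympForm m F z v = 0 → sympForm m F z v' = 0 →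
        (A : Matrix (Fin m ⊕ Fin m) (Fin m ⊕ Fin m) F) *ᵥ z = z := by
  by_cases h0 : sympForm m F v v' = 0
  swap
  · obtain ⟨A, hA, hAv, hfix⟩ := step m v v' h0
    refine ⟨A, hA, hfix u ?_, hAv, fun z _ hz2 hz3 => hfix z (by rw [sympForm_sub_right, hz2, hz3, sub_zero])⟩
    rw [sympForm_sub_right, h, h', sub_self]
  · have h1 : sympForm m F v (u + v) ≠ 0 := by
      rw [sympForm_add_right, sympForm_self, add_zero, sympForm_swap, h]; simp
    have h2 : sympForm m F (u + v) v' ≠ 0 := by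
      rw [sympForm_add_left, h', h0, add_zero]; exact one_ne_zero
    obtain ⟨A, hA, hAv, hfixA⟩ := step m v (u + v) h1
    obtain ⟨B, hB, hBv, hfixB⟩ := step m (u + v) v' h2
    have hAu : (A : Matrix (Fin m ⊕ Fin m) (Fin m ⊕ Fin m) F) *ᵥ u = u := by
      apply hfixA
      rw [sympForm_sub_right, sympForm_add_right, sympForm_self, h]; ring
    have hBu : (B : Matrix (Fin m ⊕ Fin m) (Fin m ⊕ Fin m) F) *ᵥ u = u := by
      apply hfixB
      rw [sympForm_sub_right, sympForm_add_right, sympForm_self, h, h']; ring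
    refine ⟨B * A, Subgroup.mul_mem _ hB hA, ?_, ?_, ?_⟩
    · show ((B : Matrix (Fin m ⊕ Fin m) (Fin m ⊕ Fin m) F) * (A : Matrix (Fin m ⊕ Fin m) (Fin m ⊕ Fin m) F)) *ᵥ u = u
      rw [← Matrix.mulVec_mulVec, hAu, hBu]
    · show ((B : Matrix (Fin m ⊕ Fin m) (Fin m ⊕ Fin m) F) * (A : Matrix (Fin m ⊕ Fin m) (Fin m ⊕ Fin m) F)) *ᵥ v = v'
      rw [← Matrix.mulVec_mulVec, hAv, hBv]
    · intro z hz1 hz2 hz3
      show ((B : Matrix (Fin m ⊕ Fin m) (Fin m ⊕ Fin m) F) * (A : Matrix (Fin m ⊕ Fin m) (Fin m ⊕ Fin m) F)) *ᵥ z = z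
      rw [← Matrix.mulVec_mulVec, hfixA z (by rw [sympForm_sub_right, sympForm_add_right, hz1, hz2]; ring),
        hfixB z (by rw [sympForm_sub_right, sympForm_add_right, hz1, hz2, hz3]; ring)]

theorem trans65 {F : Type*} [Field F] (m : ℕ) (u v u' v' : Fin m ⊕ Fin m → F) (h : sympForm m F u v = 1)
    (h' : sympForm m F u' v' = 1) :
    ∃ A ∈ TG F m, (A : Matrix (Fin m ⊕ Fin m) (Fin m ⊕ Fin m) F) *ᵥ u = u' ∧
      (A : Matrix (Fin m ⊕ Fin m) (Fin m ⊕ Fin m) F) *ᵥ v = v' ∧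
      ∀ z, sympForm m F z u = 0 → sympForm m F z v = 0 → sympForm m F z u' = 0 → sympForm m F z v' = 0 →
        (A : Matrix (Fin m ⊕ Fin m) (Fin m ⊕ Fin m) F) *ᵥ z = z := by
  obtain ⟨A, hA, hAu, hfixA⟩ := phase1_65 m u v u' v' h h'
  have hf : sympForm m F u' ((A : Matrix (Fin m ⊕ Fin m) (Fin m ⊕ Fin m) F) *ᵥ v) = 1 := by
    rw [← hAu, sympForm_map m A.2, h]
  obtain ⟨B, hB, hBu, hBv, hfixB⟩ := phase2_65 m u' _ v' hf h'
  refine ⟨B * A, Subgroup.mul_mem _ hB hA, ?_, ?_, ?_⟩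
  · show ((B : Matrix (Fin m ⊕ Fin m) (Fin m ⊕ Fin m) F) * (A : Matrix (Fin m ⊕ Fin m) (Fin m ⊕ Fin m) F)) *ᵥ u = u'
    rw [← Matrix.mulVec_mulVec, hAu, hBu]
  · show ((B : Matrix (Fin m ⊕ Fin m) (Fin m ⊕ Fin m) F) * (A : Matrix (Fin m ⊕ Fin m) (Fin m ⊕ Fin m) F)) *ᵥ v = v'
    rw [← Matrix.mulVec_mulVec, hBv]
  · intro z hz1 hz2 hz3 hz4
    have hAz := hfixA z hz1 hz2 hz3 hz4
    show ((B : Matrix (Fin m ⊕ Fin m) (Fin m ⊕ Fin m) F) * (A : Matrix (Fin m ⊕ Fin m) (Fin m ⊕ Fin m) F)) *ᵥ z = z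
    rw [← Matrix.mulVec_mulVec, hAz]
    apply hfixB z hz3 _ hz4
    have h5 := sympForm_map m A.2 z v
    rw [hAz] at h5
    rw [h5, hz2]

theorem std_val65 {F : Type*} [Field F] (m : ℕ) (k l : Fin m ⊕ Fin m) :
    sympForm m F (Pi.single k 1) (Pi.single l 1) = Matrix.J (Fin m) F k l := by
  classical
  unfold sympForm
  rw [Matrix.mulVec_single_one, single_dotProduct, one_mul]
  rfl

theorem gen65 {F : Type*} [Field F] (m : ℕ) : ∀ d j : ℕ, j + d = m → ∀ A : Matrix.symplecticGroup (Fin m) F,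
    (∀ i : Fin m, i.val < j →
      (A : Matrix (Fin m ⊕ Fin m) (Fin m ⊕ Fin m) F) *ᵥ Pi.single (Sum.inl i) 1 = Pi.single (Sum.inl i) 1 ∧
      (A : Matrix (Fin m ⊕ Fin m) (Fin m ⊕ Fin m) F) *ᵥ Pi.single (Sum.inr i) 1 = Pi.single (Sum.inr i) 1) →
    A ∈ TG F m := by
  classical
  intro d
  induction d with
  | zero =>
    intro j hj A hfix
    have hA1 : A = 1 := by
      apply Subtype.ext
      ext k l
      have h1 : (A : Matrix (Fin m ⊕ Fin m) (Fin m ⊕ Fin m) F) *ᵥ Pi.single l 1 = Pi.single l 1 := by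
        rcases l with i | i
        · exact (hfix i (by omega)).1
        · exact (hfix i (by omega)).2
      have h2 := congrFun h1 k
      rw [Matrix.mulVec_single_one] at h2
      show (A : Matrix (Fin m ⊕ Fin m) (Fin m ⊕ Fin m) F) k l = (1 : Matrix (Fin m ⊕ Fin m) (Fin m ⊕ Fin m) F) k l
      rw [Matrix.one_apply]
      rw [Pi.single_apply] at h2
      exact h2
    rw [hA1]; exact Subgroup.one_mem _
  | succ d ih =>
    intro j hj A hfix
    have hjm : j < m := by omega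
    obtain ⟨jj, hjj⟩ : ∃ jj : Fin m, jj.val = j := ⟨⟨j, hjm⟩, rfl⟩
    have h1' : sympForm m F (Pi.single (Sum.inr jj) 1) (Pi.single (Sum.inl jj) 1) = 1 := by
      rw [std_val65]; simp [Matrix.J]
    have h1 : sympForm m F ((A : Matrix (Fin m ⊕ Fin m) (Fin m ⊕ Fin m) F) *ᵥ Pi.single (Sum.inr jj) 1)
        ((A : Matrix (Fin m ⊕ Fin m) (Fin m ⊕ Fin m) F) *ᵥ Pi.single (Sum.inl jj) 1) = 1 := by
      rw [sympForm_map m A.2, h1']
    obtain ⟨B, hB, hBu, hBv, hfixB⟩ := trans65 m _ _ _ _ h1 h1'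
    have key : ∀ z w : Fin m ⊕ Fin m → F, (A : Matrix (Fin m ⊕ Fin m) (Fin m ⊕ Fin m) F) *ᵥ z = z →
        sympForm m F z ((A : Matrix (Fin m ⊕ Fin m) (Fin m ⊕ Fin m) F) *ᵥ w) = sympForm m F z w := by
      intro z w hz
      have h5 := sympForm_map m A.2 z w
      rwa [hz] at h5
    have hBA : B * A ∈ TG F m := by
      apply ih (j + 1) (by omega)
      intro i hi
      by_cases hij : i.val < j
      · have hne : i ≠ jj := by
          intro h; rw [h, hjj] at hij; exact lt_irrefl _ hij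
        obtain ⟨ha, hb⟩ := hfix i hij
        constructor
        · show ((B : Matrix (Fin m ⊕ Fin m) (Fin m ⊕ Fin m) F) * (A : Matrix (Fin m ⊕ Fin m) (Fin m ⊕ Fin m) F)) *ᵥ _ = _
          rw [← Matrix.mulVec_mulVec, ha]
          apply hfixB
          · rw [key _ _ ha, std_val65]; simp [Matrix.J, Matrix.one_apply, hne]
          · rw [key _ _ ha, std_val65]; simp [Matrix.J, Matrix.one_apply, hne]
          · rw [std_val65]; simp [Matrix.J, Matrix.one_apply, hne]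
          · rw [std_val65]; simp [Matrix.J, Matrix.one_apply, hne]
        · show ((B : Matrix (Fin m ⊕ Fin m) (Fin m ⊕ Fin m) F) * (A : Matrix (Fin m ⊕ Fin m) (Fin m ⊕ Fin m) F)) *ᵥ _ = _
          rw [← Matrix.mulVec_mulVec, hb]
          apply hfixB
          · rw [key _ _ hb, std_val65]; simp [Matrix.J, Matrix.one_apply, hne]
          · rw [key _ _ hb, std_val65]; simp [Matrix.J, Matrix.one_apply, hne]
          · rw [std_val65]; simp [Matrix.J, Matrix.one_apply, hne]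
          · rw [std_val65]; simp [Matrix.J, Matrix.one_apply, hne]
      · have hij' : i = jj := Fin.ext (by rw [hjj]; omega)
        rw [hij']
        constructor
        · show ((B : Matrix (Fin m ⊕ Fin m) (Fin m ⊕ Fin m) F) * (A : Matrix (Fin m ⊕ Fin m) (Fin m ⊕ Fin m) F)) *ᵥ _ = _
          rw [← Matrix.mulVec_mulVec, hBv]
        · show ((B : Matrix (Fin m ⊕ Fin m) (Fin m ⊕ Fin m) F) * (A : Matrix (Fin m ⊕ Fin m) (Fin m ⊕ Fin m) F)) *ᵥ _ = _
          rw [← Matrix.mulVec_mulVec, hBu]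
    have hAeq : A = B⁻¹ * (B * A) := by group
    rw [hAeq]; exact Subgroup.mul_mem _ (Subgroup.inv_mem _ hB) hBA

/-- Generation of the symplectic group by symplectic transvections: the subgroup of Sp_2m(F) generated by all matrices of maps x ↦ x + c f(x, w) w is the whole group. -/
theorem result {F : Type*} [Field F] (m : ℕ) : Subgroup.closure {A : Matrix.symplecticGroup (Fin m) F | ∃ (w : Fin m ⊕ Fin m → F) (c : F), (A : Matrix (Fin m ⊕ Fin m) (Fin m ⊕ Fin m) F) = Cfsg.sympTransvection m w c} = ⊤ := by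
  rw [eq_top_iff]
  intro A _
  exact gen65 m m 0 (by omega) A (fun i hi => absurd hi (Nat.not_lt_zero _))

end Cfsg.Agent.S0765
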