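import Cfsg.Statements.S0269
import Mathlib
import Cfsg.Statements.S0269
import Cfsg.Agent.S0765
import Cfsg.Agent.S0828
import Cfsg.Agent.Lib.Helper1.Symp

set_option autoImplicit false
open Cfsg
open scoped commutatorElement

namespace Cfsg.Agent.S0269

open Cfsg.Agent.Lib.Helper1 Matrix Module
open Cfsg.Agent.S0765 Cfsg.Agent.S0828
open scoped commutatorElement

def uS69 {F : Type*} [Field F] {m : ℕ} (X : Matrix (Fin m) (Fin m) F) : Matrix (Fin m ⊕ Fin m) (Fin m ⊕ Fin m) F :=
  Matrix.fromBlocks 1 X 0 1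

theorem uS_mem69 {F : Type*} [Field F] {m : ℕ} (X : Matrix (Fin m) (Fin m) F) (hX : Xᵀ = X) :
    uS69 X ∈ Matrix.symplecticGroup (Fin m) F := by
  rw [SymplecticGroup.mem_iff']
  unfold uS69 Matrix.J
  rw [Matrix.fromBlocks_transpose, Matrix.fromBlocks_multiply, Matrix.fromBlocks_multiply]
  simp [hX]

theorem dS_mem69 {F : Type*} [Field F] {m : ℕ} (A B : Matrix (Fin m) (Fin m) F) (h : Aᵀ * B = 1) :
    Matrix.fromBlocks A 0 0 B ∈ Matrix.symplecticGroup (Fin m) F := by
  rw [SymplecticGroup.mem_iff']
  unfold Matrix.J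
  rw [Matrix.fromBlocks_transpose, Matrix.fromBlocks_multiply, Matrix.fromBlocks_multiply]
  have h' : Bᵀ * A = 1 := by
    rw [← Matrix.transpose_one, ← h, Matrix.transpose_mul, Matrix.transpose_transpose]
  simp [h, h']

def Good69 {F : Type*} [Field F] {m : ℕ} (X : Matrix (Fin m) (Fin m) F) : Prop :=
  ∃ z : Matrix.symplecticGroup (Fin m) F, z ∈ commutator (Matrix.symplecticGroup (Fin m) F) ∧
    (z : Matrix (Fin m ⊕ Fin m) (Fin m ⊕ Fin m) F) = uS69 X

theorem comm69 {F : Type*} [Field F] {m : ℕ} (A B S : Matrix (Fin m) (Fin m) F) (h : Aᵀ * B = 1) (hS : Sᵀ = S) :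
    Good69 (A * S * Aᵀ - S) := by
  have hX : (A * S * Aᵀ - S)ᵀ = A * S * Aᵀ - S := by
    rw [Matrix.transpose_sub, Matrix.transpose_mul, Matrix.transpose_mul, Matrix.transpose_transpose, hS,
      Matrix.mul_assoc]
  have key : (⟨uS69 (A * S * Aᵀ - S), uS_mem69 _ hX⟩ : Matrix.symplecticGroup (Fin m) F) =
      ⁅(⟨Matrix.fromBlocks A 0 0 B, dS_mem69 A B h⟩ : Matrix.symplecticGroup (Fin m) F), ⟨uS69 S, uS_mem69 S hS⟩⁆ := by
    rw [commutatorElement_def, eq_mul_inv_iff_mul_eq, eq_mul_inv_iff_mul_eq]
    apply Subtype.ext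
    show uS69 (A * S * Aᵀ - S) * uS69 S * Matrix.fromBlocks A 0 0 B = Matrix.fromBlocks A 0 0 B * uS69 S
    unfold uS69
    rw [Matrix.fromBlocks_multiply, Matrix.fromBlocks_multiply, Matrix.fromBlocks_multiply]
    congr 1
    · simp
    · simp [Matrix.mul_assoc, h]
    · simp
    · simp
  refine ⟨⟨uS69 (A * S * Aᵀ - S), uS_mem69 _ hX⟩, ?_, rfl⟩
  rw [key, commutator_def]
  exact Subgroup.commutator_mem_commutator (Subgroup.mem_top _) (Subgroup.mem_top _)

theorem good_sub69 {F : Type*} [Field F] {m : ℕ} (X X' : Matrix (Fin m) (Fin m) F) (h : Good69 X) (h' : Good69 X') :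
    Good69 (X - X') := by
  obtain ⟨z₁, hz₁, e₁⟩ := h
  obtain ⟨z₂, hz₂, e₂⟩ := h'
  refine ⟨z₁ * z₂⁻¹, Subgroup.mul_mem _ hz₁ (Subgroup.inv_mem _ hz₂), ?_⟩
  have hinv : uS69 X' * uS69 (-X') = 1 := by
    unfold uS69; rw [Matrix.fromBlocks_multiply]; simp
  have e1 : ((z₁ * z₂⁻¹ : Matrix.symplecticGroup (Fin m) F) : Matrix (Fin m ⊕ Fin m) (Fin m ⊕ Fin m) F) * uS69 X' =
      uS69 X := by
    rw [← e₂, ← e₁]
    exact congrArg Subtype.val (inv_mul_cancel_right z₁ z₂)
  have e2 : uS69 (X - X') * uS69 X' = uS69 X := by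
    unfold uS69; rw [Matrix.fromBlocks_multiply]; simp
  calc ((z₁ * z₂⁻¹ : Matrix.symplecticGroup (Fin m) F) : Matrix (Fin m ⊕ Fin m) (Fin m ⊕ Fin m) F)
      = ((z₁ * z₂⁻¹ : Matrix.symplecticGroup (Fin m) F) : Matrix (Fin m ⊕ Fin m) (Fin m ⊕ Fin m) F) *
          (uS69 X' * uS69 (-X')) := by rw [hinv, Matrix.mul_one]
    _ = uS69 X * uS69 (-X') := by rw [← Matrix.mul_assoc, e1]
    _ = uS69 (X - X') * (uS69 X' * uS69 (-X')) := by rw [← Matrix.mul_assoc, e2]
    _ = uS69 (X - X') := by rw [hinv, Matrix.mul_one]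

theorem sms69 {F : Type*} [Field F] {m : ℕ} (i j k l : Fin m) (h : j ≠ k) (c d : F) :
    Matrix.single i j c * Matrix.single k l d = 0 := Matrix.single_mul_single_of_ne c i j k h d

theorem E1_69 {F : Type*} [Field F] {m : ℕ} (i j : Fin m) (hij : i ≠ j) :
    (1 + Matrix.single i j (1 : F))ᵀ * (1 - Matrix.single j i 1) = 1 := by
  rw [Matrix.transpose_add, Matrix.transpose_one, Matrix.transpose_single]
  simp only [Matrix.add_mul, Matrix.mul_sub, Matrix.one_mul, Matrix.mul_one, sms69 _ _ _ _ hij]
  abel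

theorem E2_69 {F : Type*} [Field F] {m : ℕ} (i j k : Fin m) (hij : i ≠ j) (hik : i ≠ k) (hjk : j ≠ k) (s : F) :
    (1 + Matrix.single j k (1 : F)) * (Matrix.single i k s + Matrix.single k i s) * (1 + Matrix.single j k (1 : F))ᵀ -
      (Matrix.single i k s + Matrix.single k i s) = Matrix.single i j s + Matrix.single j i s := by
  rw [Matrix.transpose_add, Matrix.transpose_one, Matrix.transpose_single]
  simp only [Matrix.add_mul, Matrix.mul_add, Matrix.one_mul, Matrix.mul_one, Matrix.single_mul_single_same,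
    sms69 _ _ _ _ hik.symm, sms69 _ _ _ _ hik, sms69 _ _ _ _ hjk, sms69 _ _ _ _ hjk.symm, sms69 _ _ _ _ hij,
    sms69 _ _ _ _ hij.symm, mul_one, one_mul, add_zero, zero_add, Matrix.zero_mul, Matrix.mul_zero]
  abel

theorem E3_69 {F : Type*} [Field F] {m : ℕ} (i j : Fin m) (hij : i ≠ j) (s : F) :
    (1 + Matrix.single i j (1 : F)) * (Matrix.single j j s) * (1 + Matrix.single i j (1 : F))ᵀ -
      Matrix.single j j s = Matrix.single i i s + Matrix.single i j s + Matrix.single j i s := by
  rw [Matrix.transpose_add, Matrix.transpose_one, Matrix.transpose_single]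
  simp only [Matrix.add_mul, Matrix.mul_add, Matrix.one_mul, Matrix.mul_one, Matrix.single_mul_single_same,
    sms69 _ _ _ _ hij, sms69 _ _ _ _ hij.symm, mul_one, one_mul, add_zero, zero_add, Matrix.zero_mul, Matrix.mul_zero]
  abel

theorem E4_69 {F : Type*} [Field F] {m : ℕ} (i j : Fin m) (hij : i ≠ j) (s : F) :
    (1 + Matrix.single i j (1 : F)) * (Matrix.single i j s + Matrix.single j i s) * (1 + Matrix.single i j (1 : F))ᵀ -
      (Matrix.single i j s + Matrix.single j i s) = Matrix.single i i (2 * s) := by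
  rw [Matrix.transpose_add, Matrix.transpose_one, Matrix.transpose_single]
  simp only [Matrix.add_mul, Matrix.mul_add, Matrix.one_mul, Matrix.mul_one, Matrix.single_mul_single_same,
    sms69 _ _ _ _ hij, sms69 _ _ _ _ hij.symm, mul_one, one_mul, add_zero, zero_add, Matrix.zero_mul, Matrix.mul_zero]
  rw [two_mul, Matrix.single_add]
  abel

theorem good_case3_69 {F : Type*} [Field F] {m : ℕ} (i j k : Fin m) (hij : i ≠ j) (hik : i ≠ k) (hjk : j ≠ k) (s : F) :
    Good69 (Matrix.single i i s) := by
  have g1 : Good69 (Matrix.single i j s + Matrix.single j i s) := by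
    rw [← E2_69 i j k hij hik hjk s]
    apply comm69 _ (1 - Matrix.single k j 1) _ (E1_69 j k hjk)
    rw [Matrix.transpose_add, Matrix.transpose_single, Matrix.transpose_single, add_comm]
  have g2 : Good69 (Matrix.single i i s + Matrix.single i j s + Matrix.single j i s) := by
    rw [← E3_69 i j hij s]
    apply comm69 _ (1 - Matrix.single j i 1) _ (E1_69 i j hij)
    rw [Matrix.transpose_single]
  have g3 := good_sub69 _ _ g2 g1
  have e : Matrix.single i i s + Matrix.single i j s + Matrix.single j i s - (Matrix.single i j s + Matrix.single j i s) =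
      Matrix.single i i s := by abel
  rw [e] at g3
  exact g3

theorem good_case2_69 {F : Type*} [Field F] {m : ℕ} (h2 : (2 : F) ≠ 0) (i j : Fin m) (hij : i ≠ j) (s : F) :
    Good69 (Matrix.single i i s) := by
  have g1 : Good69 (Matrix.single i i (2 * (s / 2))) := by
    rw [← E4_69 i j hij (s / 2)]
    apply comm69 _ (1 - Matrix.single j i 1) _ (E1_69 i j hij)
    rw [Matrix.transpose_add, Matrix.transpose_single, Matrix.transpose_single, add_comm]
  rw [mul_div_cancel₀ s h2] at g1
  exact g1

theorem good_case1_69 {F : Type*} [Field F] {m : ℕ} (a : F) (ha0 : a ≠ 0) (ha1 : a * a ≠ 1) (i : Fin m) (s : F) :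
    Good69 (Matrix.single i i s) := by
  classical
  have hne : a * a - 1 ≠ 0 := sub_ne_zero.mpr ha1
  have e : Matrix.diagonal (Function.update (fun _ : Fin m => (1 : F)) i a) * Matrix.single i i (s / (a * a - 1)) *
      (Matrix.diagonal (Function.update (fun _ : Fin m => (1 : F)) i a))ᵀ - Matrix.single i i (s / (a * a - 1)) =
      Matrix.single i i s := by
    rw [Matrix.diagonal_transpose]
    ext x y
    rw [Matrix.sub_apply, Matrix.mul_diagonal, Matrix.diagonal_mul]
    by_cases hx : x = i
    · by_cases hy : y = i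
      · subst hx; subst hy
        rw [Matrix.single_apply_same, Matrix.single_apply_same, Function.update_self]
        have h5 : a * (s / (a * a - 1)) * a - s / (a * a - 1) = (a * a - 1) * (s / (a * a - 1)) := by ring
        rw [h5]
        exact mul_div_cancel₀ s hne
      · rw [Matrix.single_apply_of_ne _ _ _ _ _ (fun h => hy h.2.symm), Matrix.single_apply_of_ne _ _ _ _ _ (fun h => hy h.2.symm)]
        simp
    · rw [Matrix.single_apply_of_ne _ _ _ _ _ (fun h => hx h.1.symm), Matrix.single_apply_of_ne _ _ _ _ _ (fun h => hx h.1.symm)]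
      simp
  rw [← e]
  apply comm69 _ (Matrix.diagonal (Function.update (fun _ : Fin m => (1 : F)) i a⁻¹))
  · rw [Matrix.diagonal_transpose, Matrix.diagonal_mul_diagonal]
    rw [← Matrix.diagonal_one]
    congr 1
    funext x
    by_cases hx : x = i
    · subst hx; rw [Function.update_self, Function.update_self, mul_inv_cancel₀ ha0]
    · rw [Function.update_of_ne hx, Function.update_of_ne hx, mul_one]
  · rw [Matrix.transpose_single]

theorem trans_eq69 {F : Type*} [Field F] {m : ℕ} (i : Fin m) (c : F) :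
    sympTransvection m (Pi.single (Sum.inl i) 1) c = uS69 (Matrix.single i i c) := by
  classical
  have hJ : Matrix.J (Fin m) F *ᵥ Pi.single (Sum.inl i) 1 = Pi.single (Sum.inr i) 1 := by
    rw [Matrix.mulVec_single_one]
    ext a
    rcases a with a | a
    · simp [Matrix.J]
    · simp [Matrix.J, Matrix.one_apply, Pi.single_apply]
  unfold sympTransvection uS69
  rw [hJ]
  ext a b
  rcases a with a | a <;> rcases b with b | b
  · simp [Matrix.vecMulVec_apply, Matrix.one_apply]
  · simp [Matrix.vecMulVec_apply, Matrix.single_apply, Pi.single_apply]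
    by_cases h1 : a = i <;> by_cases h2 : b = i
    · simp [h1, h2]
    · simp [h1, h2]
      intro h; exact absurd h.symm h2
    · simp [h1, h2]
      intro h; exact absurd h.symm h1
    · simp [h1, h2]
      intro h; exact absurd h.symm h1
  · simp [Matrix.vecMulVec_apply]
  · simp [Matrix.vecMulVec_apply, Matrix.one_apply]

theorem conj69 {F : Type*} [Field F] {m : ℕ} (A : Matrix (Fin m ⊕ Fin m) (Fin m ⊕ Fin m) F)
    (hA : A ∈ Matrix.symplecticGroup (Fin m) F) (w : Fin m ⊕ Fin m → F) (c : F) :
    A * sympTransvection m w c = sympTransvection m (A *ᵥ w) c * A := by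
  unfold sympTransvection
  rw [Matrix.mul_add, Matrix.add_mul, Matrix.mul_one, Matrix.one_mul, Matrix.mul_smul, Matrix.smul_mul,
    Matrix.mul_vecMulVec, Matrix.vecMulVec_mul]
  congr 3
  rw [← Matrix.mulVec_transpose, Matrix.mulVec_mulVec, Matrix.mulVec_mulVec,
    SymplecticGroup.mem_iff'.mp hA]

theorem hyp69 {F : Type*} [Field F] {m : ℕ} (w : Fin m ⊕ Fin m → F) (hw : w ≠ 0) :
    ∃ v, sympForm m F w v = 1 := by
  obtain ⟨w', hw'⟩ := nondeg28 m w hw
  refine ⟨(sympForm m F w w')⁻¹ • w', ?_⟩
  rw [sympForm_smul_right, inv_mul_cancel₀ hw']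

/-- Sp_{2m}(q) is perfect except for Sp_2(2), Sp_2(3) and Sp_4(2): stated as m at least 3, or m = 2 and q at least 3, or q at least 4. -/
theorem result {F : Type*} [Field F] [Fintype F] (m : ℕ) (h : 3 ≤ m ∨ (m = 2 ∧ 3 ≤ Fintype.card F) ∨ 4 ≤ Fintype.card F) : commutator (Matrix.symplecticGroup (Fin m) F) = ⊤ := by
  classical
  have key : ∀ (i : Fin m) (s : F), Good69 (Matrix.single i i s) := by
    have case4 : 4 ≤ Fintype.card F → ∀ (i : Fin m) (s : F), Good69 (Matrix.single i i s) := by
      intro h4 i s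
      obtain ⟨a, ha0, ha1⟩ : ∃ a : F, a ≠ 0 ∧ a * a ≠ 1 := by
        by_contra hcon
        push Not at hcon
        have hsub : (Finset.univ : Finset F) ⊆ {0, 1, -1} := by
          intro a _
          by_cases ha : a = 0
          · simp [ha]
          · have h1 := hcon a ha
            have h2 : (a - 1) * (a + 1) = 0 := by linear_combination h1
            rcases mul_eq_zero.mp h2 with h3 | h3
            · have : a = 1 := by linear_combination h3
              simp [this]
            · have : a = -1 := by linear_combination h3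
              simp [this]
        have h5 := Finset.card_le_card hsub
        have h3 : ({0, 1, -1} : Finset F).card ≤ 3 := Finset.card_le_three
        rw [Finset.card_univ] at h5
        omega
      exact good_case1_69 a ha0 ha1 i s
    rcases h with h | ⟨hm, h3⟩ | h4
    · intro i s
      obtain ⟨j, k, hij, hik, hjk⟩ : ∃ j k : Fin m, i ≠ j ∧ i ≠ k ∧ j ≠ k := by
        by_cases h0 : i.val = 0
        · refine ⟨⟨1, by omega⟩, ⟨2, by omega⟩, ?_, ?_, ?_⟩ <;>
          · intro hh
            have := congrArg Fin.val hh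
            simp at this <;> omega
        · by_cases h1 : i.val = 1
          · refine ⟨⟨0, by omega⟩, ⟨2, by omega⟩, ?_, ?_, ?_⟩ <;>
            · intro hh
              have := congrArg Fin.val hh
              simp at this <;> omega
          · refine ⟨⟨0, by omega⟩, ⟨1, by omega⟩, ?_, ?_, ?_⟩ <;>
            · intro hh
              have := congrArg Fin.val hh
              simp at this <;> omega
      exact good_case3_69 i j k hij hik hjk s
    · by_cases h4 : 4 ≤ Fintype.card F
      · exact case4 h4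
      · have hq : Fintype.card F = 3 := by omega
        have h2 : (2 : F) ≠ 0 := by
          intro h20
          have h30 : ((Fintype.card F : ℕ) : F) = 0 := FiniteField.cast_card_eq_zero F
          rw [hq] at h30
          have h10 : (1 : F) = 0 := by
            have : ((3 : ℕ) : F) = 2 + 1 := by norm_num
            rw [this, h20, zero_add] at h30
            exact h30
          exact one_ne_zero h10
        intro i s
        obtain ⟨j, hij⟩ : ∃ j : Fin m, i ≠ j := by
          by_cases h0 : i.val = 0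
          · refine ⟨⟨1, by omega⟩, ?_⟩
            intro hh
            have := congrArg Fin.val hh
            simp at this <;> omega
          · refine ⟨⟨0, by omega⟩, ?_⟩
            intro hh
            have := congrArg Fin.val hh
            simp at this <;> omega
        exact good_case2_69 h2 i j hij s
    · exact case4 h4
  rw [eq_top_iff, ← Cfsg.Agent.S0765.result m, Subgroup.closure_le]
  rintro g ⟨w, c, hg⟩
  show g ∈ commutator (Matrix.symplecticGroup (Fin m) F)
  by_cases hw : w = 0
  · have hg1 : g = 1 := by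
      apply Subtype.ext
      rw [hg, hw]
      unfold sympTransvection
      simp
    rw [hg1]
    exact Subgroup.one_mem _
  · have hm : 0 < m := by
      by_contra hm0
      have hm00 : m = 0 := by omega
      subst hm00
      apply hw
      funext x
      rcases x with x | x <;> exact x.elim0
    obtain ⟨z, hz, ez⟩ := key ⟨0, hm⟩ c
    rw [← trans_eq69] at ez
    have he : (Pi.single (Sum.inl (⟨0, hm⟩ : Fin m)) 1 : Fin m ⊕ Fin m → F) ≠ 0 := by
      intro hh
      have := congrFun hh (Sum.inl ⟨0, hm⟩)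
      simp at this
    obtain ⟨v₀, hv₀⟩ := hyp69 _ he
    obtain ⟨v', hv'⟩ := hyp69 w hw
    obtain ⟨A, -, hAe, -, -⟩ := trans65 m _ v₀ w v' hv₀ hv'
    have e : g = A * z * A⁻¹ := by
      rw [eq_mul_inv_iff_mul_eq]
      apply Subtype.ext
      show (g : Matrix (Fin m ⊕ Fin m) (Fin m ⊕ Fin m) F) * (A : Matrix (Fin m ⊕ Fin m) (Fin m ⊕ Fin m) F) =
        (A : Matrix (Fin m ⊕ Fin m) (Fin m ⊕ Fin m) F) * (z : Matrix (Fin m ⊕ Fin m) (Fin m ⊕ Fin m) F)
      rw [hg, ez, conj69 _ A.2, hAe]
    rw [e]
    exact Subgroup.Normal.conj_mem inferInstance z hz A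

end Cfsg.Agent.S0269
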