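import Cfsg.Statements.S0304
import Mathlib
import Cfsg.Statements.S0304
import Cfsg.Agent.S0832
import Cfsg.Agent.S2618
import Cfsg.Agent.Lib.Helper1.Symp

set_option autoImplicit false
open Cfsg
open scoped commutatorElement

namespace Cfsg.Agent.S0304

open Cfsg.Agent.S0832 Cfsg.Agent.S2618 Cfsg.Agent.Lib.Helper1 Matrix

theorem two04 {F : Type*} [Field F] [CharP F 2] : (2 : F) = 0 := by
  have := CharP.cast_eq_zero F 2
  exact_mod_cast this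

theorem pol04 {F : Type*} [Field F] [CharP F 2] (m : ℕ) (u v : Fin m ⊕ Fin m → F) :
    QuadraticMap.polar ⇑(qp32 F m) u v = Cfsg.sympForm m F u v := by
  have h2 : (2 : F) = 0 := two04
  have hneg : ∀ x : F, -x = x := fun x => by linear_combination (-x) * h2
  rw [qp_polar32]
  unfold Cfsg.sympForm
  have hv : Matrix.J (Fin m) F *ᵥ v = Sum.elim (fun i => - v (Sum.inr i)) (fun i => v (Sum.inl i)) := by
    have hv' : v = Sum.elim (v ∘ Sum.inl) (v ∘ Sum.inr) := by ext (i | i) <;> rfl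
    rw [hv', Matrix.J, Matrix.fromBlocks_mulVec]
    ext (i | i) <;> simp [Matrix.neg_mulVec, Matrix.one_mulVec]
  rw [hv]
  simp only [dotProduct, Fintype.sum_sum_type, Sum.elim_inl, Sum.elim_inr]
  rw [← Finset.sum_add_distrib]
  apply Finset.sum_congr rfl
  intro i _
  rw [hneg]

theorem qodd04 {F : Type*} [Field F] (m : ℕ) (u : Unit ⊕ (Fin m ⊕ Fin m) → F) :
    Cfsg.quadFormOdd m F u = u (Sum.inl ()) ^ 2 + qp32 F m (u ∘ Sum.inr) := by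
  rw [qp_apply32]; rfl

theorem sp_of_pres04 {F : Type*} [Field F] (m : ℕ) (D : Matrix (Fin m ⊕ Fin m) (Fin m ⊕ Fin m) F)
    (h : ∀ x y, sympForm m F (D *ᵥ x) (D *ᵥ y) = sympForm m F x y) : D ∈ Matrix.symplecticGroup (Fin m) F := by
  classical
  rw [SymplecticGroup.mem_iff']
  ext i j
  have h1 := h (Pi.single i 1) (Pi.single j 1)
  unfold sympForm at h1
  rw [Matrix.mulVec_mulVec, Matrix.mulVec_single_one, Matrix.mulVec_single_one, Matrix.mulVec_single_one, single_dotProduct, one_mul] at h1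
  have h3 : (Dᵀ * J (Fin m) F * D) i j = D.col i ⬝ᵥ (J (Fin m) F * D).col j := by
    rw [Matrix.mul_assoc, Matrix.mul_apply]; rfl
  rw [h3, h1]; rfl

theorem struct04 {F : Type*} [Field F] [Fintype F] [CharP F 2] (m : ℕ) (g : GL (Unit ⊕ (Fin m ⊕ Fin m)) F)
    (hg : g ∈ Cfsg.isometryGroup F (Cfsg.quadFormOdd m F)) :
    ∃ (a : Matrix Unit (Fin m ⊕ Fin m) F) (D : Matrix (Fin m ⊕ Fin m) (Fin m ⊕ Fin m) F),
      (g : Matrix (Unit ⊕ (Fin m ⊕ Fin m)) (Unit ⊕ (Fin m ⊕ Fin m)) F) = Matrix.fromBlocks 1 a 0 D ∧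
      (∀ x, ((a *ᵥ x) ()) ^ 2 = qp32 F m (D *ᵥ x) + qp32 F m x) ∧ D ∈ Matrix.symplecticGroup (Fin m) F := by
  classical
  have h2 : (2 : F) = 0 := two04
  have hneg : ∀ x : F, -x = x := fun x => by linear_combination (-x) * h2
  obtain ⟨M, hM⟩ : ∃ M : Matrix (Unit ⊕ (Fin m ⊕ Fin m)) (Unit ⊕ (Fin m ⊕ Fin m)) F, M = (g : Matrix (Unit ⊕ (Fin m ⊕ Fin m)) (Unit ⊕ (Fin m ⊕ Fin m)) F) := ⟨_, rfl⟩
  have hQ : ∀ u, Cfsg.quadFormOdd m F (M *ᵥ u) = Cfsg.quadFormOdd m F u := by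
    intro u; rw [hM]; exact hg u u
  have hsurj : ∀ u, ∃ v, M *ᵥ v = u := by
    intro u
    refine ⟨((g⁻¹ : GL (Unit ⊕ (Fin m ⊕ Fin m)) F) : Matrix (Unit ⊕ (Fin m ⊕ Fin m)) (Unit ⊕ (Fin m ⊕ Fin m)) F) *ᵥ u, ?_⟩
    rw [hM, Matrix.mulVec_mulVec, ← Units.val_mul, mul_inv_cancel, Units.val_one, Matrix.one_mulVec]
  -- polar form
  have hB : ∀ u v : Unit ⊕ (Fin m ⊕ Fin m) → F, Cfsg.quadFormOdd m F (u + v) - Cfsg.quadFormOdd m F u - Cfsg.quadFormOdd m F v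
      = QuadraticMap.polar ⇑(qp32 F m) (u ∘ Sum.inr) (v ∘ Sum.inr) := by
    intro u v
    rw [qodd04, qodd04, qodd04, QuadraticMap.polar]
    have e1 : (u + v) ∘ Sum.inr = u ∘ Sum.inr + v ∘ Sum.inr := rfl
    rw [e1, Pi.add_apply]
    linear_combination (u (Sum.inl ()) * v (Sum.inl ())) * h2
  have hBM : ∀ u v : Unit ⊕ (Fin m ⊕ Fin m) → F, QuadraticMap.polar ⇑(qp32 F m) ((M *ᵥ u) ∘ Sum.inr) ((M *ᵥ v) ∘ Sum.inr)
      = QuadraticMap.polar ⇑(qp32 F m) (u ∘ Sum.inr) (v ∘ Sum.inr) := by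
    intro u v
    rw [← hB, ← hB, ← Matrix.mulVec_add, hQ, hQ, hQ]
  have hw : (M *ᵥ (Pi.single (Sum.inl ()) 1 : Unit ⊕ (Fin m ⊕ Fin m) → F)) ∘ Sum.inr = 0 := by
    apply rad18 (qp32 F m) (qp_nondeg32 m)
    intro y
    obtain ⟨v, hv⟩ := hsurj (Sum.elim 0 y)
    have h3 := hBM (Pi.single (Sum.inl ()) 1) v
    rw [hv] at h3
    have e2 : (Sum.elim (0 : Unit → F) y : Unit ⊕ (Fin m ⊕ Fin m) → F) ∘ Sum.inr = y := rfl
    have e3 : (Pi.single (Sum.inl ()) 1 : Unit ⊕ (Fin m ⊕ Fin m) → F) ∘ Sum.inr = 0 := by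
      funext j; simp
    rw [e2, e3] at h3
    rw [h3]
    simp [QuadraticMap.polar]
  have hc : (M *ᵥ (Pi.single (Sum.inl ()) 1 : Unit ⊕ (Fin m ⊕ Fin m) → F)) (Sum.inl ()) = 1 := by
    have h3 := hQ (Pi.single (Sum.inl ()) 1)
    rw [qodd04, qodd04, hw] at h3
    have e3 : (Pi.single (Sum.inl ()) 1 : Unit ⊕ (Fin m ⊕ Fin m) → F) ∘ Sum.inr = 0 := by
      funext j; simp
    rw [e3, map_zero, add_zero, add_zero, Pi.single_eq_same, one_pow] at h3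
    have h4 : ((M *ᵥ (Pi.single (Sum.inl ()) 1 : Unit ⊕ (Fin m ⊕ Fin m) → F)) (Sum.inl ()) - 1) ^ 2 = 0 := by
      linear_combination h3 + (1 - (M *ᵥ (Pi.single (Sum.inl ()) 1 : Unit ⊕ (Fin m ⊕ Fin m) → F)) (Sum.inl ())) * h2
    have h5 := pow_eq_zero_iff (two_ne_zero) |>.mp h4
    exact sub_eq_zero.mp h5
  have h11 : M.toBlocks₁₁ = 1 := by
    ext i j
    have h3 := hc
    rw [Matrix.mulVec_single_one] at h3
    simpa [Matrix.toBlocks₁₁] using h3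
  have h21 : M.toBlocks₂₁ = 0 := by
    ext i j
    have h3 := congrFun hw i
    rw [Function.comp_apply, Matrix.mulVec_single_one] at h3
    simpa [Matrix.toBlocks₂₁] using h3
  have hMb : M = Matrix.fromBlocks 1 M.toBlocks₁₂ 0 M.toBlocks₂₂ := by
    rw [← h11, ← h21, Matrix.fromBlocks_toBlocks]
  have hax : ∀ x, ((M.toBlocks₁₂ *ᵥ x) ()) ^ 2 = qp32 F m (M.toBlocks₂₂ *ᵥ x) + qp32 F m x := by
    intro x
    have h3 := hQ (Sum.elim 0 x)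
    rw [qodd04, qodd04] at h3
    have e4 : M *ᵥ (Sum.elim (0 : Unit → F) x) = Sum.elim (M.toBlocks₁₂ *ᵥ x) (M.toBlocks₂₂ *ᵥ x) := by
      conv_lhs => rw [hMb]
      rw [Matrix.fromBlocks_mulVec]
      simp
    rw [e4] at h3
    simp only [Sum.elim_inl, Sum.elim_comp_inr, Pi.zero_apply] at h3
    linear_combination h3 - (qp32 F m (M.toBlocks₂₂ *ᵥ x)) * h2
  refine ⟨M.toBlocks₁₂, M.toBlocks₂₂, by rw [← hM]; exact hMb, hax, ?_⟩
  apply sp_of_pres04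
  intro x y
  rw [← pol04, ← pol04]
  have k1 := hax x
  have k2 := hax y
  have k3 := hax (x + y)
  rw [Matrix.mulVec_add, Matrix.mulVec_add, Pi.add_apply] at k3
  simp only [QuadraticMap.polar]
  linear_combination (-1 : F) * k3 + k1 + k2 + ((M.toBlocks₁₂ *ᵥ x) () * (M.toBlocks₁₂ *ᵥ y) () - qp32 F m (x + y) + qp32 F m x + qp32 F m y) * h2

theorem lam04 {F : Type*} [Field F] [Fintype F] [CharP F 2] (m : ℕ) (A : Matrix (Fin m ⊕ Fin m) (Fin m ⊕ Fin m) F)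
    (hA : A ∈ Matrix.symplecticGroup (Fin m) F) :
    ∃ lam : (Fin m ⊕ Fin m → F) →ₗ[F] F, ∀ v, (lam v) ^ 2 = qp32 F m (A *ᵥ v) + qp32 F m v := by
  classical
  have hp2 : Fact (Nat.Prime 2) := ⟨Nat.prime_two⟩
  have h2 : (2 : F) = 0 := two04
  have hδadd : ∀ u v, qp32 F m (A *ᵥ (u + v)) + qp32 F m (u + v) = (qp32 F m (A *ᵥ u) + qp32 F m u) + (qp32 F m (A *ᵥ v) + qp32 F m v) := by
    intro u v
    have e1 : qp32 F m (A *ᵥ u + A *ᵥ v) = qp32 F m (A *ᵥ u) + qp32 F m (A *ᵥ v) + QuadraticMap.polar ⇑(qp32 F m) (A *ᵥ u) (A *ᵥ v) := by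
      rw [QuadraticMap.polar]; ring
    have e2 : qp32 F m (u + v) = qp32 F m u + qp32 F m v + QuadraticMap.polar ⇑(qp32 F m) u v := by
      rw [QuadraticMap.polar]; ring
    rw [Matrix.mulVec_add, e1, e2, pol04, pol04, sympForm_map m hA]
    linear_combination (sympForm m F u v) * h2
  obtain ⟨s, hs, hs2⟩ : ∃ s : F ≃+* F, (∀ x : F, s (x ^ 2) = x) ∧ (∀ x : F, (s x) ^ 2 = x) :=
    ⟨(frobeniusEquiv F 2).symm, fun x => frobeniusEquiv_symm_pow F 2 x, fun x => frobeniusEquiv_symm_pow_p F 2 x⟩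
  refine ⟨{ toFun := fun v => s (qp32 F m (A *ᵥ v) + qp32 F m v)
            map_add' := fun u v => by rw [hδadd, map_add]
            map_smul' := fun c v => ?_ }, fun v => hs2 _⟩
  simp only [Matrix.mulVec_smul, QuadraticMap.map_smul, RingHom.id_apply, smul_eq_mul]
  rw [← mul_add, ← pow_two, map_mul, hs]

/-- In characteristic 2, O_{2m+1}(q) is isomorphic to Sp_{2m}(q). -/
theorem result {F : Type*} [Field F] [Fintype F] [CharP F 2] (m : ℕ) : Nonempty (Cfsg.isometryGroup F (Cfsg.quadFormOdd m F) ≃* Matrix.symplecticGroup (Fin m) F) := by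
  classical
  have h2 : (2 : F) = 0 := two04
  obtain ⟨Φ, hΦ⟩ : ∃ Φ : Cfsg.isometryGroup F (Cfsg.quadFormOdd m F) →* Matrix.symplecticGroup (Fin m) F,
      ∀ g, ((Φ g : Matrix.symplecticGroup (Fin m) F) : Matrix (Fin m ⊕ Fin m) (Fin m ⊕ Fin m) F) = ((g : GL (Unit ⊕ (Fin m ⊕ Fin m)) F) : Matrix (Unit ⊕ (Fin m ⊕ Fin m)) (Unit ⊕ (Fin m ⊕ Fin m)) F).toBlocks₂₂ := by
    refine ⟨MonoidHom.mk' (fun g => ⟨((g : GL (Unit ⊕ (Fin m ⊕ Fin m)) F) : Matrix (Unit ⊕ (Fin m ⊕ Fin m)) (Unit ⊕ (Fin m ⊕ Fin m)) F).toBlocks₂₂, ?_⟩) ?_, fun g => rfl⟩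
    · obtain ⟨a, D, h1, -, h3⟩ := struct04 m g.1 g.2
      rw [h1, Matrix.toBlocks_fromBlocks₂₂]; exact h3
    · intro g h
      apply Subtype.ext
      obtain ⟨a, D, h1, -, -⟩ := struct04 m g.1 g.2
      obtain ⟨a', D', h1', -, -⟩ := struct04 m h.1 h.2
      show (((g * h : Cfsg.isometryGroup F (Cfsg.quadFormOdd m F)) : GL (Unit ⊕ (Fin m ⊕ Fin m)) F) : Matrix (Unit ⊕ (Fin m ⊕ Fin m)) (Unit ⊕ (Fin m ⊕ Fin m)) F).toBlocks₂₂ = ((g : GL (Unit ⊕ (Fin m ⊕ Fin m)) F) : Matrix (Unit ⊕ (Fin m ⊕ Fin m)) (Unit ⊕ (Fin m ⊕ Fin m)) F).toBlocks₂₂ * ((h : GL (Unit ⊕ (Fin m ⊕ Fin m)) F) : Matrix (Unit ⊕ (Fin m ⊕ Fin m)) (Unit ⊕ (Fin m ⊕ Fin m)) F).toBlocks₂₂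
      have e : (((g * h : Cfsg.isometryGroup F (Cfsg.quadFormOdd m F)) : GL (Unit ⊕ (Fin m ⊕ Fin m)) F) : Matrix (Unit ⊕ (Fin m ⊕ Fin m)) (Unit ⊕ (Fin m ⊕ Fin m)) F) = ((g : GL (Unit ⊕ (Fin m ⊕ Fin m)) F) : Matrix (Unit ⊕ (Fin m ⊕ Fin m)) (Unit ⊕ (Fin m ⊕ Fin m)) F) * ((h : GL (Unit ⊕ (Fin m ⊕ Fin m)) F) : Matrix (Unit ⊕ (Fin m ⊕ Fin m)) (Unit ⊕ (Fin m ⊕ Fin m)) F) := rfl
      rw [e, h1, h1', Matrix.fromBlocks_multiply]
      simp
  refine ⟨MulEquiv.ofBijective Φ ⟨?_, ?_⟩⟩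
  · rw [injective_iff_map_eq_one]
    intro g hg
    obtain ⟨a, D, h1, hax, -⟩ := struct04 m g.1 g.2
    have hD : D = 1 := by
      have h3 := hΦ g
      rw [hg, h1, Matrix.toBlocks_fromBlocks₂₂] at h3
      exact h3.symm
    have ha : a = 0 := by
      ext i j
      have h3 := hax (Pi.single j 1)
      rw [hD, Matrix.one_mulVec, ← two_mul, h2, zero_mul] at h3
      have h4 := (pow_eq_zero_iff (two_ne_zero)).mp h3
      rw [Matrix.mulVec_single_one] at h4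
      exact h4
    apply Subtype.ext
    apply Units.ext
    rw [h1, hD, ha, Matrix.fromBlocks_one]
    rfl
  · intro A
    obtain ⟨lam, hlam⟩ := lam04 m A.1 A.2
    obtain ⟨a, ha⟩ : ∃ a : Matrix Unit (Fin m ⊕ Fin m) F, ∀ x, (a *ᵥ x) () = lam x := by
      refine ⟨Matrix.of (fun _ j => lam (Pi.single j 1)), fun x => ?_⟩
      rw [LinearMap.pi_apply_eq_sum_univ lam x]
      simp only [Matrix.mulVec, dotProduct, Matrix.of_apply, smul_eq_mul]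
      apply Finset.sum_congr rfl
      intro j _
      rw [mul_comm]
      congr 2
      funext k
      rw [Pi.single_apply]
      by_cases hjk : j = k
      · subst hjk; simp
      · simp [hjk, Ne.symm hjk]
    obtain ⟨M, hM⟩ : ∃ M : Matrix (Unit ⊕ (Fin m ⊕ Fin m)) (Unit ⊕ (Fin m ⊕ Fin m)) F, M = Matrix.fromBlocks (1 : Matrix Unit Unit F) a 0 (A : Matrix (Fin m ⊕ Fin m) (Fin m ⊕ Fin m) F) := ⟨_, rfl⟩
    have hdet : M.det ≠ 0 := by
      rw [hM, Matrix.det_fromBlocks_zero₂₁, Matrix.det_one, one_mul]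
      exact (SymplecticGroup.symplectic_det A.2).ne_zero
    have hg : Matrix.GeneralLinearGroup.mkOfDetNeZero M hdet ∈ Cfsg.isometryGroup F (Cfsg.quadFormOdd m F) := by
      intro u v
      show Cfsg.quadFormOdd m F (M *ᵥ u) = Cfsg.quadFormOdd m F u
      have hu : u = Sum.elim (u ∘ Sum.inl) (u ∘ Sum.inr) := (Sum.elim_comp_inl_inr u).symm
      rw [hu, hM, Matrix.fromBlocks_mulVec, qodd04, qodd04]
      simp only [Sum.elim_inl, Sum.elim_comp_inr, Matrix.one_mulVec, Matrix.zero_mulVec, zero_add, Pi.add_apply, Function.comp_apply]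
      have h3 := hlam (u ∘ Sum.inr)
      rw [← ha] at h3
      linear_combination h3 + (u (Sum.inl ()) * (a *ᵥ (u ∘ Sum.inr)) () + qp32 F m ((A : Matrix (Fin m ⊕ Fin m) (Fin m ⊕ Fin m) F) *ᵥ (u ∘ Sum.inr))) * h2
    refine ⟨⟨Matrix.GeneralLinearGroup.mkOfDetNeZero M hdet, hg⟩, ?_⟩
    apply Subtype.ext
    rw [hΦ]
    show M.toBlocks₂₂ = _
    rw [hM]
    exact Matrix.toBlocks_fromBlocks₂₂ _ _ _ _

end Cfsg.Agent.S0304
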