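import Cfsg.Statements.S0768
import Mathlib
import Cfsg.Statements.S0768
import Cfsg.Agent.S0269
import Cfsg.Agent.S0304

set_option autoImplicit false
open scoped LinearAlgebra.Projectivization
open Cfsg
open scoped commutatorElement

namespace Cfsg.Agent.S0768

open scoped LinearAlgebra.Projectivization
open Cfsg.Agent.Lib.Helper1 Matrix Module
open Cfsg.Agent.S0765 Cfsg.Agent.S0828 Cfsg.Agent.S0269 Cfsg.Agent.S0304

theorem step1_68 {F : Type*} [Field F] (m : ℕ) (e : Fin m ⊕ Fin m → F)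
    (H : Subgroup (Matrix.symplecticGroup (Fin m) F))
    (hP : ∀ A : Matrix.symplecticGroup (Fin m) F,
      (∃ a : F, (A : Matrix (Fin m ⊕ Fin m) (Fin m ⊕ Fin m) F) *ᵥ e = a • e) → A ∈ H)
    (k : Matrix.symplecticGroup (Fin m) F) (hk : k ∈ H)
    (hke : sympForm m F e ((k : Matrix (Fin m ⊕ Fin m) (Fin m ⊕ Fin m) F) *ᵥ e) ≠ 0)
    (w : Fin m ⊕ Fin m → F) (hw : sympForm m F e w ≠ 0) :
    ∃ g ∈ H, ∃ a : F, a ≠ 0 ∧ (g : Matrix (Fin m ⊕ Fin m) (Fin m ⊕ Fin m) F) *ᵥ e = a • w := by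
  have h1 : sympForm m F e ((sympForm m F e ((k : Matrix (Fin m ⊕ Fin m) (Fin m ⊕ Fin m) F) *ᵥ e))⁻¹ •
      ((k : Matrix (Fin m ⊕ Fin m) (Fin m ⊕ Fin m) F) *ᵥ e)) = 1 := by
    rw [sympForm_smul_right, inv_mul_cancel₀ hke]
  have h2 : sympForm m F e ((sympForm m F e w)⁻¹ • w) = 1 := by
    rw [sympForm_smul_right, inv_mul_cancel₀ hw]
  obtain ⟨A, -, hAe, hAv, -⟩ := trans65 m e _ e _ h1 h2
  refine ⟨A * k, Subgroup.mul_mem _ (hP A ⟨1, by rw [hAe, one_smul]⟩) hk,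
    sympForm m F e ((k : Matrix (Fin m ⊕ Fin m) (Fin m ⊕ Fin m) F) *ᵥ e) * (sympForm m F e w)⁻¹,
    mul_ne_zero hke (inv_ne_zero hw), ?_⟩
  show ((A : Matrix (Fin m ⊕ Fin m) (Fin m ⊕ Fin m) F) * (k : Matrix (Fin m ⊕ Fin m) (Fin m ⊕ Fin m) F)) *ᵥ e = _
  rw [← Matrix.mulVec_mulVec]
  rw [Matrix.mulVec_smul] at hAv
  rw [← smul_smul, ← hAv, smul_smul, mul_inv_cancel₀ hke, one_smul]

theorem step2_68 {F : Type*} [Field F] (m : ℕ) (e : Fin m ⊕ Fin m → F)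
    (H : Subgroup (Matrix.symplecticGroup (Fin m) F))
    (hP : ∀ A : Matrix.symplecticGroup (Fin m) F,
      (∃ a : F, (A : Matrix (Fin m ⊕ Fin m) (Fin m ⊕ Fin m) F) *ᵥ e = a • e) → A ∈ H)
    (k : Matrix.symplecticGroup (Fin m) F) (hk : k ∈ H)
    (hke : sympForm m F e ((k : Matrix (Fin m ⊕ Fin m) (Fin m ⊕ Fin m) F) *ᵥ e) ≠ 0)
    (w : Fin m ⊕ Fin m → F) (hw : w ≠ 0) :
    ∃ g ∈ H, ∃ a : F, a ≠ 0 ∧ (g : Matrix (Fin m ⊕ Fin m) (Fin m ⊕ Fin m) F) *ᵥ e = a • w := by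
  by_cases hew : sympForm m F e w ≠ 0
  · exact step1_68 m e H hP k hk hke w hew
  · push Not at hew
    have he : e ≠ 0 := by
      intro h0
      apply hke
      rw [h0]
      unfold sympForm
      simp
    obtain ⟨x, hx1, hx2⟩ : ∃ x, sympForm m F e x ≠ 0 ∧ sympForm m F w x ≠ 0 := by
      obtain ⟨x1, h1⟩ := nondeg28 m e he
      obtain ⟨x2, h2⟩ := nondeg28 m w hw
      by_cases h3 : sympForm m F w x1 = 0
      · by_cases h4 : sympForm m F e x2 = 0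
        · refine ⟨x1 + x2, ?_, ?_⟩
          · rw [sympForm_add_right, h4, add_zero]; exact h1
          · rw [sympForm_add_right, h3, zero_add]; exact h2
        · exact ⟨x2, h4, h2⟩
      · exact ⟨x1, h1, h3⟩
    obtain ⟨g₁, hg₁, a, ha, e₁⟩ := step1_68 m e H hP k hk hke x hx1
    have hgw : (g₁ : Matrix (Fin m ⊕ Fin m) (Fin m ⊕ Fin m) F) *ᵥ
        (((g₁⁻¹ : Matrix.symplecticGroup (Fin m) F) : Matrix (Fin m ⊕ Fin m) (Fin m ⊕ Fin m) F) *ᵥ w) = w := by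
      rw [Matrix.mulVec_mulVec]
      have h6 : (g₁ : Matrix (Fin m ⊕ Fin m) (Fin m ⊕ Fin m) F) *
          ((g₁⁻¹ : Matrix.symplecticGroup (Fin m) F) : Matrix (Fin m ⊕ Fin m) (Fin m ⊕ Fin m) F) = 1 :=
        congrArg Subtype.val (mul_inv_cancel g₁)
      rw [h6, Matrix.one_mulVec]
    have h5 : sympForm m F e
        (((g₁⁻¹ : Matrix.symplecticGroup (Fin m) F) : Matrix (Fin m ⊕ Fin m) (Fin m ⊕ Fin m) F) *ᵥ w) ≠ 0 := by
      have h7 := sympForm_map m g₁.2 e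
        (((g₁⁻¹ : Matrix.symplecticGroup (Fin m) F) : Matrix (Fin m ⊕ Fin m) (Fin m ⊕ Fin m) F) *ᵥ w)
      rw [hgw, e₁, sympForm_smul_left, sympForm_swap] at h7
      rw [← h7]
      exact mul_ne_zero ha (neg_ne_zero.mpr hx2)
    obtain ⟨g₂, hg₂, b, hb, e₂⟩ := step1_68 m e H hP k hk hke _ h5
    refine ⟨g₁ * g₂, Subgroup.mul_mem _ hg₁ hg₂, b, hb, ?_⟩
    show ((g₁ : Matrix (Fin m ⊕ Fin m) (Fin m ⊕ Fin m) F) * (g₂ : Matrix (Fin m ⊕ Fin m) (Fin m ⊕ Fin m) F)) *ᵥ e = _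
    rw [← Matrix.mulVec_mulVec, e₂, Matrix.mulVec_smul, hgw]

theorem coreA_68 {F : Type*} [Field F] (m : ℕ) (e : Fin m ⊕ Fin m → F)
    (H : Subgroup (Matrix.symplecticGroup (Fin m) F))
    (hP : ∀ A : Matrix.symplecticGroup (Fin m) F,
      (∃ a : F, (A : Matrix (Fin m ⊕ Fin m) (Fin m ⊕ Fin m) F) *ᵥ e = a • e) → A ∈ H)
    (k : Matrix.symplecticGroup (Fin m) F) (hk : k ∈ H)
    (hke : sympForm m F e ((k : Matrix (Fin m ⊕ Fin m) (Fin m ⊕ Fin m) F) *ᵥ e) ≠ 0) : H = ⊤ := by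
  rw [eq_top_iff]
  intro g _
  have hge : (g : Matrix (Fin m ⊕ Fin m) (Fin m ⊕ Fin m) F) *ᵥ e ≠ 0 := by
    intro h0
    have h1 := sympForm_map m g.2 e ((k : Matrix (Fin m ⊕ Fin m) (Fin m ⊕ Fin m) F) *ᵥ e)
    rw [h0] at h1
    apply hke
    rw [← h1]
    unfold sympForm
    simp
  obtain ⟨k', hk', b, hb, e₁⟩ := step2_68 m e H hP k hk hke _ hge
  have h1 : g⁻¹ * k' ∈ H := by
    apply hP
    refine ⟨b, ?_⟩
    show (((g⁻¹ : Matrix.symplecticGroup (Fin m) F) : Matrix (Fin m ⊕ Fin m) (Fin m ⊕ Fin m) F) *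
      (k' : Matrix (Fin m ⊕ Fin m) (Fin m ⊕ Fin m) F)) *ᵥ e = b • e
    rw [← Matrix.mulVec_mulVec, e₁, Matrix.mulVec_smul, Matrix.mulVec_mulVec]
    have h6 : ((g⁻¹ : Matrix.symplecticGroup (Fin m) F) : Matrix (Fin m ⊕ Fin m) (Fin m ⊕ Fin m) F) *
        (g : Matrix (Fin m ⊕ Fin m) (Fin m ⊕ Fin m) F) = 1 :=
      congrArg Subtype.val (inv_mul_cancel g)
    rw [h6, Matrix.one_mulVec]
  have h2 : g = k' * (g⁻¹ * k')⁻¹ := by group
  rw [h2]
  exact Subgroup.mul_mem _ hk' (Subgroup.inv_mem _ h1)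

theorem core68 {F : Type*} [Field F] (m : ℕ) (e : Fin m ⊕ Fin m → F)
    (H : Subgroup (Matrix.symplecticGroup (Fin m) F))
    (hP : ∀ A : Matrix.symplecticGroup (Fin m) F,
      (∃ a : F, (A : Matrix (Fin m ⊕ Fin m) (Fin m ⊕ Fin m) F) *ᵥ e = a • e) → A ∈ H)
    (h : Matrix.symplecticGroup (Fin m) F) (hh : h ∈ H)
    (hne : ∀ a : F, (h : Matrix (Fin m ⊕ Fin m) (Fin m ⊕ Fin m) F) *ᵥ e ≠ a • e) : H = ⊤ := by
  by_cases hev : sympForm m F e ((h : Matrix (Fin m ⊕ Fin m) (Fin m ⊕ Fin m) F) *ᵥ e) ≠ 0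
  · exact coreA_68 m e H hP h hh hev
  · push Not at hev
    have he : e ≠ 0 := by
      intro h0
      apply hne 0
      rw [h0, Matrix.mulVec_zero, smul_zero]
    obtain ⟨e', he'⟩ := hyp69 e he
    obtain ⟨u, hu1, hu2⟩ : ∃ u, sympForm m F e u = 0 ∧
        sympForm m F ((h : Matrix (Fin m ⊕ Fin m) (Fin m ⊕ Fin m) F) *ᵥ e) u ≠ 0 := by
      by_contra hcon
      push Not at hcon
      apply hne (sympForm m F ((h : Matrix (Fin m ⊕ Fin m) (Fin m ⊕ Fin m) F) *ᵥ e) e')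
      by_contra hne2
      have hd : (h : Matrix (Fin m ⊕ Fin m) (Fin m ⊕ Fin m) F) *ᵥ e -
          sympForm m F ((h : Matrix (Fin m ⊕ Fin m) (Fin m ⊕ Fin m) F) *ᵥ e) e' • e ≠ 0 := sub_ne_zero.mpr hne2
      obtain ⟨x, hx⟩ := nondeg28 m _ hd
      apply hx
      have h1 := hcon (x - sympForm m F e x • e')
        (by rw [sympForm_sub_right, sympForm_smul_right, he', mul_one, sub_self])
      rw [sympForm_sub_right, sympForm_smul_right] at h1
      have h3 : sympForm m F ((h : Matrix (Fin m ⊕ Fin m) (Fin m ⊕ Fin m) F) *ᵥ e -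
          sympForm m F ((h : Matrix (Fin m ⊕ Fin m) (Fin m ⊕ Fin m) F) *ᵥ e) e' • e) x =
          -(sympForm m F x ((h : Matrix (Fin m ⊕ Fin m) (Fin m ⊕ Fin m) F) *ᵥ e) -
            sympForm m F ((h : Matrix (Fin m ⊕ Fin m) (Fin m ⊕ Fin m) F) *ᵥ e) e' * sympForm m F x e) := by
        rw [sympForm_swap m (_ - _) x, sympForm_sub_right, sympForm_smul_right]
      rw [h3, sympForm_swap m x ((h : Matrix (Fin m ⊕ Fin m) (Fin m ⊕ Fin m) F) *ᵥ e), sympForm_swap m x e]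
      linear_combination h1
    have hT : (⟨sympTransvection m u 1, sympTransvection_mem m u 1⟩ : Matrix.symplecticGroup (Fin m) F) ∈ H := by
      apply hP
      refine ⟨1, ?_⟩
      show sympTransvection m u 1 *ᵥ e = _
      rw [sympTransvection_mulVec, hu1, mul_zero, zero_smul, add_zero, one_smul]
    apply coreA_68 m e H hP (h⁻¹ * ⟨sympTransvection m u 1, sympTransvection_mem m u 1⟩ * h)
      (Subgroup.mul_mem _ (Subgroup.mul_mem _ (Subgroup.inv_mem _ hh) hT) hh)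
    have h1 : ((h⁻¹ * ⟨sympTransvection m u 1, sympTransvection_mem m u 1⟩ * h : Matrix.symplecticGroup (Fin m) F) :
        Matrix (Fin m ⊕ Fin m) (Fin m ⊕ Fin m) F) *ᵥ e =
        ((h⁻¹ : Matrix.symplecticGroup (Fin m) F) : Matrix (Fin m ⊕ Fin m) (Fin m ⊕ Fin m) F) *ᵥ
          (sympTransvection m u 1 *ᵥ ((h : Matrix (Fin m ⊕ Fin m) (Fin m ⊕ Fin m) F) *ᵥ e)) := by
      show (((h⁻¹ : Matrix.symplecticGroup (Fin m) F) : Matrix (Fin m ⊕ Fin m) (Fin m ⊕ Fin m) F) *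
        sympTransvection m u 1 * (h : Matrix (Fin m ⊕ Fin m) (Fin m ⊕ Fin m) F)) *ᵥ e = _
      rw [← Matrix.mulVec_mulVec, ← Matrix.mulVec_mulVec]
    rw [h1]
    have h2 := sympForm_map m h.2 e
      (((h⁻¹ : Matrix.symplecticGroup (Fin m) F) : Matrix (Fin m ⊕ Fin m) (Fin m ⊕ Fin m) F) *ᵥ
          (sympTransvection m u 1 *ᵥ ((h : Matrix (Fin m ⊕ Fin m) (Fin m ⊕ Fin m) F) *ᵥ e)))
    have h6 : (h : Matrix (Fin m ⊕ Fin m) (Fin m ⊕ Fin m) F) *
        ((h⁻¹ : Matrix.symplecticGroup (Fin m) F) : Matrix (Fin m ⊕ Fin m) (Fin m ⊕ Fin m) F) = 1 :=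
      congrArg Subtype.val (mul_inv_cancel h)
    rw [Matrix.mulVec_mulVec (sympTransvection m u 1 *ᵥ ((h : Matrix (Fin m ⊕ Fin m) (Fin m ⊕ Fin m) F) *ᵥ e)),
      h6, Matrix.one_mulVec] at h2
    rw [← h2, sympTransvection_mulVec, sympForm_add_right, sympForm_self, zero_add, sympForm_smul_right, one_mul]
    exact mul_ne_zero hu2 hu2

def toGL68 {F : Type*} [Field F] (m : ℕ) (A : Matrix.symplecticGroup (Fin m) F) : Cfsg.spGL m F :=
  ⟨⟨(A : Matrix (Fin m ⊕ Fin m) (Fin m ⊕ Fin m) F),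
      ((A⁻¹ : Matrix.symplecticGroup (Fin m) F) : Matrix (Fin m ⊕ Fin m) (Fin m ⊕ Fin m) F),
      congrArg Subtype.val (mul_inv_cancel A), congrArg Subtype.val (inv_mul_cancel A)⟩,
    fun u v => sympForm_map m A.2 u v⟩

def phi68 {F : Type*} [Field F] (m : ℕ) : Matrix.symplecticGroup (Fin m) F →* Cfsg.spGL m F :=
  MonoidHom.mk' (toGL68 m) (fun _ _ => Subtype.ext (Units.ext rfl))

theorem smul_mk_eq68 {F : Type*} [Field F] (m : ℕ) (g : Cfsg.spGL m F) (v w : Fin m ⊕ Fin m → F)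
    (hv : v ≠ 0) (hw : w ≠ 0) :
    g • Projectivization.mk F v hv = Projectivization.mk F w hw ↔
      ∃ a : F, a • w = ((g : Matrix.GeneralLinearGroup (Fin m ⊕ Fin m) F) : Matrix (Fin m ⊕ Fin m) (Fin m ⊕ Fin m) F) *ᵥ v := by
  rw [Subgroup.smul_def, Projectivization.smul_mk, Projectivization.mk_eq_mk_iff']
  rfl

theorem back68 {F : Type*} [Field F] (m : ℕ) (g : Cfsg.spGL m F) :
    ∃ A : Matrix.symplecticGroup (Fin m) F, phi68 m A = g ∧
      (A : Matrix (Fin m ⊕ Fin m) (Fin m ⊕ Fin m) F) =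
        ((g : Matrix.GeneralLinearGroup (Fin m ⊕ Fin m) F) : Matrix (Fin m ⊕ Fin m) (Fin m ⊕ Fin m) F) :=
  ⟨⟨_, sp_of_pres04 m _ g.2⟩, Subtype.ext (Units.ext rfl), rfl⟩

/-- Primitivity: for m ≥ 1 and F finite, the symplectic group of the form sympForm (as a subgroup of the general linear group) acts primitively on the projective space of F^(2m). -/
theorem result {F : Type*} [Field F] [Finite F] (m : ℕ) (hm : 1 ≤ m) : MulAction.IsPreprimitive ↥(Cfsg.spGL m F) (ℙ F (Fin m ⊕ Fin m → F)) := by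
  classical
  have he1 : (Pi.single (Sum.inl (⟨0, hm⟩ : Fin m)) 1 : Fin m ⊕ Fin m → F) ≠ 0 := by
    intro hh
    have := congrFun hh (Sum.inl ⟨0, hm⟩)
    simp at this
  have he2 : (Pi.single (Sum.inr (⟨0, hm⟩ : Fin m)) 1 : Fin m ⊕ Fin m → F) ≠ 0 := by
    intro hh
    have := congrFun hh (Sum.inr ⟨0, hm⟩)
    simp at this
  have hne12 : Projectivization.mk F _ he1 ≠ Projectivization.mk F _ he2 := by
    intro hh
    rw [Projectivization.mk_eq_mk_iff'] at hh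
    obtain ⟨a, ha⟩ := hh
    have := congrFun ha (Sum.inl ⟨0, hm⟩)
    simp at this
  haveI : Nontrivial (ℙ F (Fin m ⊕ Fin m → F)) := ⟨⟨_, _, hne12⟩⟩
  have htr : ∀ (v w : Fin m ⊕ Fin m → F) (hv : v ≠ 0) (hw : w ≠ 0),
      ∃ g : Cfsg.spGL m F, g • Projectivization.mk F v hv = Projectivization.mk F w hw := by
    intro v w hv hw
    obtain ⟨v', hv'⟩ := hyp69 v hv
    obtain ⟨w', hw'⟩ := hyp69 w hw
    obtain ⟨A, -, hA, -, -⟩ := trans65 m v v' w w' hv' hw'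
    refine ⟨phi68 m A, ?_⟩
    rw [smul_mk_eq68]
    exact ⟨1, by rw [one_smul]; exact hA.symm⟩
  haveI : MulAction.IsPretransitive (Cfsg.spGL m F) (ℙ F (Fin m ⊕ Fin m → F)) := by
    constructor
    intro p q
    induction p using Projectivization.ind with
    | h v hv =>
      induction q using Projectivization.ind with
      | h w hw => exact htr v w hv hw
  rw [← MulAction.isCoatom_stabilizer_iff_preprimitive _ (Projectivization.mk F _ he1)]
  refine ⟨?_, ?_⟩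
  · intro htop
    obtain ⟨g, hg⟩ := htr _ _ he1 he2
    have hgs : g ∈ MulAction.stabilizer (Cfsg.spGL m F) (Projectivization.mk F _ he1) := by
      rw [htop]; exact Subgroup.mem_top _
    rw [MulAction.mem_stabilizer_iff, hg] at hgs
    exact hne12 hgs.symm
  · intro H' hlt
    obtain ⟨hle, h, hhH, hhs⟩ := SetLike.lt_iff_le_and_exists.mp hlt
    have key : H'.comap (phi68 m) = ⊤ := by
      obtain ⟨h0, hh0, hh0'⟩ := back68 m h
      apply core68 m (Pi.single (Sum.inl (⟨0, hm⟩ : Fin m)) 1) _ _ h0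
      · rw [Subgroup.mem_comap, hh0]; exact hhH
      · intro a ha
        apply hhs
        rw [MulAction.mem_stabilizer_iff, smul_mk_eq68]
        refine ⟨a, ?_⟩
        rw [← hh0', ha]
      · intro A ⟨a, ha⟩
        rw [Subgroup.mem_comap]
        apply hle
        rw [MulAction.mem_stabilizer_iff, smul_mk_eq68]
        exact ⟨a, ha.symm⟩
    rw [eq_top_iff]
    intro g _
    obtain ⟨g0, hg0, -⟩ := back68 m g
    have : g0 ∈ H'.comap (phi68 m) := by rw [key]; exact Subgroup.mem_top _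
    rw [Subgroup.mem_comap, hg0] at this
    exact this

end Cfsg.Agent.S0768
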