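import Cfsg.Statements.S0270
import Mathlib
import Cfsg.Statements.S0270
import Cfsg.Agent.S0269
import Cfsg.Agent.S0768

set_option autoImplicit false
open Cfsg
open scoped commutatorElement

namespace Cfsg.Agent.S0270

open Cfsg.Agent.Lib.Helper1 Matrix Module
open Cfsg.Agent.S0765 Cfsg.Agent.S0828 Cfsg.Agent.S0269 Cfsg.Agent.S0768
open scoped commutatorElement

theorem scalar_of_fix70 {F : Type*} [Field F] {ι : Type*} [Fintype ι] [DecidableEq ι] (M : Matrix ι ι F)
    (h : ∀ w : ι → F, w ≠ 0 → ∃ b : F, M *ᵥ w = b • w) : ∃ c : F, M = c • (1 : Matrix ι ι F) := by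
  rcases isEmpty_or_nonempty ι with hι | ⟨⟨i0⟩⟩
  · exact ⟨0, by ext i; exact hι.elim i⟩
  · have hs : ∀ i : ι, (Pi.single i 1 : ι → F) ≠ 0 := by
      intro i hh
      have := congrFun hh i
      simp at this
    choose b hb using fun i => h (Pi.single i 1) (hs i)
    have hbe : ∀ i j, b i = b j := by
      intro i j
      by_cases hij : i = j
      · rw [hij]
      · have hne : (Pi.single i 1 + Pi.single j 1 : ι → F) ≠ 0 := by
          intro hh
          have := congrFun hh i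
          simp [Pi.single_apply, hij] at this
        obtain ⟨c, hc⟩ := h _ hne
        rw [Matrix.mulVec_add, hb i, hb j] at hc
        have h1 := congrFun hc i
        have h2 := congrFun hc j
        simp [Pi.single_apply, hij, Ne.symm hij] at h1 h2
        rw [h1, h2]
    refine ⟨b i0, ?_⟩
    ext i j
    have h1 := congrFun (hb j) i
    rw [Matrix.mulVec_single_one] at h1
    rw [Matrix.smul_apply, Matrix.one_apply, hbe i0 j]
    simp only [Matrix.col_apply, Pi.smul_apply, Pi.single_apply, smul_eq_mul] at h1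
    rw [h1, smul_eq_mul]

theorem tsmul70 {F : Type*} [Field F] (m : ℕ) (e : Fin m ⊕ Fin m → F) (a c : F) :
    sympTransvection m (a • e) c = sympTransvection m e (a * a * c) := by
  unfold sympTransvection
  rw [Matrix.mulVec_smul, Matrix.vecMulVec_smul, Matrix.smul_vecMulVec, smul_smul, smul_smul]
  congr 2
  ring

def rootSub70 {F : Type*} [Field F] (m : ℕ) (e : Fin m ⊕ Fin m → F) :
    Subgroup (Matrix.symplecticGroup (Fin m) F) where
  carrier := {A | ∃ c : F, (A : Matrix (Fin m ⊕ Fin m) (Fin m ⊕ Fin m) F) = sympTransvection m e c}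
  mul_mem' := by
    rintro a b ⟨c, hc⟩ ⟨d, hd⟩
    refine ⟨c + d, ?_⟩
    show (a : Matrix (Fin m ⊕ Fin m) (Fin m ⊕ Fin m) F) * (b : Matrix (Fin m ⊕ Fin m) (Fin m ⊕ Fin m) F) = _
    rw [hc, hd, sympTransvection_mul]
  one_mem' := ⟨0, by
    show (1 : Matrix (Fin m ⊕ Fin m) (Fin m ⊕ Fin m) F) = _
    unfold sympTransvection
    simp⟩
  inv_mem' := by
    rintro a ⟨c, hc⟩
    refine ⟨-c, ?_⟩
    have h1 : a * ⟨sympTransvection m e (-c), sympTransvection_mem m e (-c)⟩ = 1 := by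
      apply Subtype.ext
      show (a : Matrix (Fin m ⊕ Fin m) (Fin m ⊕ Fin m) F) * sympTransvection m e (-c) = 1
      rw [hc, sympTransvection_mul, add_neg_cancel]
      unfold sympTransvection
      simp
    rw [← eq_inv_of_mul_eq_one_right h1]

theorem normal70 {F : Type*} [Field F] (m : ℕ) (hm : 1 ≤ m)
    (hperf : commutator (Matrix.symplecticGroup (Fin m) F) = ⊤)
    (N : Subgroup (Matrix.symplecticGroup (Fin m) F)) [hN : N.Normal] :
    N ≤ Subgroup.center (Matrix.symplecticGroup (Fin m) F) ∨ N = ⊤ := by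
  classical
  have he : (Pi.single (Sum.inl (⟨0, hm⟩ : Fin m)) 1 : Fin m ⊕ Fin m → F) ≠ 0 := by
    intro hh
    have := congrFun hh (Sum.inl ⟨0, hm⟩)
    simp at this
  generalize (Pi.single (Sum.inl (⟨0, hm⟩ : Fin m)) 1 : Fin m ⊕ Fin m → F) = e at he
  obtain ⟨e', he'⟩ := hyp69 e he
  by_cases hcase : ∀ n ∈ N, ∃ a : F, (n : Matrix (Fin m ⊕ Fin m) (Fin m ⊕ Fin m) F) *ᵥ e = a • e
  · left
    intro n hn
    have h1 : ∀ w : Fin m ⊕ Fin m → F, w ≠ 0 →
        ∃ b : F, (n : Matrix (Fin m ⊕ Fin m) (Fin m ⊕ Fin m) F) *ᵥ w = b • w := by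
      intro w hw
      obtain ⟨w', hw'⟩ := hyp69 w hw
      obtain ⟨g, -, hg, -, -⟩ := trans65 m e e' w w' he' hw'
      obtain ⟨a, ha⟩ := hcase (g⁻¹ * n * g) (hN.conj_mem' n hn g)
      refine ⟨a, ?_⟩
      have h2 : ((g⁻¹ * n * g : Matrix.symplecticGroup (Fin m) F) : Matrix (Fin m ⊕ Fin m) (Fin m ⊕ Fin m) F) *ᵥ e =
          ((g⁻¹ : Matrix.symplecticGroup (Fin m) F) : Matrix (Fin m ⊕ Fin m) (Fin m ⊕ Fin m) F) *ᵥ
            ((n : Matrix (Fin m ⊕ Fin m) (Fin m ⊕ Fin m) F) *ᵥ w) := by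
        show (((g⁻¹ : Matrix.symplecticGroup (Fin m) F) : Matrix (Fin m ⊕ Fin m) (Fin m ⊕ Fin m) F) *
          (n : Matrix (Fin m ⊕ Fin m) (Fin m ⊕ Fin m) F) * (g : Matrix (Fin m ⊕ Fin m) (Fin m ⊕ Fin m) F)) *ᵥ e = _
        rw [← Matrix.mulVec_mulVec, ← Matrix.mulVec_mulVec, hg]
      rw [h2] at ha
      have h3 : (g : Matrix (Fin m ⊕ Fin m) (Fin m ⊕ Fin m) F) *ᵥ
          (((g⁻¹ : Matrix.symplecticGroup (Fin m) F) : Matrix (Fin m ⊕ Fin m) (Fin m ⊕ Fin m) F) *ᵥ
            ((n : Matrix (Fin m ⊕ Fin m) (Fin m ⊕ Fin m) F) *ᵥ w)) =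
          (g : Matrix (Fin m ⊕ Fin m) (Fin m ⊕ Fin m) F) *ᵥ (a • e) := by rw [ha]
      have h6 : (g : Matrix (Fin m ⊕ Fin m) (Fin m ⊕ Fin m) F) *
          ((g⁻¹ : Matrix.symplecticGroup (Fin m) F) : Matrix (Fin m ⊕ Fin m) (Fin m ⊕ Fin m) F) = 1 :=
        congrArg Subtype.val (mul_inv_cancel g)
      rw [Matrix.mulVec_mulVec, h6, Matrix.one_mulVec, Matrix.mulVec_smul, hg] at h3
      exact h3
    obtain ⟨c, hc⟩ := scalar_of_fix70 (n : Matrix (Fin m ⊕ Fin m) (Fin m ⊕ Fin m) F) h1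
    rw [Subgroup.mem_center_iff]
    intro g
    apply Subtype.ext
    show (g : Matrix (Fin m ⊕ Fin m) (Fin m ⊕ Fin m) F) * (n : Matrix (Fin m ⊕ Fin m) (Fin m ⊕ Fin m) F) =
      (n : Matrix (Fin m ⊕ Fin m) (Fin m ⊕ Fin m) F) * (g : Matrix (Fin m ⊕ Fin m) (Fin m ⊕ Fin m) F)
    rw [hc]
    simp
  · right
    push Not at hcase
    obtain ⟨n, hn, hne⟩ := hcase
    have hconj : ∀ (B : Matrix.symplecticGroup (Fin m) F) (b : F),
        (B : Matrix (Fin m ⊕ Fin m) (Fin m ⊕ Fin m) F) *ᵥ e = b • e →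
        ∀ x ∈ N ⊔ rootSub70 m e, B * x * B⁻¹ ∈ N ⊔ rootSub70 m e := by
      intro B b hB
      have h1 : N ⊔ rootSub70 m e ≤ (N ⊔ rootSub70 m e).comap (MulAut.conj B).toMonoidHom := by
        apply sup_le
        · intro x hx
          rw [Subgroup.mem_comap]
          exact Subgroup.mem_sup_left (hN.conj_mem x hx B)
        · rintro x ⟨c, hc⟩
          rw [Subgroup.mem_comap]
          apply Subgroup.mem_sup_right
          refine ⟨b * b * c, ?_⟩
          have h2 : B * x * B⁻¹ = ⟨sympTransvection m e (b * b * c), sympTransvection_mem m e _⟩ := by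
            rw [mul_inv_eq_iff_eq_mul]
            apply Subtype.ext
            show (B : Matrix (Fin m ⊕ Fin m) (Fin m ⊕ Fin m) F) * (x : Matrix (Fin m ⊕ Fin m) (Fin m ⊕ Fin m) F) =
              sympTransvection m e (b * b * c) * (B : Matrix (Fin m ⊕ Fin m) (Fin m ⊕ Fin m) F)
            rw [hc, conj69 _ B.2, hB, tsmul70]
          show ((B * x * B⁻¹ : Matrix.symplecticGroup (Fin m) F) : Matrix (Fin m ⊕ Fin m) (Fin m ⊕ Fin m) F) = _
          rw [h2]
      exact fun x hx => h1 hx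
    have hK : Subgroup.normalizer ((N ⊔ rootSub70 m e : Subgroup (Matrix.symplecticGroup (Fin m) F)) : Set (Matrix.symplecticGroup (Fin m) F)) = ⊤ := by
      apply core68 m e _ _ n (Subgroup.le_normalizer (Subgroup.mem_sup_left hn)) hne
      intro A ⟨a, ha⟩
      have hinv : ((A⁻¹ : Matrix.symplecticGroup (Fin m) F) : Matrix (Fin m ⊕ Fin m) (Fin m ⊕ Fin m) F) *ᵥ e =
          a⁻¹ • e := by
        have h6 : ((A⁻¹ : Matrix.symplecticGroup (Fin m) F) : Matrix (Fin m ⊕ Fin m) (Fin m ⊕ Fin m) F) *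
            (A : Matrix (Fin m ⊕ Fin m) (Fin m ⊕ Fin m) F) = 1 :=
          congrArg Subtype.val (inv_mul_cancel A)
        have h7 : ((A⁻¹ : Matrix.symplecticGroup (Fin m) F) : Matrix (Fin m ⊕ Fin m) (Fin m ⊕ Fin m) F) *ᵥ
            ((A : Matrix (Fin m ⊕ Fin m) (Fin m ⊕ Fin m) F) *ᵥ e) = e := by
          rw [Matrix.mulVec_mulVec, h6, Matrix.one_mulVec]
        rw [ha, Matrix.mulVec_smul] at h7
        have ha0 : a ≠ 0 := by
          intro h0
          rw [h0, zero_smul] at h7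
          exact he h7.symm
        conv_rhs => rw [← h7]
        rw [inv_smul_smul₀ ha0]
      rw [Subgroup.mem_normalizer_iff]
      intro x
      constructor
      · exact hconj A a ha x
      · intro hx
        have h8 := hconj A⁻¹ a⁻¹ hinv _ hx
        rw [show A⁻¹ * (A * x * A⁻¹) * A⁻¹⁻¹ = x by group] at h8
        exact h8
    haveI hKn : (N ⊔ rootSub70 m e).Normal := Subgroup.normalizer_eq_top_iff.mp hK
    have hKtop : N ⊔ rootSub70 m e = ⊤ := by
      rw [eq_top_iff, ← Cfsg.Agent.S0765.result m, Subgroup.closure_le]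
      rintro g ⟨w, c, hg⟩
      show g ∈ N ⊔ rootSub70 m e
      by_cases hw : w = 0
      · have hg1 : g = 1 := by
          apply Subtype.ext
          rw [hg, hw]
          unfold sympTransvection
          simp
        rw [hg1]
        exact Subgroup.one_mem _
      · obtain ⟨w', hw'⟩ := hyp69 w hw
        obtain ⟨A, -, hAe, -, -⟩ := trans65 m e e' w w' he' hw'
        have e1 : g = A * ⟨sympTransvection m e c, sympTransvection_mem m e c⟩ * A⁻¹ := by
          rw [eq_mul_inv_iff_mul_eq]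
          apply Subtype.ext
          show (g : Matrix (Fin m ⊕ Fin m) (Fin m ⊕ Fin m) F) * (A : Matrix (Fin m ⊕ Fin m) (Fin m ⊕ Fin m) F) =
            (A : Matrix (Fin m ⊕ Fin m) (Fin m ⊕ Fin m) F) * sympTransvection m e c
          rw [hg, conj69 _ A.2, hAe]
        rw [e1]
        exact hKn.conj_mem _ (Subgroup.mem_sup_right ⟨c, rfl⟩) A
    rw [eq_top_iff, ← hperf, commutator_def, Subgroup.commutator_le]
    intro x _ y _
    have hx : x ∈ N ⊔ rootSub70 m e := by rw [hKtop]; exact Subgroup.mem_top _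
    have hy : y ∈ N ⊔ rootSub70 m e := by rw [hKtop]; exact Subgroup.mem_top _
    rw [← SetLike.mem_coe, Subgroup.normal_mul, Set.mem_mul] at hx hy
    obtain ⟨n₁, hn₁, r₁, hr₁, rfl⟩ := hx
    obtain ⟨n₂, hn₂, r₂, hr₂, rfl⟩ := hy
    rw [← QuotientGroup.eq_one_iff]
    have hcomm : Commute r₁ r₂ := by
      obtain ⟨c, hc⟩ := hr₁
      obtain ⟨d, hd⟩ := hr₂
      apply Subtype.ext
      show (r₁ : Matrix (Fin m ⊕ Fin m) (Fin m ⊕ Fin m) F) * (r₂ : Matrix (Fin m ⊕ Fin m) (Fin m ⊕ Fin m) F) =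
        (r₂ : Matrix (Fin m ⊕ Fin m) (Fin m ⊕ Fin m) F) * (r₁ : Matrix (Fin m ⊕ Fin m) (Fin m ⊕ Fin m) F)
      rw [hc, hd, sympTransvection_mul, sympTransvection_mul, add_comm]
    have h1 : ((n₁ * r₁ : Matrix.symplecticGroup (Fin m) F) : Matrix.symplecticGroup (Fin m) F ⧸ N) = (r₁ : Matrix.symplecticGroup (Fin m) F ⧸ N) := by
      rw [QuotientGroup.mk_mul, (QuotientGroup.eq_one_iff n₁).mpr hn₁, one_mul]
    have h2 : ((n₂ * r₂ : Matrix.symplecticGroup (Fin m) F) : Matrix.symplecticGroup (Fin m) F ⧸ N) = (r₂ : Matrix.symplecticGroup (Fin m) F ⧸ N) := by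
      rw [QuotientGroup.mk_mul, (QuotientGroup.eq_one_iff n₂).mpr hn₂, one_mul]
    have h3 : ((⁅n₁ * r₁, n₂ * r₂⁆ : Matrix.symplecticGroup (Fin m) F) : Matrix.symplecticGroup (Fin m) F ⧸ N) =
        ⁅((n₁ * r₁ : Matrix.symplecticGroup (Fin m) F) : Matrix.symplecticGroup (Fin m) F ⧸ N),
          ((n₂ * r₂ : Matrix.symplecticGroup (Fin m) F) : Matrix.symplecticGroup (Fin m) F ⧸ N)⁆ :=
      map_commutatorElement (QuotientGroup.mk' N) _ _
    rw [h3, h1, h2]
    exact commutatorElement_eq_one_iff_commute.mpr (hcomm.map (QuotientGroup.mk' N))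

/-- PSp_{2m}(q) is simple for m at least 2 and (m, q) other than (2, 2). -/
theorem result {F : Type*} [Field F] [Fintype F] (m : ℕ) (hm : 2 ≤ m) (h : m = 2 → 3 ≤ Fintype.card F) : IsSimpleGroup (Cfsg.PSp m F) := by
  classical
  have hperf : commutator (Matrix.symplecticGroup (Fin m) F) = ⊤ := by
    apply Cfsg.Agent.S0269.result m
    by_cases h2 : m = 2
    · exact Or.inr (Or.inl ⟨h2, h h2⟩)
    · exact Or.inl (by omega)
  have hm1 : 1 ≤ m := by omega
  have hnt : ∃ x : Matrix.symplecticGroup (Fin m) F, x ∉ Subgroup.center (Matrix.symplecticGroup (Fin m) F) := by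
    by_contra hcon
    push Not at hcon
    have hc : Subgroup.center (Matrix.symplecticGroup (Fin m) F) = ⊤ := by
      rw [eq_top_iff]; intro x _; exact hcon x
    rw [← commutator_eq_bot_iff_center_eq_top, hperf] at hc
    -- ⊤ = ⊥ : group trivial, but a transvection is nontrivial
    have hT : (⟨sympTransvection m (Pi.single (Sum.inl (⟨0, hm1⟩ : Fin m)) 1) 1, sympTransvection_mem m _ 1⟩ :
        Matrix.symplecticGroup (Fin m) F) ∈ (⊥ : Subgroup (Matrix.symplecticGroup (Fin m) F)) := by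
      rw [← hc]; exact Subgroup.mem_top _
    rw [Subgroup.mem_bot] at hT
    have h1 := congrArg Subtype.val hT
    have h2 : sympTransvection m (Pi.single (Sum.inl (⟨0, hm1⟩ : Fin m)) (1 : F)) 1 = 1 := h1
    rw [trans_eq69] at h2
    have h3 := congrFun (congrFun h2 (Sum.inl ⟨0, hm1⟩)) (Sum.inr ⟨0, hm1⟩)
    unfold uS69 at h3
    simp at h3
  obtain ⟨x0, hx0⟩ := hnt
  have : Nontrivial (Cfsg.PSp m F) :=
    ⟨⟨(x0 : Matrix.symplecticGroup (Fin m) F ⧸ Subgroup.center (Matrix.symplecticGroup (Fin m) F)), 1,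
      fun hh => hx0 ((QuotientGroup.eq_one_iff x0).mp hh)⟩⟩
  refine ⟨?_⟩
  intro H hH
  have : (H.comap (QuotientGroup.mk' (Subgroup.center (Matrix.symplecticGroup (Fin m) F)))).Normal :=
    hH.comap _
  rcases normal70 m hm1 hperf (H.comap (QuotientGroup.mk' (Subgroup.center (Matrix.symplecticGroup (Fin m) F)))) with hle | htop
  · left
    rw [eq_bot_iff]
    intro x hx
    induction x using QuotientGroup.induction_on with
    | H g =>
      have hg : g ∈ H.comap (QuotientGroup.mk' (Subgroup.center (Matrix.symplecticGroup (Fin m) F))) := hx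
      rw [Subgroup.mem_bot]
      exact (QuotientGroup.eq_one_iff g).mpr (hle hg)
  · right
    rw [eq_top_iff]
    intro x _
    induction x using QuotientGroup.induction_on with
    | H g =>
      have hg : g ∈ H.comap (QuotientGroup.mk' (Subgroup.center (Matrix.symplecticGroup (Fin m) F))) := by
        rw [htop]; exact Subgroup.mem_top _
      exact hg

end Cfsg.Agent.S0270
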