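import Cfsg.Statements.S0272
import Mathlib
import Cfsg.Agent.Lib.Lead.GL2Sylow
-- import your own Cfsg.Agent.* helpers here

set_option autoImplicit false
open Cfsg

namespace Cfsg.Agent.S0272

/-- The normaliser in GL_2(q) of a Sylow p-subgroup, p the characteristic, has order q (q-1)^2. -/
theorem result {F : Type*} [Field F] [Fintype F] {q : ℕ} (hF : Fintype.card F = q) (p : ℕ) [Fact p.Prime] [CharP F p] (P : Sylow p (Matrix.GeneralLinearGroup (Fin 2) F)) : Nat.card (Subgroup.normalizer ((P : Subgroup (Matrix.GeneralLinearGroup (Fin 2) F)) : Set (Matrix.GeneralLinearGroup (Fin 2) F))) = q * (q - 1) ^ 2 := by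
  classical
  subst hF
  have h1 := Cfsg.Agent.Lib.Lead.card_sylow_GL2 (F := F) p
  rw [Sylow.card_eq_index_normalizer P] at h1
  have h2 := Subgroup.card_mul_index
    (Subgroup.normalizer ((P : Subgroup (Matrix.GeneralLinearGroup (Fin 2) F)) :
      Set (Matrix.GeneralLinearGroup (Fin 2) F)))
  have h3 := Matrix.card_GL_field (𝔽 := F) 2
  rw [Fin.prod_univ_two] at h3
  have h1' : (Subgroup.normalizer ((P : Subgroup (Matrix.GeneralLinearGroup (Fin 2) F)) :
      Set (Matrix.GeneralLinearGroup (Fin 2) F))).index = Fintype.card F + 1 := h1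
  rw [h1', h3] at h2
  have hq : 2 ≤ Fintype.card F := Fintype.one_lt_card
  generalize Nat.card (Subgroup.normalizer ((P : Subgroup (Matrix.GeneralLinearGroup (Fin 2) F)) :
      Set (Matrix.GeneralLinearGroup (Fin 2) F))) = N at *
  generalize Fintype.card F = q at *
  obtain ⟨r, rfl⟩ : ∃ r, q = r + 2 := ⟨q - 2, by omega⟩
  have e1 : r + 2 - 1 = r + 1 := by omega
  have e2 : (r + 2) ^ 2 - (r + 2) ^ ((0 : Fin 2) : ℕ) = (r + 1) * (r + 3) := by
    have : (r + 2) ^ 2 = (r + 1) * (r + 3) + 1 := by ring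
    simp only [Fin.val_zero, pow_zero]
    omega
  have e3 : (r + 2) ^ 2 - (r + 2) ^ ((1 : Fin 2) : ℕ) = (r + 2) * (r + 1) := by
    have : (r + 2) ^ 2 = (r + 2) * (r + 1) + (r + 2) := by ring
    simp only [Fin.val_one, pow_one]
    omega
  rw [e2, e3] at h2
  rw [e1]
  have h5 : N * (r + 2 + 1) = ((r + 2) * (r + 1) ^ 2) * (r + 2 + 1) := by
    rw [h2]; ring
  exact Nat.eq_of_mul_eq_mul_right (by positivity) h5

end Cfsg.Agent.S0272
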