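import Cfsg.Statements.S0755
import Mathlib
import Cfsg.Statements.S0755

set_option autoImplicit false
open Cfsg
open scoped commutatorElement

namespace Cfsg.Agent.S0755

open Module
open Polynomial

universe u

theorem norm_surj55 {F : Type*} [Field F] [Finite F] (σ : F →+* F) (hσ : σ ≠ RingHom.id F)
    (hσ2 : ∀ a : F, σ (σ a) = a) (a : F) (ha : σ a = a) : ∃ μ : F, σ μ * μ = a := by
  classical
  by_cases h2 : (2 : F) = 0
  · haveI : CharP F 2 := CharTwo.of_one_ne_zero_of_two_eq_zero one_ne_zero h2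
    obtain ⟨u, hu⟩ := isSquare_of_charTwo' a
    refine ⟨u, ?_⟩
    have h3 : σ u * σ u = u * u := by rw [← map_mul, ← hu, ha]
    have h4 : (σ u - u) * (σ u - u) = 0 := by
      have : (σ u - u) * (σ u - u) = σ u * σ u + u * u - 2 * (σ u * u) := by ring
      rw [this, h3, h2]
      linear_combination (u * u) * h2
    have h5 : σ u = u := sub_eq_zero.mp (mul_self_eq_zero.mp h4)
    rw [h5, hu]
  · obtain ⟨θ, hθ⟩ : ∃ θ, σ θ ≠ θ := by
      by_contra hc; push Not at hc; exact hσ (RingHom.ext hc)
    haveI : Fintype (RingHom.eqLocusField σ (RingHom.id F)) := Fintype.ofFinite _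
    have hodd : Fintype.card (RingHom.eqLocusField σ (RingHom.id F)) % 2 = 1 := by
      apply FiniteField.odd_card_of_char_ne_two
      intro h
      have h5 := ringChar.Nat.cast_ringChar (R := RingHom.eqLocusField σ (RingHom.id F))
      rw [h] at h5
      apply h2
      have h7 : (1 + 1 : RingHom.eqLocusField σ (RingHom.id F)) = 0 := by
        rw [one_add_one_eq_two]; exact_mod_cast h5
      have h6 : (1 + 1 : F) = 0 :=
        congrArg (fun z : RingHom.eqLocusField σ (RingHom.id F) => (z : F)) h7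
      rw [one_add_one_eq_two] at h6
      exact h6
    have h4 : (4 : F) ≠ 0 := by
      have : (4 : F) = 2 * 2 := by norm_num
      rw [this]; exact mul_ne_zero h2 h2
    obtain ⟨t, ht_def⟩ : ∃ t, t = θ + σ θ := ⟨_, rfl⟩
    obtain ⟨nn, hn_def⟩ : ∃ nn, nn = θ * σ θ := ⟨_, rfl⟩
    obtain ⟨d, hd_def⟩ : ∃ d, d = nn - t ^ 2 / 4 := ⟨_, rfl⟩
    have ht : σ t = t := by rw [ht_def, map_add, hσ2]; ring
    have hn : σ nn = nn := by rw [hn_def, map_mul, hσ2]; ring
    have hdσ : σ d = d := by
      rw [hd_def, map_sub, map_div₀, map_pow, ht, hn, map_ofNat]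
    have hd : d ≠ 0 := by
      have e : d = -(θ - σ θ) ^ 2 / 4 := by
        rw [hd_def, hn_def, ht_def]; field_simp; ring
      rw [e]
      have : θ - σ θ ≠ 0 := sub_ne_zero.mpr (Ne.symm hθ)
      exact div_ne_zero (neg_ne_zero.mpr (pow_ne_zero 2 this)) h4
    have hna : σ (-a) = -a := by rw [map_neg, ha]
    have hd' : (⟨d, hdσ⟩ : RingHom.eqLocusField σ (RingHom.id F)) ≠ 0 := by
      intro h
      exact hd (congrArg Subtype.val h)
    obtain ⟨x, y, hxy⟩ := FiniteField.exists_root_sum_quadratic
      (f := (X : (RingHom.eqLocusField σ (RingHom.id F))[X]) ^ 2)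
      (g := C (⟨d, hdσ⟩ : RingHom.eqLocusField σ (RingHom.id F)) * X ^ 2 +
        C (⟨-a, hna⟩ : RingHom.eqLocusField σ (RingHom.id F)))
      (Polynomial.degree_X_pow 2)
      (by rw [Polynomial.degree_add_C (by rw [Polynomial.degree_C_mul_X_pow 2 hd']; norm_num),
        Polynomial.degree_C_mul_X_pow 2 hd']; rfl) hodd
    simp only [eval_mul, eval_C, eval_pow, eval_X, eval_add] at hxy
    have hxy' : (x : F) ^ 2 + (d * (y : F) ^ 2 + -a) = 0 := by
      have h6 := congrArg (fun z : RingHom.eqLocusField σ (RingHom.id F) => (z : F)) hxy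
      simpa using h6
    have hx : σ (x : F) = x := x.2
    have hy : σ (y : F) = y := y.2
    refine ⟨((x : F) - t * y / 2) + y * θ, ?_⟩
    simp only [map_add, map_sub, map_mul, map_div₀, hx, hy, ht, map_ofNat]
    have key : ((x : F) - t * y / 2 + y * σ θ) * ((x : F) - t * y / 2 + y * θ) =
        (x : F) ^ 2 + (d * (y : F) ^ 2 + -a) + a := by
      rw [hd_def, hn_def, ht_def]; field_simp; ring
    rw [key, hxy', zero_add]

theorem exists_aniso55 {F V : Type*} [Field F] [AddCommGroup V] [Module F V]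
    (σ : F →+* F) (hσ : σ ≠ RingHom.id F)
    (B : V →ₛₗ[σ] V →ₗ[F] F) (hS : B.IsSymm) (hB : B.Nondegenerate)
    (hV : ∃ v : V, v ≠ 0) : ∃ u : V, B u u ≠ 0 := by
  by_contra hcon
  push Not at hcon
  obtain ⟨v, hv⟩ := hV
  obtain ⟨w, hw⟩ : ∃ w, B v w ≠ 0 := by
    by_contra hc; push Not at hc; exact hv (hB.1 v hc)
  have hsym : B w v = σ (B v w) := (LinearMap.isSymm_def.mp hS v w).symm
  have key : ∀ l : F, σ l * B v w + l * σ (B v w) = 0 := by
    intro l
    have h1 := hcon (l • v + w)
    simp only [map_add, LinearMap.add_apply, LinearMap.map_smulₛₗ, LinearMap.smul_apply,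
      map_smul, smul_eq_mul, hcon v, hcon w, hsym, mul_zero, zero_add, add_zero] at h1
    linear_combination h1
  have h1 := key 1
  simp only [map_one, one_mul] at h1
  apply hσ
  apply RingHom.ext
  intro l
  have h2 := key l
  have h3 : (σ l - l) * B v w = 0 := by linear_combination h2 - l * h1
  rcases mul_eq_zero.mp h3 with h | h
  · rw [RingHom.id_apply]; exact sub_eq_zero.mp h
  · exact absurd h hw

theorem exists_one55 {F V : Type*} [Field F] [Finite F] [AddCommGroup V] [Module F V]
    (σ : F →+* F) (hσ : σ ≠ RingHom.id F) (hσ2 : ∀ a : F, σ (σ a) = a)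
    (B : V →ₛₗ[σ] V →ₗ[F] F) (hS : B.IsSymm) (hB : B.Nondegenerate)
    (hV : ∃ v : V, v ≠ 0) : ∃ v : V, B v v = 1 := by
  obtain ⟨u, hu⟩ := exists_aniso55 σ hσ B hS hB hV
  have hfix : σ (B u u) = B u u := LinearMap.isSymm_def.mp hS u u
  obtain ⟨μ, hμ⟩ := norm_surj55 σ hσ hσ2 (B u u)⁻¹ (by rw [map_inv₀, hfix])
  refine ⟨μ • u, ?_⟩
  simp only [LinearMap.map_smulₛₗ, LinearMap.smul_apply, map_smul, smul_eq_mul]
  rw [← mul_assoc, mul_comm μ, hμ, inv_mul_cancel₀ hu]

theorem main55 {F : Type*} [Field F] [Finite F] (σ : F →+* F) (hσ : σ ≠ RingHom.id F)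
    (hσ2 : ∀ a : F, σ (σ a) = a) (d : ℕ) :
    ∀ (V : Type u) [AddCommGroup V] [Module F V] [FiniteDimensional F V]
      (B : V →ₛₗ[σ] V →ₗ[F] F), finrank F V = d → B.IsSymm → B.Nondegenerate →
      ∃ b : Fin d → V, ∀ i j, B (b i) (b j) = if i = j then 1 else 0 := by
  induction d with
  | zero =>
    intro V _ _ _ B _ _ _
    exact ⟨Fin.elim0, fun i => i.elim0⟩
  | succ d ih =>
    intro V _ _ _ B hV hS hB
    obtain ⟨v, hv⟩ := exists_one55 σ hσ hσ2 B hS hB (by
      have : 0 < finrank F V := by omega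
      exact Module.finrank_pos_iff_exists_ne_zero.mp this)
    have hfr : finrank F (LinearMap.ker (B v)) = d := by
      have h1 := LinearMap.finrank_range_add_finrank_ker (B v)
      have hsurj : LinearMap.range (B v) = ⊤ := by
        rw [LinearMap.range_eq_top]
        intro c
        exact ⟨c • v, by rw [map_smul, hv, smul_eq_mul, mul_one]⟩
      rw [hsurj, finrank_top, Module.finrank_self] at h1
      omega
    have hWv : ∀ x : LinearMap.ker (B v), B v (x : V) = 0 := fun x => LinearMap.mem_ker.mp x.2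
    have hvW : ∀ x : LinearMap.ker (B v), B (x : V) v = 0 := by
      intro x
      rw [← LinearMap.isSymm_def.mp hS v x, hWv, map_zero]
    have key : ∀ x : LinearMap.ker (B v),
        (∀ y : LinearMap.ker (B v), B (x : V) (y : V) = 0) → x = 0 := by
      intro x hx
      apply Subtype.ext
      apply hB.1
      intro z
      have hmem : z - (B v z) • v ∈ LinearMap.ker (B v) := by
        rw [LinearMap.mem_ker, map_sub, map_smul, hv, smul_eq_mul, mul_one, sub_self]
      have h1 := hx ⟨_, hmem⟩
      simp only [map_sub, map_smul, hvW x, smul_eq_mul, mul_zero, sub_zero] at h1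
      exact h1
    have hnd : (B.domRestrict₁₂ (LinearMap.ker (B v)) (LinearMap.ker (B v))).Nondegenerate := by
      constructor
      · intro x hx
        exact key x hx
      · intro y hy
        apply key y
        intro x
        have h1 : B (x : V) (y : V) = 0 := hy x
        rw [← LinearMap.isSymm_def.mp hS (x : V) (y : V), h1, map_zero]
    obtain ⟨b', hb'⟩ := ih (LinearMap.ker (B v))
      (B.domRestrict₁₂ (LinearMap.ker (B v)) (LinearMap.ker (B v))) hfr
      (hS.domRestrict _) hnd
    refine ⟨Fin.cons v (fun i => ((b' i : LinearMap.ker (B v)) : V)), ?_⟩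
    intro i j
    refine Fin.cases ?_ (fun i' => ?_) i <;> refine Fin.cases ?_ (fun j' => ?_) j
    · simp [hv]
    · simp only [Fin.cons_zero, Fin.cons_succ]
      rw [hWv, if_neg (Fin.succ_ne_zero j').symm]
    · simp only [Fin.cons_zero, Fin.cons_succ]
      rw [hvW, if_neg (Fin.succ_ne_zero i')]
    · simp only [Fin.cons_succ]
      have h3 : B ((b' i' : LinearMap.ker (B v)) : V) ((b' j' : LinearMap.ker (B v)) : V) =
          if i' = j' then 1 else 0 := hb' i' j'
      rw [h3]
      simp [Fin.succ_inj]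

/-- Classification of Hermitian forms over finite fields: if σ is a non-identity involutive automorphism of the finite field F and B is a non-degenerate conjugate-symmetric σ-sesquilinear form on the finite-dimensional space V, then V has a B-orthonormal basis. -/
theorem result {F V : Type*} [Field F] [Finite F] [AddCommGroup V] [Module F V] [FiniteDimensional F V] (σ : F →+* F) (hσ : σ ≠ RingHom.id F) (hσ2 : ∀ a : F, σ (σ a) = a) (B : V →ₛₗ[σ] V →ₗ[F] F) (hS : B.IsSymm) (hB : B.Nondegenerate) : ∃ b : Module.Basis (Fin (Module.finrank F V)) F V, ∀ i j, B (b i) (b j) = if i = j then 1 else 0 := by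
  classical
  obtain ⟨b, hb⟩ := main55 σ hσ hσ2 (finrank F V) V B rfl hS hB
  have hli : LinearIndependent F b := by
    rw [Fintype.linearIndependent_iff]
    intro g hg i
    have h1 : B (b i) (∑ j, g j • b j) = 0 := by rw [hg]; simp
    simp only [map_sum, map_smul, hb, smul_eq_mul, mul_ite, mul_one, mul_zero,
      Finset.sum_ite_eq, Finset.mem_univ, if_true] at h1
    exact h1
  have hsp := hli.span_eq_top_of_card_eq_finrank' (by simp)
  refine ⟨Basis.mk hli (by rw [hsp]), ?_⟩
  simp only [Basis.coe_mk]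
  exact hb

end Cfsg.Agent.S0755
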