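import Cfsg.Statements.S0277
import Mathlib
import Cfsg.Statements.S0277
import Cfsg.Agent.S0755
import Cfsg.Agent.S0284
import Cfsg.Agent.S0245
import Cfsg.Agent.Lib.Lead.HermCount

set_option autoImplicit false
open Cfsg
open scoped commutatorElement

namespace Cfsg.Agent.S0277

open Matrix Module
open Cfsg.Agent.Lib.Lead

def sig77 {F : Type*} [Field F] [Fintype F] {q : ℕ} (hF : Fintype.card F = q ^ 2) : F →+* F where
  toFun x := x ^ q
  map_one' := one_pow q
  map_mul' x y := mul_pow x y q
  map_zero' := zero_pow (by have := herm_two_le hF; omega)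
  map_add' x y := herm_pow_add hF x y

theorem sig_ne77 {F : Type*} [Field F] [Fintype F] {q : ℕ} (hF : Fintype.card F = q ^ 2) : sig77 hF ≠ RingHom.id F := by
  intro h
  have hx : ∀ x : F, x ^ q = x := fun x => by
    have := congrArg (fun f : F →+* F => f x) h; exact this
  have h1 := herm_card_norm_one hF
  have h2 : Nat.card {x : F // x * x ^ q = 1} ≤ Nat.card Bool := by
    classical
    apply Nat.card_le_card_of_injective (fun x => decide (x.1 = 1))
    intro x y hxy
    have hx1 : x.1 = 1 ∨ x.1 = -1 := by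
      have := x.2; rw [hx] at this
      exact mul_self_eq_one_iff.mp this
    have hy1 : y.1 = 1 ∨ y.1 = -1 := by
      have := y.2; rw [hx] at this
      exact mul_self_eq_one_iff.mp this
    apply Subtype.ext
    simp only [decide_eq_decide] at hxy
    rcases hx1 with h | h <;> rcases hy1 with h' | h'
    · rw [h, h']
    · rw [h, hxy.mp h]
    · rw [hxy.mpr h', h']
    · rw [h, h']
  rw [h1, Nat.card_eq_fintype_card, Fintype.card_bool] at h2
  have := herm_two_le hF; omega

def hB77 {F : Type*} [Field F] [Fintype F] {q : ℕ} (hF : Fintype.card F = q ^ 2) (n : ℕ) :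
    (Fin n → F) →ₛₗ[sig77 hF] (Fin n → F) →ₗ[F] F :=
  LinearMap.mk₂'ₛₗ (sig77 hF) (RingHom.id F) (fun x y => hermForm n F q y x)
    (fun x x' y => by
      unfold hermForm
      rw [← Finset.sum_add_distrib]; apply Finset.sum_congr rfl; intro i _
      rw [Pi.add_apply, herm_pow_add hF]; ring)
    (fun c x y => by
      unfold hermForm
      rw [Finset.smul_sum]; apply Finset.sum_congr rfl; intro i _
      show y i * (c * x i) ^ q = c ^ q * (y i * x i ^ q)
      rw [mul_pow]; ring)
    (fun x y y' => by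
      unfold hermForm
      rw [← Finset.sum_add_distrib]; apply Finset.sum_congr rfl; intro i _
      rw [Pi.add_apply]; ring)
    (fun c x y => by
      unfold hermForm
      rw [Finset.smul_sum]; apply Finset.sum_congr rfl; intro i _
      show c * y i * x i ^ q = c * (y i * x i ^ q)
      ring)

theorem hB_symm77 {F : Type*} [Field F] [Fintype F] {q : ℕ} (hF : Fintype.card F = q ^ 2) (n : ℕ) :
    (hB77 hF n).IsSymm := by
  rw [LinearMap.isSymm_def]
  intro x y
  show sig77 hF (hermForm n F q y x) = hermForm n F q x y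
  unfold hermForm
  rw [map_sum]
  apply Finset.sum_congr rfl; intro i _
  show (y i * x i ^ q) ^ q = x i * y i ^ q
  rw [mul_pow, herm_pow_sq hF]; ring

theorem herm_swap77 {F : Type*} [Field F] [Fintype F] {q : ℕ} (hF : Fintype.card F = q ^ 2) (n : ℕ) (x y : Fin n → F) :
    hermForm n F q x y = (hermForm n F q y x) ^ q :=
  (LinearMap.isSymm_def.mp (hB_symm77 hF n) x y).symm

theorem hB_nd77 {F : Type*} [Field F] [Fintype F] {q : ℕ} (hF : Fintype.card F = q ^ 2) (n : ℕ) :
    (hB77 hF n).Nondegenerate := by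
  classical
  have h2 := herm_two_le hF
  have key : ∀ x : Fin n → F, (∀ y, hB77 hF n x y = 0) → x = 0 := by
    intro x hx
    funext i
    have h1 : hermForm n F q (Pi.single i 1) x = 0 := hx (Pi.single i 1)
    unfold hermForm at h1
    rw [Finset.sum_eq_single i (fun j _ hj => by rw [Pi.single_eq_of_ne hj, zero_mul])
      (fun h => absurd (Finset.mem_univ i) h), Pi.single_eq_same, one_mul] at h1
    exact (pow_eq_zero_iff (by omega)).mp h1
  constructor
  · exact key
  · intro y hy
    apply key y
    intro x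
    rw [← LinearMap.isSymm_def.mp (hB_symm77 hF n) x y, hy x, map_zero]

theorem cnt_abs77 {F : Type*} [Field F] [Fintype F] {q : ℕ} (hF : Fintype.card F = q ^ 2)
    {U : Type*} [AddCommGroup U] [Module F U] [FiniteDimensional F U]
    (B : U →ₛₗ[sig77 hF] U →ₗ[F] F) (hS : B.IsSymm) (hB : B.Nondegenerate) (d : ℕ) (hd : finrank F U = d) :
    Nat.card {w : U // B w w = 1} = Nat.card {x : Fin d → F // hermForm d F q x x = 1} := by
  subst hd
  obtain ⟨b, hb⟩ := Cfsg.Agent.S0755.result (sig77 hF) (sig_ne77 hF) (fun a => herm_pow_sq hF a) B hS hB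
  have key : ∀ w : U, B w w = hermForm (finrank F U) F q (b.equivFun w) (b.equivFun w) := by
    intro w
    conv_lhs => rw [← b.sum_repr w]
    simp only [map_sum, LinearMap.sum_apply, LinearMap.map_smulₛₗ, LinearMap.smul_apply, map_smul, hb, smul_eq_mul,
      mul_ite, mul_one, mul_zero, Finset.sum_ite_eq, Finset.sum_ite_eq', Finset.mem_univ, if_true]
    unfold hermForm
    apply Finset.sum_congr rfl; intro i _
    show b.repr w i * (b.repr w i) ^ q = b.equivFun w i * (b.equivFun w i) ^ q
    rw [Basis.equivFun_apply]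
  exact Nat.card_congr (Equiv.subtypeEquiv b.equivFun.toEquiv (fun w => by rw [key]; rfl))

def ON77 {F : Type*} [Field F] (n q k : ℕ) (v : Fin k → Fin n → F) : Prop :=
  ∀ i j, hermForm n F q (v i) (v j) = if i = j then 1 else 0

theorem ext_count77 {F : Type*} [Field F] [Fintype F] {q : ℕ} (hF : Fintype.card F = q ^ 2) (n k : ℕ) (hk : k ≤ n)
    (v : Fin k → Fin n → F) (hv : ON77 n q k v) :
    Nat.card {w : Fin n → F // (∀ i, hermForm n F q w (v i) = 0) ∧ hermForm n F q w w = 1} =
    Nat.card {x : Fin (n - k) → F // hermForm (n - k) F q x x = 1} := by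
  classical
  set B := hB77 hF n with hBdef
  have hS := hB_symm77 hF n
  have hnd := hB_nd77 hF n
  have hvv : ∀ i j, B (v i) (v j) = if j = i then 1 else 0 := fun i j => hv j i
  set L : (Fin n → F) →ₗ[F] (Fin k → F) := LinearMap.pi (fun i => B (v i)) with hL
  have hLap : ∀ w i, L w i = B (v i) w := fun w i => rfl
  have hsurj : Function.Surjective L := by
    intro a
    refine ⟨∑ j, a j • v j, ?_⟩
    funext i
    rw [hLap]
    simp only [map_sum, map_smul, hvv, smul_eq_mul, mul_ite, mul_one, mul_zero, Finset.sum_ite_eq', Finset.mem_univ, if_true]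
  have hfr : finrank F (LinearMap.ker L) = n - k := by
    have h1 := LinearMap.finrank_range_add_finrank_ker L
    rw [LinearMap.range_eq_top.mpr hsurj, finrank_top, Module.finrank_fin_fun, Module.finrank_fin_fun] at h1
    omega
  have hmem : ∀ w : Fin n → F, w ∈ LinearMap.ker L ↔ ∀ i, hermForm n F q w (v i) = 0 := by
    intro w
    rw [LinearMap.mem_ker]
    constructor
    · intro h i; exact congrFun h i
    · intro h; funext i; exact h i
  have hUv : ∀ x : LinearMap.ker L, ∀ i, B (v i) (x : Fin n → F) = 0 := fun x i => (hmem x.1).mp x.2 i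
  have hvU : ∀ x : LinearMap.ker L, ∀ i, B (x : Fin n → F) (v i) = 0 := by
    intro x i
    rw [← LinearMap.isSymm_def.mp hS (v i) x, hUv, map_zero]
  have key : ∀ x : LinearMap.ker L, (∀ y : LinearMap.ker L, B (x : Fin n → F) (y : Fin n → F) = 0) → x = 0 := by
    intro x hx
    apply Subtype.ext
    apply hnd.1
    intro z
    have hmem' : z - ∑ j, (B (v j) z) • v j ∈ LinearMap.ker L := by
      rw [LinearMap.mem_ker]
      funext i
      rw [hLap]
      simp only [map_sub, map_sum, map_smul, hvv, smul_eq_mul, mul_ite, mul_one, mul_zero, Finset.sum_ite_eq',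
        Finset.mem_univ, if_true, sub_self, Pi.zero_apply]
    have h1 := hx ⟨_, hmem'⟩
    simp only [map_sub, map_sum, map_smul, hvU x, smul_eq_mul, mul_zero, Finset.sum_const_zero, sub_zero] at h1
    exact h1
  have hndU : (B.domRestrict₁₂ (LinearMap.ker L) (LinearMap.ker L)).Nondegenerate := by
    constructor
    · intro x hx
      exact key x hx
    · intro y hy
      apply key y
      intro x
      have h1 : B (x : Fin n → F) (y : Fin n → F) = 0 := hy x
      rw [← LinearMap.isSymm_def.mp hS (x : Fin n → F) (y : Fin n → F), h1, map_zero]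
  rw [← cnt_abs77 hF (B.domRestrict₁₂ (LinearMap.ker L) (LinearMap.ker L)) (hS.domRestrict _) hndU (n - k) hfr]
  apply Nat.card_congr
  exact
    { toFun := fun w => ⟨⟨w.1, (hmem w.1).mpr w.2.1⟩, w.2.2⟩
      invFun := fun u => ⟨u.1.1, (hmem u.1.1).mp u.1.2, u.2⟩
      left_inv := fun w => rfl
      right_inv := fun u => rfl }

def stepE77 {F : Type*} (n k : ℕ) : (Fin (k+1) → Fin n → F) ≃ (Fin k → Fin n → F) × (Fin n → F) where
  toFun v := (Fin.tail v, v 0)
  invFun x := (Fin.cons x.2 x.1 : Fin (k+1) → Fin n → F)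
  left_inv v := Fin.cons_self_tail _
  right_inv x := by simp

theorem step_iff77 {F : Type*} [Field F] [Fintype F] {q : ℕ} (hF : Fintype.card F = q ^ 2) (n k : ℕ)
    (v : Fin (k+1) → Fin n → F) :
    ON77 n q (k+1) v ↔ (ON77 n q k (stepE77 n k v).1 ∧
      ((∀ i, hermForm n F q (stepE77 n k v).2 ((stepE77 n k v).1 i) = 0) ∧ hermForm n F q (stepE77 n k v).2 (stepE77 n k v).2 = 1)) := by
  have h2 := herm_two_le hF
  constructor
  · intro h
    refine ⟨fun i j => ?_, fun i => ?_, ?_⟩
    · have := h i.succ j.succ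
      simp only [Fin.succ_inj] at this
      exact this
    · show hermForm n F q (v 0) (v i.succ) = 0
      rw [h 0 i.succ, if_neg (Fin.succ_ne_zero i).symm]
    · show hermForm n F q (v 0) (v 0) = 1
      rw [h 0 0, if_pos rfl]
  · rintro ⟨h1, h2', h3⟩
    have h1' : ∀ i j : Fin k, hermForm n F q (v i.succ) (v j.succ) = if i = j then 1 else 0 := h1
    have h2'' : ∀ i : Fin k, hermForm n F q (v 0) (v i.succ) = 0 := h2'
    have h3' : hermForm n F q (v 0) (v 0) = 1 := h3
    intro i j
    cases i using Fin.cases with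
    | zero =>
      cases j using Fin.cases with
      | zero => rw [if_pos rfl]; exact h3'
      | succ j => rw [if_neg (Fin.succ_ne_zero j).symm]; exact h2'' j
    | succ i =>
      cases j using Fin.cases with
      | zero => rw [if_neg (Fin.succ_ne_zero i), herm_swap77 hF, h2'' i, zero_pow (by omega)]
      | succ j => rw [h1' i j]; simp only [Fin.succ_inj]

noncomputable def cN77 (F : Type*) [Field F] (q d : ℕ) : ℕ := Nat.card {x : Fin d → F // hermForm d F q x x = 1}

theorem frame_count77 {F : Type*} [Field F] [Fintype F] {q : ℕ} (hF : Fintype.card F = q ^ 2) (n : ℕ) : ∀ k, k ≤ n →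
    Nat.card {v : Fin k → Fin n → F // ON77 n q k v} = ∏ j ∈ Finset.range k, cN77 F q (n - j) := by
  intro k
  induction k with
  | zero =>
    intro _
    rw [Finset.prod_range_zero, Nat.card_eq_one_iff_unique]
    exact ⟨inferInstance, ⟨⟨fun i => i.elim0, fun i => i.elim0⟩⟩⟩
  | succ k ih =>
    intro hk
    rw [Finset.prod_range_succ, ← ih (by omega)]
    rw [Nat.card_congr (Equiv.subtypeEquiv (p := fun v => ON77 n q (k+1) v)
      (q := fun x : (Fin k → Fin n → F) × (Fin n → F) =>
        ON77 n q k x.1 ∧ ((∀ i, hermForm n F q x.2 (x.1 i) = 0) ∧ hermForm n F q x.2 x.2 = 1))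
      (stepE77 n k) (step_iff77 hF n k))]
    have hkn : k ≤ n := by omega
    have hcs := Cfsg.Agent.S0245.card_sigma45 (A := Fin k → Fin n → F) (B := Fin n → F) (fun a => ON77 n q k a)
      (fun a w => (∀ i, hermForm n F q w (a i) = 0) ∧ hermForm n F q w w = 1)
      (cN77 F q (n - k))
      (fun a ha => ext_count77 hF n k hkn a ha)
    exact hcs

theorem on_pres77 {F : Type*} [Field F] [Fintype F] {q : ℕ} (hF : Fintype.card F = q ^ 2) (n : ℕ)
    (A : Matrix (Fin n) (Fin n) F) (hA : ON77 n q n (fun i a => A a i)) (u w : Fin n → F) :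
    hermForm n F q (A *ᵥ u) (A *ᵥ w) = hermForm n F q u w := by
  classical
  have hmv : ∀ u : Fin n → F, A *ᵥ u = ∑ i, u i • (fun a => A a i) := by
    intro u; funext a
    simp [Matrix.mulVec, dotProduct, Finset.sum_apply, mul_comm]
  have hc : ∀ j i, hB77 hF n (fun a => A a j) (fun a => A a i) = if i = j then 1 else 0 := fun j i => hA i j
  show hB77 hF n (A *ᵥ w) (A *ᵥ u) = hermForm n F q u w
  rw [hmv u, hmv w]
  simp only [map_sum, LinearMap.sum_apply, LinearMap.map_smulₛₗ, LinearMap.smul_apply, map_smul, smul_eq_mul, hc,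
    mul_ite, mul_one, mul_zero, Finset.sum_ite_eq', Finset.sum_ite_eq, Finset.mem_univ, if_true]
  unfold hermForm
  apply Finset.sum_congr rfl; intro i _
  show u i * w i ^ q = u i * w i ^ q
  rfl

theorem gu_mem77 {F : Type*} [Field F] [Fintype F] {q : ℕ} (hF : Fintype.card F = q ^ 2) (n : ℕ)
    (g : Matrix.GeneralLinearGroup (Fin n) F) :
    g ∈ GU n F q ↔ ON77 n q n (fun i a => (g : Matrix (Fin n) (Fin n) F) a i) := by
  classical
  have h2 := herm_two_le hF
  constructor
  · intro hg i j
    have h1 : hermForm n F q ((g : Matrix (Fin n) (Fin n) F) *ᵥ Pi.single i 1) ((g : Matrix (Fin n) (Fin n) F) *ᵥ Pi.single j 1) =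
        hermForm n F q (Pi.single i 1) (Pi.single j 1) := hg _ _
    rw [Matrix.mulVec_single_one, Matrix.mulVec_single_one] at h1
    refine h1.trans ?_
    unfold hermForm
    rw [Finset.sum_eq_single i (fun a _ ha => by rw [Pi.single_eq_of_ne ha, zero_mul])
      (fun h => absurd (Finset.mem_univ i) h), Pi.single_eq_same, one_mul]
    by_cases hij : i = j
    · subst hij; rw [Pi.single_eq_same, one_pow, if_pos rfl]
    · rw [Pi.single_eq_of_ne hij, zero_pow (by omega), if_neg hij]
  · intro h u w
    exact on_pres77 hF n _ h u w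

theorem gu_card77 {F : Type*} [Field F] [Fintype F] {q : ℕ} (hF : Fintype.card F = q ^ 2) (n : ℕ) :
    Nat.card (GU n F q) = Nat.card {v : Fin n → Fin n → F // ON77 n q n v} := by
  classical
  apply Nat.card_congr
  refine Equiv.ofBijective (fun g => ⟨fun i a => (g.1 : Matrix (Fin n) (Fin n) F) a i, (gu_mem77 hF n g.1).mp g.2⟩) ⟨?_, ?_⟩
  · intro g g' h
    apply Subtype.ext; apply Units.ext
    ext a i
    exact congrFun (congrFun (congrArg Subtype.val h) i) a
  · rintro ⟨v, hv⟩
    have hinj : Function.Injective (Matrix.mulVec (Matrix.of (fun a i => v i a) : Matrix (Fin n) (Fin n) F)) := by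
      intro u u' huu
      have h0 : (Matrix.of (fun a i => v i a) : Matrix (Fin n) (Fin n) F) *ᵥ (u - u') = 0 := by
        rw [Matrix.mulVec_sub]; exact sub_eq_zero.mpr huu
      have h1 : u - u' = 0 := by
        apply (hB_nd77 hF n).2
        intro w
        show hermForm n F q (u - u') w = 0
        rw [← on_pres77 hF n (Matrix.of (fun a i => v i a)) hv (u - u') w, h0]
        unfold hermForm; simp
      exact sub_eq_zero.mp h1
    have hu : IsUnit (Matrix.of (fun a i => v i a) : Matrix (Fin n) (Fin n) F) := Matrix.mulVec_injective_iff_isUnit.mp hinj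
    refine ⟨⟨hu.unit, (gu_mem77 hF n hu.unit).mpr (by rw [IsUnit.unit_spec]; exact hv)⟩, ?_⟩
    apply Subtype.ext
    funext i a
    show (hu.unit : Matrix (Fin n) (Fin n) F) a i = v i a
    rw [IsUnit.unit_spec]; rfl

theorem gu_card_main77 {F : Type*} [Field F] [Fintype F] {q : ℕ} (hF : Fintype.card F = q ^ 2) (n : ℕ) : Nat.card (Cfsg.GU n F q) = q ^ (n * (n - 1) / 2) * ∏ i ∈ Finset.range n, (if Even i then q ^ (i + 1) + 1 else q ^ (i + 1) - 1) := by
  classical
  rw [gu_card77 hF n, frame_count77 hF n n le_rfl]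
  have h1 : ∀ j ∈ Finset.range n, cN77 F q (n - j) =
      (fun i => q ^ i * (if Even i then q ^ (i + 1) + 1 else q ^ (i + 1) - 1)) (n - 1 - j) := by
    intro j hj
    rw [Finset.mem_range] at hj
    show _ = q ^ (n - 1 - j) * (if Even (n - 1 - j) then q ^ (n - 1 - j + 1) + 1 else q ^ (n - 1 - j + 1) - 1)
    have h3 : cN77 F q (n - j) = _ := Cfsg.Agent.S0284.result hF (n - j)
    rw [h3, show n - j = (n - 1 - j) + 1 by omega]
    by_cases he : Even (n - 1 - j)
    · rw [if_neg (by rw [Nat.even_add_one]; exact not_not.mpr he), if_pos he, Nat.add_sub_cancel]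
    · rw [if_pos (by rw [Nat.even_add_one]; exact he), if_neg he, Nat.add_sub_cancel]
  have h2 := Finset.prod_range_reflect (fun i => q ^ i * (if Even i then q ^ (i + 1) + 1 else q ^ (i + 1) - 1)) n
  rw [Finset.prod_congr rfl h1, h2, Finset.prod_mul_distrib, Finset.prod_pow_eq_pow_sum, Finset.sum_range_id]

/-- Order of the general unitary group: |GU_n(q)| = q^(n(n-1)/2) * prod_{i=1}^{n} (q^i - (-1)^i). -/
theorem result {F : Type*} [Field F] [Fintype F] {q : ℕ} (hF : Fintype.card F = q ^ 2) (n : ℕ) : Nat.card (Cfsg.GU n F q) = q ^ (n * (n - 1) / 2) * ∏ i ∈ Finset.range n, (if Even i then q ^ (i + 1) + 1 else q ^ (i + 1) - 1) := by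
  exact gu_card_main77 hF n

end Cfsg.Agent.S0277
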