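import Cfsg.Statements.S0278
import Mathlib
import Cfsg.Statements.S0278
import Cfsg.Agent.S0277
import Cfsg.Agent.Lib.Lead.HermCount

set_option autoImplicit false
open Cfsg
open scoped commutatorElement

namespace Cfsg.Agent.S0278

open Matrix Module
open Cfsg.Agent.Lib.Lead Cfsg.Agent.S0277

noncomputable def dGU78 {F : Type*} [Field F] (n q : ℕ) : GU n F q →* Fˣ :=
  Matrix.GeneralLinearGroup.det.comp (GU n F q).subtype

theorem det_pow78 {F : Type*} [Field F] [Fintype F] {q : ℕ} (hF : Fintype.card F = q ^ 2) (n : ℕ)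
    (g : Matrix.GeneralLinearGroup (Fin n) F) (hg : g ∈ GU n F q) :
    (Matrix.GeneralLinearGroup.det g) ^ (q + 1) = 1 := by
  have hON := (gu_mem77 hF n g).mp hg
  have hmat : (g : Matrix (Fin n) (Fin n) F)ᵀ * ((sig77 hF).mapMatrix (g : Matrix (Fin n) (Fin n) F)) = 1 := by
    ext i j
    rw [Matrix.mul_apply, Matrix.one_apply]
    exact hON i j
  have hdet := congrArg Matrix.det hmat
  rw [Matrix.det_mul, Matrix.det_transpose, ← RingHom.map_det, Matrix.det_one] at hdet
  apply Units.ext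
  rw [Units.val_pow_eq_pow_val, Units.val_one, pow_succ']
  exact hdet

theorem det_surj78 {F : Type*} [Field F] [Fintype F] {q : ℕ} (hF : Fintype.card F = q ^ 2) (n : ℕ) (hn : 1 ≤ n)
    (u : Fˣ) (hu : u ^ (q + 1) = 1) : ∃ g : GU n F q, dGU78 n q g = u := by
  classical
  have h2 := herm_two_le hF
  obtain ⟨m, rfl⟩ : ∃ m, n = m + 1 := ⟨n - 1, by omega⟩
  set d : Fin (m+1) → F := Function.update (fun _ => (1:F)) 0 (u : F) with hd
  have hd0 : d 0 = (u : F) := by rw [hd, Function.update_self]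
  have hds : ∀ i : Fin m, d i.succ = 1 := fun i => by rw [hd, Function.update_of_ne (Fin.succ_ne_zero i)]
  have hd1 : ∀ i, d i * d i ^ q = 1 := by
    intro i
    cases i using Fin.cases with
    | zero => rw [hd0, ← pow_succ', ← Units.val_pow_eq_pow_val, hu, Units.val_one]
    | succ i => rw [hds, one_pow, one_mul]
  have hdet : (Matrix.diagonal d).det = (u : F) := by
    rw [Matrix.det_diagonal, Fin.prod_univ_succ, hd0, Finset.prod_congr rfl (fun i _ => hds i), Finset.prod_const_one, mul_one]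
  have hON : ON77 (m+1) q (m+1) (fun i a => Matrix.diagonal d a i) := by
    intro i j
    show ∑ a, Matrix.diagonal d a i * (Matrix.diagonal d a j) ^ q = if i = j then 1 else 0
    by_cases hij : i = j
    · subst hij
      rw [Finset.sum_eq_single i (fun a _ ha => by rw [Matrix.diagonal_apply_ne _ ha, zero_mul])
        (fun h => absurd (Finset.mem_univ i) h), Matrix.diagonal_apply_eq, if_pos rfl]
      exact hd1 i
    · rw [if_neg hij]
      apply Finset.sum_eq_zero
      intro a _
      by_cases hai : a = i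
      · subst hai; rw [Matrix.diagonal_apply_ne _ hij, zero_pow (by omega), mul_zero]
      · rw [Matrix.diagonal_apply_ne _ hai, zero_mul]
  have hunit : IsUnit (Matrix.diagonal d) := by
    rw [Matrix.isUnit_iff_isUnit_det, hdet]; exact u.isUnit
  refine ⟨⟨hunit.unit, (gu_mem77 hF (m+1) hunit.unit).mpr (by rw [IsUnit.unit_spec]; exact hON)⟩, ?_⟩
  apply Units.ext
  show (hunit.unit : Matrix (Fin (m+1)) (Fin (m+1)) F).det = u
  rw [IsUnit.unit_spec, hdet]

noncomputable def suEquiv78 {F : Type*} [Field F] (n q : ℕ) : SU n F q ≃ (dGU78 (F := F) n q).ker where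
  toFun s := ⟨⟨Matrix.SpecialLinearGroup.toGL s.1, s.2⟩, by
    rw [MonoidHom.mem_ker]; exact Matrix.SpecialLinearGroup.coeToGL_det s.1⟩
  invFun g := ⟨⟨(g.1.1 : Matrix (Fin n) (Fin n) F), by
      have h := g.2
      rw [MonoidHom.mem_ker] at h
      exact congrArg Units.val h⟩, g.1.2⟩
  left_inv s := by apply Subtype.ext; apply Subtype.ext; rfl
  right_inv g := by apply Subtype.ext; apply Subtype.ext; apply Units.ext; rfl

theorem su_card78 {F : Type*} [Field F] [Fintype F] {q : ℕ} (hF : Fintype.card F = q ^ 2) (n : ℕ) (hn : 1 ≤ n) :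
    (q + 1) * Nat.card (Cfsg.SU n F q) = Nat.card (Cfsg.GU n F q) := by
  classical
  have h1 : Nat.card (powMonoidHom (q + 1) : Fˣ →* Fˣ).ker = q + 1 := by
    rw [IsCyclic.card_powMonoidHom_ker, herm_card_units hF]
    exact Nat.gcd_eq_right (Dvd.intro_left _ rfl)
  have h2 : (dGU78 (F := F) n q).range = (powMonoidHom (q + 1) : Fˣ →* Fˣ).ker := by
    ext u
    rw [MonoidHom.mem_ker, powMonoidHom_apply]
    constructor
    · rintro ⟨g, rfl⟩
      exact det_pow78 hF n g.1 g.2
    · intro hu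
      obtain ⟨g, hg⟩ := det_surj78 hF n hn u hu
      exact ⟨g, hg⟩
  have h3 := Subgroup.card_mul_index (dGU78 (F := F) n q).ker
  rw [Subgroup.index_ker, h2, h1, ← Nat.card_congr (suEquiv78 n q)] at h3
  rw [← h3, mul_comm]

/-- Order of SU_n(q): (q + 1) |SU_n(q)| = |GU_n(q)| = q^(n(n-1)/2) * prod_{i=1}^{n} (q^i - (-1)^i), n at least 1. -/
theorem result {F : Type*} [Field F] [Fintype F] {q : ℕ} (hF : Fintype.card F = q ^ 2) (n : ℕ) (hn : 1 ≤ n) : (q + 1) * Nat.card (Cfsg.SU n F q) = q ^ (n * (n - 1) / 2) * ∏ i ∈ Finset.range n, (if Even i then q ^ (i + 1) + 1 else q ^ (i + 1) - 1) := by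
  rw [su_card78 hF n hn]
  exact Cfsg.Agent.S0277.gu_card_main77 hF n

end Cfsg.Agent.S0278
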