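import Cfsg.Statements.S0279
import Mathlib
import Cfsg.Statements.S0279
import Cfsg.Agent.S0277
import Cfsg.Agent.S0278
import Cfsg.Agent.Lib.Lead.HermCount

set_option autoImplicit false
open Cfsg
open scoped commutatorElement

namespace Cfsg.Agent.S0279

open Matrix Module
open Cfsg.Agent.Lib.Lead Cfsg.Agent.S0277 Cfsg.Agent.S0278

theorem su_mem79 {F : Type*} [Field F] [Fintype F] {q : ℕ} (hF : Fintype.card F = q ^ 2) (n : ℕ)
    (s : Matrix.SpecialLinearGroup (Fin n) F) :
    s ∈ SU n F q ↔ ON77 n q n (fun i a => (s : Matrix (Fin n) (Fin n) F) a i) :=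
  gu_mem77 hF n (Matrix.SpecialLinearGroup.toGL s)

theorem diag_on79 {F : Type*} [Field F] (n q : ℕ) (hq : q ≠ 0) (d : Fin n → F) (hd : ∀ i, d i * d i ^ q = 1) :
    ON77 n q n (fun i a => Matrix.diagonal d a i) := by
  classical
  intro i j
  show ∑ a, Matrix.diagonal d a i * (Matrix.diagonal d a j) ^ q = if i = j then 1 else 0
  by_cases hij : i = j
  · subst hij
    rw [Finset.sum_eq_single i (fun a _ ha => by rw [Matrix.diagonal_apply_ne _ ha, zero_mul])
      (fun h => absurd (Finset.mem_univ i) h), Matrix.diagonal_apply_eq, if_pos rfl]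
    exact hd i
  · rw [if_neg hij]
    apply Finset.sum_eq_zero
    intro a _
    by_cases hai : a = i
    · subst hai; rw [Matrix.diagonal_apply_ne _ hij, zero_pow hq, mul_zero]
    · rw [Matrix.diagonal_apply_ne _ hai, zero_mul]

theorem perm_on79 {F : Type*} [Field F] (n q : ℕ) (hq : q ≠ 0) (σ : Equiv.Perm (Fin n)) :
    ON77 n q n (fun i a => (σ.permMatrix F) a i) := by
  classical
  intro i j
  show ∑ a, (σ.permMatrix F) a i * ((σ.permMatrix F) a j) ^ q = if i = j then 1 else 0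
  have hap : ∀ a k, (σ.permMatrix F) a k = if σ a = k then 1 else 0 := by
    intro a k; simp [Equiv.Perm.permMatrix, PEquiv.toMatrix_apply, Equiv.toPEquiv_apply]
  simp only [hap]
  rw [Finset.sum_eq_single (σ.symm i)]
  · rw [Equiv.apply_symm_apply, if_pos rfl, one_mul]
    by_cases hij : i = j
    · rw [if_pos hij, one_pow]
    · rw [if_neg hij, zero_pow hq]
  · intro a _ ha
    rw [if_neg (fun h => ha (by rw [← h, Equiv.symm_apply_apply])), zero_mul]
  · intro h; exact absurd (Finset.mem_univ _) h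

def dvec79 {F : Type*} [Field F] (n : ℕ) (a b : Fin n) (μ : F) : Fin n → F :=
  fun i => if i = a then μ else if i = b then μ⁻¹ else 1

theorem dmat_det79 {F : Type*} [Field F] (n : ℕ) (a b : Fin n) (hab : a ≠ b) (μ : F) (hμ : μ ≠ 0) :
    (Matrix.diagonal (dvec79 n a b μ)).det = 1 := by
  rw [Matrix.det_diagonal, Fintype.prod_eq_mul a b hab (fun x hx => by simp [dvec79, hx.1, hx.2])]
  simp [dvec79, hab.symm, mul_inv_cancel₀ hμ]

theorem dvec_norm79 {F : Type*} [Field F] (n q : ℕ) (a b : Fin n) (μ : F) (hμ : μ * μ ^ q = 1) (i : Fin n) :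
    dvec79 n a b μ i * dvec79 n a b μ i ^ q = 1 := by
  unfold dvec79
  split_ifs
  · exact hμ
  · rw [inv_pow, ← mul_inv, hμ, inv_one]
  · rw [one_pow, one_mul]

def pm79 {F : Type*} [Field F] (n : ℕ) (a b : Fin n) : Matrix (Fin n) (Fin n) F :=
  Matrix.diagonal (Function.update (fun _ => (1 : F)) a (-1)) * (Equiv.swap a b).permMatrix F

theorem pm_det79 {F : Type*} [Field F] (n : ℕ) (a b : Fin n) (hab : a ≠ b) : (pm79 (F := F) n a b).det = 1 := by
  unfold pm79
  rw [Matrix.det_mul, Matrix.det_diagonal, Matrix.det_permutation, Equiv.Perm.sign_swap hab,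
    Fintype.prod_eq_single a (fun x hx => by rw [Function.update_of_ne hx]), Function.update_self]
  simp

theorem pm_entry79 {F : Type*} [Field F] (n : ℕ) (a b : Fin n) (hab : a ≠ b) : pm79 (F := F) n a b b a = 1 := by
  unfold pm79
  rw [Matrix.diagonal_mul, Function.update_of_ne hab.symm, one_mul]
  simp [Equiv.Perm.permMatrix, PEquiv.toMatrix_apply, Equiv.toPEquiv_apply]

theorem pm_mem79 {F : Type*} [Field F] [Fintype F] {q : ℕ} (hF : Fintype.card F = q ^ 2) (n : ℕ) (a b : Fin n)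
    (hab : a ≠ b) : (⟨pm79 n a b, pm_det79 n a b hab⟩ : Matrix.SpecialLinearGroup (Fin n) F) ∈ SU n F q := by
  classical
  have h2 := herm_two_le hF
  intro u v
  show hermForm n F q (pm79 n a b *ᵥ u) (pm79 n a b *ᵥ v) = hermForm n F q u v
  unfold pm79
  rw [← Matrix.mulVec_mulVec, ← Matrix.mulVec_mulVec]
  rw [on_pres77 hF n _ (diag_on79 n q (by omega) _ (fun i => by
    by_cases hi : i = a
    · subst hi; rw [Function.update_self, herm_pow_neg hF, one_pow]; ring
    · rw [Function.update_of_ne hi, one_pow, one_mul]))]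
  exact on_pres77 hF n _ (perm_on79 n q (by omega) _) u v

theorem exists_mu79 {F : Type*} [Field F] [Fintype F] {q : ℕ} (hF : Fintype.card F = q ^ 2) :
    ∃ μ : F, μ * μ ^ q = 1 ∧ μ⁻¹ ≠ μ := by
  classical
  have h2 := herm_two_le hF
  have h1 : Nat.card (powMonoidHom (q + 1) : Fˣ →* Fˣ).ker = q + 1 := by
    rw [IsCyclic.card_powMonoidHom_ker, herm_card_units hF]
    exact Nat.gcd_eq_right (Dvd.intro_left _ rfl)
  have h3 : Nat.card (powMonoidHom 2 : Fˣ →* Fˣ).ker ≤ 2 := by
    rw [IsCyclic.card_powMonoidHom_ker]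
    exact Nat.le_of_dvd (by norm_num) (Nat.gcd_dvd_right _ _)
  by_contra hcon
  push Not at hcon
  have hle : (powMonoidHom (q + 1) : Fˣ →* Fˣ).ker ≤ (powMonoidHom 2 : Fˣ →* Fˣ).ker := by
    intro u hu
    rw [MonoidHom.mem_ker, powMonoidHom_apply] at hu ⊢
    have hu' : (u : F) * (u : F) ^ q = 1 := by
      rw [← pow_succ', ← Units.val_pow_eq_pow_val, hu, Units.val_one]
    have h4 := hcon (u : F) hu'
    apply Units.ext
    rw [Units.val_pow_eq_pow_val, Units.val_one, pow_two]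
    have hu0 : (u : F) ≠ 0 := u.ne_zero
    calc (u : F) * u = (u : F) * (u : F)⁻¹ := by rw [h4]
      _ = 1 := mul_inv_cancel₀ hu0
  have h5 := Subgroup.card_le_of_le hle
  omega

theorem scalar_of_comm79 {F : Type*} [Field F] [Fintype F] {q : ℕ} (hF : Fintype.card F = q ^ 2) (n : ℕ)
    (z : Matrix (Fin n) (Fin n) F)
    (hz : ∀ s : Matrix.SpecialLinearGroup (Fin n) F, s ∈ SU n F q → z * s.1 = s.1 * z) (i0 : Fin n) :
    z = Matrix.diagonal (fun _ => z i0 i0) := by
  classical
  have h2 := herm_two_le hF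
  obtain ⟨μ, hμ1, hμ2⟩ := exists_mu79 hF
  have hμ0 : μ ≠ 0 := by rintro rfl; rw [zero_mul] at hμ1; exact zero_ne_one hμ1
  have hoff : ∀ x y, x ≠ y → z x y = 0 := by
    intro x y hxy
    have hd := hz ⟨Matrix.diagonal (dvec79 n x y μ), dmat_det79 n x y hxy μ hμ0⟩
      ((su_mem79 hF n _).mpr (diag_on79 n q (by omega) _ (dvec_norm79 n q x y μ hμ1)))
    have h3 := congrFun (congrFun hd x) y
    rw [Matrix.mul_diagonal, Matrix.diagonal_mul] at h3
    have hdx : dvec79 n x y μ x = μ := by simp [dvec79]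
    have hdy : dvec79 n x y μ y = μ⁻¹ := by simp [dvec79, hxy.symm]
    rw [hdx, hdy] at h3
    have h4 : z x y * (μ⁻¹ - μ) = 0 := by linear_combination h3
    rcases mul_eq_zero.mp h4 with h | h
    · exact h
    · exact absurd (sub_eq_zero.mp h) hμ2
  have hdiag : ∀ a b, a ≠ b → z b b = z a a := by
    intro a b hab
    have hp := hz ⟨pm79 n a b, pm_det79 n a b hab⟩ (pm_mem79 hF n a b hab)
    have h3 := congrFun (congrFun hp b) a
    rw [Matrix.mul_apply, Matrix.mul_apply,
      Finset.sum_eq_single b (fun k _ hk => by rw [hoff b k (Ne.symm hk), zero_mul]) (fun h => absurd (Finset.mem_univ b) h),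
      Finset.sum_eq_single a (fun k _ hk => by rw [hoff k a hk, mul_zero]) (fun h => absurd (Finset.mem_univ a) h)] at h3
    have h4 : pm79 (F := F) n a b b a = 1 := pm_entry79 n a b hab
    rw [show (⟨pm79 n a b, pm_det79 n a b hab⟩ : Matrix.SpecialLinearGroup (Fin n) F).1 b a = 1 from h4, mul_one, one_mul] at h3
    exact h3
  ext x y
  by_cases hxy : x = y
  · subst hxy
    rw [Matrix.diagonal_apply_eq]
    by_cases hx : x = i0
    · rw [hx]
    · exact hdiag i0 x (Ne.symm hx)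
  · rw [Matrix.diagonal_apply_ne _ hxy]; exact hoff x y hxy

theorem scal_det79 {F : Type*} [Field F] (n : ℕ) (u : Fˣ) (hu : u ^ n = 1) :
    (Matrix.diagonal (fun _ : Fin n => (u : F))).det = 1 := by
  rw [Matrix.det_diagonal, Finset.prod_const, Finset.card_univ, Fintype.card_fin, ← Units.val_pow_eq_pow_val, hu,
    Units.val_one]

theorem scal_mem79 {F : Type*} [Field F] [Fintype F] {q : ℕ} (hF : Fintype.card F = q ^ 2) (n : ℕ) (u : Fˣ)
    (hu : u ^ n = 1) (hu' : u ^ (q + 1) = 1) :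
    (⟨Matrix.diagonal (fun _ : Fin n => (u : F)), scal_det79 n u hu⟩ : Matrix.SpecialLinearGroup (Fin n) F) ∈ SU n F q := by
  have h2 := herm_two_le hF
  exact (su_mem79 hF n _).mpr (diag_on79 n q (by omega) _ (fun i => by
    rw [← pow_succ', ← Units.val_pow_eq_pow_val, hu', Units.val_one]))

theorem center_card79 {F : Type*} [Field F] [Fintype F] {q : ℕ} (hF : Fintype.card F = q ^ 2) (n : ℕ) (hn : 1 ≤ n) :
    Nat.card (Subgroup.center (Cfsg.SU n F q)) = Nat.gcd n (q + 1) := by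
  classical
  have h2 := herm_two_le hF
  have hcount : Nat.card {u : Fˣ // u ^ n = 1 ∧ u ^ (q + 1) = 1} = Nat.gcd n (q + 1) := by
    have h1 : Nat.card (powMonoidHom (Nat.gcd n (q + 1)) : Fˣ →* Fˣ).ker = Nat.gcd n (q + 1) := by
      rw [IsCyclic.card_powMonoidHom_ker, herm_card_units hF]
      exact Nat.gcd_eq_right ((Nat.gcd_dvd_right n (q+1)).trans (Dvd.intro_left _ rfl))
    rw [← h1]
    apply Nat.card_congr
    apply Equiv.subtypeEquivRight
    intro u
    rw [MonoidHom.mem_ker, powMonoidHom_apply]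
    exact pow_gcd_eq_one.symm
  rw [← hcount]
  symm
  apply Nat.card_congr
  have hcen : ∀ u : {u : Fˣ // u ^ n = 1 ∧ u ^ (q + 1) = 1},
      (⟨⟨Matrix.diagonal (fun _ : Fin n => (u.1 : F)), scal_det79 n u.1 u.2.1⟩, scal_mem79 hF n u.1 u.2.1 u.2.2⟩ : SU n F q) ∈
        Subgroup.center (SU n F q) := by
    intro u
    rw [Subgroup.mem_center_iff]
    intro g
    apply Subtype.ext; apply Subtype.ext
    show (g.1.1 : Matrix (Fin n) (Fin n) F) * Matrix.diagonal (fun _ : Fin n => (u.1 : F)) =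
      Matrix.diagonal (fun _ : Fin n => (u.1 : F)) * (g.1.1 : Matrix (Fin n) (Fin n) F)
    ext i j
    rw [Matrix.mul_diagonal, Matrix.diagonal_mul, mul_comm]
  refine Equiv.ofBijective (fun u => ⟨_, hcen u⟩) ⟨?_, ?_⟩
  · intro u u' h
    have h1 : Matrix.diagonal (fun _ : Fin n => (u.1 : F)) = Matrix.diagonal (fun _ : Fin n => (u'.1 : F)) :=
      congrArg (fun t : Subgroup.center (SU n F q) => (t.1.1.1 : Matrix (Fin n) (Fin n) F)) h
    have h3 := congrFun (congrFun h1 ⟨0, hn⟩) ⟨0, hn⟩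
    rw [Matrix.diagonal_apply_eq, Matrix.diagonal_apply_eq] at h3
    exact Subtype.ext (Units.ext h3)
  · intro z
    have hzc : ∀ s : Matrix.SpecialLinearGroup (Fin n) F, s ∈ SU n F q →
        (z.1.1.1 : Matrix (Fin n) (Fin n) F) * s.1 = s.1 * z.1.1.1 := by
      intro s hs
      have h1 := Subgroup.mem_center_iff.mp z.2 ⟨s, hs⟩
      exact (congrArg (fun t : SU n F q => (t.1.1 : Matrix (Fin n) (Fin n) F)) h1).symm
    have hsc := scalar_of_comm79 hF n _ hzc ⟨0, hn⟩
    set l : F := (z.1.1.1 : Matrix (Fin n) (Fin n) F) ⟨0, hn⟩ ⟨0, hn⟩ with hl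
    have hdet : (z.1.1.1 : Matrix (Fin n) (Fin n) F).det = 1 := z.1.1.2
    rw [hsc, Matrix.det_diagonal, Finset.prod_const, Finset.card_univ, Fintype.card_fin] at hdet
    have hl0 : l ≠ 0 := by
      intro h0; rw [h0, zero_pow (by omega)] at hdet; exact zero_ne_one hdet
    have hON := (su_mem79 hF n z.1.1).mp z.1.2 ⟨0, hn⟩ ⟨0, hn⟩
    rw [if_pos rfl] at hON
    have hnorm : l * l ^ q = 1 := by
      have h5 : ∑ a, (z.1.1.1 : Matrix (Fin n) (Fin n) F) a ⟨0, hn⟩ *
          ((z.1.1.1 : Matrix (Fin n) (Fin n) F) a ⟨0, hn⟩) ^ q = 1 := hON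
      rw [hsc] at h5
      rw [Finset.sum_eq_single (⟨0, hn⟩ : Fin n) (fun a _ ha => by rw [Matrix.diagonal_apply_ne _ ha, zero_mul])
        (fun h => absurd (Finset.mem_univ _) h), Matrix.diagonal_apply_eq] at h5
      exact h5
    have hu1 : (Units.mk0 l hl0) ^ n = 1 := by
      apply Units.ext; rw [Units.val_pow_eq_pow_val, Units.val_mk0, Units.val_one]; exact hdet
    have hu2 : (Units.mk0 l hl0) ^ (q + 1) = 1 := by
      apply Units.ext; rw [Units.val_pow_eq_pow_val, Units.val_mk0, Units.val_one, pow_succ']; exact hnorm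
    refine ⟨⟨Units.mk0 l hl0, hu1, hu2⟩, ?_⟩
    apply Subtype.ext; apply Subtype.ext; apply Subtype.ext
    exact hsc.symm

/-- The centre of SU_n(q), n at least 3, has order gcd(n, q+1). -/
theorem result {F : Type*} [Field F] [Fintype F] {q : ℕ} (hF : Fintype.card F = q ^ 2) (n : ℕ) (hn : 3 ≤ n) : Nat.card (Subgroup.center (Cfsg.SU n F q)) = Nat.gcd n (q + 1) := by
  exact center_card79 hF n (by omega)

end Cfsg.Agent.S0279
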