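import Cfsg.Statements.S0282
import Mathlib
import Cfsg.Statements.S0282
import Cfsg.Agent.S0280
import Cfsg.Agent.Lib.Lead.Char8

set_option autoImplicit false
open Cfsg
open scoped commutatorElement

namespace Cfsg.Agent.S0282

/-- PSU_3(2) is a solvable group of order 72. -/
theorem result {F : Type*} [Field F] [Fintype F] (hF : Fintype.card F = 4) : Nat.card (Cfsg.PSU 3 F 2) = 72 ∧ Group.IsSolvable (Cfsg.PSU 3 F 2) := by
  classical
  have h1 := Cfsg.Agent.S0280.result (F := F) (q := 2) (by rw [hF]; norm_num) 3 (by norm_num)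
  have h2 : Nat.card (Cfsg.PSU 3 F 2) = 72 := by
    have e0 : Even 0 := by decide
    have e1 : ¬ Even 1 := by decide
    have e2 : Even 2 := by decide
    rw [Finset.prod_range_succ, Finset.prod_range_succ, Finset.prod_range_succ, Finset.prod_range_zero, if_pos e0,
      if_neg e1, if_pos e2] at h1
    norm_num at h1
    rw [Nat.card_eq_fintype_card]
    omega
  refine ⟨h2, ?_⟩
  have : Finite (Cfsg.PSU 3 F 2) := Nat.finite_of_card_ne_zero (by rw [h2]; norm_num)
  exact Cfsg.Agent.Lib.Lead.burnside_paqb 2 3 3 2 Nat.prime_two Nat.prime_three (by rw [h2]; norm_num)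

end Cfsg.Agent.S0282
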