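import Cfsg.Statements.S0289
import Mathlib
import Cfsg.Agent.Lib.Lead.FormCount
-- import your own Cfsg.Agent.* helpers here

set_option autoImplicit false
open Cfsg

namespace Cfsg.Agent.S0289

/-- The hyperbolic quadratic form on F^(2m), m at least 1, has q^(2m-1) + q^m - q^(m-1) zeros (that is, (q^m - 1)(q^(m-1) + 1) non-zero isotropic vectors). -/
theorem result {F : Type*} [Field F] [Fintype F] {q : ℕ} (hF : Fintype.card F = q) (m : ℕ) (hm : 1 ≤ m) : Nat.card {v : Fin m ⊕ Fin m → F // Cfsg.quadFormPlus m F v = 0} = q ^ (2 * m - 1) + q ^ m - q ^ (m - 1) := by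
  classical
  subst hF
  have hq : 1 ≤ Fintype.card F := Fintype.card_pos
  have hN := Cfsg.Agent.Lib.Lead.card_aux_form (F := F) m (T := Unit) (fun _ => (0 : F)) ()
    (fun t => by simp)
  have e : {v : Fin m ⊕ Fin m → F // Cfsg.quadFormPlus m F v = 0} ≃
      {p : Unit × ((Fin m → F) × (Fin m → F)) // (fun _ => (0 : F)) p.1 + ∑ i, p.2.1 i * p.2.2 i = 0} :=
    { toFun := fun v => ⟨((), (fun i => v.1 (Sum.inl i), fun i => v.1 (Sum.inr i))), by
        have := v.2
        simpa [Cfsg.quadFormPlus] using this⟩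
      invFun := fun p => ⟨Sum.elim p.1.2.1 p.1.2.2, by
        have := p.2
        simpa [Cfsg.quadFormPlus] using this⟩
      left_inv := fun v => by
        apply Subtype.ext
        funext x
        cases x <;> rfl
      right_inv := fun p => by
        apply Subtype.ext
        rfl }
  rw [Nat.card_congr e]
  obtain ⟨k, rfl⟩ : ∃ k, m = k + 1 := ⟨m - 1, by omega⟩
  apply Nat.eq_of_mul_eq_mul_right hq
  rw [hN]
  have e0 : 2 * (k + 1) - 1 = 2 * k + 1 := by omega
  have e0' : k + 1 - 1 = k := by omega
  have e1 : Fintype.card F ^ (2 * k + 1) = Fintype.card F ^ k * Fintype.card F ^ k * Fintype.card F := by ring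
  have e2 : Fintype.card F ^ (k + 1) = Fintype.card F ^ k * Fintype.card F := by ring
  have e3 : Fintype.card F ^ (k + 1 + 1) = Fintype.card F ^ k * Fintype.card F * Fintype.card F := by ring
  have ha : 1 ≤ Fintype.card F ^ k := Nat.one_le_pow _ _ hq
  rw [e0, e0', e1, e2, e3, Fintype.card_unit]
  generalize Fintype.card F ^ k = a at *
  generalize Fintype.card F = q at *
  have h1 : a ≤ a * a * q + a * q := by nlinarith
  have h2 : 1 ≤ a * q := by nlinarith
  zify [h1, h2]
  ring

end Cfsg.Agent.S0289
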