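import Cfsg.Statements.S0290
import Mathlib
import Cfsg.Agent.Lib.Lead.FormCount
-- import your own Cfsg.Agent.* helpers here

set_option autoImplicit false
open Cfsg

namespace Cfsg.Agent.S0290

/-- The minus-type quadratic form on F^(2m), m at least 1, has q^(2m-1) + q^(m-1) - q^m zeros (that is, (q^m + 1)(q^(m-1) - 1) non-zero isotropic vectors). -/
theorem result {F : Type*} [Field F] [Fintype F] {q : ℕ} (hF : Fintype.card F = q) (m : ℕ) (hm : 1 ≤ m) (a b : F) (hab : ∀ z₁ z₂ : F, z₁ ^ 2 + a * z₁ * z₂ + b * z₂ ^ 2 = 0 → z₁ = 0 ∧ z₂ = 0) : Nat.card {v : (Fin (m - 1) ⊕ Fin (m - 1)) ⊕ Fin 2 → F // Cfsg.quadFormMinus (m - 1) F a b v = 0} = q ^ (2 * m - 1) + q ^ (m - 1) - q ^ m := by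
  classical
  subst hF
  have hq : 1 ≤ Fintype.card F := Fintype.card_pos
  have hg0 : ∀ z : Fin 2 → F, z 0 ^ 2 + a * z 0 * z 1 + b * z 1 ^ 2 = 0 ↔ z = 0 := by
    intro z
    constructor
    · intro h
      obtain ⟨h1, h2⟩ := hab _ _ h
      funext i
      fin_cases i
      · exact h1
      · exact h2
    · intro h
      subst h
      simp
  have hN := Cfsg.Agent.Lib.Lead.card_aux_form (F := F) (m - 1) (T := Fin 2 → F)
    (fun z => z 0 ^ 2 + a * z 0 * z 1 + b * z 1 ^ 2) 0 hg0
  have e : {v : (Fin (m - 1) ⊕ Fin (m - 1)) ⊕ Fin 2 → F // Cfsg.quadFormMinus (m - 1) F a b v = 0} ≃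
      {p : (Fin 2 → F) × ((Fin (m - 1) → F) × (Fin (m - 1) → F)) //
        (fun z : Fin 2 → F => z 0 ^ 2 + a * z 0 * z 1 + b * z 1 ^ 2) p.1 +
          ∑ i, p.2.1 i * p.2.2 i = 0} :=
    { toFun := fun v => ⟨(fun j => v.1 (Sum.inr j), (fun i => v.1 (Sum.inl (Sum.inl i)),
          fun i => v.1 (Sum.inl (Sum.inr i)))), by
        have := v.2
        rw [Cfsg.quadFormMinus] at this
        rw [add_comm]
        exact this⟩
      invFun := fun p => ⟨Sum.elim (Sum.elim p.1.2.1 p.1.2.2) p.1.1, by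
        have := p.2
        rw [Cfsg.quadFormMinus]
        rw [add_comm] at this
        exact this⟩
      left_inv := fun v => by
        apply Subtype.ext
        funext x
        rcases x with (x | x) | x <;> rfl
      right_inv := fun p => by
        apply Subtype.ext
        rfl }
  rw [Nat.card_congr e]
  obtain ⟨k, rfl⟩ : ∃ k, m = k + 1 := ⟨m - 1, by omega⟩
  apply Nat.eq_of_mul_eq_mul_right hq
  rw [hN]
  have e0 : 2 * (k + 1) - 1 = 2 * k + 1 := by omega
  have e0' : k + 1 - 1 = k := by omega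
  have e1 : Fintype.card F ^ (2 * k + 1) = Fintype.card F ^ k * Fintype.card F ^ k * Fintype.card F := by ring
  have e2 : Fintype.card F ^ (k + 1) = Fintype.card F ^ k * Fintype.card F := by ring
  have ha : 1 ≤ Fintype.card F ^ k := Nat.one_le_pow _ _ hq
  rw [e0, e0', e1, e2, Fintype.card_fun, Fintype.card_fin]
  generalize Fintype.card F ^ k = c at *
  generalize Fintype.card F = q at *
  have h1 : c * q ≤ c * c * q + c := by
    calc c * q = 1 * (c * q) := (one_mul _).symm
      _ ≤ c * (c * q) := Nat.mul_le_mul_right _ ha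
      _ = c * c * q := by ring
      _ ≤ c * c * q + c := Nat.le_add_right _ _
  zify [h1, ha]
  ring

end Cfsg.Agent.S0290
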