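import Cfsg.Statements.S0291
import Mathlib
import Cfsg.Agent.Lib.Lead.FormCount
-- import your own Cfsg.Agent.* helpers here

set_option autoImplicit false
open Cfsg

namespace Cfsg.Agent.S0291

/-- For q odd, the form x_0^2 + sum_{i<m} x_i y_i on F^(2m+1) has exactly q^(2m) zeros. -/
theorem result {F : Type*} [Field F] [Fintype F] {q : ℕ} (hF : Fintype.card F = q) (hodd : Odd q) (m : ℕ) : Nat.card {v : Unit ⊕ (Fin m ⊕ Fin m) → F // Cfsg.quadFormOdd m F v = 0} = q ^ (2 * m) := by
  classical
  subst hF
  have hq : 1 ≤ Fintype.card F := Fintype.card_pos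
  have hN := Cfsg.Agent.Lib.Lead.card_aux_form (F := F) m (T := F) (fun t => t ^ 2) 0
    (fun t => by simp)
  have e : {v : Unit ⊕ (Fin m ⊕ Fin m) → F // Cfsg.quadFormOdd m F v = 0} ≃
      {p : F × ((Fin m → F) × (Fin m → F)) // (fun t : F => t ^ 2) p.1 + ∑ i, p.2.1 i * p.2.2 i = 0} :=
    { toFun := fun v => ⟨(v.1 (Sum.inl ()), (fun i => v.1 (Sum.inr (Sum.inl i)),
          fun i => v.1 (Sum.inr (Sum.inr i)))), by
        have := v.2
        simpa [Cfsg.quadFormOdd] using this⟩
      invFun := fun p => ⟨Sum.elim (fun _ => p.1.1) (Sum.elim p.1.2.1 p.1.2.2), by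
        have := p.2
        simpa [Cfsg.quadFormOdd] using this⟩
      left_inv := fun v => by
        apply Subtype.ext
        funext x
        rcases x with x | x | x <;> rfl
      right_inv := fun p => by
        apply Subtype.ext
        rfl }
  rw [Nat.card_congr e]
  apply Nat.eq_of_mul_eq_mul_right hq
  rw [hN]
  have e1 : Fintype.card F ^ (2 * m) = Fintype.card F ^ m * Fintype.card F ^ m := by ring
  have e2 : Fintype.card F ^ (m + 1) = Fintype.card F ^ m * Fintype.card F := by ring
  have ha : 1 ≤ Fintype.card F ^ m := Nat.one_le_pow _ _ hq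
  rw [e1, e2]
  generalize Fintype.card F ^ m = a at *
  generalize Fintype.card F = q at *
  zify [ha]
  ring

end Cfsg.Agent.S0291
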