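import Cfsg.Statements.S0307
import Mathlib
-- import your own Cfsg.Agent.* helpers here

set_option autoImplicit false
open Cfsg

namespace Cfsg.Agent.S0307

/-- PSL_n(q) is normal in PGL_n(q) with cyclic quotient of order gcd(n, q-1): the image of the natural map PSL_n → PGL_n is the kernel of a surjective homomorphism onto the cyclic group of that order. -/
theorem result {F : Type*} [Field F] [Fintype F] {q : ℕ} (hF : Fintype.card F = q) (n : ℕ) (hn : 1 ≤ n) : ∃ g : Matrix.ProjGenLinGroup (Fin n) F →* Multiplicative (ZMod (Nat.gcd n (q - 1))), Function.Surjective g ∧ g.ker = (Matrix.ProjectiveSpecialLinearGroup.toPGL : Matrix.ProjectiveSpecialLinearGroup (Fin n) F →* Matrix.ProjGenLinGroup (Fin n) F).range := by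
  classical
  haveI : Nonempty (Fin n) := ⟨⟨0, hn⟩⟩
  have hidx : Nat.card (Fˣ ⧸ (powMonoidHom n : Fˣ →* Fˣ).range) = Nat.gcd n (q - 1) := by
    show (powMonoidHom n : Fˣ →* Fˣ).range.index = _
    rw [IsCyclic.index_powMonoidHom_range, Nat.card_eq_fintype_card, Fintype.card_units, hF,
      Nat.gcd_comm]
  haveI hcyc : IsCyclic (Fˣ ⧸ (powMonoidHom n : Fˣ →* Fˣ).range) :=
    isCyclic_of_surjective _ (QuotientGroup.mk'_surjective _)
  have e1 : Multiplicative (ZMod (Nat.card (Fˣ ⧸ (powMonoidHom n : Fˣ →* Fˣ).range))) ≃*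
      (Fˣ ⧸ (powMonoidHom n : Fˣ →* Fˣ).range) := zmodCyclicMulEquiv hcyc
  have e : (Fˣ ⧸ (powMonoidHom n : Fˣ →* Fˣ).range) ≃*
      Multiplicative (ZMod (Nat.gcd n (q - 1))) := hidx ▸ e1.symm
  let d : GL (Fin n) F →* (Fˣ ⧸ (powMonoidHom n : Fˣ →* Fˣ).range) :=
    (QuotientGroup.mk' _).comp Matrix.GeneralLinearGroup.det
  have hdapp : ∀ A : GL (Fin n) F, d A = 1 ↔ ∃ u : Fˣ, u ^ n = Matrix.GeneralLinearGroup.det A := by
    intro A
    show QuotientGroup.mk' _ (Matrix.GeneralLinearGroup.det A) = 1 ↔ _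
    rw [QuotientGroup.mk'_apply, QuotientGroup.eq_one_iff]
    rfl
  have hd : Subgroup.center (GL (Fin n) F) ≤ d.ker := by
    rw [Matrix.GeneralLinearGroup.center_eq_range_scalar]
    rintro _ ⟨a, rfl⟩
    rw [MonoidHom.mem_ker, hdapp]
    refine ⟨a, ?_⟩
    rw [Matrix.GeneralLinearGroup.det_scalar, Fintype.card_fin]
  let g0 : Matrix.ProjGenLinGroup (Fin n) F →* (Fˣ ⧸ (powMonoidHom n : Fˣ →* Fˣ).range) :=
    QuotientGroup.lift _ d hd
  have hg0 : ∀ A : GL (Fin n) F, g0 (Matrix.ProjGenLinGroup.mk A) = d A := fun A => rfl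
  refine ⟨e.toMonoidHom.comp g0, ?_, ?_⟩
  · rw [MonoidHom.coe_comp]
    apply Function.Surjective.comp e.surjective
    intro x
    obtain ⟨u, rfl⟩ := QuotientGroup.mk'_surjective _ x
    obtain ⟨A, rfl⟩ := Matrix.GeneralLinearGroup.det_surjective (n := Fin n) (R := F) u
    exact ⟨Matrix.ProjGenLinGroup.mk A, rfl⟩
  · ext x
    obtain ⟨A, rfl⟩ := Matrix.ProjGenLinGroup.mk_surjective x
    rw [MonoidHom.mem_ker, MonoidHom.comp_apply]
    have h1 : e.toMonoidHom (g0 (Matrix.ProjGenLinGroup.mk A)) = 1 ↔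
        g0 (Matrix.ProjGenLinGroup.mk A) = 1 := by
      constructor
      · intro h
        apply e.injective
        rw [map_one]; exact h
      · intro h; rw [h, map_one]
    rw [h1, hg0, hdapp, MonoidHom.mem_range]
    constructor
    · rintro ⟨u, hu⟩
      have hdet : ((A * (Matrix.GeneralLinearGroup.scalar (Fin n) u)⁻¹ : GL (Fin n) F) :
          Matrix (Fin n) (Fin n) F).det = 1 := by
        have h2 : Matrix.GeneralLinearGroup.det
            (A * (Matrix.GeneralLinearGroup.scalar (Fin n) u)⁻¹) = 1 := by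
          rw [map_mul, map_inv, Matrix.GeneralLinearGroup.det_scalar, Fintype.card_fin, hu,
            mul_inv_cancel]
        have := congrArg Units.val h2
        simpa using this
      obtain ⟨S, hS⟩ : ∃ S : Matrix.SpecialLinearGroup (Fin n) F,
          Matrix.SpecialLinearGroup.toGL S =
          A * (Matrix.GeneralLinearGroup.scalar (Fin n) u)⁻¹ :=
        ⟨⟨_, hdet⟩, by ext; rfl⟩
      refine ⟨QuotientGroup.mk S, ?_⟩
      rw [Matrix.ProjectiveSpecialLinearGroup.toPGL_mk, Matrix.ProjGenLinGroup.mk_eq_mk_iff]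
      refine ⟨u, ?_⟩
      rw [hS, mul_assoc, inv_mul_cancel, mul_one]
    · rintro ⟨s, hs⟩
      obtain ⟨S, rfl⟩ := QuotientGroup.mk_surjective s
      rw [Matrix.ProjectiveSpecialLinearGroup.toPGL_mk, Matrix.ProjGenLinGroup.mk_eq_mk_iff] at hs
      obtain ⟨a, ha⟩ := hs
      refine ⟨a, ?_⟩
      rw [← ha, map_mul, Matrix.GeneralLinearGroup.det_scalar, Fintype.card_fin,
        Matrix.SpecialLinearGroup.coeToGL_det, one_mul]

end Cfsg.Agent.S0307
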