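import Cfsg.Statements.S0313
import Mathlib
import Cfsg.Agent.Lib.Lead.BN3
-- import your own Cfsg.Agent.* helpers here

set_option autoImplicit false
open Cfsg

namespace Cfsg.Agent.S0313

/-- Two standard parabolic subgroups of a group with a (B,N)-pair which are conjugate in `G` coincide. -/
theorem result {G : Type*} [Group G] (P : Cfsg.BNPair G) {J K : Set G}
    (hJ : J ⊆ P.S) (hK : K ⊆ P.S) (g : G)
    (h : (P.parabolic J).map (MulAut.conj g).toMonoidHom = P.parabolic K) :
    P.parabolic J = P.parabolic K := by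
  have hgK : g ∈ P.parabolic K := by
    apply Cfsg.Agent.Lib.Lead.bn_mem_of_conj_le P (P.parabolic K) le_sup_left
    intro b hb
    rw [← h]
    exact ⟨b, Subgroup.mem_sup_left hb, by simp⟩
  ext x
  have h1 : x ∈ P.parabolic J ↔ g * x * g⁻¹ ∈ P.parabolic K := by
    rw [← h]
    constructor
    · intro hx; exact ⟨x, hx, by simp⟩
    · rintro ⟨y, hy, hyx⟩
      have e : y = x := by simpa using hyx
      rw [← e]; exact hy
  rw [h1]
  constructor
  · intro hx
    have h2 := Subgroup.mul_mem _ (Subgroup.mul_mem _ (Subgroup.inv_mem _ hgK) hx) hgK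
    simpa [mul_assoc] using h2
  · intro hx
    exact Subgroup.mul_mem _ (Subgroup.mul_mem _ hgK hx) (Subgroup.inv_mem _ hgK)

end Cfsg.Agent.S0313
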