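import Cfsg.Statements.S0316
import Mathlib
import Cfsg.Agent.Lib.Lead.BN4
-- import your own Cfsg.Agent.* helpers here

set_option autoImplicit false
open Cfsg

namespace Cfsg.Agent.S0316

/-- The map `J ↦ P_J` is a lattice isomorphism from the power set of the set of distinguished generators onto the
subgroups containing `B`. -/
theorem result {G : Type*} [Group G] (P : Cfsg.BNPair G) :
    ∃ e : Set P.S ≃o {M : Subgroup G // P.B ≤ M},
      ∀ J : Set P.S, ((e J : {M : Subgroup G // P.B ≤ M}) : Subgroup G) = P.parabolic (Subtype.val '' J) := by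
  have himg : ∀ J : Set P.S, Subtype.val '' J ⊆ P.S := by
    rintro J _ ⟨s, -, rfl⟩; exact s.2
  have hkey : ∀ (J : Set P.S) (s : P.S), (s : G) ∈ P.parabolic (Subtype.val '' J) ↔ s ∈ J := by
    intro J s
    constructor
    · intro h
      obtain ⟨s', hs', he⟩ := Cfsg.Agent.Lib.Lead.bn_S_inter_parabolic P (himg J) s.2 h
      have : s' = s := Subtype.ext he
      rw [← this]; exact hs'
    · intro h
      exact Subgroup.mem_sup_right (Subgroup.subset_closure ⟨s, h, rfl⟩)
  refine ⟨{ toFun := fun J => ⟨P.parabolic (Subtype.val '' J), le_sup_left⟩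
            invFun := fun M => {s : P.S | (s : G) ∈ M.1}
            left_inv := ?_
            right_inv := ?_
            map_rel_iff' := ?_ }, fun J => rfl⟩
  · intro J
    ext s
    exact hkey J s
  · intro M
    apply Subtype.ext
    show P.parabolic (Subtype.val '' {s : P.S | (s : G) ∈ M.1}) = M.1
    have e : Subtype.val '' {s : P.S | (s : G) ∈ M.1} = {s | s ∈ P.S ∧ s ∈ M.1} := by
      ext x
      constructor
      · rintro ⟨s, hs, rfl⟩; exact ⟨s.2, hs⟩
      · rintro ⟨hx1, hx2⟩; exact ⟨⟨x, hx1⟩, hx2, rfl⟩
    rw [e]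
    exact (Cfsg.Agent.Lib.Lead.bn_subgroup_eq_parabolic P M.1 M.2).symm
  · intro J J'
    constructor
    · intro h s hs
      have h1 : (s : G) ∈ P.parabolic (Subtype.val '' J) := (hkey J s).mpr hs
      exact (hkey J' s).mp (h h1)
    · intro h
      show P.parabolic (Subtype.val '' J) ≤ P.parabolic (Subtype.val '' J')
      exact sup_le_sup_left (Subgroup.closure_mono (Set.image_mono h)) _

end Cfsg.Agent.S0316
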