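import Cfsg.Statements.S0319
import Mathlib
import Cfsg.Agent.Lib.Lead.BN4
import Cfsg.Agent.Lib.Lead.Coprime
-- import your own Cfsg.Agent.* helpers here

set_option autoImplicit false
open Cfsg

namespace Cfsg.Agent.S0319

open Cfsg.Agent.Lib.Lead

/-- Simplicity criterion for groups with a (B,N)-pair: if the distinguished generators admit no
splitting into two non-empty mutually commuting parts, `B` is solvable, `G` is perfect and the intersection
of all conjugates of `B` is trivial, then `G` is simple. -/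
theorem result {G : Type*} [Group G] [Nontrivial G]
    (P : Cfsg.BNPair G) (hirr : P.Irreducible) (hsolv : Group.IsSolvable P.B) (hperf : commutator G = ⊤)
    (hcore : P.B.normalCore = ⊥) : IsSimpleGroup G := by
  refine { toNontrivial := inferInstance, eq_bot_or_eq_top_of_normal := fun Nn hNn => ?_ }
  by_contra hcon
  push_neg at hcon
  obtain ⟨hbot, htop⟩ := hcon
  haveI := hNn
  have hBM : P.B ≤ Nn ⊔ P.B := le_sup_right
  have hMeq := bn_subgroup_eq_parabolic P (Nn ⊔ P.B) hBM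
  have hJS : {s | s ∈ P.S ∧ s ∈ Nn ⊔ P.B} ⊆ P.S := fun s hs => hs.1
  have hBn : P.B ≤ Subgroup.normalizer (Nn : Set G) := by rw [Subgroup.normalizer_eq_top]; exact le_top
  have hJN : Subgroup.closure {s | s ∈ P.S ∧ s ∈ Nn ⊔ P.B} ≤ P.N :=
    (Subgroup.closure_le _).mpr (fun s hs => P.subset (hJS hs))
  have hcomm : ∀ s ∈ {s | s ∈ P.S ∧ s ∈ Nn ⊔ P.B}, ∀ s' ∈ P.S \ {s | s ∈ P.S ∧ s ∈ Nn ⊔ P.B},
      s * s' * s⁻¹ * s'⁻¹ ∈ P.B := by
    intro s hs s' hs'
    have hsS := hs.1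
    have hs'S := hs'.1
    have hsN := P.subset hsS
    have hs'N := P.subset hs'S
    obtain ⟨ν, hν, b, hb, hsνb⟩ := mem_sup_of_le_normalizer hBn hs.2
    have hh : s' * ν * s'⁻¹ ∈ Nn ⊔ P.B := Subgroup.mem_sup_left (hNn.conj_mem ν hν s')
    rw [hMeq] at hh
    obtain ⟨n₀, hn₀, hhn₀⟩ := bn_parabolic_mem P hJS hh
    have hνeq : ν = s * b⁻¹ := by rw [hsνb]; group
    have e : s' * ν * s'⁻¹ = ((s' * s) * b⁻¹ * s') * (s' * s')⁻¹ := by rw [hνeq]; group
    have hs's : s' * s ∈ P.N := P.N.mul_mem hs'N hsN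
    have hne : s'⁻¹ * s ∉ P.B := fun hB => hs'.2 (by have := P.inj s' hs'S s hsS hB; rw [this]; exact hs)
    have hWJ : ∀ w ∈ P.N, bnC P n₀ = bnC P w →
        w ∈ Subgroup.closure {s | s ∈ P.S ∧ s ∈ Nn ⊔ P.B} ⊔ (P.B ⊓ P.N) := by
      intro w hw hC
      have h1 := bn_unique P (hJN hn₀) hw hC
      have e2 : w = n₀ * (n₀⁻¹ * w) := by group
      rw [e2]
      exact Subgroup.mul_mem _ (Subgroup.mem_sup_left hn₀)
        (Subgroup.mem_sup_right ⟨h1, P.N.mul_mem (P.N.inv_mem (hJN hn₀)) hw⟩)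
    rcases bn_RT3 P hs'S hs's (P.B.inv_mem hb) with h1 | h1
    · have h2 : s' * ν * s'⁻¹ ∈ bnC P (s' * s * s') := by
        rw [e]; exact bnC_mul_right P (bn_sq_inv P hs'S).1 h1
      have hC : bnC P n₀ = bnC P (s' * s * s') := by rw [← bnC_eq_of_mem P hhn₀, bnC_eq_of_mem P h2]
      have hwN : s' * s * s' ∈ P.N := P.N.mul_mem hs's hs'N
      have hW := hWJ _ hwN hC
      have hWM : s' * s * s' ∈ P.parabolic {s | s ∈ P.S ∧ s ∈ Nn ⊔ P.B} := by
        have hle : Subgroup.closure {s | s ∈ P.S ∧ s ∈ Nn ⊔ P.B} ⊔ (P.B ⊓ P.N)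
            ≤ P.parabolic {s | s ∈ P.S ∧ s ∈ Nn ⊔ P.B} :=
          sup_le le_sup_right (le_trans inf_le_left le_sup_left)
        exact hle hW
      have hss' : s * s' ∈ P.N := P.N.mul_mem hsN hs'N
      have hpar := bn_parity P hs'S hss'
      by_cases hlt : bnLen P (s * s') < bnLen P (s' * (s * s'))
      · exfalso
        have e3 : s' * s * s' = s' * (s * s') := by group
        rw [e3] at hWM
        have h7 := bn_first_letter P _ le_sup_left hs'S hss' hlt hWM
        exact hs'.2 (bn_S_inter_parabolic P hJS hs'S h7)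
      · have h3 : bnLen P (s' * (s * s')) < bnLen P (s * s') := by omega
        have h4 : bnLen P s ≤ bnLen P (s' * s) := by
          have hs1 : bnLen P s ≤ 1 := bnLen_le P ⟨s, hsS, 1, ⟨P.B.one_mem, P.N.one_mem⟩, by group⟩
          have hs's0 : bnLen P (s' * s) ≠ 0 := by
            intro h0
            have hB := (bnLen_eq_zero P hs's).mp h0
            apply hne
            have e4 : s'⁻¹ * s = (s' * s')⁻¹ * (s' * s) := by group
            rw [e4]; exact P.B.mul_mem (bn_sq_inv P hs'S).1 hB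
          omega
        have h5 := bn_C P hs'S hs'S hsN h4 h3
        have h5N : (s * s')⁻¹ * (s' * s) ∈ P.N := P.N.mul_mem (P.N.inv_mem hss') hs's
        have h6 := (bn_conj P hs's (P.B.inv_mem h5) (P.N.inv_mem h5N)).1
        have e5 : s * s' * s⁻¹ * s'⁻¹ = (s' * s) * ((s * s')⁻¹ * (s' * s))⁻¹ * (s' * s)⁻¹ := by group
        rw [e5]; exact h6
    · exfalso
      have h2 : s' * ν * s'⁻¹ ∈ bnC P (s' * s) := by
        rw [e]; exact bnC_mul_right P (bn_sq_inv P hs'S).1 h1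
      have hC : bnC P n₀ = bnC P (s' * s) := by rw [← bnC_eq_of_mem P hhn₀, bnC_eq_of_mem P h2]
      have hW := hWJ _ hs's hC
      have hsW : s ∈ Subgroup.closure {s | s ∈ P.S ∧ s ∈ Nn ⊔ P.B} ⊔ (P.B ⊓ P.N) :=
        Subgroup.mem_sup_left (Subgroup.subset_closure hs)
      have hs'W : s' ∈ Subgroup.closure {s | s ∈ P.S ∧ s ∈ Nn ⊔ P.B} ⊔ (P.B ⊓ P.N) := by
        have h8 := Subgroup.mul_mem _ hW (Subgroup.inv_mem _ hsW)
        simpa using h8
      exact hs'.2 (bn_S_inter P hJS hs'S hs'W)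
  have hJcases : ¬ ({s | s ∈ P.S ∧ s ∈ Nn ⊔ P.B} : Set G).Nonempty ∨
      ¬ (P.S \ {s | s ∈ P.S ∧ s ∈ Nn ⊔ P.B}).Nonempty := by
    by_contra hboth
    push_neg at hboth
    obtain ⟨s, hs, s', hs', hnot⟩ := hirr _ hJS hboth.1 hboth.2
    exact hnot (hcomm s hs s' hs')
  rcases hJcases with hJ0 | hJ1
  · have hJe : {s | s ∈ P.S ∧ s ∈ Nn ⊔ P.B} = (∅ : Set G) := Set.not_nonempty_iff_eq_empty.mp hJ0
    have hMB : Nn ⊔ P.B = P.B := by
      rw [hMeq, hJe]; simp [Cfsg.BNPair.parabolic]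
    have hNB : Nn ≤ P.B := hMB ▸ le_sup_left
    have hcr : Nn ≤ P.B.normalCore := (Subgroup.normal_le_normalCore).mpr hNB
    rw [hcore] at hcr
    exact hbot (le_bot_iff.mp hcr)
  · have hSJ : P.S ⊆ {s | s ∈ P.S ∧ s ∈ Nn ⊔ P.B} := by
      intro s hs
      by_contra hsJ
      exact hJ1 ⟨s, hs, hsJ⟩
    have hMtop : Nn ⊔ P.B = ⊤ := by
      rw [eq_top_iff, ← P.sup_eq_top]
      apply sup_le hBM
      rw [← P.closure_sup]
      apply sup_le
      · rw [Subgroup.closure_le]; intro s hs; exact (hSJ hs).2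
      · exact le_trans inf_le_left hBM
    have hsurj : Function.Surjective ((QuotientGroup.mk' Nn).comp P.B.subtype) := by
      intro q
      obtain ⟨g, rfl⟩ := QuotientGroup.mk_surjective q
      have hg : g ∈ Nn ⊔ P.B := hMtop ▸ Subgroup.mem_top g
      obtain ⟨ν, hν, b, hb, rfl⟩ := mem_sup_of_le_normalizer hBn hg
      refine ⟨⟨b, hb⟩, ?_⟩
      simp only [MonoidHom.comp_apply, Subgroup.subtype_apply, QuotientGroup.mk'_apply]
      rw [QuotientGroup.mk_mul, (QuotientGroup.eq_one_iff ν).mpr hν, one_mul]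
    haveI := hsolv
    haveI : Group.IsSolvable (G ⧸ Nn) := Group.isSolvable_of_surjective hsurj
    have hperfQ : commutator (G ⧸ Nn) = ⊤ := by
      rw [commutator_def, ← MonoidHom.range_eq_top.mpr (QuotientGroup.mk'_surjective Nn),
        MonoidHom.range_eq_map, ← Subgroup.map_commutator, ← commutator_def, hperf]
    have hsub : Subsingleton (G ⧸ Nn) := by
      by_contra hns
      rw [not_subsingleton_iff_nontrivial] at hns
      haveI := hns
      exact (Group.IsSolvable.commutator_lt_top_of_nontrivial (G ⧸ Nn)).ne hperfQ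
    apply htop
    rw [eq_top_iff]
    intro g _
    rw [← QuotientGroup.eq_one_iff]
    exact Subsingleton.elim _ _

end Cfsg.Agent.S0319
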