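import Cfsg.Statements.S0321
import Mathlib
import Cfsg.Agent.Lib.Lead.BN4
-- import your own Cfsg.Agent.* helpers here

set_option autoImplicit false
open Cfsg

namespace Cfsg.Agent.S0321

/-- For `n ∈ N` not in `B`, the union `B ∪ B n B` is (the underlying set of) a subgroup exactly when `n` agrees
modulo `B ⊓ N` with one of the distinguished representatives; thus the distinguished involutions are
determined by `B` and `N`. -/
theorem result {G : Type*} [Group G] (P : Cfsg.BNPair G) {n : G}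
    (hn : n ∈ P.N) (hnB : n ∉ P.B) :
    (∃ H : Subgroup G, (H : Set G) = (P.B : Set G) ∪ DoubleCoset.doubleCoset n (P.B : Set G) P.B) ↔ ∃ s ∈ P.S, s⁻¹ * n ∈ P.B := by
  have hBle : ∀ M : Subgroup G, (M : Set G) = (P.B : Set G) ∪ DoubleCoset.doubleCoset n (P.B : Set G) P.B → P.B ≤ M := by
    intro M hM b hb
    have : b ∈ (M : Set G) := by rw [hM]; exact Or.inl hb
    exact this
  constructor
  · rintro ⟨M, hM⟩
    have hB := hBle M hM
    have hnM : n ∈ M := by
      have : n ∈ (M : Set G) := by rw [hM]; exact Or.inr (Cfsg.Agent.Lib.Lead.bnC_self P n)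
      exact this
    have hlen : Cfsg.Agent.Lib.Lead.bnLen P n ≠ 0 := fun h0 =>
      hnB ((Cfsg.Agent.Lib.Lead.bnLen_eq_zero P hn).mp h0)
    obtain ⟨k, hk⟩ := Nat.exists_eq_succ_of_ne_zero hlen
    obtain ⟨s, hs, m, hm, rfl, hmk⟩ := Cfsg.Agent.Lib.Lead.bnLen_decomp P hn hk
    have hsM : s ∈ M := Cfsg.Agent.Lib.Lead.bn_first_letter P M hB hs hm (by omega) hnM
    have hsM' : s ∈ (M : Set G) := hsM
    rw [hM] at hsM'
    rcases hsM' with h | h
    · exact absurd h (Cfsg.Agent.Lib.Lead.bn_S_not_mem_B P hs)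
    · exact ⟨s, hs, Cfsg.Agent.Lib.Lead.bn_unique P (P.subset hs) hn (Cfsg.Agent.Lib.Lead.bnC_eq_of_mem P h)⟩
  · rintro ⟨s, hs, hsn⟩
    have hsN := P.subset hs
    have hCn : Cfsg.Agent.Lib.Lead.bnC P n = Cfsg.Agent.Lib.Lead.bnC P s :=
      Cfsg.Agent.Lib.Lead.bnC_eq_of_inv_mul_mem P hsn
    refine ⟨P.parabolic {s}, ?_⟩
    have hJ : ({s} : Set G) ⊆ P.S := Set.singleton_subset_iff.mpr hs
    -- elements of closure {s} lie in B or in s B
    have hq : ∀ w ∈ Subgroup.closure ({s} : Set G), w ∈ P.N ∧ (w ∈ P.B ∨ s⁻¹ * w ∈ P.B) := by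
      intro w hw
      induction hw using Subgroup.closure_induction with
      | mem x hx =>
        rw [Set.mem_singleton_iff] at hx
        subst hx
        exact ⟨hsN, Or.inr (by simp [P.B.one_mem])⟩
      | one => exact ⟨P.N.one_mem, Or.inl P.B.one_mem⟩
      | mul x y _ _ ihx ihy =>
        obtain ⟨hxN, hx⟩ := ihx
        obtain ⟨hyN, hy⟩ := ihy
        refine ⟨P.N.mul_mem hxN hyN, ?_⟩
        rcases hx with hx | hx <;> rcases hy with hy | hy
        · exact Or.inl (P.B.mul_mem hx hy)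
        · right
          have h1 := (Cfsg.Agent.Lib.Lead.bn_conj' P hsN hx hxN).1
          have e : s⁻¹ * (x * y) = (s⁻¹ * x * s) * (s⁻¹ * y) := by group
          rw [e]; exact P.B.mul_mem h1 hy
        · right
          have e : s⁻¹ * (x * y) = (s⁻¹ * x) * y := by group
          rw [e]; exact P.B.mul_mem hx hy
        · left
          have hxN' : s⁻¹ * x ∈ P.N := P.N.mul_mem (P.N.inv_mem hsN) hxN
          have h1 := (Cfsg.Agent.Lib.Lead.bn_conj P hsN hx hxN').1
          have e : x * y = (s * (s⁻¹ * x) * s⁻¹) * (s * s) * (s⁻¹ * y) := by group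
          rw [e]
          exact P.B.mul_mem (P.B.mul_mem h1 (Cfsg.Agent.Lib.Lead.bn_sq P hs).1) hy
      | inv x _ ih =>
        obtain ⟨hxN, hx⟩ := ih
        refine ⟨P.N.inv_mem hxN, ?_⟩
        rcases hx with hx | hx
        · exact Or.inl (P.B.inv_mem hx)
        · right
          have hxN' : s⁻¹ * x ∈ P.N := P.N.mul_mem (P.N.inv_mem hsN) hxN
          have h1 := (Cfsg.Agent.Lib.Lead.bn_conj' P hsN (P.B.inv_mem hx) (P.N.inv_mem hxN')).1
          have e : s⁻¹ * x⁻¹ = (s⁻¹ * (s⁻¹ * x)⁻¹ * s) * (s * s)⁻¹ := by group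
          rw [e]
          exact P.B.mul_mem h1 (Cfsg.Agent.Lib.Lead.bn_sq_inv P hs).1
    ext g
    constructor
    · intro hg
      obtain ⟨w, hw, hgw⟩ := Cfsg.Agent.Lib.Lead.bn_parabolic_mem P hJ hg
      obtain ⟨-, hw' | hw'⟩ := hq w hw
      · exact Or.inl (Cfsg.Agent.Lib.Lead.mem_B_of_mem_bnC P hw' hgw)
      · right
        have h1 : Cfsg.Agent.Lib.Lead.bnC P w = Cfsg.Agent.Lib.Lead.bnC P s :=
          Cfsg.Agent.Lib.Lead.bnC_eq_of_inv_mul_mem P hw'
        have h2 : g ∈ Cfsg.Agent.Lib.Lead.bnC P n := by rw [hCn, ← h1]; exact hgw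
        exact h2
    · rintro (hg | hg)
      · exact Subgroup.mem_sup_left hg
      · have h2 : g ∈ Cfsg.Agent.Lib.Lead.bnC P s := by rw [← hCn]; exact hg
        exact Cfsg.Agent.Lib.Lead.bn_mem_parabolic_of_bnC P (Subgroup.subset_closure rfl) h2

end Cfsg.Agent.S0321
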