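import Cfsg.Statements.S0322
import Mathlib
import Cfsg.Agent.Lib.Lead.BN4
-- import your own Cfsg.Agent.* helpers here

set_option autoImplicit false
open Cfsg

namespace Cfsg.Agent.S0322

open Cfsg.Agent.Lib.Lead

/-- A group with a (B,N)-pair of rank one acts doubly transitively on the left cosets of `B`. -/
theorem result {G : Type*} [Group G] (P : Cfsg.BNPair G) (h : P.rank = 1) : MulAction.IsMultiplyPretransitive G (G ⧸ P.B) 2 := by
  rw [MulAction.is_two_pretransitive_iff]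
  have hS : ∃ s, P.S = {s} := by
    rw [Cfsg.BNPair.rank] at h
    obtain ⟨x, hx⟩ := Nat.card_eq_one_iff_exists.mp h
    refine ⟨x.1, ?_⟩
    ext t; constructor
    · intro ht; have h1 := hx ⟨t, ht⟩; exact congrArg Subtype.val h1
    · intro ht; rw [Set.mem_singleton_iff] at ht; rw [ht]; exact x.2
  obtain ⟨s, hS⟩ := hS
  have hs : s ∈ P.S := by rw [hS]; rfl
  have hkey : ∀ g : G, g ∉ P.B → g ∈ bnC P s := by
    intro g hg
    obtain ⟨n, hn, hgn⟩ := bn_bruhat P g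
    have hgn' : g ∈ bnC P n := hgn
    have hnB : n ∉ P.B := fun hB => hg (mem_B_of_mem_bnC P hB hgn')
    have hlen : bnLen P n ≠ 0 := fun h0 => hnB ((bnLen_eq_zero P hn).mp h0)
    obtain ⟨k, hk⟩ := Nat.exists_eq_succ_of_ne_zero hlen
    obtain ⟨t, ht, m, hm, rfl, hmk⟩ := bnLen_decomp P hn hk
    have hts : t = s := by rw [hS] at ht; exact ht
    subst hts
    have hk0 : k = 0 := by
      by_contra hk0
      obtain ⟨k', hk'⟩ := Nat.exists_eq_succ_of_ne_zero hk0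
      obtain ⟨t', ht', m', hm', rfl, hmk'⟩ := bnLen_decomp P hm (hmk.trans hk')
      have hts' : t' = t := by rw [hS] at ht'; exact ht'
      subst hts'
      have h3 := bnLen_sq_mul P ht' hm'
      omega
    subst hk0
    have hmB : m ∈ P.B := (bnLen_eq_zero P hm).mp hmk
    have h4 : bnC P (t * m) = bnC P t := bnC_eq_mul_right P hmB
    rw [h4] at hgn'
    exact hgn'
  intro a b c d hab hcd
  obtain ⟨a₀, rfl⟩ := QuotientGroup.mk_surjective a
  obtain ⟨b₀, rfl⟩ := QuotientGroup.mk_surjective b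
  obtain ⟨c₀, rfl⟩ := QuotientGroup.mk_surjective c
  obtain ⟨d₀, rfl⟩ := QuotientGroup.mk_surjective d
  have h1 : a₀⁻¹ * b₀ ∉ P.B := fun hB => hab (QuotientGroup.eq.mpr hB)
  have h2 : c₀⁻¹ * d₀ ∉ P.B := fun hB => hcd (QuotientGroup.eq.mpr hB)
  obtain ⟨x, hx, y, hy, hxy⟩ := (mem_bnC P).mp (hkey _ h1)
  obtain ⟨x', hx', y', hy', hxy'⟩ := (mem_bnC P).mp (hkey _ h2)
  refine ⟨c₀ * x' * x⁻¹ * a₀⁻¹, ?_, ?_⟩
  · rw [MulAction.Quotient.smul_mk, smul_eq_mul, QuotientGroup.eq]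
    have e : (c₀ * x' * x⁻¹ * a₀⁻¹ * a₀)⁻¹ * c₀ = x * x'⁻¹ := by group
    rw [e]; exact P.B.mul_mem hx (P.B.inv_mem hx')
  · rw [MulAction.Quotient.smul_mk, smul_eq_mul, QuotientGroup.eq]
    have e : (c₀ * x' * x⁻¹ * a₀⁻¹ * b₀)⁻¹ * d₀ = (x * s * y)⁻¹ * x * x'⁻¹ * (x' * s * y') := by
      rw [← hxy, ← hxy']; group
    rw [e]
    have e2 : (x * s * y)⁻¹ * x * x'⁻¹ * (x' * s * y') = y⁻¹ * y' := by group
    rw [e2]; exact P.B.mul_mem (P.B.inv_mem hy) hy'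

end Cfsg.Agent.S0322
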