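import Cfsg.Statements.S0323
import Mathlib
-- import your own Cfsg.Agent.* helpers here

set_option autoImplicit false
open scoped Pointwise
open Cfsg

namespace Cfsg.Agent.S0323

/-- A doubly transitive action on a set with at least three points yields a (B,N)-pair of rank one:
`B` is the stabiliser of a point `x`, `N` the setwise stabiliser of a pair `{x, y}`. -/
theorem result {G Ω : Type*} [Group G] [MulAction G Ω]
    (h2 : MulAction.IsMultiplyPretransitive G Ω 2) {x y z : Ω} (hxy : x ≠ y) (hyz : y ≠ z) (hxz : x ≠ z) :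
    ∃ P : Cfsg.BNPair G, P.B = MulAction.stabilizer G x ∧
      P.N = MulAction.stabilizer G ({x, y} : Set Ω) ∧ P.rank = 1 := by
  classical
  rw [MulAction.is_two_pretransitive_iff] at h2
  obtain ⟨s, hsx, hsy⟩ := h2 hxy hxy.symm
  have hN : ∀ g : G, g ∈ MulAction.stabilizer G ({x, y} : Set Ω) ↔
      (g • x = x ∧ g • y = y) ∨ (g • x = y ∧ g • y = x) := by
    intro g
    rw [MulAction.mem_stabilizer_iff, Set.smul_set_insert, Set.smul_set_singleton, Set.pair_eq_pair_iff]
  have hB : ∀ g : G, g ∈ MulAction.stabilizer G x ↔ g • x = x := fun g => MulAction.mem_stabilizer_iff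
  have hsinvx : s⁻¹ • x = y := by rw [inv_smul_eq_iff]; exact hsy.symm
  have hsinvy : s⁻¹ • y = x := by rw [inv_smul_eq_iff]; exact hsx.symm
  have hsN : s ∈ MulAction.stabilizer G ({x, y} : Set Ω) := (hN s).mpr (Or.inr ⟨hsx, hsy⟩)
  have hdc1 : ∀ g g' : G, g • x ≠ x → g' • x ≠ x →
      g' ∈ DoubleCoset.doubleCoset g (MulAction.stabilizer G x : Set G) (MulAction.stabilizer G x) := by
    intro g g' hg hg'
    obtain ⟨b₁, hb1, hb2⟩ := h2 (Ne.symm hg) (Ne.symm hg')
    rw [DoubleCoset.mem_doubleCoset]
    refine ⟨b₁, (hB b₁).mpr hb1, g⁻¹ * b₁⁻¹ * g', ?_, by group⟩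
    rw [SetLike.mem_coe, hB, mul_smul, mul_smul, ← hb2, inv_smul_smul, inv_smul_smul]
  have hdc0 : ∀ g g' : G, g • x = x → g' • x = x →
      g' ∈ DoubleCoset.doubleCoset g (MulAction.stabilizer G x : Set G) (MulAction.stabilizer G x) := by
    intro g g' hg hg'
    rw [DoubleCoset.mem_doubleCoset]
    refine ⟨g' * g⁻¹, ?_, 1, Subgroup.one_mem _, by group⟩
    rw [SetLike.mem_coe, hB, mul_smul, inv_smul_eq_iff.mpr hg.symm, hg']
  refine ⟨{ B := MulAction.stabilizer G x
            N := MulAction.stabilizer G ({x, y} : Set Ω)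
            S := {s}
            sup_eq_top := ?_
            conj_mem := ?_
            subset := ?_
            sq_mem := ?_
            inj := ?_
            closure_sup := ?_
            mul_mem_union := ?_
            conj_ne := ?_ }, rfl, rfl, ?_⟩
  · rw [eq_top_iff]
    intro g _
    by_cases hg : g • x = x
    · exact Subgroup.mem_sup_left ((hB g).mpr hg)
    · obtain ⟨b, hb1, hb2⟩ := h2 (Ne.symm hg) hxy
      have h3 : s⁻¹ * b * g ∈ MulAction.stabilizer G x := by
        rw [hB, mul_smul, mul_smul, hb2, hsinvy]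
      have e : g = b⁻¹ * s * (s⁻¹ * b * g) := by group
      rw [e]
      exact Subgroup.mul_mem _ (Subgroup.mul_mem _
        (Subgroup.mem_sup_left (Subgroup.inv_mem _ ((hB b).mpr hb1))) (Subgroup.mem_sup_right hsN))
        (Subgroup.mem_sup_left h3)
  · intro n hn t ht
    obtain ⟨htB, htN⟩ := ht
    have htx : t • x = x := (hB t).mp htB
    have hty : t • y = y := by
      rcases (hN t).mp htN with h | h
      · exact h.2
      · exact absurd (htx.symm.trans h.1) hxy
    rw [hB, mul_smul, mul_smul]
    rcases (hN n⁻¹).mp (Subgroup.inv_mem _ hn) with h | h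
    · rw [h.1, htx]; exact (inv_smul_eq_iff.mp h.1).symm
    · rw [h.1, hty]; exact (inv_smul_eq_iff.mp h.1).symm
  · intro t ht
    rw [Set.mem_singleton_iff] at ht; subst ht
    exact hsN
  · intro t ht
    rw [Set.mem_singleton_iff] at ht; subst ht
    rw [hB, mul_smul, hsx, hsy]
  · intro t ht t' ht' _
    rw [Set.mem_singleton_iff] at ht ht'
    rw [ht, ht']
  · apply le_antisymm
    · apply sup_le
      · rw [Subgroup.closure_le, Set.singleton_subset_iff]; exact hsN
      · exact inf_le_right
    · intro n hn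
      rcases (hN n).mp hn with h | h
      · exact Subgroup.mem_sup_right ⟨(hB n).mpr h.1, hn⟩
      · have h3 : s⁻¹ * n ∈ MulAction.stabilizer G x ⊓ MulAction.stabilizer G ({x, y} : Set Ω) := by
          refine ⟨(hB _).mpr ?_, (hN _).mpr (Or.inl ⟨?_, ?_⟩)⟩
          · rw [mul_smul, h.1, hsinvy]
          · rw [mul_smul, h.1, hsinvy]
          · rw [mul_smul, h.2, hsinvx]
        have e : n = s * (s⁻¹ * n) := by group
        rw [e]
        exact Subgroup.mul_mem _ (Subgroup.mem_sup_left (Subgroup.subset_closure rfl))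
          (Subgroup.mem_sup_right h3)
  · intro t ht n hn b hb
    rw [Set.mem_singleton_iff] at ht; subst ht
    have hbx : b • x = x := (hB b).mp hb
    rcases (hN n).mp hn with h | h
    · left
      apply hdc1
      · rw [mul_smul, h.1, hsx]; exact hxy.symm
      · rw [mul_smul, mul_smul, h.1, hbx, hsx]; exact hxy.symm
    · by_cases hfix : (t * b * n) • x = x
      · left
        apply hdc0
        · rw [mul_smul, h.1, hsy]
        · exact hfix
      · right
        apply hdc1
        · rw [h.1]; exact hxy.symm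
        · exact hfix
  · intro t ht heq
    rw [Set.mem_singleton_iff] at ht; subst ht
    obtain ⟨b, hb1, hb2⟩ := h2 hxy hxz
    have hmem : t * b * t ∈ (fun b : G => t * b * t) '' (MulAction.stabilizer G x : Set G) :=
      ⟨b, (hB b).mpr hb1, rfl⟩
    rw [heq] at hmem
    have h4 := (hB _).mp hmem
    rw [mul_smul, mul_smul, hsx, hb2] at h4
    have h5 : t • z = t • y := h4.trans hsy.symm
    exact hyz (MulAction.injective t h5).symm
  · simp [Cfsg.BNPair.rank]

end Cfsg.Agent.S0323
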