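import Cfsg.Statements.S0326
import Mathlib
-- import your own Cfsg.Agent.* helpers here

set_option autoImplicit false
open Cfsg

namespace Cfsg.Agent.S0326

/-- The Suzuki–Tits ovoid over a finite field with `q` elements has `q² + 1` points. -/
theorem result {F : Type*} [Field F] [Fintype F] (m : ℕ) :
    Nat.card (Cfsg.suzukiOvoid F m) = Fintype.card F ^ 2 + 1 := by
  classical
  have hne : ∀ x y : F, (![x * y + x ^ (2 ^ (m + 1) + 2) + y ^ (2 ^ (m + 1)), y, x, 1] :
      Fin 4 → F) ≠ 0 := by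
    intro x y h
    have := congrFun h 3
    simp at this
  have hne0 : (![1, 0, 0, 0] : Fin 4 → F) ≠ 0 := by
    intro h
    have := congrFun h 0
    simp at this
  let φ : F × F → Projectivization F (Fin 4 → F) := fun p =>
    Projectivization.mk F ![p.1 * p.2 + p.1 ^ (2 ^ (m + 1) + 2) + p.2 ^ (2 ^ (m + 1)), p.2, p.1, 1]
      (hne p.1 p.2)
  have hset : Cfsg.suzukiOvoid F m =
      insert (Projectivization.mk F ![1, 0, 0, 0] hne0) (Set.range φ) := by
    ext p
    constructor
    · rintro ⟨v, hv, rfl, (rfl | ⟨x, y, rfl⟩)⟩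
      · exact Set.mem_insert _ _
      · exact Set.mem_insert_of_mem _ ⟨(x, y), rfl⟩
    · rintro (rfl | ⟨⟨x, y⟩, rfl⟩)
      · exact ⟨_, hne0, rfl, Or.inl rfl⟩
      · exact ⟨_, hne x y, rfl, Or.inr ⟨x, y, rfl⟩⟩
  have hinj : Function.Injective φ := by
    rintro ⟨x, y⟩ ⟨x', y'⟩ h
    have h' := (Projectivization.mk_eq_mk_iff' F _ _ (hne x y) (hne x' y')).1 h
    obtain ⟨a, ha⟩ := h'
    have h3 := congrFun ha 3
    have h2 := congrFun ha 2
    have h1 := congrFun ha 1
    simp at h3 h2 h1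
    subst h3
    simp at h2 h1
    rw [h1, h2]
  have hnot : Projectivization.mk F ![1, 0, 0, 0] hne0 ∉ Set.range φ := by
    rintro ⟨⟨x, y⟩, h⟩
    have h' := (Projectivization.mk_eq_mk_iff' F _ _ (hne x y) hne0).1 h
    obtain ⟨a, ha⟩ := h'
    have h3 := congrFun ha 3
    simp at h3
  show (Cfsg.suzukiOvoid F m).ncard = _
  rw [hset, Set.ncard_insert_of_notMem hnot (Set.toFinite _), ← Set.image_univ,
    Set.ncard_image_of_injective _ hinj, Set.ncard_univ, Nat.card_prod, Nat.card_eq_fintype_card,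
    sq]

end Cfsg.Agent.S0326
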