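import Cfsg.Statements.S0354
import Mathlib
import Cfsg.Agent.Lib.Lead.SteinerCount
import Cfsg.Agent.S0352
-- import your own Cfsg.Agent.* helpers here

set_option autoImplicit false
open Cfsg

namespace Cfsg.Agent.S0354

/-- In an S(5, 8, 24), each block is disjoint from exactly 30 blocks. -/
theorem result {α : Type*} [Fintype α] [DecidableEq α] (hα : Fintype.card α = 24) {B : Set (Finset α)} (hB : Cfsg.IsSteinerSystem 5 8 B) {b : Finset α} (hb : b ∈ B) : {c : Finset α | c ∈ B ∧ Disjoint b c}.ncard = 30 := by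
  classical
  have hbB : b ∈ Lib.Lead.blocks B := (Lib.Lead.mem_blocks B b).mpr hb
  have h0 := Lib.Lead.sum_choose_val hB hb 0 (by norm_num) 759 (by rw [hα]; decide) (by decide)
  have h1 := Lib.Lead.sum_choose_val hB hb 1 (by norm_num) 2024 (by rw [hα]; decide) (by decide)
  have h2 := Lib.Lead.sum_choose_val hB hb 2 (by norm_num) 2156 (by rw [hα]; decide) (by decide)
  have hsum : ∑ c ∈ (Lib.Lead.blocks B).erase b, Lib.Lead.H5 (c ∩ b).card = 240 := by
    rw [Lib.Lead.sum_erase_eq _ _ hbB, Lib.Lead.sum_H5, h0, h1, h2, hB.1 b hb, Lib.Lead.H5_eight]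
    norm_num
  have hval : ∀ c ∈ (Lib.Lead.blocks B).erase b,
      Lib.Lead.H5 (c ∩ b).card = if (c ∩ b).card = 0 then 8 else 0 := by
    intro c hc
    have hcB : c ∈ B := (Lib.Lead.mem_blocks B c).mp (Finset.mem_of_mem_erase hc)
    have hne : c ≠ b := Finset.ne_of_mem_erase hc
    have hlt : (c ∩ b).card < 5 := Lib.Lead.inter_card_lt hB hb hcB (Ne.symm hne)
    exact Lib.Lead.H5_val _ hlt (Cfsg.Agent.S0352.result hα hB hcB hb hne)
  rw [Finset.sum_congr rfl hval, Finset.sum_ite, Finset.sum_const, Finset.sum_const_zero,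
    add_zero, nsmul_eq_mul] at hsum
  have hset : {c : Finset α | c ∈ B ∧ Disjoint b c} =
      ↑(((Lib.Lead.blocks B).erase b).filter (fun c => (c ∩ b).card = 0)) := by
    ext c
    simp only [Set.mem_setOf_eq, Finset.coe_filter, Finset.mem_erase, Lib.Lead.mem_blocks,
      Finset.card_eq_zero]
    constructor
    · rintro ⟨hcB, hd⟩
      refine ⟨⟨?_, hcB⟩, ?_⟩
      · rintro rfl
        have := hB.1 c hcB
        rw [Finset.disjoint_self_iff_empty] at hd
        rw [hd] at this
        simp at this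
      · rw [Finset.inter_comm]
        exact Finset.disjoint_iff_inter_eq_empty.mp hd
    · rintro ⟨⟨-, hcB⟩, hd⟩
      refine ⟨hcB, ?_⟩
      rw [Finset.disjoint_iff_inter_eq_empty, Finset.inter_comm]
      exact hd
  rw [hset, Set.ncard_coe_finset]
  have : ((((Lib.Lead.blocks B).erase b).filter (fun c => (c ∩ b).card = 0)).card : ℤ) = 30 := by
    linarith
  exact_mod_cast this

end Cfsg.Agent.S0354
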