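import Cfsg.Statements.S0355
import Mathlib
import Cfsg.Agent.Lib.Lead.SteinerCount
-- import your own Cfsg.Agent.* helpers here

set_option autoImplicit false
open Cfsg

namespace Cfsg.Agent.S0355

/-- In a Steiner system S(4, 7, 23), two distinct blocks intersect in 1 or 3 points. -/
theorem result {α : Type*} [Fintype α] [DecidableEq α] (hα : Fintype.card α = 23) {B : Set (Finset α)} (hB : Cfsg.IsSteinerSystem 4 7 B) {b c : Finset α} (hb : b ∈ B) (hc : c ∈ B) (hbc : b ≠ c) : (b ∩ c).card = 1 ∨ (b ∩ c).card = 3 := by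
  have hbB : b ∈ Lib.Lead.blocks B := (Lib.Lead.mem_blocks B b).mpr hb
  have hcB : c ∈ Lib.Lead.blocks B := (Lib.Lead.mem_blocks B c).mpr hc
  have h0 := Lib.Lead.sum_choose_val hB hb 0 (by norm_num) 253 (by rw [hα]; decide) (by decide)
  have h1 := Lib.Lead.sum_choose_val hB hb 1 (by norm_num) 539 (by rw [hα]; decide) (by decide)
  have h2 := Lib.Lead.sum_choose_val hB hb 2 (by norm_num) 441 (by rw [hα]; decide) (by decide)
  have h3 := Lib.Lead.sum_choose_val hB hb 3 (by norm_num) 175 (by rw [hα]; decide) (by decide)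
  have hsum : ∑ c ∈ Lib.Lead.blocks B, Lib.Lead.G4 (c ∩ b).card = Lib.Lead.G4 b.card := by
    rw [Lib.Lead.sum_G4, h0, h1, h2, h3, hB.1 b hb, Lib.Lead.G4_seven]
    norm_num
  have hlt : ∀ c ∈ Lib.Lead.blocks B, c ≠ b → (c ∩ b).card < 4 := fun c hc hcb =>
    Lib.Lead.inter_card_lt hB hb ((Lib.Lead.mem_blocks B c).mp hc) (Ne.symm hcb)
  have hz := Lib.Lead.test_function_zero (Lib.Lead.blocks B) b hbB Lib.Lead.G4 4
    Lib.Lead.G4_nonneg hlt hsum c hcB (Ne.symm hbc)
  rw [Finset.inter_comm]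
  exact Lib.Lead.G4_zero _ (hlt c hcB (Ne.symm hbc)) hz

end Cfsg.Agent.S0355
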