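import Cfsg.Statements.S0356
import Mathlib
import Cfsg.Agent.Lib.Lead.SteinerCount
-- import your own Cfsg.Agent.* helpers here

set_option autoImplicit false
open Cfsg

namespace Cfsg.Agent.S0356

/-- In a Steiner system S(3, 6, 22), two distinct blocks intersect in 0 or 2 points. -/
theorem result {α : Type*} [Fintype α] [DecidableEq α] (hα : Fintype.card α = 22) {B : Set (Finset α)} (hB : Cfsg.IsSteinerSystem 3 6 B) {b c : Finset α} (hb : b ∈ B) (hc : c ∈ B) (hbc : b ≠ c) : (b ∩ c).card = 0 ∨ (b ∩ c).card = 2 := by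
  have hbB : b ∈ Lib.Lead.blocks B := (Lib.Lead.mem_blocks B b).mpr hb
  have hcB : c ∈ Lib.Lead.blocks B := (Lib.Lead.mem_blocks B c).mpr hc
  have h1 := Lib.Lead.sum_choose_val hB hb 1 (by norm_num) 126 (by rw [hα]; decide) (by decide)
  have h2 := Lib.Lead.sum_choose_val hB hb 2 (by norm_num) 75 (by rw [hα]; decide) (by decide)
  have hsum : ∑ c ∈ Lib.Lead.blocks B, Lib.Lead.G3 (c ∩ b).card = Lib.Lead.G3 b.card := by
    rw [Lib.Lead.sum_G3, h1, h2, hB.1 b hb, Lib.Lead.G3_six]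
    norm_num
  have hlt : ∀ c ∈ Lib.Lead.blocks B, c ≠ b → (c ∩ b).card < 3 := fun c hc hcb =>
    Lib.Lead.inter_card_lt hB hb ((Lib.Lead.mem_blocks B c).mp hc) (Ne.symm hcb)
  have hz := Lib.Lead.test_function_zero (Lib.Lead.blocks B) b hbB Lib.Lead.G3 3
    Lib.Lead.G3_nonneg hlt hsum c hcB (Ne.symm hbc)
  rw [Finset.inter_comm]
  exact Lib.Lead.G3_zero _ (hlt c hcB (Ne.symm hbc)) hz

end Cfsg.Agent.S0356
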