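import Cfsg.Statements.S0357
import Mathlib
import Cfsg.Agent.Lib.Lead.SteinerCount
-- import your own Cfsg.Agent.* helpers here

set_option autoImplicit false
open Cfsg

namespace Cfsg.Agent.S0357

/-- In a Steiner system S(5, 6, 12), the complement of every block is again a block. -/
theorem result {α : Type*} [Fintype α] [DecidableEq α] (hα : Fintype.card α = 12) {B : Set (Finset α)} (hB : Cfsg.IsSteinerSystem 5 6 B) {b : Finset α} (hb : b ∈ B) : bᶜ ∈ B := by
  classical
  have hbB : b ∈ Lib.Lead.blocks B := (Lib.Lead.mem_blocks B b).mpr hb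
  have h0 := Lib.Lead.sum_choose_val hB hb 0 (by norm_num) 132 (by rw [hα]; decide) (by decide)
  have h1 := Lib.Lead.sum_choose_val hB hb 1 (by norm_num) 396 (by rw [hα]; decide) (by decide)
  have h2 := Lib.Lead.sum_choose_val hB hb 2 (by norm_num) 450 (by rw [hα]; decide) (by decide)
  have h3 := Lib.Lead.sum_choose_val hB hb 3 (by norm_num) 240 (by rw [hα]; decide) (by decide)
  have h4 := Lib.Lead.sum_choose_val hB hb 4 (by norm_num) 60 (by rw [hα]; decide) (by decide)
  have hsum : ∑ c ∈ (Lib.Lead.blocks B).erase b, Lib.Lead.K5 (c ∩ b).card = 1 := by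
    rw [Lib.Lead.sum_erase_eq _ _ hbB, Lib.Lead.sum_K5, h0, h1, h2, h3, h4, hB.1 b hb,
      Lib.Lead.K5_six]
    norm_num
  have hval : ∀ c ∈ (Lib.Lead.blocks B).erase b,
      Lib.Lead.K5 (c ∩ b).card = if (c ∩ b).card = 0 then 1 else 0 := by
    intro c hc
    have hcB : c ∈ B := (Lib.Lead.mem_blocks B c).mp (Finset.mem_of_mem_erase hc)
    have hne : c ≠ b := Finset.ne_of_mem_erase hc
    have hlt : (c ∩ b).card < 5 := Lib.Lead.inter_card_lt hB hb hcB (Ne.symm hne)
    exact Lib.Lead.K5_val _ hlt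
  rw [Finset.sum_congr rfl hval] at hsum
  have hex : ∃ c ∈ (Lib.Lead.blocks B).erase b, (c ∩ b).card = 0 := by
    by_contra hcon
    push Not at hcon
    rw [Finset.sum_eq_zero (fun c hc => if_neg (hcon c hc))] at hsum
    exact zero_ne_one hsum
  obtain ⟨c, hc, hc0⟩ := hex
  have hcB : c ∈ B := (Lib.Lead.mem_blocks B c).mp (Finset.mem_of_mem_erase hc)
  have hsub : c ⊆ bᶜ := by
    intro x hx
    rw [Finset.mem_compl]
    intro hxb
    have : x ∈ c ∩ b := Finset.mem_inter.mpr ⟨hx, hxb⟩
    rw [Finset.card_eq_zero.mp hc0] at this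
    simp at this
  have hcard : bᶜ.card ≤ c.card := by
    rw [Finset.card_compl, hα, hB.1 b hb, hB.1 c hcB]
  rw [← Finset.eq_of_subset_of_card_le hsub hcard]
  exact hcB

end Cfsg.Agent.S0357
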