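import Cfsg.Statements.S0360
import Mathlib
import Cfsg.Agent.Lib.Helper9.M24T
-- import your own Cfsg.Agent.* helpers here

set_option autoImplicit false
open Cfsg

namespace Cfsg.Agent.S0360

/-- There are exactly 759 octads (supports of weight-8 words) in the length-24 code. -/
theorem result : Cfsg.octads.ncard = 759 := by
  exact Cfsg.Agent.Lib.Helper9.M24T.card_octads

end Cfsg.Agent.S0360
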