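import Cfsg.Statements.S0362
import Mathlib
import Cfsg.Agent.Lib.Helper9.LeechNeg
-- import your own Cfsg.Agent.* helpers here

set_option autoImplicit false
open Cfsg

namespace Cfsg.Agent.S0362

/-- The length-24 code is self-orthogonal: the dot product over ZMod 2 of any two of its words vanishes (with dimension 12 this makes it self-dual). -/
theorem result (v w : Cfsg.GolayPt → ZMod 2) (hv : v ∈ Cfsg.golayCode) (hw : w ∈ Cfsg.golayCode) : ∑ i, v i * w i = 0 := by
  rw [Cfsg.Agent.Lib.Helper9.Golay.dot_eq]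
  have h := Cfsg.Agent.Lib.Helper9.LeechNeg.even_inter v w hv hw
  have h2 : (2 : ℕ) ∣ (Cfsg.Agent.Lib.Helper9.Golay.supp v ∩ Cfsg.Agent.Lib.Helper9.Golay.supp w).card :=
    Nat.dvd_of_mod_eq_zero h
  exact (ZMod.natCast_eq_zero_iff _ 2).mpr h2

end Cfsg.Agent.S0362
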