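import Cfsg.Statements.S0363
import Mathlib
import Cfsg.Agent.Lib.Helper9.Octad
-- import your own Cfsg.Agent.* helpers here

set_option autoImplicit false
open Cfsg

namespace Cfsg.Agent.S0363

/-- The octads of the length-24 code form a Steiner system S(5, 8, 24) on the 24 points. -/
theorem result : Cfsg.IsSteinerSystem 5 8 Cfsg.octads := by
  refine ⟨fun b hb => hb.2, fun s hs => ?_⟩
  obtain ⟨o, ho, hso⟩ := Cfsg.Agent.Lib.Helper9.Octad.exists_octad5 s hs
  refine ⟨o, ⟨ho, hso⟩, ?_⟩
  rintro o' ⟨ho', hso'⟩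
  have hsub : s ⊆ o' ∩ o := Finset.subset_inter hso' hso
  have hc := Finset.card_le_card hsub
  rcases Cfsg.Agent.Lib.Helper9.Octad.inter_cases ho' ho with h | h | h | h
  · omega
  · omega
  · omega
  · exact h

end Cfsg.Agent.S0363
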