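import Cfsg.Statements.S0366
import Mathlib
import Cfsg.Agent.Lib.Helper9.M24T
-- import your own Cfsg.Agent.* helpers here

set_option autoImplicit false
open Cfsg

namespace Cfsg.Agent.S0366

/-- The permutation group preserving the length-24 code is 5-transitive on the 24 points. -/
theorem result : MulAction.IsMultiplyPretransitive Cfsg.M24 Cfsg.GolayPt 5 := by
  rw [MulAction.isMultiplyPretransitive_iff]
  intro x y
  obtain ⟨g, hg, h⟩ := Cfsg.Agent.Lib.Helper9.M24T.five_trans x y
  refine ⟨⟨g, hg⟩, ?_⟩
  apply DFunLike.ext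
  intro i
  exact h i

end Cfsg.Agent.S0366
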