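import Cfsg.Statements.S0367
import Mathlib
import Cfsg.Agent.Lib.Helper9.M24T
-- import your own Cfsg.Agent.* helpers here

set_option autoImplicit false
open scoped Pointwise
open Cfsg

namespace Cfsg.Agent.S0367

/-- The permutation group preserving the length-24 code is transitive on octads. -/
theorem result (o o' : Finset Cfsg.GolayPt) (ho : o ∈ Cfsg.octads) (ho' : o' ∈ Cfsg.octads) : ∃ g : Cfsg.M24, g • o = o' := by
  obtain ⟨g1, hg1, h1⟩ := Cfsg.Agent.Lib.Helper9.M24T.octad_trans o ho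
  obtain ⟨g2, hg2, h2⟩ := Cfsg.Agent.Lib.Helper9.M24T.octad_trans o' ho'
  refine ⟨⟨g2 * g1⁻¹, mul_mem hg2 (inv_mem hg1)⟩, ?_⟩
  show (g2 * g1⁻¹) • o = o'
  rw [← h1, ← h2, mul_smul, inv_smul_smul]

end Cfsg.Agent.S0367
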