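import Cfsg.Statements.S0376
import Mathlib
import Cfsg.Agent.Lib.Helper9.M24T
-- import your own Cfsg.Agent.* helpers here

set_option autoImplicit false
open Cfsg

namespace Cfsg.Agent.S0376

/-- A point stabiliser in the group of the length-24 code has order 10200960 = 2^7·3^2·5·7·11·23. -/
theorem result (p : Cfsg.GolayPt) : Nat.card (MulAction.stabilizer Cfsg.M24 p) = 10200960 := by
  have h1 := Subgroup.card_mul_index (MulAction.stabilizer Cfsg.M24 p)
  rw [MulAction.index_stabilizer_of_transitive, Cfsg.Agent.Lib.Helper9.M24B.card_M24] at h1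
  have h2 : Nat.card Cfsg.GolayPt = 24 := by
    rw [Nat.card_eq_fintype_card, Cfsg.Agent.Lib.Helper9.GolayC.card_pts]
  rw [h2] at h1
  omega

end Cfsg.Agent.S0376
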