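import Cfsg.Statements.S0378
import Mathlib
import Cfsg.Agent.Lib.Helper9.M24T
-- import your own Cfsg.Agent.* helpers here

set_option autoImplicit false
open Cfsg

namespace Cfsg.Agent.S0378

/-- A two-point stabiliser in the group of the length-24 code has order 443520 = 2^7·3^2·5·7·11. -/
theorem result (p q : Cfsg.GolayPt) (hpq : p ≠ q) : Nat.card ↥(MulAction.stabilizer Cfsg.M24 p ⊓ MulAction.stabilizer Cfsg.M24 q) = 443520 := by
  obtain ⟨g, hg, hgx⟩ := Cfsg.Agent.Lib.Helper9.M24T.exists_tuple 2 (by norm_num)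
    (fun i => if i = 0 then p else q) (by
      intro i hi j hj hij
      interval_cases i <;> interval_cases j <;> simp_all)
  have h1 := Cfsg.Agent.Lib.Helper9.M24T.card_fix 2 _ g hg hgx
  rw [Cfsg.Agent.Lib.Helper9.M24B.card_G2] at h1
  rw [← h1]
  apply Nat.card_congr
  exact
    { toFun := fun h => ⟨h.1.1, h.1.2, fun i hi => by
        interval_cases i
        · exact h.2.1
        · exact h.2.2⟩
      invFun := fun y => ⟨⟨y.1, y.2.1⟩, y.2.2 0 (by norm_num), y.2.2 1 (by norm_num)⟩
      left_inv := fun _ => rfl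
      right_inv := fun _ => rfl }

end Cfsg.Agent.S0378
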