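import Cfsg.Statements.S0381
import Mathlib
import Cfsg.Agent.Lib.Helper9.M24T
-- import your own Cfsg.Agent.* helpers here

set_option autoImplicit false
open Cfsg

namespace Cfsg.Agent.S0381

/-- The pointwise stabiliser of an octad in the group of the length-24 code has order 16 and every element of it squares to the identity. -/
theorem result (o : Finset Cfsg.GolayPt) (ho : o ∈ Cfsg.octads) : Nat.card ↥(Cfsg.M24 ⊓ fixingSubgroup (Equiv.Perm Cfsg.GolayPt) (o : Set Cfsg.GolayPt)) = 16 ∧ ∀ g ∈ Cfsg.M24 ⊓ fixingSubgroup (Equiv.Perm Cfsg.GolayPt) (o : Set Cfsg.GolayPt), g * g = 1 := by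
  obtain ⟨g0, hg0, rfl⟩ := Cfsg.Agent.Lib.Helper9.M24T.octad_trans o ho
  constructor
  · rw [← Cfsg.Agent.Lib.Helper9.M24B.card_G6]
    apply Nat.card_congr
    exact
      { toFun := fun h => ⟨g0⁻¹ * h.1 * g0, (Cfsg.Agent.Lib.Helper9.M24T.octad_fix_conj g0 hg0 h.1).mp h.2⟩
        invFun := fun y => ⟨g0 * y.1 * g0⁻¹, by
          rw [Cfsg.Agent.Lib.Helper9.M24T.octad_fix_conj g0 hg0]
          have : g0⁻¹ * (g0 * y.1 * g0⁻¹) * g0 = y.1 := by group
          rw [this]
          exact y.2⟩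
        left_inv := fun h => by
          apply Subtype.ext
          show g0 * (g0⁻¹ * h.1 * g0) * g0⁻¹ = h.1
          group
        right_inv := fun y => by
          apply Subtype.ext
          show g0⁻¹ * (g0 * y.1 * g0⁻¹) * g0 = y.1
          group }
  · intro g hg
    have h1 := Cfsg.Agent.Lib.Helper9.M24T.Gk6_sq _ ((Cfsg.Agent.Lib.Helper9.M24T.octad_fix_conj g0 hg0 g).mp hg)
    have h2 : g * g = g0 * ((g0⁻¹ * g * g0) * (g0⁻¹ * g * g0)) * g0⁻¹ := by group
    rw [h2, h1]
    group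

end Cfsg.Agent.S0381
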