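import Cfsg.Statements.S0392
import Mathlib
import Cfsg.Agent.Lib.Helper9.Leech
-- import your own Cfsg.Agent.* helpers here

set_option autoImplicit false
open Cfsg

namespace Cfsg.Agent.S0392

/-- Sum of squares of every lattice vector is divisible by 16 (even lattice at scale 1/8). -/
theorem result (x : Cfsg.GolayPt → ℤ) (hx : x ∈ Cfsg.leechLattice) : (16 : ℤ) ∣ Cfsg.sqNorm x := by
  classical
  rw [Cfsg.Agent.Lib.Helper9.Leech.mem_lattice, Cfsg.Agent.Lib.Helper9.Leech.mem_leechSet] at hx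
  obtain ⟨m, h1, h2, h3⟩ := hx
  unfold Cfsg.sqNorm
  have hcard : (Finset.univ : Finset Cfsg.GolayPt).card = 24 := by
    rw [Finset.card_univ]; rfl
  rcases Int.emod_two_eq_zero_or_one m with hm | hm
  · have hc := Cfsg.Agent.Lib.Helper9.Leech.card_cls x 2 (h3 2)
    have hterm : ∀ i ∈ (Finset.univ : Finset Cfsg.GolayPt), (16 : ℤ) ∣
        x i ^ 2 - (if i ∈ Cfsg.Agent.Lib.Helper9.Leech.cls x 2 then (4 : ℤ) else 0) := by
      intro i _
      have hi := h1 i
      split_ifs with hmem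
      · rw [Cfsg.Agent.Lib.Helper9.Leech.mem_cls] at hmem
        obtain ⟨t, ht⟩ : ∃ t, x i = 4 * t + 2 := ⟨x i / 4, by omega⟩
        rw [ht]
        exact ⟨t ^ 2 + t, by ring⟩
      · rw [Cfsg.Agent.Lib.Helper9.Leech.mem_cls] at hmem
        obtain ⟨t, ht⟩ : ∃ t, x i = 4 * t := ⟨x i / 4, by omega⟩
        rw [ht]
        exact ⟨t ^ 2, by ring⟩
    have hsum := Finset.dvd_sum hterm
    rw [Finset.sum_sub_distrib, Cfsg.Agent.Lib.Helper9.Leech.sum_ind] at hsum
    rcases hc with hc | hc | hc | hc | hc <;> rw [hc] at hsum <;> push_cast at hsum <;> omega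
  · have hc := Cfsg.Agent.Lib.Helper9.Leech.card_cls x 1 (h3 1)
    have hex : ∀ i, ∃ t : ℤ, x i =
        ((if i ∈ Cfsg.Agent.Lib.Helper9.Leech.cls x 1 then (2 : ℤ) else 0) - 1) + 4 * t := by
      intro i
      have hi := h1 i
      split_ifs with hmem
      · rw [Cfsg.Agent.Lib.Helper9.Leech.mem_cls] at hmem
        exact ⟨x i / 4, by omega⟩
      · rw [Cfsg.Agent.Lib.Helper9.Leech.mem_cls] at hmem
        exact ⟨(x i + 1) / 4, by omega⟩
    choose t ht using hex
    have hterm : ∀ i ∈ (Finset.univ : Finset Cfsg.GolayPt), (16 : ℤ) ∣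
        x i ^ 2 - (1 + 8 * t i) := by
      intro i _
      rw [ht i]
      split_ifs with hmem
      · exact ⟨t i ^ 2, by ring⟩
      · exact ⟨t i ^ 2 - t i, by ring⟩
    have hsum := Finset.dvd_sum hterm
    rw [Finset.sum_sub_distrib, Finset.sum_add_distrib, Finset.sum_const, hcard, ← Finset.mul_sum]
      at hsum
    have hs : ∑ i, x i = ∑ i, (((if i ∈ Cfsg.Agent.Lib.Helper9.Leech.cls x 1 then (2 : ℤ) else 0) - 1)
        + 4 * t i) := Finset.sum_congr rfl (fun i _ => ht i)
    rw [Finset.sum_add_distrib, Finset.sum_sub_distrib, Cfsg.Agent.Lib.Helper9.Leech.sum_ind,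
      Finset.sum_const, hcard, ← Finset.mul_sum] at hs
    simp only [nsmul_eq_mul, Nat.cast_ofNat, mul_one] at hs hsum
    rw [hs] at h2
    rcases hc with hc | hc | hc | hc | hc <;> rw [hc] at h2 <;> push_cast at h2 <;> omega

end Cfsg.Agent.S0392
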