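import Cfsg.Statements.S0427
import Mathlib
import Cfsg.Agent.Lib.Lead.SteinerCount
import Cfsg.Agent.S0356

set_option autoImplicit false
open Cfsg

namespace Cfsg.Agent.S0427

open Cfsg.Agent.Lib.Lead

section
variable {α : Type*} [Fintype α] [DecidableEq α]

theorem pairs27 (S : Finset (Finset α)) (b c : Finset α) :
    ∑ d ∈ S, (d ∩ b).card * (d ∩ c).card
      = ∑ p ∈ b, ∑ q ∈ c, (S.filter (fun d => p ∈ d ∧ q ∈ d)).card := by
  have h1 : ∀ d : Finset α, ∀ e : Finset α,
      (d ∩ e).card = ∑ p ∈ e, if p ∈ d then 1 else 0 := by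
    intro d e
    rw [← Finset.card_filter, Finset.inter_comm, Finset.filter_mem_eq_inter]
  have h2 : ∀ d ∈ S, (d ∩ b).card * (d ∩ c).card
      = ∑ p ∈ b, ∑ q ∈ c, if p ∈ d ∧ q ∈ d then 1 else 0 := by
    intro d _
    rw [h1 d b, h1 d c, Finset.sum_mul_sum]
    apply Finset.sum_congr rfl
    intro p _
    apply Finset.sum_congr rfl
    intro q _
    by_cases hp : p ∈ d <;> by_cases hq : q ∈ d <;> simp [hp, hq]
  rw [Finset.sum_congr rfl h2, Finset.sum_comm]
  apply Finset.sum_congr rfl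
  intro p _
  rw [Finset.sum_comm]
  apply Finset.sum_congr rfl
  intro q _
  rw [Finset.card_filter]

theorem lam27 (hα : Fintype.card α = 22) {B : Set (Finset α)}
    (hB : Cfsg.IsSteinerSystem 3 6 B) (p q : α) :
    ((blocks B).filter (fun d => p ∈ d ∧ q ∈ d)).card = if p = q then 21 else 5 := by
  have hfil : (blocks B).filter (fun d => p ∈ d ∧ q ∈ d)
      = (blocks B).filter (fun d => ({p, q} : Finset α) ⊆ d) := by
    apply Finset.filter_congr
    intro d _
    rw [Finset.insert_subset_iff, Finset.singleton_subset_iff]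
  rw [hfil]
  have h := Cfsg.Agent.Lib.Helper9.Steiner.steiner_count (blocks B) 3 6
    (steiner_blocks_card hB) (steiner_blocks_unique hB) ({p, q} : Finset α)
    (Finset.card_le_two.trans (by norm_num))
  by_cases hpq : p = q
  · rw [if_pos hpq]
    have hc : ({p, q} : Finset α).card = 1 := by rw [hpq]; simp
    rw [hc, hα] at h
    exact Nat.eq_of_mul_eq_mul_right (by decide : 0 < (6 - 1).choose (3 - 1))
      (h.trans (by decide : (22 - 1).choose (3 - 1) = 21 * (6 - 1).choose (3 - 1)))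
  · rw [if_neg hpq]
    have hc : ({p, q} : Finset α).card = 2 := Finset.card_pair hpq
    rw [hc, hα] at h
    exact Nat.eq_of_mul_eq_mul_right (by decide : 0 < (6 - 2).choose (3 - 2))
      (h.trans (by decide : (22 - 2).choose (3 - 2) = 5 * (6 - 2).choose (3 - 2)))

theorem xy27 (hα : Fintype.card α = 22) {B : Set (Finset α)}
    (hB : Cfsg.IsSteinerSystem 3 6 B) (b c : Finset α) (hb : b.card = 6) (hc : c.card = 6) :
    ∑ d ∈ blocks B, (d ∩ b).card * (d ∩ c).card = 180 + 16 * (b ∩ c).card := by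
  have e0 := pairs27 (blocks B) b c
  have h1 : ∀ p ∈ b, ∑ q ∈ c, ((blocks B).filter (fun d => p ∈ d ∧ q ∈ d)).card
      = c.card * 5 + 16 * (if p ∈ c then 1 else 0) := by
    intro p _
    have h2 : ∀ q ∈ c, ((blocks B).filter (fun d => p ∈ d ∧ q ∈ d)).card
        = 5 + 16 * (if q = p then 1 else 0) := by
      intro q _
      rw [lam27 hα hB p q]
      by_cases hpq : p = q
      · simp [hpq]
      · simp [hpq, Ne.symm hpq]
    rw [Finset.sum_congr rfl h2, Finset.sum_add_distrib, Finset.sum_const, ← Finset.mul_sum,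
      Finset.sum_ite_eq' c p, smul_eq_mul]
  have e1 : ∑ p ∈ b, ∑ q ∈ c, ((blocks B).filter (fun d => p ∈ d ∧ q ∈ d)).card
      = b.card * (c.card * 5) + 16 * (b ∩ c).card := by
    rw [Finset.sum_congr rfl h1, Finset.sum_add_distrib, Finset.sum_const, ← Finset.mul_sum,
      smul_eq_mul, ← Finset.card_filter, Finset.filter_mem_eq_inter]
  have e2 := e0.trans e1
  rw [hb, hc] at e2
  omega

theorem card27 (hα : Fintype.card α = 22) {B : Set (Finset α)}
    (hB : Cfsg.IsSteinerSystem 3 6 B) {b : Finset α} (hb : b ∈ B) : (blocks B).card = 77 := by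
  have h := sum_choose_val hB hb 0 (by norm_num) 77 (by rw [hα]; decide) (by decide)
  simpa using h

theorem sumx27 (hα : Fintype.card α = 22) {B : Set (Finset α)}
    (hB : Cfsg.IsSteinerSystem 3 6 B) {b : Finset α} (hb : b ∈ B) :
    ∑ d ∈ blocks B, (d ∩ b).card = 126 := by
  have h := sum_choose_val hB hb 1 (by norm_num) 126 (by rw [hα]; decide) (by decide)
  simpa using h

theorem deg27 (hα : Fintype.card α = 22) {B : Set (Finset α)}
    (hB : Cfsg.IsSteinerSystem 3 6 B) {b : Finset α} (hb : b ∈ B) :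
    ((blocks B).filter (fun d => d ≠ b ∧ (d ∩ b).card = 0)).card = 16 := by
  have hbf := (mem_blocks B b).mpr hb
  have hb6 := hB.1 b hb
  have hcard := card27 hα hB hb
  have hx := sumx27 hα hB hb
  have hS : ∑ d ∈ blocks B, ((2 : ℤ) - ((d ∩ b).card : ℤ)) = 28 := by
    rw [Finset.sum_sub_distrib, Finset.sum_const, ← Nat.cast_sum, hx, hcard]
    simp only [nsmul_eq_mul]
    norm_num
  have hterm : ∀ d ∈ blocks B, ((2 : ℤ) - ((d ∩ b).card : ℤ))
      = 2 * (if d ≠ b ∧ (d ∩ b).card = 0 then 1 else 0) + (if d = b then -4 else 0) := by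
    intro d hd
    by_cases hdb : d = b
    · have hP : ¬ (d ≠ b ∧ (d ∩ b).card = 0) := fun h => h.1 hdb
      rw [if_neg hP, if_pos hdb, hdb, Finset.inter_self, hb6]
      norm_num
    · rcases Cfsg.Agent.S0356.result hα hB ((mem_blocks B d).mp hd) hb hdb with h | h
      · rw [if_pos ⟨hdb, h⟩, if_neg hdb, h]
        norm_num
      · have hP : ¬ (d ≠ b ∧ (d ∩ b).card = 0) := fun hP => by
          have h' := hP.2
          omega
        rw [if_neg hP, if_neg hdb, h]
        norm_num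
  rw [Finset.sum_congr rfl hterm, Finset.sum_add_distrib, ← Finset.mul_sum, Finset.sum_boole,
    Finset.sum_ite_eq' (blocks B) b, if_pos hbf] at hS
  have h2 : ((((blocks B).filter (fun d => d ≠ b ∧ (d ∩ b).card = 0)).card : ℕ) : ℤ) = 16 := by
    linarith
  exact_mod_cast h2

theorem n00_27 (hα : Fintype.card α = 22) {B : Set (Finset α)}
    (hB : Cfsg.IsSteinerSystem 3 6 B) {b c : Finset α} (hb : b ∈ B) (hc : c ∈ B)
    (hbc : b ≠ c) :
    ((blocks B).filter
        (fun d => d ≠ b ∧ d ≠ c ∧ (d ∩ b).card = 0 ∧ (d ∩ c).card = 0)).card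
      = 2 * (b ∩ c).card := by
  have hbf := (mem_blocks B b).mpr hb
  have hcf := (mem_blocks B c).mpr hc
  have hb6 := hB.1 b hb
  have hc6 := hB.1 c hc
  have hcard := card27 hα hB hb
  have hx := sumx27 hα hB hb
  have hy := sumx27 hα hB hc
  have hxy := xy27 hα hB b c hb6 hc6
  have hS : ∑ d ∈ blocks B, ((2 : ℤ) - ((d ∩ b).card : ℤ)) * (2 - ((d ∩ c).card : ℤ))
      = 16 * ((b ∩ c).card : ℤ) - 16 := by
    have e : ∀ d ∈ blocks B, ((2 : ℤ) - ((d ∩ b).card : ℤ)) * (2 - ((d ∩ c).card : ℤ))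
        = 4 - 2 * ((d ∩ b).card : ℤ) - 2 * ((d ∩ c).card : ℤ)
          + (((d ∩ b).card * (d ∩ c).card : ℕ) : ℤ) := by
      intro d _
      push_cast
      ring
    rw [Finset.sum_congr rfl e, Finset.sum_add_distrib, Finset.sum_sub_distrib,
      Finset.sum_sub_distrib, Finset.sum_const, ← Finset.mul_sum, ← Finset.mul_sum,
      ← Nat.cast_sum, ← Nat.cast_sum, ← Nat.cast_sum, hx, hy, hxy, hcard]
    simp only [nsmul_eq_mul]
    push_cast
    ring
  have hterm : ∀ d ∈ blocks B, ((2 : ℤ) - ((d ∩ b).card : ℤ)) * (2 - ((d ∩ c).card : ℤ))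
      = 4 * (if d ≠ b ∧ d ≠ c ∧ (d ∩ b).card = 0 ∧ (d ∩ c).card = 0 then 1 else 0)
        + (if d = b then -4 * (2 - ((b ∩ c).card : ℤ)) else 0)
        + (if d = c then -4 * (2 - ((b ∩ c).card : ℤ)) else 0) := by
    intro d hd
    by_cases hdb : d = b
    · have hP : ¬ (d ≠ b ∧ d ≠ c ∧ (d ∩ b).card = 0 ∧ (d ∩ c).card = 0) := fun h => h.1 hdb
      have hdc : ¬ d = c := fun h => hbc (hdb.symm.trans h)
      rw [if_neg hP, if_pos hdb, if_neg hdc, hdb, Finset.inter_self, hb6]
      push_cast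
      ring
    · by_cases hdc : d = c
      · have hP : ¬ (d ≠ b ∧ d ≠ c ∧ (d ∩ b).card = 0 ∧ (d ∩ c).card = 0) :=
          fun h => h.2.1 hdc
        rw [if_neg hP, if_neg hdb, if_pos hdc, hdc, Finset.inter_self, hc6,
          Finset.inter_comm c b]
        push_cast
        ring
      · have hdB := (mem_blocks B d).mp hd
        rcases Cfsg.Agent.S0356.result hα hB hdB hb hdb with h | h
        · rcases Cfsg.Agent.S0356.result hα hB hdB hc hdc with h' | h'
          · rw [if_pos ⟨hdb, hdc, h, h'⟩, if_neg hdb, if_neg hdc, h, h']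
            norm_num
          · have hP : ¬ (d ≠ b ∧ d ≠ c ∧ (d ∩ b).card = 0 ∧ (d ∩ c).card = 0) :=
              fun hP => by
                have h'' := hP.2.2.2
                omega
            rw [if_neg hP, if_neg hdb, if_neg hdc, h, h']
            norm_num
        · have hP : ¬ (d ≠ b ∧ d ≠ c ∧ (d ∩ b).card = 0 ∧ (d ∩ c).card = 0) :=
            fun hP => by
              have h'' := hP.2.2.1
              omega
          rw [if_neg hP, if_neg hdb, if_neg hdc, h]
          norm_num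
  rw [Finset.sum_congr rfl hterm, Finset.sum_add_distrib, Finset.sum_add_distrib,
    ← Finset.mul_sum, Finset.sum_boole, Finset.sum_ite_eq' (blocks B) b,
    Finset.sum_ite_eq' (blocks B) c, if_pos hbf, if_pos hcf] at hS
  have h2 : ((((blocks B).filter
      (fun d => d ≠ b ∧ d ≠ c ∧ (d ∩ b).card = 0 ∧ (d ∩ c).card = 0)).card : ℕ) : ℤ)
      = 2 * ((b ∩ c).card : ℤ) := by
    linarith
  exact_mod_cast h2

theorem conv27 (B : Set (Finset α)) (A : Set ↥B) (P : Finset α → Prop) [DecidablePred P]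
    (hA : ∀ u : ↥B, u ∈ A ↔ P u.1) : A.ncard = ((blocks B).filter P).card := by
  rw [← Set.ncard_image_of_injective A Subtype.val_injective, ← Set.ncard_coe_finset]
  congr 1
  ext c
  simp only [Set.mem_image, Finset.mem_coe, Finset.mem_filter, mem_blocks]
  constructor
  · rintro ⟨u, hu, rfl⟩
    exact ⟨u.2, (hA u).mp hu⟩
  · rintro ⟨hc, hP⟩
    exact ⟨⟨c, hc⟩, (hA ⟨c, hc⟩).mpr hP, rfl⟩

end

/-- The block graph (adjacent = disjoint) of an S(3, 6, 22) is strongly regular with parameters (77, 16, 0, 4). -/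
theorem result {α : Type*} [Fintype α] (hα : Fintype.card α = 22) {B : Set (Finset α)} (hB : Cfsg.IsSteinerSystem 3 6 B) [Fintype B] [DecidableRel (Cfsg.blockGraph B).Adj] : (Cfsg.blockGraph B).IsSRGWith 77 16 0 4 := by
  classical
  have adj_iff : ∀ u v : ↥B,
      (Cfsg.blockGraph B).Adj u v ↔ u.1 ≠ v.1 ∧ (v.1 ∩ u.1).card = 0 := by
    intro u v
    rw [Cfsg.blockGraph, SimpleGraph.fromRel_adj]
    have hd : Disjoint u.1 v.1 ↔ (v.1 ∩ u.1).card = 0 := by
      rw [Finset.card_eq_zero, Finset.inter_comm, Finset.disjoint_iff_inter_eq_empty]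
    constructor
    · rintro ⟨hne, h | h⟩
      · exact ⟨fun h' => hne (Subtype.ext h'), hd.mp h⟩
      · exact ⟨fun h' => hne (Subtype.ext h'), hd.mp h.symm⟩
    · rintro ⟨hne, h⟩
      exact ⟨fun h' => hne (congrArg Subtype.val h'), Or.inl (hd.mpr h)⟩
  have h3 : 3 ≤ (Finset.univ : Finset α).card := by
    rw [Finset.card_univ, hα]; norm_num
  obtain ⟨t, -, ht⟩ := Finset.exists_subset_card_eq h3
  obtain ⟨b0, ⟨hb0, -⟩, -⟩ := hB.2 t ht
  have hcn : ∀ v w : ↥B, v.1 ≠ w.1 →
      Nat.card ↥((Cfsg.blockGraph B).commonNeighbors v w) = 2 * (v.1 ∩ w.1).card := by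
    intro v w hvw
    have hA : ∀ u : ↥B, u ∈ (Cfsg.blockGraph B).commonNeighbors v w ↔
        (fun d : Finset α => d ≠ v.1 ∧ d ≠ w.1 ∧ (d ∩ v.1).card = 0 ∧ (d ∩ w.1).card = 0)
          u.1 := by
      intro u
      rw [SimpleGraph.mem_commonNeighbors, adj_iff, adj_iff]
      exact ⟨fun h => ⟨Ne.symm h.1.1, Ne.symm h.2.1, h.1.2, h.2.2⟩,
        fun h => ⟨⟨Ne.symm h.1, h.2.2.1⟩, ⟨Ne.symm h.2.1, h.2.2.2⟩⟩⟩
    rw [Nat.card_coe_set_eq, conv27 B _
      (fun d : Finset α => d ≠ v.1 ∧ d ≠ w.1 ∧ (d ∩ v.1).card = 0 ∧ (d ∩ w.1).card = 0) hA]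
    exact n00_27 hα hB v.2 w.2 hvw
  refine ⟨?_, ?_, ?_, ?_⟩
  · rw [Fintype.card_eq_nat_card, Nat.card_coe_set_eq, ncard_eq_card_blocks]
    exact card27 hα hB hb0
  · intro v
    have hA : ∀ u : ↥B, u ∈ (Cfsg.blockGraph B).neighborSet v ↔
        (fun d : Finset α => d ≠ v.1 ∧ (d ∩ v.1).card = 0) u.1 := by
      intro u
      rw [SimpleGraph.mem_neighborSet, adj_iff]
      exact ⟨fun h => ⟨Ne.symm h.1, h.2⟩, fun h => ⟨Ne.symm h.1, h.2⟩⟩
    rw [← SimpleGraph.card_neighborSet_eq_degree, Fintype.card_eq_nat_card,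
      Nat.card_coe_set_eq, conv27 B _
      (fun d : Finset α => d ≠ v.1 ∧ (d ∩ v.1).card = 0) hA]
    exact deg27 hα hB v.2
  · intro v w hadj
    have h := (adj_iff v w).mp hadj
    have e := hcn v w h.1
    rw [Finset.inter_comm, h.2] at e
    rw [Fintype.card_eq_nat_card]
    exact e
  · intro v w hvw hnadj
    have hne : v.1 ≠ w.1 := fun h => hvw (Subtype.ext h)
    have h0 : (w.1 ∩ v.1).card ≠ 0 := fun h => hnadj ((adj_iff v w).mpr ⟨hne, h⟩)
    rcases Cfsg.Agent.S0356.result hα hB w.2 v.2 (Ne.symm hne) with h | h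
    · exact absurd h h0
    · have e := hcn v w hne
      rw [Finset.inter_comm, h] at e
      rw [Fintype.card_eq_nat_card]
      exact e

end Cfsg.Agent.S0427
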