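import Cfsg.Statements.S0428
import Mathlib
import Cfsg.Agent.S0427

set_option autoImplicit false
open Cfsg

namespace Cfsg.Agent.S0428

open Cfsg.Agent.Lib.Lead

theorem ncard_filter28 {γ : Type*} [Fintype γ] (p : γ → Prop) [DecidablePred p] :
    {x : γ | p x}.ncard = (Finset.univ.filter p).card := by
  rw [← Set.ncard_coe_finset]
  congr 1
  ext x
  simp

open Classical in
theorem opt28 {γ δ : Type*} [Fintype γ] [Fintype δ] (A : Set (Option (γ ⊕ δ))) :
    A.ncard = (if none ∈ A then 1 else 0) + {a : γ | some (Sum.inl a) ∈ A}.ncard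
      + {b : δ | some (Sum.inr b) ∈ A}.ncard := by
  have h1 : A.ncard = (Finset.univ.filter (fun v => v ∈ A)).card :=
    ncard_filter28 (fun v => v ∈ A)
  rw [h1, ncard_filter28 (fun a : γ => some (Sum.inl a) ∈ A),
    ncard_filter28 (fun b : δ => some (Sum.inr b) ∈ A), Finset.card_filter, Finset.card_filter,
    Finset.card_filter, Fintype.sum_option, Fintype.sum_sum_type, add_assoc]

section
variable {α : Type*} [Fintype α] [DecidableEq α]

theorem filt_false28 (S : Finset (Finset α)) :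
    (S.filter (fun _ : Finset α => False)).card = 0 :=
  Finset.card_eq_zero.mpr (Finset.filter_eq_empty_iff.mpr (fun _ _ h => h))

theorem cnt28 (B : Set (Finset α)) [Fintype ↥B] (A : Set (Option (α ⊕ ↥B))) (e : ℕ)
    (P : Set α) (Q : Finset α → Prop) [DecidablePred Q]
    (h0 : (none ∈ A ∧ e = 1) ∨ (none ∉ A ∧ e = 0))
    (hP : ∀ a : α, some (Sum.inl a) ∈ A ↔ a ∈ P)
    (hQ : ∀ b : ↥B, some (Sum.inr b) ∈ A ↔ Q b.1) :
    A.ncard = e + P.ncard + ((blocks B).filter Q).card := by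
  rw [opt28 A]
  have h1 : {a : α | some (Sum.inl a) ∈ A} = P := by
    ext a
    exact hP a
  have h2 : {b : ↥B | some (Sum.inr b) ∈ A}.ncard = ((blocks B).filter Q).card :=
    Cfsg.Agent.S0427.conv27 B _ Q hQ
  rw [h1, h2]
  rcases h0 with ⟨hm, he⟩ | ⟨hm, he⟩
  · rw [if_pos hm, he]
  · rw [if_neg hm, he]

theorem q21 (hα : Fintype.card α = 22) {B : Set (Finset α)}
    (hB : Cfsg.IsSteinerSystem 3 6 B) (a : α) :
    ((blocks B).filter (fun d => a ∈ d)).card = 21 := by
  have h := Cfsg.Agent.S0427.lam27 hα hB a a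
  rw [if_pos rfl] at h
  rw [← h]
  congr 1
  apply Finset.filter_congr
  intro d _
  exact ⟨fun h => ⟨h, h⟩, fun h => h.1⟩

theorem q4_in (b : Finset α) (a : α) (ha : a ∈ b) (S : Finset (Finset α)) :
    (S.filter (fun d => a ∈ d ∧ (d ≠ b ∧ (d ∩ b).card = 0))).card = 0 := by
  rw [Finset.card_eq_zero, Finset.filter_eq_empty_iff]
  rintro d - ⟨had, -, h0⟩
  rw [Finset.card_eq_zero] at h0
  have h1 : a ∈ d ∩ b := Finset.mem_inter.mpr ⟨had, ha⟩
  rw [h0] at h1
  exact absurd h1 (by simp)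

theorem q4_out (hα : Fintype.card α = 22) {B : Set (Finset α)}
    (hB : Cfsg.IsSteinerSystem 3 6 B) {b : Finset α} (hb : b ∈ B) (a : α) (ha : a ∉ b) :
    ((blocks B).filter (fun d => a ∈ d ∧ (d ≠ b ∧ (d ∩ b).card = 0))).card = 6 := by
  have hb6 := hB.1 b hb
  have h21 := q21 hα hB a
  have hp := Cfsg.Agent.S0427.pairs27 (blocks B) {a} b
  rw [Finset.sum_singleton] at hp
  have h5 : ∀ q ∈ b, ((blocks B).filter (fun d => a ∈ d ∧ q ∈ d)).card = 5 := by
    intro q hq
    rw [Cfsg.Agent.S0427.lam27 hα hB a q, if_neg (fun h : a = q => ha (by rw [h]; exact hq))]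
  rw [Finset.sum_congr rfl h5, Finset.sum_const, hb6, smul_eq_mul] at hp
  have hterm : ∀ d ∈ blocks B, ((((d ∩ {a}).card * (d ∩ b).card : ℕ)) : ℤ)
      = 2 * (if a ∈ d then 1 else 0)
        - 2 * (if a ∈ d ∧ (d ≠ b ∧ (d ∩ b).card = 0) then 1 else 0) := by
    intro d hd
    by_cases had : a ∈ d
    · have hdb : d ≠ b := fun h => ha (by rw [← h]; exact had)
      have hda : d ∩ {a} = {a} := by
        ext x
        simp only [Finset.mem_inter, Finset.mem_singleton]
        constructor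
        · exact fun h => h.2
        · intro h
          exact ⟨by rw [h]; exact had, h⟩
      have h1 : (d ∩ {a}).card = 1 := by rw [hda, Finset.card_singleton]
      rcases Cfsg.Agent.S0356.result hα hB ((mem_blocks B d).mp hd) hb hdb with h | h
      · rw [if_pos had, if_pos ⟨had, hdb, h⟩, h1, h]
        norm_num
      · have hP : ¬ (a ∈ d ∧ (d ≠ b ∧ (d ∩ b).card = 0)) := fun hP => by
          have h' := hP.2.2
          omega
        rw [if_pos had, if_neg hP, h1, h]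
        norm_num
    · have h1 : (d ∩ {a}).card = 0 := by
        rw [Finset.card_eq_zero, Finset.eq_empty_iff_forall_notMem]
        intro x hx
        have h2 := Finset.mem_inter.mp hx
        rw [Finset.mem_singleton] at h2
        exact had (by rw [← h2.2]; exact h2.1)
      have hP : ¬ (a ∈ d ∧ (d ≠ b ∧ (d ∩ b).card = 0)) := fun hP => had hP.1
      rw [if_neg had, if_neg hP, h1]
      norm_num
  have hS : ((∑ d ∈ blocks B, (d ∩ {a}).card * (d ∩ b).card : ℕ) : ℤ)
      = ((6 * 5 : ℕ) : ℤ) := by rw [hp]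
  rw [Nat.cast_sum, Finset.sum_congr rfl hterm, Finset.sum_sub_distrib, ← Finset.mul_sum,
    ← Finset.mul_sum, Finset.sum_boole, Finset.sum_boole, h21] at hS
  have h2 : ((((blocks B).filter
      (fun d => a ∈ d ∧ (d ≠ b ∧ (d ∩ b).card = 0))).card : ℕ) : ℤ) = 6 := by
    push_cast at hS
    linarith
  exact_mod_cast h2

theorem q00 (hα : Fintype.card α = 22) {B : Set (Finset α)}
    (hB : Cfsg.IsSteinerSystem 3 6 B) {b c : Finset α} (hb : b ∈ B) (hc : c ∈ B)
    (hbc : b ≠ c) :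
    ((blocks B).filter (fun d => (d ≠ b ∧ (d ∩ b).card = 0)
      ∧ (d ≠ c ∧ (d ∩ c).card = 0))).card = 2 * (b ∩ c).card := by
  rw [← Cfsg.Agent.S0427.n00_27 hα hB hb hc hbc]
  congr 1
  apply Finset.filter_congr
  intro d _
  constructor
  · rintro ⟨⟨h1, h2⟩, h3, h4⟩
    exact ⟨h1, h3, h2, h4⟩
  · rintro ⟨h1, h3, h2, h4⟩
    exact ⟨⟨h1, h2⟩, h3, h4⟩

variable (B : Set (Finset α))

theorem adj_nn : ¬ (Cfsg.pointBlockGraph B).Adj none none := fun h => h.ne rfl

theorem adj_np (a : α) : (Cfsg.pointBlockGraph B).Adj none (some (Sum.inl a)) := by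
  rw [Cfsg.pointBlockGraph, SimpleGraph.fromRel_adj]
  exact ⟨by simp, Or.inl trivial⟩

theorem adj_pn (a : α) : (Cfsg.pointBlockGraph B).Adj (some (Sum.inl a)) none :=
  (adj_np B a).symm

theorem adj_nb (b : ↥B) : ¬ (Cfsg.pointBlockGraph B).Adj none (some (Sum.inr b)) := by
  rw [Cfsg.pointBlockGraph, SimpleGraph.fromRel_adj]
  rintro ⟨-, h | h⟩
  · exact h
  · exact h

theorem adj_bn (b : ↥B) : ¬ (Cfsg.pointBlockGraph B).Adj (some (Sum.inr b)) none :=
  fun h => adj_nb B b h.symm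

theorem adj_pp (a a' : α) :
    ¬ (Cfsg.pointBlockGraph B).Adj (some (Sum.inl a)) (some (Sum.inl a')) := by
  rw [Cfsg.pointBlockGraph, SimpleGraph.fromRel_adj]
  rintro ⟨-, h | h⟩
  · exact h
  · exact h

theorem adj_pb (a : α) (b : ↥B) :
    (Cfsg.pointBlockGraph B).Adj (some (Sum.inl a)) (some (Sum.inr b)) ↔ a ∈ b.1 := by
  rw [Cfsg.pointBlockGraph, SimpleGraph.fromRel_adj]
  constructor
  · rintro ⟨-, h | h⟩
    · exact h
    · exact h.elim
  · intro h
    exact ⟨by simp, Or.inl h⟩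

theorem adj_bp (a : α) (b : ↥B) :
    (Cfsg.pointBlockGraph B).Adj (some (Sum.inr b)) (some (Sum.inl a)) ↔ a ∈ b.1 := by
  rw [SimpleGraph.adj_comm]
  exact adj_pb B a b

theorem adj_bb (b c : ↥B) :
    (Cfsg.pointBlockGraph B).Adj (some (Sum.inr b)) (some (Sum.inr c))
      ↔ c.1 ≠ b.1 ∧ (c.1 ∩ b.1).card = 0 := by
  rw [Cfsg.pointBlockGraph, SimpleGraph.fromRel_adj]
  have hd : Disjoint b.1 c.1 ↔ (c.1 ∩ b.1).card = 0 := by
    rw [Finset.card_eq_zero, Finset.inter_comm, Finset.disjoint_iff_inter_eq_empty]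
  constructor
  · rintro ⟨hne, h | h⟩
    · exact ⟨fun h' => hne (by rw [Subtype.ext h']), hd.mp h⟩
    · exact ⟨fun h' => hne (by rw [Subtype.ext h']), hd.mp (Disjoint.symm h)⟩
  · rintro ⟨hne, h⟩
    exact ⟨fun h' => hne (congrArg Subtype.val (Sum.inr.inj (Option.some.inj h'))).symm,
      Or.inl (hd.mpr h)⟩

theorem deg_n (hα : Fintype.card α = 22) [Fintype ↥B] :
    ((Cfsg.pointBlockGraph B).neighborSet none).ncard = 22 := by
  have e := cnt28 B ((Cfsg.pointBlockGraph B).neighborSet none) 0 Set.univ (fun _ => False)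
    (Or.inr ⟨fun h => adj_nn B h, rfl⟩)
    (fun a => ⟨fun _ => Set.mem_univ a, fun _ => adj_np B a⟩)
    (fun b => ⟨fun h => adj_nb B b h, fun h => h.elim⟩)
  rw [Set.ncard_univ, Nat.card_eq_fintype_card, hα, filt_false28] at e
  omega

theorem deg_p (hα : Fintype.card α = 22) (hB : Cfsg.IsSteinerSystem 3 6 B) [Fintype ↥B]
    (a : α) : ((Cfsg.pointBlockGraph B).neighborSet (some (Sum.inl a))).ncard = 22 := by
  have e := cnt28 B ((Cfsg.pointBlockGraph B).neighborSet (some (Sum.inl a))) 1 ∅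
    (fun d => a ∈ d)
    (Or.inl ⟨adj_pn B a, rfl⟩)
    (fun x => ⟨fun h => (adj_pp B a x h).elim, fun h => by simp at h⟩)
    (fun c => ⟨fun h => (adj_pb B a c).mp h, fun h => (adj_pb B a c).mpr h⟩)
  rw [Set.ncard_empty, q21 hα hB a] at e
  omega

theorem deg_b (hα : Fintype.card α = 22) (hB : Cfsg.IsSteinerSystem 3 6 B) [Fintype ↥B]
    (b : ↥B) : ((Cfsg.pointBlockGraph B).neighborSet (some (Sum.inr b))).ncard = 22 := by
  have e := cnt28 B ((Cfsg.pointBlockGraph B).neighborSet (some (Sum.inr b))) 0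
    ((b.1 : Finset α) : Set α) (fun d => d ≠ b.1 ∧ (d ∩ b.1).card = 0)
    (Or.inr ⟨fun h => adj_bn B b h, rfl⟩)
    (fun a => ⟨fun h => (adj_bp B a b).mp h, fun h => (adj_bp B a b).mpr h⟩)
    (fun c => ⟨fun h => (adj_bb B b c).mp h, fun h => (adj_bb B b c).mpr h⟩)
  rw [Set.ncard_coe_finset, hB.1 b.1 b.2, Cfsg.Agent.S0427.deg27 hα hB b.2] at e
  omega

theorem cn_np [Fintype ↥B] (a : α) :
    ((Cfsg.pointBlockGraph B).commonNeighbors none (some (Sum.inl a))).ncard = 0 := by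
  have e := cnt28 B ((Cfsg.pointBlockGraph B).commonNeighbors none (some (Sum.inl a))) 0 ∅
    (fun _ => False)
    (Or.inr ⟨fun h => adj_nn B h.1, rfl⟩)
    (fun x => ⟨fun h => (adj_pp B a x h.2).elim, fun h => by simp at h⟩)
    (fun b => ⟨fun h => adj_nb B b h.1, fun h => h.elim⟩)
  rw [Set.ncard_empty, filt_false28] at e
  omega

theorem cn_nb (hB : Cfsg.IsSteinerSystem 3 6 B) [Fintype ↥B] (b : ↥B) :
    ((Cfsg.pointBlockGraph B).commonNeighbors none (some (Sum.inr b))).ncard = 6 := by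
  have e := cnt28 B ((Cfsg.pointBlockGraph B).commonNeighbors none (some (Sum.inr b))) 0
    ((b.1 : Finset α) : Set α) (fun _ => False)
    (Or.inr ⟨fun h => adj_nn B h.1, rfl⟩)
    (fun a => ⟨fun h => (adj_bp B a b).mp h.2,
      fun h => ⟨adj_np B a, (adj_bp B a b).mpr h⟩⟩)
    (fun c => ⟨fun h => adj_nb B c h.1, fun h => h.elim⟩)
  rw [Set.ncard_coe_finset, hB.1 b.1 b.2, filt_false28] at e
  omega

theorem cn_pp (hα : Fintype.card α = 22) (hB : Cfsg.IsSteinerSystem 3 6 B) [Fintype ↥B]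
    (a a' : α) (h : a ≠ a') :
    ((Cfsg.pointBlockGraph B).commonNeighbors (some (Sum.inl a)) (some (Sum.inl a'))).ncard
      = 6 := by
  have e := cnt28 B
    ((Cfsg.pointBlockGraph B).commonNeighbors (some (Sum.inl a)) (some (Sum.inl a'))) 1 ∅
    (fun d => a ∈ d ∧ a' ∈ d)
    (Or.inl ⟨⟨adj_pn B a, adj_pn B a'⟩, rfl⟩)
    (fun x => ⟨fun h => (adj_pp B a x h.1).elim, fun h => by simp at h⟩)
    (fun c => ⟨fun h => ⟨(adj_pb B a c).mp h.1, (adj_pb B a' c).mp h.2⟩,
      fun h => ⟨(adj_pb B a c).mpr h.1, (adj_pb B a' c).mpr h.2⟩⟩)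
  rw [Set.ncard_empty, Cfsg.Agent.S0427.lam27 hα hB a a', if_neg h] at e
  omega

theorem cn_pb [Fintype ↥B] (a : α) (b : ↥B) :
    ((Cfsg.pointBlockGraph B).commonNeighbors (some (Sum.inl a)) (some (Sum.inr b))).ncard
      = ((blocks B).filter (fun d => a ∈ d ∧ (d ≠ b.1 ∧ (d ∩ b.1).card = 0))).card := by
  have e := cnt28 B
    ((Cfsg.pointBlockGraph B).commonNeighbors (some (Sum.inl a)) (some (Sum.inr b))) 0 ∅
    (fun d => a ∈ d ∧ (d ≠ b.1 ∧ (d ∩ b.1).card = 0))
    (Or.inr ⟨fun h => adj_bn B b h.2, rfl⟩)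
    (fun x => ⟨fun h => (adj_pp B a x h.1).elim, fun h => by simp at h⟩)
    (fun c => ⟨fun h => ⟨(adj_pb B a c).mp h.1, (adj_bb B b c).mp h.2⟩,
      fun h => ⟨(adj_pb B a c).mpr h.1, (adj_bb B b c).mpr h.2⟩⟩)
  rw [Set.ncard_empty] at e
  omega

theorem cn_bb (hα : Fintype.card α = 22) (hB : Cfsg.IsSteinerSystem 3 6 B) [Fintype ↥B]
    (b c : ↥B) (h : b.1 ≠ c.1) :
    ((Cfsg.pointBlockGraph B).commonNeighbors (some (Sum.inr b)) (some (Sum.inr c))).ncard
      = 3 * (b.1 ∩ c.1).card := by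
  have e := cnt28 B
    ((Cfsg.pointBlockGraph B).commonNeighbors (some (Sum.inr b)) (some (Sum.inr c))) 0
    ((b.1 ∩ c.1 : Finset α) : Set α)
    (fun d => (d ≠ b.1 ∧ (d ∩ b.1).card = 0) ∧ (d ≠ c.1 ∧ (d ∩ c.1).card = 0))
    (Or.inr ⟨fun h' => adj_bn B b h'.1, rfl⟩)
    (fun a => ⟨fun h' => Finset.mem_coe.mpr (Finset.mem_inter.mpr
        ⟨(adj_bp B a b).mp h'.1, (adj_bp B a c).mp h'.2⟩),
      fun h' => ⟨(adj_bp B a b).mpr (Finset.mem_inter.mp (Finset.mem_coe.mp h')).1,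
        (adj_bp B a c).mpr (Finset.mem_inter.mp (Finset.mem_coe.mp h')).2⟩⟩)
    (fun d => ⟨fun h' => ⟨(adj_bb B b d).mp h'.1, (adj_bb B c d).mp h'.2⟩,
      fun h' => ⟨(adj_bb B b d).mpr h'.1, (adj_bb B c d).mpr h'.2⟩⟩)
  rw [Set.ncard_coe_finset, q00 hα hB b.2 c.2 h] at e
  omega

end

/-- The point-block graph of an S(3, 6, 22) is strongly regular with parameters (100, 22, 0, 6). -/
theorem result {α : Type*} [Fintype α] (hα : Fintype.card α = 22) {B : Set (Finset α)} (hB : Cfsg.IsSteinerSystem 3 6 B) [Fintype B] [DecidableRel (Cfsg.pointBlockGraph B).Adj] : (Cfsg.pointBlockGraph B).IsSRGWith 100 22 0 6 := by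
  classical
  have h3 : 3 ≤ (Finset.univ : Finset α).card := by
    rw [Finset.card_univ, hα]; norm_num
  obtain ⟨t, -, ht⟩ := Finset.exists_subset_card_eq h3
  obtain ⟨b0, ⟨hb0, -⟩, -⟩ := hB.2 t ht
  have hBcard : Fintype.card ↥B = 77 := by
    rw [Fintype.card_eq_nat_card, Nat.card_coe_set_eq, ncard_eq_card_blocks]
    exact Cfsg.Agent.S0427.card27 hα hB hb0
  refine ⟨?_, ?_, ?_, ?_⟩
  · have e : Fintype.card (Option (α ⊕ ↥B)) = Fintype.card α + Fintype.card ↥B + 1 := by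
      rw [Fintype.card_option, Fintype.card_sum]
    omega
  · intro v
    rw [← SimpleGraph.card_neighborSet_eq_degree, Fintype.card_eq_nat_card,
      Nat.card_coe_set_eq]
    rcases v with _ | a | b
    · exact deg_n B hα
    · exact deg_p B hα hB a
    · exact deg_b B hα hB b
  · intro v w hadj
    rw [Fintype.card_eq_nat_card, Nat.card_coe_set_eq]
    rcases v with _ | a | b <;> rcases w with _ | a' | c
    · exact absurd hadj (adj_nn B)
    · exact cn_np B a'
    · exact absurd hadj (adj_nb B c)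
    · rw [SimpleGraph.commonNeighbors_symm]
      exact cn_np B a
    · exact absurd hadj (adj_pp B a a')
    · rw [cn_pb B a c]
      exact q4_in c.1 a ((adj_pb B a c).mp hadj) _
    · exact absurd hadj (adj_bn B b)
    · rw [SimpleGraph.commonNeighbors_symm, cn_pb B a' b]
      exact q4_in b.1 a' ((adj_bp B a' b).mp hadj) _
    · have h := (adj_bb B b c).mp hadj
      have e := cn_bb B hα hB b c (Ne.symm h.1)
      rw [Finset.inter_comm, h.2] at e
      omega
  · intro v w hvw hnadj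
    rw [Fintype.card_eq_nat_card, Nat.card_coe_set_eq]
    rcases v with _ | a | b <;> rcases w with _ | a' | c
    · exact absurd rfl hvw
    · exact absurd (adj_np B a') hnadj
    · exact cn_nb B hB c
    · exact absurd (adj_pn B a) hnadj
    · exact cn_pp B hα hB a a' (fun h => hvw (by rw [h]))
    · rw [cn_pb B a c]
      exact q4_out hα hB c.2 a (fun h => hnadj ((adj_pb B a c).mpr h))
    · rw [SimpleGraph.commonNeighbors_symm]
      exact cn_nb B hB b
    · rw [SimpleGraph.commonNeighbors_symm, cn_pb B a' b]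
      exact q4_out hα hB b.2 a' (fun h => hnadj ((adj_bp B a' b).mpr h))
    · have hne : b.1 ≠ c.1 := fun h => hvw (by rw [Subtype.ext h])
      have h0 : (c.1 ∩ b.1).card ≠ 0 :=
        fun h => hnadj ((adj_bb B b c).mpr ⟨Ne.symm hne, h⟩)
      rcases Cfsg.Agent.S0356.result hα hB c.2 b.2 (Ne.symm hne) with h | h
      · exact absurd h h0
      · have e := cn_bb B hα hB b c hne
        rw [Finset.inter_comm, h] at e
        omega

end Cfsg.Agent.S0428
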