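import Cfsg.Statements.S0432
import Mathlib
import Cfsg.Agent.Lib.Helper9.Leech
-- import your own Cfsg.Agent.* helpers here

set_option autoImplicit false
open Cfsg

namespace Cfsg.Agent.S0432

/-- Coordinate permutations from the code's group preserve the lattice. -/
theorem result (σ : Equiv.Perm Cfsg.GolayPt) (hσ : σ ∈ Cfsg.M24) (x : Cfsg.GolayPt → ℤ) (hx : x ∈ Cfsg.leechLattice) : (fun i => x (σ i)) ∈ Cfsg.leechLattice := by
  open Pointwise in
  have hinv : σ⁻¹ • Cfsg.supports (Cfsg.golayCode : Set (Cfsg.GolayPt → ZMod 2))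
      = Cfsg.supports (Cfsg.golayCode : Set (Cfsg.GolayPt → ZMod 2)) :=
    MulAction.mem_stabilizer_iff.1 (Subgroup.inv_mem _ hσ)
  rw [Lib.Helper9.Leech.mem_lattice] at hx ⊢
  obtain ⟨m, h1, h2, h3⟩ := hx
  refine ⟨m, fun i => h1 (σ i), ?_, fun k => ?_⟩
  · rw [Equiv.sum_comp σ x]; exact h2
  · have h4 := h3 k
    open Pointwise in
    have hset : (Finset.univ.filter fun i => x (σ i) ≡ k [ZMOD 4])
        = σ⁻¹ • (Finset.univ.filter fun i => x i ≡ k [ZMOD 4]) := by
      ext i
      rw [Finset.mem_inv_smul_finset_iff]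
      simp [Finset.mem_filter]
    rw [hset, ← hinv]
    exact Set.smul_mem_smul_set h4

end Cfsg.Agent.S0432
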