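import Cfsg.Statements.S0433
import Mathlib
import Cfsg.Agent.Lib.Helper9.LeechNeg
-- import your own Cfsg.Agent.* helpers here

set_option autoImplicit false
open Cfsg

namespace Cfsg.Agent.S0433

/-- Sign changes on the support of a codeword preserve the lattice. -/
theorem result (c : Finset Cfsg.GolayPt) (hc : c ∈ Cfsg.supports (Cfsg.golayCode : Set (Cfsg.GolayPt → ZMod 2))) (x : Cfsg.GolayPt → ℤ) (hx : x ∈ Cfsg.leechLattice) : (fun i => if i ∈ c then -x i else x i) ∈ Cfsg.leechLattice := by
  classical
  rw [Lib.Helper9.Leech.mem_lattice] at hx ⊢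
  have hc' : Lib.Helper9.Golay.ind c ∈ Cfsg.golayCode := (Lib.Helper9.Leech.mem_supports c).1 hc
  have hsum := Lib.Helper9.LeechNeg.sum_supp_mod4 x hx (Lib.Helper9.Golay.ind c) hc'
  rw [Lib.Helper9.Golay.supp_ind] at hsum
  rw [Lib.Helper9.Leech.mem_leechSet] at hx ⊢
  obtain ⟨m, h1, h2, h3⟩ := hx
  refine ⟨m, fun i => ?_, ?_, fun k => ?_⟩
  · have := h1 i
    by_cases hi : i ∈ c
    · simp only [if_pos hi]; omega
    · simp only [if_neg hi]; exact this
  · have e : ∑ i, (if i ∈ c then -x i else x i) = ∑ i, x i - 2 * ∑ i ∈ c, x i := by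
      have : ∀ i, (if i ∈ c then -x i else x i) = x i - 2 * (if i ∈ c then x i else 0) := by
        intro i; split_ifs <;> ring
      simp_rw [this]
      rw [Finset.sum_sub_distrib, ← Finset.mul_sum, Finset.sum_ite_mem, Finset.univ_inter]
    rw [e]
    omega
  · have e : Lib.Helper9.Golay.ind
          (Lib.Helper9.Leech.cls (fun i => if i ∈ c then -x i else x i) k)
        = Lib.Helper9.Golay.ind (Lib.Helper9.Leech.cls x k)
          + (if m % 2 = 1 ∧ k % 2 = 1 then Lib.Helper9.Golay.ind c else 0) := by
      funext i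
      rw [Pi.add_apply, Lib.Helper9.Leech.ind_cls, Lib.Helper9.Leech.ind_cls]
      have hi := h1 i
      by_cases hic : i ∈ c
      · simp only [if_pos hic]
        by_cases hmk : m % 2 = 1 ∧ k % 2 = 1
        · rw [if_pos hmk]
          have hci : Lib.Helper9.Golay.ind c i = 1 := by
            unfold Lib.Helper9.Golay.ind; rw [if_pos hic]
          rw [hci]
          obtain ⟨hm1, hk1⟩ := hmk
          by_cases hxk : x i % 4 = k % 4
          · rw [if_pos hxk, if_neg (by omega)]; decide
          · rw [if_neg hxk, if_pos (by omega)]; decide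
        · rw [if_neg hmk, Pi.zero_apply, add_zero]
          by_cases hxk : x i % 4 = k % 4
          · rw [if_pos hxk, if_pos (by omega)]
          · rw [if_neg hxk, if_neg (by omega)]
      · simp only [if_neg hic]
        by_cases hmk : m % 2 = 1 ∧ k % 2 = 1
        · rw [if_pos hmk]
          have hci : Lib.Helper9.Golay.ind c i = 0 := by
            unfold Lib.Helper9.Golay.ind; rw [if_neg hic]
          rw [hci, add_zero]
        · rw [if_neg hmk, Pi.zero_apply, add_zero]
    rw [e]
    split_ifs
    · exact Cfsg.golayCode.add_mem (h3 k) hc'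
    · rw [add_zero]; exact h3 k

end Cfsg.Agent.S0433
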