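import Mathlib
import Cfsg.Statements.S0439

set_option autoImplicit false
open Cfsg

namespace Cfsg.Agent.S0439

open Equiv Equiv.Perm

theorem swap_prod {α : Type*} [Fintype α] [DecidableEq α] {σ τ : Perm α} (hσ : σ.IsSwap)
    (hτ : τ.IsSwap) : (σ * τ) ^ 2 = 1 ∨ (σ * τ) ^ 3 = 1 := by
  obtain ⟨x, y, hxy, rfl⟩ := hσ
  obtain ⟨z, w, hzw, rfl⟩ := hτ
  have three : ∀ {a b c : α}, a ≠ b → a ≠ c → b ≠ c → (swap a b * swap a c) ^ 3 = 1 := by
    intro a b c ab ac bc
    have := (isThreeCycle_swap_mul_swap_same ab ac bc).orderOf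
    rw [← this]; exact pow_orderOf_eq_one _
  by_cases hzx : z = x
  · subst hzx
    by_cases hwy : w = y
    · subst hwy
      left; rw [swap_mul_self]; simp
    · right; exact three hxy hzw (Ne.symm hwy)
  by_cases hzy : z = y
  · subst hzy
    by_cases hwx : w = x
    · subst hwx
      left; rw [swap_comm z w, swap_mul_self]; simp
    · right
      rw [swap_comm x z]
      exact three (Ne.symm hxy) hzw (Ne.symm hwx)
  by_cases hwx : w = x
  · subst hwx
    right
    rw [swap_comm z w]
    exact three hxy (Ne.symm hzw) (Ne.symm hzy)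
  by_cases hwy : w = y
  · subst hwy
    right
    rw [swap_comm x w, swap_comm z w]
    exact three (Ne.symm hxy) (Ne.symm hzw) (Ne.symm hzx)
  left
  have hd : (swap x y).Disjoint (swap z w) := by
    apply disjoint_swap_swap
    simp only [List.nodup_cons, List.mem_cons, List.not_mem_nil, or_false, not_or,
      List.nodup_nil, and_true, not_false_eq_true]
    exact ⟨⟨hxy, Ne.symm hzx, Ne.symm hwx⟩, ⟨Ne.symm hzy, Ne.symm hwy⟩, hzw⟩
  rw [hd.commute.mul_pow, pow_two, pow_two, swap_mul_self, swap_mul_self, one_mul]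

/-- In the symmetric group of degree n ≥ 2, the set of transpositions is a conjugacy class of 3-transpositions which generates the group. -/
theorem result (n : ℕ) (hn : 2 ≤ n) : Cfsg.IsThreeTranspositionClass {σ : Equiv.Perm (Fin n) | σ.IsSwap} := by
  refine ⟨⟨fun d hd => hd.orderOf, fun d hd e he => swap_prod hd he⟩, ?_, closure_isSwap⟩
  have h01 : (⟨0, by omega⟩ : Fin n) ≠ ⟨1, by omega⟩ := by
    intro h; simp [Fin.ext_iff] at h
  refine ⟨swap ⟨0, by omega⟩ ⟨1, by omega⟩, ⟨_, _, h01, rfl⟩, ?_⟩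
  ext σ
  simp only [Set.mem_setOf_eq, conjugatesOf]
  rw [isConj_iff_cycleType_eq, isSwap_iff_cycleType]
  have : (swap (⟨0, by omega⟩ : Fin n) ⟨1, by omega⟩).cycleType = {2} :=
    isSwap_iff_cycleType.mp ⟨_, _, h01, rfl⟩
  rw [this]
  exact eq_comm

end Cfsg.Agent.S0439
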