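import Cfsg.Statements.S0440
import Mathlib
import Cfsg.Statements.S0440
import Cfsg.Agent.S0765
import Cfsg.Agent.S0828

set_option autoImplicit false
open Cfsg
open scoped commutatorElement

namespace Cfsg.Agent.S0440

open Matrix Cfsg.Agent.Lib.Helper1 Cfsg.Agent.S0766 Cfsg.Agent.S0765 Cfsg.Agent.S0828
open Module

theorem z2_40 : ∀ c : ZMod 2, c ≠ 0 → c = 1 := by decide

theorem z2neg40 : ∀ c : ZMod 2, -c = c := by decide

theorem ext_mulVec40 {R n : Type*} [CommRing R] [Fintype n] [DecidableEq n] (M N : Matrix n n R)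
    (h : ∀ v, M *ᵥ v = N *ᵥ v) : M = N := by
  ext i j
  have h1 := congrFun (h (Pi.single j 1)) i
  rwa [Matrix.mulVec_single_one, Matrix.mulVec_single_one] at h1

def tau40 (n : ℕ) (w : Fin n ⊕ Fin n → ZMod 2) : Matrix.symplecticGroup (Fin n) (ZMod 2) :=
  ⟨sympTransvection n w 1, sympTransvection_mem n w 1⟩

theorem tau_apply40 (n : ℕ) (w x : Fin n ⊕ Fin n → ZMod 2) :
    (tau40 n w : Matrix (Fin n ⊕ Fin n) (Fin n ⊕ Fin n) (ZMod 2)) *ᵥ x = x + sympForm n (ZMod 2) x w • w := by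
  show sympTransvection n w 1 *ᵥ x = _
  rw [sympTransvection_mulVec, one_mul]

theorem conj_tau40 (n : ℕ) (A : Matrix.symplecticGroup (Fin n) (ZMod 2)) (w : Fin n ⊕ Fin n → ZMod 2) :
    A * tau40 n w * A⁻¹ = tau40 n ((A : Matrix (Fin n ⊕ Fin n) (Fin n ⊕ Fin n) (ZMod 2)) *ᵥ w) := by
  rw [mul_inv_eq_iff_eq_mul]
  apply Subtype.ext
  apply ext_mulVec40
  intro x
  show ((A : Matrix (Fin n ⊕ Fin n) (Fin n ⊕ Fin n) (ZMod 2)) * (tau40 n w : Matrix (Fin n ⊕ Fin n) (Fin n ⊕ Fin n) (ZMod 2))) *ᵥ x = ((tau40 n ((A : Matrix (Fin n ⊕ Fin n) (Fin n ⊕ Fin n) (ZMod 2)) *ᵥ w) : Matrix (Fin n ⊕ Fin n) (Fin n ⊕ Fin n) (ZMod 2)) * (A : Matrix (Fin n ⊕ Fin n) (Fin n ⊕ Fin n) (ZMod 2))) *ᵥ x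
  rw [← Matrix.mulVec_mulVec, ← Matrix.mulVec_mulVec, tau_apply40, tau_apply40, Matrix.mulVec_add, Matrix.mulVec_smul, sympForm_map n A.2]

theorem tau_sq40 (n : ℕ) (w : Fin n ⊕ Fin n → ZMod 2) : tau40 n w * tau40 n w = 1 := by
  apply Subtype.ext
  show sympTransvection n w 1 * sympTransvection n w 1 = 1
  rw [sympTransvection_mul]
  have h : (1 : ZMod 2) + 1 = 0 := by decide
  rw [h]
  simp [sympTransvection]

theorem exists_one40 (n : ℕ) (w : Fin n ⊕ Fin n → ZMod 2) (hw : w ≠ 0) : ∃ x, sympForm n (ZMod 2) x w = 1 := by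
  obtain ⟨x, hx⟩ := nondeg28 n w hw
  refine ⟨x, ?_⟩
  rw [sympForm_swap, z2neg40]
  exact z2_40 _ hx

theorem sub_apply40 (n : ℕ) (w x : Fin n ⊕ Fin n → ZMod 2) :
    ((tau40 n w : Matrix (Fin n ⊕ Fin n) (Fin n ⊕ Fin n) (ZMod 2)) - 1) *ᵥ x = sympForm n (ZMod 2) x w • w := by
  rw [Matrix.sub_mulVec, tau_apply40, Matrix.one_mulVec, add_sub_cancel_left]

theorem rank_tau40 (n : ℕ) (w : Fin n ⊕ Fin n → ZMod 2) (hw : w ≠ 0) :
    ((tau40 n w : Matrix (Fin n ⊕ Fin n) (Fin n ⊕ Fin n) (ZMod 2)) - 1).rank = 1 := by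
  unfold Matrix.rank
  have hr : LinearMap.range ((tau40 n w : Matrix (Fin n ⊕ Fin n) (Fin n ⊕ Fin n) (ZMod 2)) - 1).mulVecLin = Submodule.span (ZMod 2) {w} := by
    apply le_antisymm
    · rintro y ⟨x, rfl⟩
      rw [Matrix.mulVecLin_apply, sub_apply40]
      exact Submodule.smul_mem _ _ (Submodule.mem_span_singleton_self w)
    · rw [Submodule.span_singleton_le_iff_mem]
      obtain ⟨x, hx⟩ := exists_one40 n w hw
      refine ⟨x, ?_⟩
      rw [Matrix.mulVecLin_apply, sub_apply40, hx, one_smul]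
  rw [hr]
  exact finrank_span_singleton hw

theorem of_rank40 (n : ℕ) (g : Matrix.symplecticGroup (Fin n) (ZMod 2))
    (hg : ((g : Matrix (Fin n ⊕ Fin n) (Fin n ⊕ Fin n) (ZMod 2)) - 1).rank = 1) : ∃ w, w ≠ 0 ∧ g = tau40 n w := by
  classical
  unfold Matrix.rank at hg
  obtain ⟨⟨u, hu⟩, hu0, hspan⟩ := finrank_eq_one_iff'.mp hg
  have hu0' : u ≠ 0 := fun h => hu0 (Subtype.ext h)
  have hN : ∀ x, ∃ c : ZMod 2, ((g : Matrix (Fin n ⊕ Fin n) (Fin n ⊕ Fin n) (ZMod 2)) - 1) *ᵥ x = c • u := by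
    intro x
    obtain ⟨c, hc⟩ := hspan ⟨((g : Matrix (Fin n ⊕ Fin n) (Fin n ⊕ Fin n) (ZMod 2)) - 1) *ᵥ x, ⟨x, rfl⟩⟩
    exact ⟨c, (congrArg Subtype.val hc).symm⟩
  choose c hc using hN
  have hgx : ∀ x, (g : Matrix (Fin n ⊕ Fin n) (Fin n ⊕ Fin n) (ZMod 2)) *ᵥ x = x + c x • u := by
    intro x
    have h1 := hc x
    rw [Matrix.sub_mulVec, Matrix.one_mulVec] at h1
    rw [← h1]; abel
  obtain ⟨y₀, hy₀⟩ := hu
  have hcy₀ : c y₀ = 1 := by
    have h1 := hc y₀
    have h2 : ((g : Matrix (Fin n ⊕ Fin n) (Fin n ⊕ Fin n) (ZMod 2)) - 1) *ᵥ y₀ = u := hy₀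
    rw [h2] at h1
    apply z2_40
    intro h0
    rw [h0, zero_smul] at h1
    exact hu0' h1
  have hpres : ∀ x y, c y * sympForm n (ZMod 2) x u = c x * sympForm n (ZMod 2) y u := by
    intro x y
    have h1 := sympForm_map n g.2 x y
    rw [hgx, hgx] at h1
    simp only [sympForm_add_left, sympForm_add_right, sympForm_smul_left, sympForm_smul_right, sympForm_self] at h1
    have h2 : sympForm n (ZMod 2) u y = - sympForm n (ZMod 2) y u := sympForm_swap n u y
    rw [h2] at h1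
    linear_combination h1
  have hfy : sympForm n (ZMod 2) y₀ u = 1 := by
    apply z2_40
    intro h0
    obtain ⟨x, hx⟩ := exists_one40 n u hu0'
    have h1 := hpres x y₀
    rw [hcy₀, hx, h0] at h1
    simp at h1
  have hcx : ∀ x, c x = sympForm n (ZMod 2) x u := by
    intro x
    have h1 := hpres x y₀
    rw [hcy₀, hfy] at h1
    simpa using h1.symm
  refine ⟨u, hu0', ?_⟩
  apply Subtype.ext
  apply ext_mulVec40
  intro x
  rw [hgx, hcx, tau_apply40]

theorem trans40 (n : ℕ) (w w' : Fin n ⊕ Fin n → ZMod 2) (hw : w ≠ 0) (hw' : w' ≠ 0) :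
    ∃ A : Matrix.symplecticGroup (Fin n) (ZMod 2), (A : Matrix (Fin n ⊕ Fin n) (Fin n ⊕ Fin n) (ZMod 2)) *ᵥ w = w' := by
  obtain ⟨x, hx⟩ := exists_one40 n w hw
  obtain ⟨x', hx'⟩ := exists_one40 n w' hw'
  have h1 : sympForm n (ZMod 2) w x = 1 := by rw [sympForm_swap, hx]; decide
  have h1' : sympForm n (ZMod 2) w' x' = 1 := by rw [sympForm_swap, hx']; decide
  obtain ⟨A, -, hA, -⟩ := Cfsg.Agent.S0766.result n w x w' x' h1 h1'
  exact ⟨A, hA⟩

/-- In the symplectic group in dimension 2n ≥ 2 over the field with two elements, the elements g for which g - 1 has rank one (the symplectic transvections) form a conjugacy class of 3-transpositions generating the group. -/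
theorem result (n : ℕ) (hn : 1 ≤ n) : Cfsg.IsThreeTranspositionClass {g : Matrix.symplecticGroup (Fin n) (ZMod 2) | ((g : Matrix (Fin n ⊕ Fin n) (Fin n ⊕ Fin n) (ZMod 2)) - 1).rank = 1} := by
  classical
  have hp2 : Fact (Nat.Prime 2) := ⟨Nat.prime_two⟩
  refine ⟨⟨?_, ?_⟩, ?_, ?_⟩
  · intro d hd
    obtain ⟨w, hw, rfl⟩ := of_rank40 n d hd
    apply orderOf_eq_prime
    · rw [pow_two]; exact tau_sq40 n w
    · intro h1
      have h2 : ((tau40 n w : Matrix (Fin n ⊕ Fin n) (Fin n ⊕ Fin n) (ZMod 2)) - 1).rank = 1 := hd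
      rw [h1] at h2
      simp at h2
  · intro d hd e he
    obtain ⟨u, hu, rfl⟩ := of_rank40 n d hd
    obtain ⟨w, hw, rfl⟩ := of_rank40 n e he
    by_cases hf : sympForm n (ZMod 2) u w = 0
    · left
      have hf' : sympForm n (ZMod 2) w u = 0 := by rw [sympForm_swap, hf]; simp
      have hcomm : tau40 n u * tau40 n w = tau40 n w * tau40 n u := by
        apply Subtype.ext
        apply ext_mulVec40
        intro x
        show ((tau40 n u : Matrix (Fin n ⊕ Fin n) (Fin n ⊕ Fin n) (ZMod 2)) * (tau40 n w : Matrix (Fin n ⊕ Fin n) (Fin n ⊕ Fin n) (ZMod 2))) *ᵥ x = ((tau40 n w : Matrix (Fin n ⊕ Fin n) (Fin n ⊕ Fin n) (ZMod 2)) * (tau40 n u : Matrix (Fin n ⊕ Fin n) (Fin n ⊕ Fin n) (ZMod 2))) *ᵥ x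
        rw [← Matrix.mulVec_mulVec, ← Matrix.mulVec_mulVec, tau_apply40, tau_apply40, tau_apply40, tau_apply40]
        simp only [sympForm_add_left, sympForm_smul_left, hf, hf', mul_zero, add_zero]
        abel
      have hc : Commute (tau40 n u) (tau40 n w) := hcomm
      rw [hc.mul_pow, pow_two, pow_two, tau_sq40, tau_sq40, one_mul]
    · right
      have hf1 : sympForm n (ZMod 2) u w = 1 := z2_40 _ hf
      have hf1' : sympForm n (ZMod 2) w u = 1 := by rw [sympForm_swap, hf1]; exact z2neg40 1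
      have ha2 := tau_sq40 n u
      have hb2 := tau_sq40 n w
      have hainv : (tau40 n u)⁻¹ = tau40 n u := inv_eq_of_mul_eq_one_left ha2
      have hbinv : (tau40 n w)⁻¹ = tau40 n w := inv_eq_of_mul_eq_one_left hb2
      have h1 := conj_tau40 n (tau40 n u) w
      have h2 := conj_tau40 n (tau40 n w) u
      rw [tau_apply40, hf1', one_smul, hainv] at h1
      rw [tau_apply40, hf1, one_smul, hbinv, add_comm u w] at h2
      have hbraid : tau40 n u * tau40 n w * tau40 n u = tau40 n w * tau40 n u * tau40 n w := by rw [h1, h2]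
      have h3 : (tau40 n u * tau40 n w) ^ 3 = (tau40 n u * tau40 n w * tau40 n u) * (tau40 n w * tau40 n u * tau40 n w) := by
        rw [pow_succ, pow_two]; simp only [mul_assoc]
      rw [h3, hbraid]
      calc tau40 n w * tau40 n u * tau40 n w * (tau40 n w * tau40 n u * tau40 n w)
          = tau40 n w * tau40 n u * (tau40 n w * tau40 n w) * (tau40 n u * tau40 n w) := by simp only [mul_assoc]
        _ = tau40 n w * (tau40 n u * tau40 n u) * tau40 n w := by rw [hb2, mul_one]; simp only [mul_assoc]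
        _ = 1 := by rw [ha2, mul_one, hb2]
  · have hw₀ : (Pi.single (Sum.inl ⟨0, hn⟩) 1 : Fin n ⊕ Fin n → ZMod 2) ≠ 0 := by
      intro h
      have h1 := congrFun h (Sum.inl ⟨0, hn⟩)
      simp at h1
    refine ⟨tau40 n (Pi.single (Sum.inl ⟨0, hn⟩) 1), rank_tau40 n _ hw₀, ?_⟩
    ext g
    show _ ↔ IsConj _ g
    rw [isConj_iff]
    constructor
    · intro hg
      obtain ⟨w, hw, rfl⟩ := of_rank40 n g hg
      obtain ⟨A, hA⟩ := trans40 n _ w hw₀ hw
      exact ⟨A, by rw [conj_tau40, hA]⟩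
    · rintro ⟨A, rfl⟩
      rw [conj_tau40]
      apply rank_tau40
      intro h0
      have h1 : ((A⁻¹ : Matrix.symplecticGroup (Fin n) (ZMod 2)) : Matrix (Fin n ⊕ Fin n) (Fin n ⊕ Fin n) (ZMod 2)) *ᵥ ((A : Matrix (Fin n ⊕ Fin n) (Fin n ⊕ Fin n) (ZMod 2)) *ᵥ (Pi.single (Sum.inl ⟨0, hn⟩) 1)) = Pi.single (Sum.inl ⟨0, hn⟩) 1 := by
        rw [Matrix.mulVec_mulVec]
        have h2 : ((A⁻¹ : Matrix.symplecticGroup (Fin n) (ZMod 2)) : Matrix (Fin n ⊕ Fin n) (Fin n ⊕ Fin n) (ZMod 2)) * (A : Matrix (Fin n ⊕ Fin n) (Fin n ⊕ Fin n) (ZMod 2)) = 1 := by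
          have h3 : A⁻¹ * A = 1 := inv_mul_cancel A
          exact congrArg Subtype.val h3
        rw [h2, Matrix.one_mulVec]
      rw [h0, Matrix.mulVec_zero] at h1
      exact hw₀ h1.symm
  · rw [eq_top_iff, ← Cfsg.Agent.S0765.result n, Subgroup.closure_le]
    rintro A ⟨w, c, hA⟩
    by_cases hc : c = 0
    · have hA1 : A = 1 := by
        apply Subtype.ext
        rw [hA, hc]; simp [sympTransvection]
      rw [hA1]; exact Subgroup.one_mem _
    · have hc1 : c = 1 := z2_40 c hc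
      by_cases hw : w = 0
      · have hA1 : A = 1 := by
          apply Subtype.ext
          rw [hA, hw]; simp [sympTransvection]
        rw [hA1]; exact Subgroup.one_mem _
      · have hA1 : A = tau40 n w := by
          apply Subtype.ext
          rw [hA, hc1]; rfl
        rw [hA1]
        exact Subgroup.subset_closure (rank_tau40 n w hw)

end Cfsg.Agent.S0440
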