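import Mathlib
import Cfsg.Statements.S0442
import Cfsg.Agent.Lib.Helper1.Invol

set_option autoImplicit false
open Cfsg

namespace Cfsg.Agent.S0442

open Cfsg.Agent.Lib.Helper1

theorem conj_inv {G : Type*} [Group G] {a b : G} (a2 : a * a = 1) (b2 : b * b = 1) (k : ℕ) :
    a * (a * b) ^ k * a⁻¹ = ((a * b) ^ k)⁻¹ := by
  have hconj : a * (a * b) * a⁻¹ = (a * b)⁻¹ := by
    rw [inv_self_of_sq a2, mul_inv_rev, inv_self_of_sq a2, inv_self_of_sq b2]
    rw [← mul_assoc, a2, one_mul]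
  rw [← conj_pow, hconj, inv_pow]

theorem pow_comm_of_even {G : Type*} [Group G] {a b : G} (a2 : a * a = 1) (b2 : b * b = 1) (m : ℕ)
    (h : (a * b) ^ (2 * m) = 1) : Commute ((a * b) ^ m) a := by
  have hpow := conj_inv a2 b2 m
  have hinv : ((a * b) ^ m)⁻¹ = (a * b) ^ m := by
    apply inv_eq_of_mul_eq_one_right
    rw [← pow_add, ← two_mul]; exact h
  rw [hinv] at hpow
  exact (mul_inv_eq_iff_eq_mul.mp hpow).symm

theorem part1 {G : Type*} [Group G] {a b g : G} (a2 : a * a = 1) (b2 : b * b = 1)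
    (hb : a * g = g * b) (m : ℕ) (h : (a * b) ^ (2 * m + 1) = 1) :
    Commute (g * (a * b) ^ m) a := by
  have hpow := conj_inv a2 b2 (m + 1)
  have hinv : ((a * b) ^ (m + 1))⁻¹ = (a * b) ^ m := by
    apply inv_eq_of_mul_eq_one_right
    rw [← pow_add]
    have : m + 1 + m = 2 * m + 1 := by ring
    rw [this]; exact h
  rw [hinv] at hpow
  have e2 : a * (a * b) ^ (m + 1) = (a * b) ^ m * a := mul_inv_eq_iff_eq_mul.mp hpow
  have e3 : b * (a * b) ^ m = a * (a * b) ^ (m + 1) := by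
    rw [pow_succ', ← mul_assoc, ← mul_assoc, a2, one_mul]
  show g * (a * b) ^ m * a = a * (g * (a * b) ^ m)
  calc g * (a * b) ^ m * a = g * ((a * b) ^ m * a) := by rw [mul_assoc]
    _ = g * (b * (a * b) ^ m) := by rw [← e2, e3]
    _ = (g * b) * (a * b) ^ m := by rw [mul_assoc]
    _ = (a * g) * (a * b) ^ m := by rw [hb]
    _ = a * (g * (a * b) ^ m) := by rw [mul_assoc]

/-- A standard trick for producing elements of an involution centraliser: for an involution a and an element g, let b be the conjugate g⁻¹ * a * g. If a * b has odd order 2m + 1 then g * (a * b) ^ m commutes with a; if a * b has even order 2m then (a * b) ^ m and (a * (g * a * g⁻¹)) ^ m commute with a. -/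
theorem result {G : Type*} [Group G] (a g : G) (ha : orderOf a = 2) : (∀ m : ℕ, orderOf (a * (g⁻¹ * a * g)) = 2 * m + 1 → Commute (g * (a * (g⁻¹ * a * g)) ^ m) a) ∧ (∀ m : ℕ, orderOf (a * (g⁻¹ * a * g)) = 2 * m → Commute ((a * (g⁻¹ * a * g)) ^ m) a ∧ Commute ((a * (g * a * g⁻¹)) ^ m) a) := by
  have a2 := sq_one_of_orderOf_two ha
  have ai := inv_self_of_sq a2
  have b2 : (g⁻¹ * a * g) * (g⁻¹ * a * g) = 1 := by
    calc (g⁻¹ * a * g) * (g⁻¹ * a * g) = g⁻¹ * (a * a) * g := by group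
      _ = 1 := by rw [a2]; group
  have b2' : (g * a * g⁻¹) * (g * a * g⁻¹) = 1 := by
    calc (g * a * g⁻¹) * (g * a * g⁻¹) = g * (a * a) * g⁻¹ := by group
      _ = 1 := by rw [a2]; group
  refine ⟨fun m hm => ?_, fun m hm => ⟨?_, ?_⟩⟩
  · apply part1 a2 b2 (by group) m
    rw [← hm]; exact pow_orderOf_eq_one _
  · apply pow_comm_of_even a2 b2 m
    rw [← hm]; exact pow_orderOf_eq_one _
  · apply pow_comm_of_even a2 b2' m
    have hc : (a * (g⁻¹ * a * g)) ^ (2 * m) = 1 := by rw [← hm]; exact pow_orderOf_eq_one _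
    have e : a * (g * a * g⁻¹) = g * (a * (g⁻¹ * a * g))⁻¹ * g⁻¹ := by
      calc a * (g * a * g⁻¹) = a⁻¹ * (g * a⁻¹ * g⁻¹) := by rw [ai]
        _ = g * (a * (g⁻¹ * a * g))⁻¹ * g⁻¹ := by group
    rw [e, conj_pow, inv_pow, hc]
    simp

end Cfsg.Agent.S0442
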