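import Mathlib
import Cfsg.Statements.S0443

set_option autoImplicit false
open Cfsg

namespace Cfsg.Agent.S0443

/-- Two definitions of a 2-central involution agree: an element t of order 2 of a finite group lies in the centre of some Sylow 2-subgroup if and only if its centraliser contains some Sylow 2-subgroup. -/
theorem result {G : Type*} [Group G] [Finite G] (t : G) (ht : orderOf t = 2) : Cfsg.IsTwoCentralInvolution t ↔ ∃ P : Sylow 2 G, (P : Subgroup G) ≤ Subgroup.centralizer ({t} : Set G) := by
  constructor
  · rintro ⟨_, P, _, hP⟩
    refine ⟨P, fun x hx => ?_⟩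
    rw [Subgroup.mem_centralizer_iff]
    intro h hh
    rw [Set.mem_singleton_iff] at hh
    subst hh
    exact (hP x hx).symm
  · rintro ⟨P, hP⟩
    refine ⟨ht, P, ?_, ?_⟩
    · -- t ∈ P by maximality
      have hz : IsPGroup 2 (Subgroup.zpowers t) := by
        have : Fact (Nat.Prime 2) := ⟨Nat.prime_two⟩
        apply IsPGroup.of_card (n := 1)
        rw [Nat.card_zpowers, ht, pow_one]
      have hnorm : Subgroup.zpowers t ≤ Subgroup.normalizer ((P : Subgroup G) : Set G) := by
        rw [Subgroup.zpowers_le]
        rw [Subgroup.mem_normalizer_iff]
        intro h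
        have key : ∀ x ∈ (P : Subgroup G), t * x * t⁻¹ = x := by
          intro x hx
          have := hP hx
          rw [Subgroup.mem_centralizer_iff] at this
          have h1 := this t (Set.mem_singleton t)
          rw [h1]; group
        constructor
        · intro hh
          rw [key h hh]; exact hh
        · intro hh
          have := key _ hh
          have e : h = t⁻¹ * (t * h * t⁻¹) * t := by group
          have h2 : t⁻¹ * (t * h * t⁻¹) * t ∈ (P : Subgroup G) := by
            have h3 := hP hh
            rw [Subgroup.mem_centralizer_iff] at h3
            have h4 := h3 t (Set.mem_singleton t)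
            have : t⁻¹ * (t * h * t⁻¹) * t = t * h * t⁻¹ := by
              calc t⁻¹ * (t * h * t⁻¹) * t = t⁻¹ * ((t * h * t⁻¹) * t) := by group
                _ = t⁻¹ * (t * (t * h * t⁻¹)) := by rw [h4]
                _ = t * h * t⁻¹ := by group
            rw [this]; exact hh
          rw [e]; exact h2
      have hsup : IsPGroup 2 (Subgroup.zpowers t ⊔ (P : Subgroup G) : Subgroup G) :=
        IsPGroup.to_sup_of_normal_right' hz P.isPGroup' hnorm
      have heq := P.is_maximal' hsup le_sup_right
      have : t ∈ (Subgroup.zpowers t ⊔ (P : Subgroup G) : Subgroup G) :=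
        (le_sup_left : Subgroup.zpowers t ≤ _) (Subgroup.mem_zpowers t)
      rw [heq] at this
      exact this
    · intro x hx
      have := hP hx
      rw [Subgroup.mem_centralizer_iff] at this
      exact (this t (Set.mem_singleton t)).symm

end Cfsg.Agent.S0443
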