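import Cfsg.Statements.S0444
import Mathlib
import Cfsg.Agent.Lib.Lead.S3Gen
-- import your own Cfsg.Agent.* helpers here

set_option autoImplicit false
open Cfsg

namespace Cfsg.Agent.S0444

/-- Two members of a set of 3-transpositions which do not commute generate a subgroup isomorphic to the symmetric group on three letters. -/
theorem result {G : Type*} [Group G] {E : Set G} (hE : Cfsg.IsThreeTranspositionSet E) {d e : G} (hd : d ∈ E) (he : e ∈ E) (h : ¬ Commute d e) : Nonempty (Subgroup.closure ({d, e} : Set G) ≃* Equiv.Perm (Fin 3)) := by
  have hd2 := hE.1 d hd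
  have he2 := hE.1 e he
  rcases hE.2 d hd e he with h2 | h3
  · exfalso
    apply h
    have hdd : d * d = 1 := by rw [← pow_two, ← hd2]; exact pow_orderOf_eq_one d
    have hee : e * e = 1 := by rw [← pow_two, ← he2]; exact pow_orderOf_eq_one e
    have h4 : d * e * (d * e) = 1 := by rw [← pow_two]; exact h2
    show d * e = e * d
    calc d * e = d * e * (d * e) * (e * d) := by
          have : d * e * (d * e) * (e * d) = d * e * (d * (e * e) * d) := by group
          rw [this, hee, mul_one, hdd, mul_one]
      _ = e * d := by rw [h4, one_mul]
  · exact Lib.Lead.s3_of_two_invol d e hd2 he2 h3 h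

end Cfsg.Agent.S0444
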