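import Cfsg.Statements.S2330
import Mathlib
import Cfsg.Statements.S2330

set_option autoImplicit false
open Cfsg
open scoped commutatorElement

namespace Cfsg.Agent.S2330

theorem card_conjClasses_eq30 {G T : Type*} [Group G] (Φ : G → T)
    (hinv : ∀ g h, IsConj g h → Φ g = Φ h) (hinj : ∀ g h, Φ g = Φ h → IsConj g h)
    (hsurj : Function.Surjective Φ) : Nat.card (ConjClasses G) = Nat.card T := by
  apply Nat.card_congr
  refine Equiv.ofBijective
    (fun c : ConjClasses G => Quotient.liftOn c Φ (fun a b hab => hinv a b hab)) ⟨?_, ?_⟩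
  · intro c d
    refine Quotient.inductionOn₂ c d (fun a b h => ?_)
    exact Quotient.sound (hinj a b h)
  · intro t
    obtain ⟨g, rfl⟩ := hsurj t
    exact ⟨ConjClasses.mk g, rfl⟩

theorem conj_companion30 {F : Type*} [Field F] (A : Matrix (Fin 2) (Fin 2) F)
    (hns : ¬ ∃ a : F, A = a • (1 : Matrix (Fin 2) (Fin 2) F)) :
    ∃ P : Matrix (Fin 2) (Fin 2) F, P.det ≠ 0 ∧ A * P = P * !![0, -A.det; 1, A.trace] := by
  by_cases hc : A 1 0 = 0
  · by_cases hb : A 0 1 = 0
    · have hae : A 0 0 ≠ A 1 1 := by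
        intro h; apply hns
        refine ⟨A 0 0, ?_⟩
        ext i j; fin_cases i <;> fin_cases j <;> simp [hc, hb, h]
      refine ⟨!![1, A 0 0; 1, A 1 1], ?_, ?_⟩
      · rw [Matrix.det_fin_two_of]
        intro h0; apply hae
        have : A 1 1 - A 0 0 = 0 := by rw [← h0]; ring
        exact (sub_eq_zero.mp this).symm
      · ext i j; fin_cases i <;> fin_cases j <;>
          simp [Matrix.mul_apply, Fin.sum_univ_two, Matrix.det_fin_two, Matrix.trace_fin_two,
            hc, hb] <;> ring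
    · refine ⟨!![0, A 0 1; 1, A 1 1], ?_, ?_⟩
      · rw [Matrix.det_fin_two_of]
        intro h0; apply hb
        have : A 0 1 = -(0 * A 1 1 - A 0 1 * 1) := by ring
        rw [this, h0, neg_zero]
      · ext i j; fin_cases i <;> fin_cases j <;>
          simp [Matrix.mul_apply, Fin.sum_univ_two, Matrix.det_fin_two, Matrix.trace_fin_two,
            hc] <;> ring
  · refine ⟨!![1, A 0 0; 0, A 1 0], ?_, ?_⟩
    · rw [Matrix.det_fin_two_of]
      intro h0; apply hc
      have : A 1 0 = 1 * A 1 0 - A 0 0 * 0 := by ring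
      rw [this, h0]
    · ext i j; fin_cases i <;> fin_cases j <;>
        simp [Matrix.mul_apply, Fin.sum_univ_two, Matrix.det_fin_two, Matrix.trace_fin_two] <;>
        ring

theorem conj_of_trace_det30 {F : Type*} [Field F] (A B : Matrix (Fin 2) (Fin 2) F)
    (hA : ¬ ∃ a : F, A = a • (1 : Matrix (Fin 2) (Fin 2) F))
    (hB : ¬ ∃ a : F, B = a • (1 : Matrix (Fin 2) (Fin 2) F))
    (htr : A.trace = B.trace) (hdet : A.det = B.det) :
    ∃ P : Matrix (Fin 2) (Fin 2) F, P.det ≠ 0 ∧ A * P = P * B := by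
  obtain ⟨P, hP, hAP⟩ := conj_companion30 A hA
  obtain ⟨Q, hQ, hBQ⟩ := conj_companion30 B hB
  rw [← htr, ← hdet] at hBQ
  have hQu : IsUnit Q.det := isUnit_iff_ne_zero.mpr hQ
  refine ⟨P * Q⁻¹, ?_, ?_⟩
  · rw [Matrix.det_mul, Matrix.det_nonsing_inv]
    refine mul_ne_zero hP ?_
    rw [Ring.inverse_eq_inv']
    exact inv_ne_zero hQ
  · have h1 : !![0, -A.det; 1, A.trace] * Q⁻¹ = Q⁻¹ * B := by
      have h2 : Q⁻¹ * (B * Q) * Q⁻¹ = Q⁻¹ * (Q * !![0, -A.det; 1, A.trace]) * Q⁻¹ := by rw [hBQ]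
      rw [← Matrix.mul_assoc Q⁻¹ Q, Matrix.nonsing_inv_mul _ hQu, Matrix.one_mul,
        Matrix.mul_assoc, Matrix.mul_assoc, Matrix.mul_nonsing_inv _ hQu, Matrix.mul_one] at h2
      exact h2.symm
    calc A * (P * Q⁻¹) = (A * P) * Q⁻¹ := by rw [Matrix.mul_assoc]
      _ = P * (!![0, -A.det; 1, A.trace] * Q⁻¹) := by rw [hAP, Matrix.mul_assoc]
      _ = P * Q⁻¹ * B := by rw [h1, Matrix.mul_assoc]

theorem isConj_GL_of30 {F : Type*} [Field F] (g h : Matrix.GeneralLinearGroup (Fin 2) F)
    (P : Matrix (Fin 2) (Fin 2) F) (hP : P.det ≠ 0)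
    (hgP : (g : Matrix (Fin 2) (Fin 2) F) * P = P * (h : Matrix (Fin 2) (Fin 2) F)) :
    IsConj g h := by
  obtain ⟨U, hU⟩ : ∃ U : Matrix.GeneralLinearGroup (Fin 2) F,
      (U : Matrix (Fin 2) (Fin 2) F) = P :=
    ⟨Matrix.GeneralLinearGroup.mkOfDetNeZero P hP, rfl⟩
  have h1 : g * U = U * h := by
    apply Units.ext
    rw [Units.val_mul, Units.val_mul, hU]; exact hgP
  rw [isConj_iff]
  refine ⟨U⁻¹, ?_⟩
  rw [inv_inv, mul_assoc, h1, ← mul_assoc, inv_mul_cancel, one_mul]

noncomputable def u0030 {F : Type*} [Field F] (g : Matrix.GeneralLinearGroup (Fin 2) F) : Fˣ :=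
  haveI := Classical.propDecidable ((g : Matrix (Fin 2) (Fin 2) F) 0 0 = 0)
  if h : (g : Matrix (Fin 2) (Fin 2) F) 0 0 = 0 then 1 else Units.mk0 _ h

theorem u0030_val {F : Type*} [Field F] (g : Matrix.GeneralLinearGroup (Fin 2) F)
    (h : (g : Matrix (Fin 2) (Fin 2) F) 0 0 ≠ 0) :
    ((u0030 g : Fˣ) : F) = (g : Matrix (Fin 2) (Fin 2) F) 0 0 := by
  unfold u0030; rw [dif_neg h]; rfl

noncomputable def phi30 {F : Type*} [Field F] (g : Matrix.GeneralLinearGroup (Fin 2) F) :
    Fˣ ⊕ (F × Fˣ) :=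
  haveI := Classical.propDecidable
    (∃ a : F, (g : Matrix (Fin 2) (Fin 2) F) = a • (1 : Matrix (Fin 2) (Fin 2) F))
  if (∃ a : F, (g : Matrix (Fin 2) (Fin 2) F) = a • (1 : Matrix (Fin 2) (Fin 2) F)) then
    Sum.inl (u0030 g)
  else Sum.inr ((g : Matrix (Fin 2) (Fin 2) F).trace, Matrix.GeneralLinearGroup.det g)

/-- Over a finite field with q elements, the general linear group GL₂ has exactly q² − 1 conjugacy classes. -/
theorem result {F : Type*} [Field F] [Fintype F] :
    Nat.card (ConjClasses (Matrix.GeneralLinearGroup (Fin 2) F)) = Fintype.card F ^ 2 - 1 := by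
  classical
  have hcard : Nat.card (Fˣ ⊕ (F × Fˣ)) = Fintype.card F ^ 2 - 1 := by
    rw [Nat.card_sum, Nat.card_prod, Nat.card_eq_fintype_card, Nat.card_eq_fintype_card,
      Fintype.card_units]
    have hq : 1 ≤ Fintype.card F := Fintype.card_pos
    obtain ⟨k, hk⟩ : ∃ k, Fintype.card F = k + 1 := ⟨Fintype.card F - 1, by omega⟩
    rw [hk]
    have h1 : (k + 1) ^ 2 = k + (k + 1) * k + 1 := by ring
    rw [h1]; simp
  rw [← hcard]
  -- scalar elements are central
  have hscal_conj : ∀ (g c : Matrix.GeneralLinearGroup (Fin 2) F) (a : F),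
      (g : Matrix (Fin 2) (Fin 2) F) = a • (1 : Matrix (Fin 2) (Fin 2) F) →
      c * g * c⁻¹ = g := by
    intro g c a hg
    have h1 : c * g = g * c := by
      apply Units.ext
      rw [Units.val_mul, Units.val_mul, hg]; simp
    rw [h1, mul_assoc, mul_inv_cancel, mul_one]
  apply card_conjClasses_eq30 (phi30 (F := F))
  · intro g h hgh
    rw [isConj_iff] at hgh
    obtain ⟨c, rfl⟩ := hgh
    by_cases hs : ∃ a : F, (g : Matrix (Fin 2) (Fin 2) F) = a • (1 : Matrix (Fin 2) (Fin 2) F)
    · obtain ⟨a, ha⟩ := hs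
      rw [hscal_conj g c a ha]
    · have hs' : ¬ ∃ a : F, ((c * g * c⁻¹ : Matrix.GeneralLinearGroup (Fin 2) F) :
          Matrix (Fin 2) (Fin 2) F) = a • (1 : Matrix (Fin 2) (Fin 2) F) := by
        rintro ⟨a, ha⟩
        apply hs
        have h2 := hscal_conj (c * g * c⁻¹) c⁻¹ a ha
        have h3 : c⁻¹ * (c * g * c⁻¹) * c⁻¹⁻¹ = g := by group
        rw [h3] at h2
        exact ⟨a, by rw [h2]; exact ha⟩
      unfold phi30
      rw [if_neg hs, if_neg hs']
      congr 2
      · rw [Units.val_mul, Units.val_mul, Matrix.trace_mul_comm, ← Matrix.mul_assoc]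
        have : ((c⁻¹ : Matrix.GeneralLinearGroup (Fin 2) F) : Matrix (Fin 2) (Fin 2) F) *
            (c : Matrix (Fin 2) (Fin 2) F) = 1 := by
          rw [← Units.val_mul, inv_mul_cancel]; rfl
        rw [this, Matrix.one_mul]
      · rw [map_mul, map_mul, map_inv, mul_comm, ← mul_assoc, inv_mul_cancel, one_mul]
  · intro g h hgh
    by_cases hs : ∃ a : F, (g : Matrix (Fin 2) (Fin 2) F) = a • (1 : Matrix (Fin 2) (Fin 2) F)
    · by_cases ht : ∃ a : F, (h : Matrix (Fin 2) (Fin 2) F) = a • (1 : Matrix (Fin 2) (Fin 2) F)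
      · unfold phi30 at hgh
        rw [if_pos hs, if_pos ht] at hgh
        have h1 := Sum.inl.inj hgh
        obtain ⟨a, ha⟩ := hs
        obtain ⟨b, hb⟩ := ht
        have ha0 : a ≠ 0 := by
          rintro rfl
          have := g.isUnit.ne_zero
          have hd : (g : Matrix (Fin 2) (Fin 2) F).det ≠ 0 := by
            have := (Matrix.GeneralLinearGroup.det g).ne_zero
            simpa using this
          rw [ha] at hd; simp at hd
        have hb0 : b ≠ 0 := by
          rintro rfl
          have hd : (h : Matrix (Fin 2) (Fin 2) F).det ≠ 0 := by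
            have := (Matrix.GeneralLinearGroup.det h).ne_zero
            simpa using this
          rw [hb] at hd; simp at hd
        have hga : ((u0030 g : Fˣ) : F) = a := by
          have : (g : Matrix (Fin 2) (Fin 2) F) 0 0 = a := by rw [ha]; simp
          rw [u0030_val g (by rw [this]; exact ha0), this]
        have hhb : ((u0030 h : Fˣ) : F) = b := by
          have : (h : Matrix (Fin 2) (Fin 2) F) 0 0 = b := by rw [hb]; simp
          rw [u0030_val h (by rw [this]; exact hb0), this]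
        have hab : a = b := by rw [← hga, ← hhb, h1]
        have : g = h := by
          apply Units.ext; rw [ha, hb, hab]
        rw [this]
        exact IsConj.refl h
      · unfold phi30 at hgh
        rw [if_pos hs, if_neg ht] at hgh
        exact absurd hgh (by simp)
    · by_cases ht : ∃ a : F, (h : Matrix (Fin 2) (Fin 2) F) = a • (1 : Matrix (Fin 2) (Fin 2) F)
      · unfold phi30 at hgh
        rw [if_neg hs, if_pos ht] at hgh
        exact absurd hgh (by simp)
      · unfold phi30 at hgh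
        rw [if_neg hs, if_neg ht] at hgh
        have h1 := Sum.inr.inj hgh
        rw [Prod.mk.injEq] at h1
        obtain ⟨htr, hdet⟩ := h1
        have hdet' : (g : Matrix (Fin 2) (Fin 2) F).det = (h : Matrix (Fin 2) (Fin 2) F).det := by
          have := congrArg Units.val hdet
          simpa using this
        obtain ⟨P, hP, hgP⟩ := conj_of_trace_det30 _ _ hs ht htr hdet'
        exact isConj_GL_of30 g h P hP hgP
  · intro t
    rcases t with u | ⟨t, d⟩
    · have hdet : (!![(u : F), 0; 0, (u : F)] : Matrix (Fin 2) (Fin 2) F).det ≠ 0 := by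
        rw [Matrix.det_fin_two_of]; simp
      refine ⟨Matrix.GeneralLinearGroup.mkOfDetNeZero _ hdet, ?_⟩
      have hs : ∃ a : F, ((Matrix.GeneralLinearGroup.mkOfDetNeZero _ hdet :
          Matrix.GeneralLinearGroup (Fin 2) F) : Matrix (Fin 2) (Fin 2) F) =
          a • (1 : Matrix (Fin 2) (Fin 2) F) := by
        refine ⟨(u : F), ?_⟩
        ext i j; fin_cases i <;> fin_cases j <;> simp [Matrix.GeneralLinearGroup.mkOfDetNeZero]
      unfold phi30
      rw [if_pos hs]
      congr 1
      have h00 : ((Matrix.GeneralLinearGroup.mkOfDetNeZero _ hdet :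
          Matrix.GeneralLinearGroup (Fin 2) F) : Matrix (Fin 2) (Fin 2) F) 0 0 = (u : F) := by
        simp [Matrix.GeneralLinearGroup.mkOfDetNeZero]
      apply Units.ext
      rw [u0030_val _ (by rw [h00]; exact u.ne_zero), h00]
    · have hdet : (!![0, -(d : F); 1, t] : Matrix (Fin 2) (Fin 2) F).det ≠ 0 := by
        rw [Matrix.det_fin_two_of]; simp
      refine ⟨Matrix.GeneralLinearGroup.mkOfDetNeZero _ hdet, ?_⟩
      have hs : ¬ ∃ a : F, ((Matrix.GeneralLinearGroup.mkOfDetNeZero _ hdet :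
          Matrix.GeneralLinearGroup (Fin 2) F) : Matrix (Fin 2) (Fin 2) F) =
          a • (1 : Matrix (Fin 2) (Fin 2) F) := by
        rintro ⟨a, ha⟩
        have h10 := congrFun (congrFun ha 1) 0
        simp [Matrix.GeneralLinearGroup.mkOfDetNeZero] at h10
      unfold phi30
      rw [if_neg hs]
      congr 2
      · simp [Matrix.GeneralLinearGroup.mkOfDetNeZero, Matrix.trace_fin_two]
      · apply Units.ext
        simp [Matrix.GeneralLinearGroup.mkOfDetNeZero, Matrix.det_fin_two]

end Cfsg.Agent.S2330
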