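import Cfsg.Statements.S2579
import Mathlib
import Cfsg.Statements.S2579

set_option autoImplicit false
open Cfsg
open scoped commutatorElement

namespace Cfsg.Agent.S2579

open Matrix

theorem det_R79 {ι F : Type*} [Fintype ι] [DecidableEq ι] [Field F] (a b : ι → F) :
    (1 + Matrix.vecMulVec a b).det = 1 + b ⬝ᵥ a := by
  rw [Matrix.vecMulVec_eq (Fin 1), Matrix.det_one_add_replicateCol_mul_replicateRow]

theorem R_mulVec79 {ι F : Type*} [Fintype ι] [DecidableEq ι] [Field F] (a b x : ι → F) :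
    (1 + Matrix.vecMulVec a b) *ᵥ x = x + (b ⬝ᵥ x) • a := by
  rw [Matrix.add_mulVec, Matrix.one_mulVec, Matrix.vecMulVec_mulVec]
  simp

theorem vecMul_R79 {ι F : Type*} [Fintype ι] [DecidableEq ι] [Field F] (y a b : ι → F) :
    y ᵥ* (1 + Matrix.vecMulVec a b) = y + (y ⬝ᵥ a) • b := by
  rw [Matrix.vecMul_add, Matrix.vecMul_one, Matrix.vecMul_vecMulVec]

theorem col_step79 {ι F : Type*} [Fintype ι] [DecidableEq ι] [Field F] (x y : ι → F) (k : ι)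
    (hx : x k ≠ 0) (hy : y k = x k) : ∃ M : Matrix ι ι F, M.det = 1 ∧ M *ᵥ x = y := by
  refine ⟨1 + Matrix.vecMulVec ((x k)⁻¹ • (y - x)) (Pi.single k 1), ?_, ?_⟩
  · rw [det_R79]; simp [hy]
  · rw [R_mulVec79]
    simp only [single_dotProduct, one_mul]
    rw [smul_smul, mul_inv_cancel₀ hx, one_smul]; abel

theorem row_step79 {ι F : Type*} [Fintype ι] [DecidableEq ι] [Field F] (ψ χ : ι → F) (k i₀ : ι)
    (hψ : ψ k ≠ 0) (hχ : χ k = ψ k) (h0 : χ i₀ = ψ i₀) :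
    ∃ M : Matrix ι ι F, M.det = 1 ∧ ψ ᵥ* M = χ ∧ M *ᵥ Pi.single i₀ 1 = Pi.single i₀ 1 := by
  refine ⟨1 + Matrix.vecMulVec (Pi.single k 1) ((ψ k)⁻¹ • (χ - ψ)), ?_, ?_, ?_⟩
  · rw [det_R79]; simp [hχ]
  · rw [vecMul_R79]
    simp only [dotProduct_single, mul_one]
    rw [smul_smul, mul_inv_cancel₀ hψ, one_smul]; abel
  · rw [R_mulVec79]
    simp [h0]

theorem col_reach79 {ι F : Type*} [Fintype ι] [DecidableEq ι] [Field F] (i₀ i₁ : ι)
    (h01 : i₀ ≠ i₁) (w : ι → F) (hw : w ≠ 0) :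
    ∃ M : Matrix ι ι F, M.det = 1 ∧ M *ᵥ Pi.single i₀ 1 = w := by
  by_cases hw0 : w i₀ = 0
  · have hk : ∃ k, k ≠ i₀ ∧ w k ≠ 0 := by
      by_contra hcon
      push Not at hcon
      apply hw; ext k
      by_cases hki : k = i₀
      · rw [hki, hw0]; rfl
      · exact hcon k hki
    obtain ⟨k, hk0, hwk⟩ := hk
    obtain ⟨M₁, hM₁, h1⟩ := col_step79 (Pi.single i₀ (1 : F) : ι → F)
      (Pi.single i₀ 1 + Pi.single k (w k) : ι → F) i₀ (by simp)
      (by simp [Pi.single_apply, hk0, Ne.symm hk0])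
    obtain ⟨M₂, hM₂, h2⟩ := col_step79 (Pi.single i₀ (1 : F) + Pi.single k (w k) : ι → F) w k
      (by simp [Pi.single_apply, hk0, Ne.symm hk0, hwk])
      (by simp [Pi.single_apply, hk0, Ne.symm hk0])
    exact ⟨M₂ * M₁, by rw [Matrix.det_mul, hM₁, hM₂, mul_one],
      by rw [← Matrix.mulVec_mulVec, h1, h2]⟩
  · obtain ⟨M₁, hM₁, h1⟩ := col_step79 (Pi.single i₀ (1 : F) : ι → F)
      (Pi.single i₀ 1 + Pi.single i₁ 1 : ι → F) i₀ (by simp)
      (by simp [Pi.single_apply, h01, Ne.symm h01])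
    obtain ⟨M₂, hM₂, h2⟩ := col_step79 (Pi.single i₀ (1 : F) + Pi.single i₁ 1 : ι → F)
      (Pi.single i₀ (w i₀) + Pi.single i₁ 1 : ι → F) i₁
      (by simp [Pi.single_apply, h01, Ne.symm h01])
      (by simp [Pi.single_apply, h01, Ne.symm h01])
    obtain ⟨M₃, hM₃, h3⟩ := col_step79 (Pi.single i₀ (w i₀) + Pi.single i₁ 1 : ι → F) w i₀
      (by simp [Pi.single_apply, h01, Ne.symm h01, hw0])
      (by simp [Pi.single_apply, h01, Ne.symm h01])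
    exact ⟨M₃ * (M₂ * M₁), by rw [Matrix.det_mul, Matrix.det_mul, hM₁, hM₂, hM₃]; ring,
      by rw [← Matrix.mulVec_mulVec, ← Matrix.mulVec_mulVec, h1, h2, h3]⟩

theorem row_reach79 {ι F : Type*} [Fintype ι] [DecidableEq ι] [Field F] (i₀ i₁ i₂ : ι)
    (h01 : i₀ ≠ i₁) (h02 : i₀ ≠ i₂) (h12 : i₁ ≠ i₂) (ψ : ι → F) (hψ0 : ψ i₀ = 0) (hψ : ψ ≠ 0) :
    ∃ M : Matrix ι ι F, M.det = 1 ∧ ψ ᵥ* M = Pi.single i₁ 1 ∧
      M *ᵥ Pi.single i₀ 1 = Pi.single i₀ 1 := by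
  by_cases hψ1 : ψ i₁ = 0
  · have hk : ∃ k, k ≠ i₀ ∧ k ≠ i₁ ∧ ψ k ≠ 0 := by
      by_contra hcon
      push Not at hcon
      apply hψ; ext k
      by_cases hki : k = i₀
      · rw [hki, hψ0]; rfl
      · by_cases hki1 : k = i₁
        · rw [hki1, hψ1]; rfl
        · exact hcon k hki hki1
    obtain ⟨k, hk0, hk1, hψk⟩ := hk
    obtain ⟨M₁, hM₁, h1, h1'⟩ := row_step79 ψ (Function.update ψ i₁ 1) k i₀ hψk
      (by simp [Function.update_apply, hk1]) (by simp [Function.update_apply, h01])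
    obtain ⟨M₂, hM₂, h2, h2'⟩ := row_step79 (Function.update ψ i₁ 1)
      (Pi.single i₁ (1 : F) : ι → F) i₁ i₀
      (by simp) (by simp) (by simp [Function.update_apply, Pi.single_apply, h01, hψ0])
    refine ⟨M₁ * M₂, by rw [Matrix.det_mul, hM₁, hM₂, mul_one], ?_, ?_⟩
    · rw [← Matrix.vecMul_vecMul, h1, h2]
    · rw [← Matrix.mulVec_mulVec, h2', h1']
  · obtain ⟨M₁, hM₁, h1, h1'⟩ := row_step79 ψ (Function.update ψ i₂ 1) i₁ i₀ hψ1
      (by simp [Function.update_apply, h12]) (by simp [Function.update_apply, h02])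
    obtain ⟨M₂, hM₂, h2, h2'⟩ := row_step79 (Function.update ψ i₂ 1)
      (Pi.single i₁ (1 : F) + Pi.single i₂ (1 : F) : ι → F) i₂ i₀
      (by simp) (by simp [Pi.single_apply, h12, Ne.symm h12])
      (by simp [Function.update_apply, Pi.single_apply, h01, h02, hψ0])
    obtain ⟨M₃, hM₃, h3, h3'⟩ := row_step79 (Pi.single i₁ (1 : F) + Pi.single i₂ (1 : F) : ι → F)
      (Pi.single i₁ (1 : F) : ι → F) i₁ i₀
      (by simp [Pi.single_apply, h12, Ne.symm h12])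
      (by simp [Pi.single_apply, h12, Ne.symm h12])
      (by simp [Pi.single_apply, h01, h02])
    refine ⟨M₁ * (M₂ * M₃), by rw [Matrix.det_mul, Matrix.det_mul, hM₁, hM₂, hM₃]; ring, ?_, ?_⟩
    · rw [← Matrix.vecMul_vecMul, ← Matrix.vecMul_vecMul, h1, h2, h3]
    · rw [← Matrix.mulVec_mulVec, ← Matrix.mulVec_mulVec, h3', h2', h1']

theorem rank_one_decomp79 {F : Type*} [Field F] {n : ℕ} (N : Matrix (Fin n) (Fin n) F)
    (h : N.rank = 1) : ∃ v φ : Fin n → F, N = Matrix.vecMulVec v φ := by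
  have h1 : Module.finrank F (LinearMap.range (Matrix.mulVecLin N)) = 1 := h
  obtain ⟨⟨v, hvmem⟩, hv0, hspan⟩ := finrank_eq_one_iff'.mp h1
  have hcol : ∀ j : Fin n, ∃ c : F, c • v = N *ᵥ Pi.single j 1 := by
    intro j
    obtain ⟨c, hc⟩ := hspan ⟨N *ᵥ Pi.single j 1, ⟨Pi.single j 1, rfl⟩⟩
    exact ⟨c, congrArg Subtype.val hc⟩
  choose φ hφ using hcol
  refine ⟨v, φ, ?_⟩
  ext i j
  have h2 := congrFun (hφ j) i
  rw [Matrix.vecMulVec_apply]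
  simp only [Matrix.mulVec_single_one, Pi.smul_apply, smul_eq_mul] at h2
  rw [mul_comm, h2]; rfl

theorem normal_form79 {F : Type*} [Field F] {n : ℕ} (i₀ i₁ i₂ : Fin n)
    (h01 : i₀ ≠ i₁) (h02 : i₀ ≠ i₂) (h12 : i₁ ≠ i₂)
    (s : Matrix (Fin n) (Fin n) F) (hs : Cfsg.IsTransvection s) :
    ∃ H : Matrix (Fin n) (Fin n) F, H.det = 1 ∧
      s * H = H * (1 + Matrix.vecMulVec (Pi.single i₀ 1) (Pi.single i₁ 1)) := by
  obtain ⟨hrank, hsq⟩ := hs
  obtain ⟨v, φ, hN⟩ := rank_one_decomp79 (s - 1) hrank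
  have hv : v ≠ 0 := by
    rintro rfl
    rw [hN] at hrank
    have : Matrix.vecMulVec (0 : Fin n → F) φ = 0 := by ext i j; simp [Matrix.vecMulVec_apply]
    rw [this, Matrix.rank_zero] at hrank
    exact absurd hrank (by norm_num)
  have hφ : φ ≠ 0 := by
    rintro rfl
    rw [hN] at hrank
    have : Matrix.vecMulVec v (0 : Fin n → F) = 0 := by ext i j; simp [Matrix.vecMulVec_apply]
    rw [this, Matrix.rank_zero] at hrank
    exact absurd hrank (by norm_num)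
  have hφv : φ ⬝ᵥ v = 0 := by
    rw [hN, Matrix.vecMulVec_mul_vecMulVec] at hsq
    rcases Matrix.vecMulVec_eq_zero.mp hsq with h | h
    · exact absurd h hv
    · by_contra hne
      apply hφ
      have := congrArg (fun x => (φ ⬝ᵥ v)⁻¹ • x) h
      simpa [smul_smul, inv_mul_cancel₀ hne] using this
  obtain ⟨H₁, hH₁, h1⟩ := col_reach79 i₀ i₁ h01 v hv
  have hH₁u : IsUnit H₁.det := by rw [hH₁]; exact isUnit_one
  have hφ1 : φ ᵥ* H₁ ≠ 0 := by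
    intro h
    apply hφ
    have h2 : (φ ᵥ* H₁) ᵥ* H₁⁻¹ = 0 := by rw [h, Matrix.zero_vecMul]
    rw [Matrix.vecMul_vecMul, Matrix.mul_nonsing_inv _ hH₁u, Matrix.vecMul_one] at h2
    exact h2
  have hφ10 : (φ ᵥ* H₁) i₀ = 0 := by
    have h3 : (φ ᵥ* H₁) ⬝ᵥ Pi.single i₀ 1 = φ ⬝ᵥ (H₁ *ᵥ Pi.single i₀ 1) :=
      (Matrix.dotProduct_mulVec φ H₁ (Pi.single i₀ 1)).symm
    rw [h1, hφv] at h3
    simpa using h3
  obtain ⟨H₂, hH₂, h2, h2'⟩ := row_reach79 i₀ i₁ i₂ h01 h02 h12 (φ ᵥ* H₁) hφ10 hφ1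
  refine ⟨H₁ * H₂, by rw [Matrix.det_mul, hH₁, hH₂, mul_one], ?_⟩
  have hs1 : s = 1 + Matrix.vecMulVec v φ := by rw [← hN]; abel
  rw [hs1, Matrix.add_mul, Matrix.one_mul, Matrix.mul_add, Matrix.mul_one, Matrix.vecMulVec_mul,
    Matrix.mul_vecMulVec, ← Matrix.vecMul_vecMul, h2, ← Matrix.mulVec_mulVec, h2', h1]

/-- In SL_n(F) with n ≥ 3, over a finite field F, any two transvections (matrices t with t − 1 of rank one and square zero) are conjugate by an element of SL_n(F). -/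
theorem result {F : Type*} [Field F] [Finite F] {n : ℕ} (hn : 3 ≤ n) (s t : Matrix.SpecialLinearGroup (Fin n) F) (hs : Cfsg.IsTransvection (s : Matrix (Fin n) (Fin n) F)) (ht : Cfsg.IsTransvection (t : Matrix (Fin n) (Fin n) F)) : IsConj s t := by
  classical
  obtain ⟨i₀, hi₀⟩ : ∃ i : Fin n, i = ⟨0, by omega⟩ := ⟨_, rfl⟩
  obtain ⟨i₁, hi₁⟩ : ∃ i : Fin n, i = ⟨1, by omega⟩ := ⟨_, rfl⟩
  obtain ⟨i₂, hi₂⟩ : ∃ i : Fin n, i = ⟨2, by omega⟩ := ⟨_, rfl⟩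
  have h01 : i₀ ≠ i₁ := by rw [hi₀, hi₁]; simp
  have h02 : i₀ ≠ i₂ := by rw [hi₀, hi₂]; simp
  have h12 : i₁ ≠ i₂ := by rw [hi₁, hi₂]; simp
  have hTdet : (1 + Matrix.vecMulVec (Pi.single i₀ (1 : F)) (Pi.single i₁ 1)).det = 1 := by
    rw [det_R79]; simp [Pi.single_apply, h01, Ne.symm h01]
  obtain ⟨T, hT⟩ : ∃ T : Matrix.SpecialLinearGroup (Fin n) F,
      (T : Matrix (Fin n) (Fin n) F) = 1 + Matrix.vecMulVec (Pi.single i₀ (1 : F)) (Pi.single i₁ 1) :=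
    ⟨⟨_, hTdet⟩, rfl⟩
  have key : ∀ s : Matrix.SpecialLinearGroup (Fin n) F,
      Cfsg.IsTransvection (s : Matrix (Fin n) (Fin n) F) → IsConj s T := by
    intro s hs
    obtain ⟨H, hH, hsH⟩ := normal_form79 i₀ i₁ i₂ h01 h02 h12 _ hs
    obtain ⟨U, hU⟩ : ∃ U : Matrix.SpecialLinearGroup (Fin n) F,
        (U : Matrix (Fin n) (Fin n) F) = H := ⟨⟨_, hH⟩, rfl⟩
    have h1 : s * U = U * T := by
      apply Subtype.ext
      rw [Matrix.SpecialLinearGroup.coe_mul, Matrix.SpecialLinearGroup.coe_mul, hU, hT]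
      exact hsH
    rw [isConj_iff]
    refine ⟨U⁻¹, ?_⟩
    rw [inv_inv, mul_assoc, h1, ← mul_assoc, inv_mul_cancel, one_mul]
  exact (key s hs).trans (key t ht).symm

end Cfsg.Agent.S2579
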