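import Cfsg.Statements.S2669
import Mathlib
import Cfsg.Statements.S2669

set_option autoImplicit false
open Cfsg
open scoped commutatorElement

namespace Cfsg.Agent.S2669

theorem mem_fix69 {X : Type*} [Group X] (τ : MulAut X) (x : X) :
    x ∈ (MulEquiv.toMonoidHom τ).eqLocus (MonoidHom.id X) ↔ τ x = x := Iff.rfl

theorem card_eq_mul69 {α β ω : Type*} (T : α → β → Prop) (A : α → Prop)
    (r : ∀ a, A a → ω → β) (hr_inj : ∀ a ha, Function.Injective (r a ha))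
    (hT : ∀ a b, T a b ↔ ∃ ha : A a, ∃ w, r a ha w = b) :
    Nat.card {p : α × β // T p.1 p.2} = Nat.card {a // A a} * Nat.card ω := by
  rw [← Nat.card_prod]
  symm
  apply Nat.card_congr
  refine Equiv.ofBijective
    (fun x : {a // A a} × ω => (⟨(x.1.1, r x.1.1 x.1.2 x.2), (hT _ _).mpr ⟨x.1.2, x.2, rfl⟩⟩ :
      {p : α × β // T p.1 p.2})) ⟨?_, ?_⟩
  · rintro ⟨⟨a, ha⟩, w⟩ ⟨⟨a', ha'⟩, w'⟩ h
    have h1 := congrArg Subtype.val h
    simp only [Prod.mk.injEq] at h1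
    obtain ⟨h2, h3⟩ := h1
    subst h2
    have h4 := hr_inj a ha h3
    subst h4
    rfl
  · rintro ⟨⟨a, b⟩, h⟩
    obtain ⟨ha, w, hw⟩ := (hT a b).mp h
    subst hw
    exact ⟨(⟨a, ha⟩, w), rfl⟩

/-- Shintani descent preserves numbers of fixed points on coset spaces (abstract form). Let `σ` be an automorphism of a group `X` and `e ≥ 1`; write `G` for the fixed points of `σᵉ` and `H` for the fixed points of `σ`, and assume `G` is finite. Let `Y` be a `σ`-stable subgroup of `X` on which the maps `a ↦ a σ(a)⁻¹` and `a ↦ a σᵉ(a)⁻¹` are surjective (as for a closed connected `σ`-stable subgroup of an algebraic group). Let `g ∈ G`, let `a ∈ X` satisfy `g = a σ(a)⁻¹` and put `x = σᵉ(a)⁻¹ a` (the Shintani image, an element of `H`). The element `g σ` of the semidirect product acts on the cosets of `Y ∩ G` in `G` by `k (Y ∩ G) ↦ g σ(k) (Y ∩ G)`, fixing that coset exactly when `k⁻¹ g σ(k) ∈ Y`;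 and `x` fixes the coset `h (Y ∩ H)` of `H` exactly when `h⁻¹ x h ∈ Y`. Then the two numbers of fixed cosets agree; in cross-multiplied form, `#{k ∈ G : k⁻¹ g σ(k) ∈ Y} · |Y ∩ H| = #{h ∈ H : h⁻¹ x h ∈ Y} · |Y ∩ G|`. -/
theorem result {X : Type*} [Group X] (σ : MulAut X) (e : ℕ) (he : 1 ≤ e)
    [Finite ↥((MulEquiv.toMonoidHom (σ ^ e)).eqLocus (MonoidHom.id X))]
    (Y : Subgroup X) (hY : ∀ y : X, y ∈ Y ↔ σ y ∈ Y)
    (hYL : ∀ y ∈ Y, ∃ a ∈ Y, y = a * (σ a)⁻¹) (hYLe : ∀ y ∈ Y, ∃ a ∈ Y, y = a * ((σ ^ e) a)⁻¹)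
    (g : X) (hg : g ∈ (MulEquiv.toMonoidHom (σ ^ e)).eqLocus (MonoidHom.id X)) (a : X) (ha : g = a * (σ a)⁻¹) :
    Nat.card {k : ↥((MulEquiv.toMonoidHom (σ ^ e)).eqLocus (MonoidHom.id X)) // (k : X)⁻¹ * g * σ k ∈ Y} *
        Nat.card ↥(Y ⊓ (MulEquiv.toMonoidHom σ).eqLocus (MonoidHom.id X)) =
      Nat.card {h : ↥((MulEquiv.toMonoidHom σ).eqLocus (MonoidHom.id X)) // (h : X)⁻¹ * (((σ ^ e) a)⁻¹ * a) * h ∈ Y} *
        Nat.card ↥(Y ⊓ (MulEquiv.toMonoidHom (σ ^ e)).eqLocus (MonoidHom.id X)) := by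
  classical
  obtain ⟨Fe, hFe⟩ : ∃ Fe, Fe = (MulEquiv.toMonoidHom (σ ^ e)).eqLocus (MonoidHom.id X) := ⟨_, rfl⟩
  obtain ⟨F1, hF1⟩ : ∃ F1, F1 = (MulEquiv.toMonoidHom σ).eqLocus (MonoidHom.id X) := ⟨_, rfl⟩
  rw [← hFe, ← hF1]
  have memFe : ∀ x, x ∈ Fe ↔ (σ ^ e) x = x := by intro x; rw [hFe]; exact mem_fix69 _ x
  have memF1 : ∀ x, x ∈ F1 ↔ σ x = x := by intro x; rw [hF1]; exact mem_fix69 _ x
  -- σ^j fixes F1
  have hpowfix : ∀ j : ℕ, ∀ x, σ x = x → (σ ^ j) x = x := by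
    intro j x hx
    induction j with
    | zero => simp
    | succ j ih => rw [pow_succ, MulAut.mul_apply, hx, ih]
  have hF1Fe : ∀ x, x ∈ F1 → x ∈ Fe := by
    intro x hx
    rw [memFe]; exact hpowfix e x ((memF1 x).mp hx)
  -- σ^j preserves Y
  have hpowY : ∀ j : ℕ, ∀ y, y ∈ Y → (σ ^ j) y ∈ Y := by
    intro j
    induction j with
    | zero => intro y hy; simpa using hy
    | succ j ih =>
      intro y hy
      rw [pow_succ, MulAut.mul_apply]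
      exact ih _ ((hY y).mp hy)
  -- L1
  have L1 : ∀ k : X, k⁻¹ * g * σ k ∈ Y → ∃ h, h ∈ F1 ∧ k⁻¹ * a * h ∈ Y := by
    intro k hk
    have hb : k⁻¹ * g * σ k = (k⁻¹ * a) * (σ (k⁻¹ * a))⁻¹ := by
      rw [ha]; simp only [map_mul, map_inv]; group
    rw [hb] at hk
    obtain ⟨y, hyY, hy⟩ := hYL _ hk
    refine ⟨(k⁻¹ * a)⁻¹ * y, ?_, ?_⟩
    · rw [memF1]
      rw [map_mul, map_inv]
      have : (σ (k⁻¹ * a))⁻¹ = (k⁻¹ * a)⁻¹ * (y * (σ y)⁻¹) := by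
        rw [← hy]; group
      rw [this]; group
    · have : k⁻¹ * a * ((k⁻¹ * a)⁻¹ * y) = y := by group
      rw [this]; exact hyY
  have L1' : ∀ k h : X, h ∈ F1 → k⁻¹ * a * h ∈ Y → k⁻¹ * g * σ k ∈ Y := by
    intro k h hh hy
    have h1 : σ (k⁻¹ * a * h) ∈ Y := (hY _).mp hy
    have h2 : k⁻¹ * g * σ k = (k⁻¹ * a * h) * (σ (k⁻¹ * a * h))⁻¹ := by
      rw [ha]
      simp only [map_mul, map_inv]
      rw [(memF1 h).mp hh]; group
    rw [h2]; exact Y.mul_mem hy (Y.inv_mem h1)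
  have L2 : ∀ h : X, h ∈ F1 → h⁻¹ * (((σ ^ e) a)⁻¹ * a) * h ∈ Y →
      ∃ k, k ∈ Fe ∧ k⁻¹ * a * h ∈ Y := by
    intro h hh hy
    have hhe : (σ ^ e) h = h := (memFe h).mp (hF1Fe h hh)
    have h1 : (a * h)⁻¹ * ((σ ^ e) ((a * h)⁻¹))⁻¹ = (h⁻¹ * (((σ ^ e) a)⁻¹ * a) * h)⁻¹ := by
      simp only [map_mul, map_inv]
      rw [hhe]; group
    have h2 : (a * h)⁻¹ * ((σ ^ e) ((a * h)⁻¹))⁻¹ ∈ Y := by rw [h1]; exact Y.inv_mem hy
    obtain ⟨y, hyY, hy'⟩ := hYLe _ h2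
    refine ⟨a * h * y, ?_, ?_⟩
    · rw [memFe]
      rw [map_mul]
      have h3 : (σ ^ e) (a * h) = (a * h) * (y * ((σ ^ e) y)⁻¹) := by
        rw [← hy']; simp only [map_inv]; group
      rw [h3]; group
    · have : (a * h * y)⁻¹ * a * h = y⁻¹ := by group
      rw [this]; exact Y.inv_mem hyY
  have L2' : ∀ k h : X, k ∈ Fe → h ∈ F1 → k⁻¹ * a * h ∈ Y →
      h⁻¹ * (((σ ^ e) a)⁻¹ * a) * h ∈ Y := by
    intro k h hk hh hy
    have hhe : (σ ^ e) h = h := (memFe h).mp (hF1Fe h hh)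
    have hke : (σ ^ e) k = k := (memFe k).mp hk
    have h1 : (σ ^ e) (k⁻¹ * a * h) ∈ Y := hpowY e _ hy
    have h2 : h⁻¹ * (((σ ^ e) a)⁻¹ * a) * h = ((σ ^ e) (k⁻¹ * a * h))⁻¹ * (k⁻¹ * a * h) := by
      simp only [map_mul, map_inv]
      rw [hhe, hke]; group
    rw [h2]; exact Y.mul_mem (Y.inv_mem h1) hy
  -- first count
  have hc1 : Nat.card {p : Fe × F1 // (p.1 : X)⁻¹ * a * (p.2 : X) ∈ Y} =
      Nat.card {k : Fe // (k : X)⁻¹ * g * σ k ∈ Y} * Nat.card ↥(Y ⊓ F1) := by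
    have hch : ∀ k : Fe, (k : X)⁻¹ * g * σ k ∈ Y → ∃ h : F1, (k : X)⁻¹ * a * (h : X) ∈ Y := by
      intro k hk
      obtain ⟨h, hh, hy⟩ := L1 k hk
      exact ⟨⟨h, hh⟩, hy⟩
    refine card_eq_mul69 (fun (k : Fe) (h : F1) => (k : X)⁻¹ * a * (h : X) ∈ Y)
      (fun k : Fe => (k : X)⁻¹ * g * σ k ∈ Y)
      (fun k hk (w : ↥(Y ⊓ F1)) => (hch k hk).choose * ⟨w.1, w.2.2⟩) ?_ ?_
    · intro k hk w w' hww
      have h1 := mul_left_cancel hww
      have h2 := congrArg Subtype.val h1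
      exact Subtype.ext h2
    · intro k h
      constructor
      · intro hT
        have hk : (k : X)⁻¹ * g * σ k ∈ Y := L1' k h h.2 hT
        refine ⟨hk, ⟨(((hch k hk).choose)⁻¹ * h : F1), ?_⟩, ?_⟩
        · refine ⟨?_, (((hch k hk).choose)⁻¹ * h : F1).2⟩
          have h3 := (hch k hk).choose_spec
          have h4 : ((((hch k hk).choose)⁻¹ * h : F1) : X) =
              ((k : X)⁻¹ * a * ((hch k hk).choose : X))⁻¹ * ((k : X)⁻¹ * a * (h : X)) := by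
            push_cast; group
          rw [h4]; exact Y.mul_mem (Y.inv_mem h3) hT
        · apply Subtype.ext
          push_cast; group
      · rintro ⟨hk, w, rfl⟩
        have h3 := (hch k hk).choose_spec
        have h4 : (k : X)⁻¹ * a * (((hch k hk).choose * ⟨w.1, w.2.2⟩ : F1) : X) =
            ((k : X)⁻¹ * a * ((hch k hk).choose : X)) * (w : X) := by
          push_cast; group
        rw [h4]; exact Y.mul_mem h3 w.2.1
  have hc2 : Nat.card {p : F1 × Fe // (p.2 : X)⁻¹ * a * (p.1 : X) ∈ Y} =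
      Nat.card {h : F1 // (h : X)⁻¹ * (((σ ^ e) a)⁻¹ * a) * h ∈ Y} * Nat.card ↥(Y ⊓ Fe) := by
    have hch : ∀ h : F1, (h : X)⁻¹ * (((σ ^ e) a)⁻¹ * a) * h ∈ Y →
        ∃ k : Fe, (k : X)⁻¹ * a * (h : X) ∈ Y := by
      intro h hh
      obtain ⟨k, hk, hy⟩ := L2 h h.2 hh
      exact ⟨⟨k, hk⟩, hy⟩
    refine card_eq_mul69 (fun (h : F1) (k : Fe) => (k : X)⁻¹ * a * (h : X) ∈ Y)
      (fun h : F1 => (h : X)⁻¹ * (((σ ^ e) a)⁻¹ * a) * h ∈ Y)
      (fun h hh (w : ↥(Y ⊓ Fe)) => (hch h hh).choose * ⟨w.1, w.2.2⟩) ?_ ?_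
    · intro h hh w w' hww
      have h1 := mul_left_cancel hww
      have h2 := congrArg Subtype.val h1
      exact Subtype.ext h2
    · intro h k
      constructor
      · intro hT
        have hh : (h : X)⁻¹ * (((σ ^ e) a)⁻¹ * a) * h ∈ Y := L2' k h k.2 h.2 hT
        refine ⟨hh, ⟨(((hch h hh).choose)⁻¹ * k : Fe), ?_⟩, ?_⟩
        · refine ⟨?_, (((hch h hh).choose)⁻¹ * k : Fe).2⟩
          have h3 := (hch h hh).choose_spec
          have h4 : ((((hch h hh).choose)⁻¹ * k : Fe) : X) =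
              (((hch h hh).choose : X)⁻¹ * a * (h : X)) * ((k : X)⁻¹ * a * (h : X))⁻¹ := by
            push_cast; group
          rw [h4]; exact Y.mul_mem h3 (Y.inv_mem hT)
        · apply Subtype.ext
          push_cast; group
      · rintro ⟨hh, w, rfl⟩
        have h3 := (hch h hh).choose_spec
        have h4 : ((((hch h hh).choose * ⟨w.1, w.2.2⟩ : Fe) : X))⁻¹ * a * (h : X) =
            (w : X)⁻¹ * (((hch h hh).choose : X)⁻¹ * a * (h : X)) := by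
          push_cast; group
        rw [h4]; exact Y.mul_mem (Y.inv_mem w.2.1) h3
  rw [← hc1, ← hc2]
  apply Nat.card_congr
  exact
    { toFun := fun p => ⟨(p.1.2, p.1.1), p.2⟩
      invFun := fun p => ⟨(p.1.2, p.1.1), p.2⟩
      left_inv := fun p => rfl
      right_inv := fun p => rfl }

end Cfsg.Agent.S2669
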