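import Cfsg.Statements.S2572
import Mathlib
import Cfsg.Statements.S2572
import Cfsg.Agent.S2579
import Cfsg.Agent.S2330
import Cfsg.Agent.S2669

set_option autoImplicit false
open Cfsg
open scoped commutatorElement

namespace Cfsg.Agent.S2572

open Module
open Matrix

theorem rank_pos72 {F : Type*} [Field F] {n : ℕ} (M : Matrix (Fin n) (Fin n) F) (hM : M ≠ 0) :
    M.rank ≠ 0 := by
  intro h0
  apply hM
  have h1 : finrank F (LinearMap.range (Matrix.mulVecLin M)) = 0 := h0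
  have h2 : LinearMap.range (Matrix.mulVecLin M) = ⊥ := Submodule.finrank_eq_zero.mp h1
  apply Matrix.ext_of_mulVec_single
  intro i
  have h3 : M *ᵥ Pi.single i 1 ∈ LinearMap.range (Matrix.mulVecLin M) := ⟨_, rfl⟩
  rw [h2, Submodule.mem_bot] at h3
  rw [h3, Matrix.zero_mulVec]

theorem tv_decomp72 {F : Type*} [Field F] {n : ℕ} (s : Matrix (Fin n) (Fin n) F)
    (hs : Cfsg.IsTransvection s) :
    ∃ v φ : Fin n → F, v ≠ 0 ∧ φ ≠ 0 ∧ φ ⬝ᵥ v = 0 ∧ s = 1 + Matrix.vecMulVec v φ := by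
  obtain ⟨hrank, hsq⟩ := hs
  obtain ⟨v, φ, hN⟩ := Cfsg.Agent.S2579.rank_one_decomp79 (s - 1) hrank
  have hv : v ≠ 0 := by
    rintro rfl
    rw [hN] at hrank
    have : Matrix.vecMulVec (0 : Fin n → F) φ = 0 := by ext i j; simp [Matrix.vecMulVec_apply]
    rw [this, Matrix.rank_zero] at hrank
    exact absurd hrank (by norm_num)
  have hφ : φ ≠ 0 := by
    rintro rfl
    rw [hN] at hrank
    have : Matrix.vecMulVec v (0 : Fin n → F) = 0 := by ext i j; simp [Matrix.vecMulVec_apply]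
    rw [this, Matrix.rank_zero] at hrank
    exact absurd hrank (by norm_num)
  have hφv : φ ⬝ᵥ v = 0 := by
    rw [hN, Matrix.vecMulVec_mul_vecMulVec] at hsq
    rcases Matrix.vecMulVec_eq_zero.mp hsq with h | h
    · exact absurd h hv
    · by_contra hne
      apply hφ
      have := congrArg (fun x => (φ ⬝ᵥ v)⁻¹ • x) h
      simpa [smul_smul, inv_mul_cancel₀ hne] using this
  exact ⟨v, φ, hv, hφ, hφv, by rw [← hN]; abel⟩

theorem tv_of72 {F : Type*} [Field F] {n : ℕ} (v φ : Fin n → F) (hv : v ≠ 0) (hφ : φ ≠ 0)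
    (hφv : φ ⬝ᵥ v = 0) :
    Cfsg.IsTransvection (1 + Matrix.vecMulVec v φ) ∧ (1 + Matrix.vecMulVec v φ).det = 1 := by
  refine ⟨⟨?_, ?_⟩, ?_⟩
  · rw [add_sub_cancel_left]
    have h1 := Matrix.rank_vecMulVec_le v φ
    have h2 : Matrix.vecMulVec v φ ≠ 0 := by
      intro h
      rcases Matrix.vecMulVec_eq_zero.mp h with h | h
      · exact hv h
      · exact hφ h
    have h3 := rank_pos72 _ h2
    omega
  · rw [add_sub_cancel_left, Matrix.vecMulVec_mul_vecMulVec, hφv, zero_smul]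
    ext i j; simp [Matrix.vecMulVec_apply]
  · rw [Cfsg.Agent.S2579.det_R79, hφv, add_zero]

theorem tv_unique72 {F : Type*} [Field F] {n : ℕ} (v φ v' φ' : Fin n → F)
    (hv' : v' ≠ 0) (hφ' : φ' ≠ 0)
    (h : Matrix.vecMulVec v φ = Matrix.vecMulVec v' φ') :
    ∃ c : Fˣ, v = (c : F) • v' ∧ φ = ((c⁻¹ : Fˣ) : F) • φ' := by
  obtain ⟨i₀, hi₀⟩ : ∃ i, v' i ≠ 0 := by
    by_contra hcon; push Not at hcon; exact hv' (funext hcon)
  obtain ⟨j₀, hj₀⟩ : ∃ j, φ' j ≠ 0 := by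
    by_contra hcon; push Not at hcon; exact hφ' (funext hcon)
  have hent : ∀ i j, v i * φ j = v' i * φ' j := by
    intro i j
    have := congrFun (congrFun h i) j
    simpa [Matrix.vecMulVec_apply] using this
  have h00 := hent i₀ j₀
  have hne : v i₀ * φ j₀ ≠ 0 := by rw [h00]; exact mul_ne_zero hi₀ hj₀
  have hvi : v i₀ ≠ 0 := left_ne_zero_of_mul hne
  have hφj : φ j₀ ≠ 0 := right_ne_zero_of_mul hne
  refine ⟨Units.mk0 (v i₀ / v' i₀) (div_ne_zero hvi hi₀), ?_, ?_⟩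
  · ext i
    have h1 := hent i j₀
    simp only [Units.val_mk0, Pi.smul_apply, smul_eq_mul]
    field_simp
    have h2 : v i * v' i₀ * (φ j₀ * v i₀) = v i₀ * v' i * (φ j₀ * v i₀) := by
      have e1 : v i * v' i₀ * (φ j₀ * v i₀) = (v i * φ j₀) * (v' i₀ * v i₀) := by ring
      have e2 : v i₀ * v' i * (φ j₀ * v i₀) = (v' i * v i₀) * (v i₀ * φ j₀) := by ring
      rw [e1, e2, h1, h00]; ring
    exact mul_right_cancel₀ (mul_ne_zero hφj hvi) h2
  · ext j
    have h1 := hent i₀ j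
    simp only [Units.val_inv_eq_inv_val, Units.val_mk0, Pi.smul_apply, smul_eq_mul]
    field_simp
    linear_combination h1

theorem tv_conj_inv72 {F : Type*} [Field F] {n : ℕ} (x t : GL (Fin n) F)
    (ht : Cfsg.IsTransvection (t : Matrix (Fin n) (Fin n) F)) :
    Cfsg.IsTransvection ((x * t * x⁻¹ : GL (Fin n) F) : Matrix (Fin n) (Fin n) F) := by
  obtain ⟨hrank, hsq⟩ := ht
  have h1 : (x : Matrix (Fin n) (Fin n) F) * ((x⁻¹ : GL (Fin n) F) : Matrix (Fin n) (Fin n) F) = 1 := by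
    rw [← Units.val_mul, mul_inv_cancel]; rfl
  have h2 : ((x⁻¹ : GL (Fin n) F) : Matrix (Fin n) (Fin n) F) * (x : Matrix (Fin n) (Fin n) F) = 1 := by
    rw [← Units.val_mul, inv_mul_cancel]; rfl
  have heq : ((x * t * x⁻¹ : GL (Fin n) F) : Matrix (Fin n) (Fin n) F) - 1 =
      (x : Matrix (Fin n) (Fin n) F) * ((t : Matrix (Fin n) (Fin n) F) - 1) *
        ((x⁻¹ : GL (Fin n) F) : Matrix (Fin n) (Fin n) F) := by
    rw [Units.val_mul, Units.val_mul, mul_sub, sub_mul, mul_one, h1]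
  have hxu : IsUnit (x : Matrix (Fin n) (Fin n) F).det :=
    (Matrix.isUnit_iff_isUnit_det _).mp x.isUnit
  have hx'u : IsUnit ((x⁻¹ : GL (Fin n) F) : Matrix (Fin n) (Fin n) F).det :=
    (Matrix.isUnit_iff_isUnit_det _).mp (x⁻¹).isUnit
  refine ⟨?_, ?_⟩
  · rw [heq, Matrix.rank_mul_eq_left_of_isUnit_det _ _ hx'u,
      Matrix.rank_mul_eq_right_of_isUnit_det _ _ hxu, hrank]
  · rw [heq]
    calc (x : Matrix (Fin n) (Fin n) F) * ((t : Matrix (Fin n) (Fin n) F) - 1) *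
          ((x⁻¹ : GL (Fin n) F) : Matrix (Fin n) (Fin n) F) *
          ((x : Matrix (Fin n) (Fin n) F) * ((t : Matrix (Fin n) (Fin n) F) - 1) *
          ((x⁻¹ : GL (Fin n) F) : Matrix (Fin n) (Fin n) F))
        = (x : Matrix (Fin n) (Fin n) F) * ((t : Matrix (Fin n) (Fin n) F) - 1) *
          (((x⁻¹ : GL (Fin n) F) : Matrix (Fin n) (Fin n) F) * (x : Matrix (Fin n) (Fin n) F)) *
          ((t : Matrix (Fin n) (Fin n) F) - 1) *
          ((x⁻¹ : GL (Fin n) F) : Matrix (Fin n) (Fin n) F) := by simp only [Matrix.mul_assoc]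
      _ = (x : Matrix (Fin n) (Fin n) F) * (((t : Matrix (Fin n) (Fin n) F) - 1) *
          ((t : Matrix (Fin n) (Fin n) F) - 1)) *
          ((x⁻¹ : GL (Fin n) F) : Matrix (Fin n) (Fin n) F) := by
          rw [h2, Matrix.mul_one]; simp only [Matrix.mul_assoc]
      _ = 0 := by rw [hsq]; simp

theorem tv_conj72 {F : Type*} [Field F] {n : ℕ} (hn : 2 ≤ n) (s t : GL (Fin n) F)
    (hs : Cfsg.IsTransvection (s : Matrix (Fin n) (Fin n) F))
    (ht : Cfsg.IsTransvection (t : Matrix (Fin n) (Fin n) F)) :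
    ∃ x : GL (Fin n) F, x * t * x⁻¹ = s := by
  rcases Nat.lt_or_ge n 3 with h2 | h3
  · have hn2 : n = 2 := by omega
    subst hn2
    obtain ⟨v, φ, hv, hφ, hφv, hs1⟩ := tv_decomp72 _ hs
    obtain ⟨v', φ', hv', hφ', hφv', ht1⟩ := tv_decomp72 _ ht
    have hns : ∀ (w ψ : Fin 2 → F), w ≠ 0 → ψ ≠ 0 → ψ ⬝ᵥ w = 0 →
        ¬ ∃ a : F, (1 + Matrix.vecMulVec w ψ : Matrix (Fin 2) (Fin 2) F) = a • 1 := by
      rintro w ψ hw hψ hψw ⟨a, ha⟩
      have h1 : Matrix.vecMulVec w ψ = (a - 1) • (1 : Matrix (Fin 2) (Fin 2) F) := by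
        rw [sub_smul, one_smul, ← ha]; abel
      have h2 : Matrix.vecMulVec w ψ * Matrix.vecMulVec w ψ = 0 := by
        rw [Matrix.vecMulVec_mul_vecMulVec, hψw, zero_smul]
        ext i j; simp [Matrix.vecMulVec_apply]
      rw [h1] at h2
      have h3 : a - 1 = 0 := by
        have h4 := congrFun (congrFun h2 0) 0
        simpa using h4
      rw [h3, zero_smul] at h1
      rcases Matrix.vecMulVec_eq_zero.mp h1 with h | h
      · exact hw h
      · exact hψ h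
    have htr : ∀ (w ψ : Fin 2 → F), ψ ⬝ᵥ w = 0 →
        (1 + Matrix.vecMulVec w ψ : Matrix (Fin 2) (Fin 2) F).trace = 2 := by
      intro w ψ h
      rw [Matrix.trace_add, Matrix.trace_one, Matrix.trace_vecMulVec, dotProduct_comm, h]
      simp
    obtain ⟨P, hP, htP⟩ := Cfsg.Agent.S2330.conj_of_trace_det30
      (t : Matrix (Fin 2) (Fin 2) F) (s : Matrix (Fin 2) (Fin 2) F)
      (by rw [ht1]; exact hns v' φ' hv' hφ' hφv') (by rw [hs1]; exact hns v φ hv hφ hφv)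
      (by rw [ht1, hs1, htr _ _ hφv', htr _ _ hφv])
      (by rw [ht1, hs1, (tv_of72 v' φ' hv' hφ' hφv').2, (tv_of72 v φ hv hφ hφv).2])
    have hconj := Cfsg.Agent.S2330.isConj_GL_of30 t s P hP htP
    rw [isConj_iff] at hconj
    exact hconj
  · obtain ⟨i₀, hi₀⟩ : ∃ i : Fin n, i = ⟨0, by omega⟩ := ⟨_, rfl⟩
    obtain ⟨i₁, hi₁⟩ : ∃ i : Fin n, i = ⟨1, by omega⟩ := ⟨_, rfl⟩
    obtain ⟨i₂, hi₂⟩ : ∃ i : Fin n, i = ⟨2, by omega⟩ := ⟨_, rfl⟩
    have h01 : i₀ ≠ i₁ := by rw [hi₀, hi₁]; simp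
    have h02 : i₀ ≠ i₂ := by rw [hi₀, hi₂]; simp
    have h12 : i₁ ≠ i₂ := by rw [hi₁, hi₂]; simp
    obtain ⟨Hs, hHs, hsH⟩ := Cfsg.Agent.S2579.normal_form79 i₀ i₁ i₂ h01 h02 h12 _ hs
    obtain ⟨Ht, hHt, htH⟩ := Cfsg.Agent.S2579.normal_form79 i₀ i₁ i₂ h01 h02 h12 _ ht
    obtain ⟨Us, hUs⟩ : ∃ U : GL (Fin n) F, (U : Matrix (Fin n) (Fin n) F) = Hs :=
      ⟨Matrix.GeneralLinearGroup.mkOfDetNeZero Hs (by rw [hHs]; exact one_ne_zero), rfl⟩
    obtain ⟨Ut, hUt⟩ : ∃ U : GL (Fin n) F, (U : Matrix (Fin n) (Fin n) F) = Ht :=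
      ⟨Matrix.GeneralLinearGroup.mkOfDetNeZero Ht (by rw [hHt]; exact one_ne_zero), rfl⟩
    have hval : ∀ (r U : GL (Fin n) F) (H T₀ : Matrix (Fin n) (Fin n) F),
        (U : Matrix (Fin n) (Fin n) F) = H → (r : Matrix (Fin n) (Fin n) F) * H = H * T₀ →
        ((U⁻¹ * r * U : GL (Fin n) F) : Matrix (Fin n) (Fin n) F) = T₀ := by
      intro r U H T₀ hU hrH
      have h2 : ((U⁻¹ : GL (Fin n) F) : Matrix (Fin n) (Fin n) F) * H = 1 := by
        rw [← hU, ← Units.val_mul, inv_mul_cancel]; rfl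
      rw [Units.val_mul, Units.val_mul, hU, Matrix.mul_assoc, hrH, ← Matrix.mul_assoc, h2,
        Matrix.one_mul]
    have h1 : Ut⁻¹ * t * Ut = Us⁻¹ * s * Us := by
      apply Units.ext
      rw [hval t Ut Ht _ hUt htH, hval s Us Hs _ hUs hsH]
    refine ⟨Us * Ut⁻¹, ?_⟩
    calc Us * Ut⁻¹ * t * (Us * Ut⁻¹)⁻¹ = Us * (Ut⁻¹ * t * Ut) * Us⁻¹ := by group
      _ = Us * (Us⁻¹ * s * Us) * Us⁻¹ := by rw [h1]
      _ = s := by group

theorem card_ne_zero72 {F : Type*} [Field F] [Fintype F] (k : ℕ) :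
    Nat.card {x : Fin k → F // x ≠ 0} = Fintype.card F ^ k - 1 := by
  classical
  rw [Nat.card_eq_fintype_card]
  have hc1 := Fintype.card_subtype_compl (fun x : Fin k → F => x = 0)
  have hc2 : Fintype.card {x : Fin k → F // x = 0} = 1 := Fintype.card_subtype_eq _
  have hc3 : Fintype.card (Fin k → F) = Fintype.card F ^ k := by
    rw [Fintype.card_fun, Fintype.card_fin]
  rw [← hc3, ← hc2]
  convert hc1 using 2

/-- the functional `φ ↦ φ ⬝ᵥ v` -/
def ell72 {F : Type*} [Field F] {n : ℕ} (v : Fin n → F) : (Fin n → F) →ₗ[F] F where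
  toFun := fun φ => φ ⬝ᵥ v
  map_add' := fun a b => add_dotProduct a b v
  map_smul' := fun c a => by simp [smul_dotProduct]

theorem finrank_ker_ell72 {F : Type*} [Field F] {n : ℕ} (v : Fin n → F) (hv : v ≠ 0) :
    finrank F (LinearMap.ker (ell72 v)) = n - 1 := by
  obtain ⟨i, hi⟩ : ∃ i, v i ≠ 0 := by
    by_contra hcon; push Not at hcon; exact hv (funext hcon)
  have hsurj : LinearMap.range (ell72 v) = ⊤ := by
    rw [LinearMap.range_eq_top]
    intro c
    refine ⟨(c / v i) • (Pi.single i (1 : F) : Fin n → F), ?_⟩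
    show ((c / v i) • (Pi.single i (1 : F) : Fin n → F)) ⬝ᵥ v = c
    simp only [smul_dotProduct, single_dotProduct, one_mul, smul_eq_mul]
    field_simp
  have h1 := LinearMap.finrank_range_add_finrank_ker (ell72 v)
  rw [hsurj, finrank_top, Module.finrank_self, Module.finrank_fin_fun] at h1
  omega

theorem card_pairs72 {F : Type*} [Field F] [Fintype F] {n : ℕ} :
    Nat.card {p : (Fin n → F) × (Fin n → F) // p.1 ≠ 0 ∧ p.2 ≠ 0 ∧ p.2 ⬝ᵥ p.1 = 0} =
      (Fintype.card F ^ n - 1) * (Fintype.card F ^ (n - 1) - 1) := by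
  classical
  rw [← card_ne_zero72 n, ← card_ne_zero72 (n - 1)]
  have hfin : ∀ v : Fin n → F, v ≠ 0 →
      finrank F (LinearMap.ker (ell72 v)) = finrank F (Fin (n - 1) → F) := by
    intro v hv; rw [finrank_ker_ell72 v hv, Module.finrank_fin_fun]
  refine Cfsg.Agent.S2669.card_eq_mul69
    (fun (v φ : Fin n → F) => v ≠ 0 ∧ φ ≠ 0 ∧ φ ⬝ᵥ v = 0) (fun v => v ≠ 0)
    (fun v hv (w : {x : Fin (n - 1) → F // x ≠ 0}) =>
      (((LinearEquiv.ofFinrankEq _ _ (hfin v hv)).symm w.1 : LinearMap.ker (ell72 v)) :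
        Fin n → F)) ?_ ?_
  · intro v hv w w' h
    have h1 := (LinearEquiv.ofFinrankEq _ _ (hfin v hv)).symm.injective (Subtype.ext h)
    exact Subtype.ext h1
  · intro v φ
    constructor
    · rintro ⟨hv, hφ, hφv⟩
      have hmem : φ ∈ LinearMap.ker (ell72 v) := by
        rw [LinearMap.mem_ker]; exact hφv
      refine ⟨hv, ⟨(LinearEquiv.ofFinrankEq _ _ (hfin v hv)) ⟨φ, hmem⟩, ?_⟩, ?_⟩
      · intro h0
        have h1 : (⟨φ, hmem⟩ : LinearMap.ker (ell72 v)) = 0 := by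
          have := (LinearEquiv.ofFinrankEq _ _ (hfin v hv)).injective
            (h0.trans (map_zero _).symm)
          exact this
        exact hφ (congrArg Subtype.val h1)
      · simp
    · rintro ⟨hv, w, rfl⟩
      refine ⟨hv, ?_, ?_⟩
      · intro h0
        apply w.2
        have h1 : (LinearEquiv.ofFinrankEq _ _ (hfin v hv)).symm w.1 = 0 := Subtype.ext h0
        have h2 := (LinearEquiv.ofFinrankEq _ _ (hfin v hv)).symm.injective
          (h1.trans (map_zero _).symm)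
        exact h2
      · have := ((LinearEquiv.ofFinrankEq _ _ (hfin v hv)).symm w.1).2
        rw [LinearMap.mem_ker] at this
        exact this

theorem card_conj72 {F : Type*} [Field F] [Fintype F] {n : ℕ} (hn : 2 ≤ n) (t : GL (Fin n) F)
    (ht : Cfsg.IsTransvection (t : Matrix (Fin n) (Fin n) F)) :
    Nat.card (GL (Fin n) F) =
      Nat.card {s : GL (Fin n) F // Cfsg.IsTransvection (s : Matrix (Fin n) (Fin n) F)} *
      Nat.card ↥(Subgroup.centralizer ({t} : Set (GL (Fin n) F))) := by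
  classical
  have h1 := Cfsg.Agent.S2669.card_eq_mul69
    (fun (s x : GL (Fin n) F) => x * t * x⁻¹ = s)
    (fun s : GL (Fin n) F => Cfsg.IsTransvection (s : Matrix (Fin n) (Fin n) F))
    (fun s hs (w : ↥(Subgroup.centralizer ({t} : Set (GL (Fin n) F)))) =>
      (tv_conj72 hn s t hs ht).choose * w.1) ?_ ?_
  · rw [← h1]
    apply Nat.card_congr
    refine Equiv.ofBijective
      (fun x => (⟨(x * t * x⁻¹, x), rfl⟩ :
        {p : GL (Fin n) F × GL (Fin n) F // p.2 * t * p.2⁻¹ = p.1})) ⟨?_, ?_⟩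
    · intro x y h
      have := congrArg (fun p => p.1.2) h
      exact this
    · rintro ⟨⟨s, x⟩, h⟩
      refine ⟨x, ?_⟩
      apply Subtype.ext
      simp only at h ⊢
      rw [h]
  · intro s hs w w' h
    exact Subtype.ext (mul_left_cancel h)
  · intro s x
    constructor
    · intro h
      have hs : Cfsg.IsTransvection (s : Matrix (Fin n) (Fin n) F) := by
        rw [← h]; exact tv_conj_inv72 x t ht
      have hc := (tv_conj72 hn s t hs ht).choose_spec
      refine ⟨hs, ⟨(tv_conj72 hn s t hs ht).choose⁻¹ * x, ?_⟩, ?_⟩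
      · rw [Subgroup.mem_centralizer_singleton_iff]
        generalize (tv_conj72 hn s t hs ht).choose = y at hc
        have h2 : y * t * y⁻¹ = x * t * x⁻¹ := hc.trans h.symm
        calc y⁻¹ * x * t = y⁻¹ * (x * t * x⁻¹) * x := by group
          _ = y⁻¹ * (y * t * y⁻¹) * x := by rw [h2]
          _ = t * (y⁻¹ * x) := by group
      · simp
    · rintro ⟨hs, w, rfl⟩
      have hc := (tv_conj72 hn s t hs ht).choose_spec
      have hw := Subgroup.mem_centralizer_singleton_iff.mp w.2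
      generalize (tv_conj72 hn s t hs ht).choose = y at hc
      calc y * (w : GL (Fin n) F) * t * (y * (w : GL (Fin n) F))⁻¹
          = y * ((w : GL (Fin n) F) * t) * (w : GL (Fin n) F)⁻¹ * y⁻¹ := by group
        _ = y * (t * (w : GL (Fin n) F)) * (w : GL (Fin n) F)⁻¹ * y⁻¹ := by rw [hw]
        _ = y * t * y⁻¹ := by group
        _ = s := hc

theorem card_tv72 {F : Type*} [Field F] [Fintype F] {n : ℕ} :
    Nat.card {p : (Fin n → F) × (Fin n → F) // p.1 ≠ 0 ∧ p.2 ≠ 0 ∧ p.2 ⬝ᵥ p.1 = 0} =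
    Nat.card {s : GL (Fin n) F // Cfsg.IsTransvection (s : Matrix (Fin n) (Fin n) F)} *
      Nat.card Fˣ := by
  classical
  have h1 := Cfsg.Agent.S2669.card_eq_mul69
    (fun (s : GL (Fin n) F) (p : (Fin n → F) × (Fin n → F)) =>
      p.1 ≠ 0 ∧ p.2 ≠ 0 ∧ p.2 ⬝ᵥ p.1 = 0 ∧
        (s : Matrix (Fin n) (Fin n) F) = 1 + Matrix.vecMulVec p.1 p.2)
    (fun s : GL (Fin n) F => Cfsg.IsTransvection (s : Matrix (Fin n) (Fin n) F))
    (fun s hs (c : Fˣ) => ((c : F) • (tv_decomp72 _ hs).choose,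
      ((c⁻¹ : Fˣ) : F) • (tv_decomp72 _ hs).choose_spec.choose)) ?_ ?_
  · rw [← h1]
    apply Nat.card_congr
    symm
    refine Equiv.ofBijective (fun q => ⟨q.1.2, q.2.1, q.2.2.1, q.2.2.2.1⟩) ⟨?_, ?_⟩
    · rintro ⟨⟨s, p⟩, h⟩ ⟨⟨s', p'⟩, h'⟩ heq
      have hp : p = p' := congrArg Subtype.val heq
      subst hp
      have hs : s = s' := Units.ext (h.2.2.2.trans h'.2.2.2.symm)
      subst hs
      rfl
    · rintro ⟨p, hp1, hp2, hp3⟩
      have hdet := (tv_of72 p.1 p.2 hp1 hp2 hp3).2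
      refine ⟨⟨(Matrix.GeneralLinearGroup.mkOfDetNeZero (1 + Matrix.vecMulVec p.1 p.2)
        (by rw [hdet]; exact one_ne_zero), p), hp1, hp2, hp3, rfl⟩, rfl⟩
  · intro s hs c c' h
    obtain ⟨hv, hφ, hφv, hs1⟩ := (tv_decomp72 _ hs).choose_spec.choose_spec
    have h1 := congrArg Prod.fst h
    simp only at h1
    obtain ⟨i, hi⟩ : ∃ i, (tv_decomp72 _ hs).choose i ≠ 0 := by
      by_contra hcon; push Not at hcon; exact hv (funext hcon)
    have h2 := congrFun h1 i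
    simp only [Pi.smul_apply, smul_eq_mul] at h2
    exact Units.ext (mul_right_cancel₀ hi h2)
  · intro s p
    constructor
    · rintro ⟨hp1, hp2, hp3, hsp⟩
      have hs : Cfsg.IsTransvection (s : Matrix (Fin n) (Fin n) F) := by
        rw [hsp]; exact (tv_of72 p.1 p.2 hp1 hp2 hp3).1
      refine ⟨hs, ?_⟩
      obtain ⟨hv, hφ, hφv, hs1⟩ := (tv_decomp72 _ hs).choose_spec.choose_spec
      have heq : Matrix.vecMulVec p.1 p.2 = Matrix.vecMulVec (tv_decomp72 _ hs).choose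
          (tv_decomp72 _ hs).choose_spec.choose := by
        have := hsp.symm.trans hs1
        exact add_left_cancel this
      obtain ⟨c, hc1, hc2⟩ := tv_unique72 _ _ _ _ hv hφ heq
      exact ⟨c, Prod.ext hc1.symm hc2.symm⟩
    · rintro ⟨hs, c, rfl⟩
      obtain ⟨hv, hφ, hφv, hs1⟩ := (tv_decomp72 _ hs).choose_spec.choose_spec
      generalize (tv_decomp72 _ hs).choose_spec.choose = φ at hφ hφv hs1
      generalize (tv_decomp72 _ hs).choose = v at hv hφv hs1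
      have hc0 : (c : F) ≠ 0 := c.ne_zero
      have hc0' : ((c⁻¹ : Fˣ) : F) ≠ 0 := (c⁻¹).ne_zero
      refine ⟨?_, ?_, ?_, ?_⟩
      · show (c : F) • v ≠ 0
        intro h0
        rcases smul_eq_zero.mp h0 with h | h
        · exact hc0 h
        · exact hv h
      · show ((c⁻¹ : Fˣ) : F) • φ ≠ 0
        intro h0
        rcases smul_eq_zero.mp h0 with h | h
        · exact hc0' h
        · exact hφ h
      · show (((c⁻¹ : Fˣ) : F) • φ) ⬝ᵥ ((c : F) • v) = 0
        rw [smul_dotProduct, dotProduct_smul, hφv]; simp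
      · show (s : Matrix (Fin n) (Fin n) F) =
          1 + Matrix.vecMulVec ((c : F) • v) (((c⁻¹ : Fˣ) : F) • φ)
        rw [hs1]
        congr 1
        ext i j
        simp only [Matrix.vecMulVec_apply, Pi.smul_apply, smul_eq_mul, Units.val_inv_eq_inv_val]
        field_simp

theorem prod_id72 (q m : ℕ) :
    ∏ i : Fin (m + 2), (q ^ (m + 2) - q ^ (i : ℕ)) =
    q ^ (2 * m + 1) * ((q ^ (m + 2) - 1) * (q ^ (m + 1) - 1)) *
      ∏ i : Fin m, (q ^ m - q ^ (i : ℕ)) := by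
  rw [Fin.prod_univ_succ, Fin.prod_univ_succ]
  simp only [Fin.val_zero, Fin.val_succ, pow_zero]
  have h1 : q ^ (m + 2) - q ^ (0 + 1) = q * (q ^ (m + 1) - 1) := by
    rw [Nat.mul_sub, mul_one]; ring_nf
  have h2 : ∀ i : Fin m, q ^ (m + 2) - q ^ ((i : ℕ) + 1 + 1) = q ^ 2 * (q ^ m - q ^ (i : ℕ)) := by
    intro i; rw [Nat.mul_sub]; ring_nf
  rw [h1]; simp only [h2]
  rw [Finset.prod_mul_distrib, Finset.prod_const, Finset.card_univ, Fintype.card_fin]
  ring

/-- Centraliser of a transvection in GL_n(q), n ≥ 2: if t − 1 has rank one and square zero, the centraliser of t in GL_n(q) has order q^(2n−3) (q − 1) |GL_(n−2)(q)| (a group of order q^(2n−3) extended by GL_1(q) × GL_(n−2)(q)). -/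
theorem result {F : Type*} [Field F] [Fintype F] {q n : ℕ} (hF : Fintype.card F = q) (hn : 2 ≤ n) (t : GL (Fin n) F) (ht : Cfsg.IsTransvection (t : Matrix (Fin n) (Fin n) F)) : Nat.card ↥(Subgroup.centralizer ({t} : Set (GL (Fin n) F))) = q ^ (2 * n - 3) * (q - 1) * ∏ i : Fin (n - 2), (q ^ (n - 2) - q ^ (i : ℕ)) := by
  classical
  have hq : 2 ≤ q := by rw [← hF]; exact Fintype.one_lt_card
  have h1 := card_conj72 hn t ht
  have h2 := card_tv72 (F := F) (n := n)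
  rw [card_pairs72] at h2
  rw [Matrix.card_GL_field] at h1
  have h3 : Nat.card Fˣ = q - 1 := by rw [Nat.card_eq_fintype_card, Fintype.card_units, hF]
  rw [h3, hF] at h2
  rw [hF] at h1
  obtain ⟨m, rfl⟩ : ∃ m, n = m + 2 := ⟨n - 2, by omega⟩
  have e1 : m + 2 - 2 = m := by omega
  have e2 : 2 * (m + 2) - 3 = 2 * m + 1 := by omega
  have e3 : m + 2 - 1 = m + 1 := by omega
  rw [e1, e2]
  rw [e3] at h2
  rw [prod_id72 q m] at h1
  generalize Nat.card {s : GL (Fin (m + 2)) F //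
    Cfsg.IsTransvection (s : Matrix (Fin (m + 2)) (Fin (m + 2)) F)} = Tn at h1 h2
  generalize Nat.card ↥(Subgroup.centralizer ({t} : Set (GL (Fin (m + 2)) F))) = C at h1 ⊢
  have hT : 0 < Tn := by
    rcases Nat.eq_zero_or_pos Tn with h | h
    · rw [h, zero_mul] at h2
      have ha : 2 ^ (m + 2) ≤ q ^ (m + 2) := Nat.pow_le_pow_left hq _
      have hb : 2 ^ (m + 1) ≤ q ^ (m + 1) := Nat.pow_le_pow_left hq _
      have ha' : 2 ≤ 2 ^ (m + 2) := by
        calc 2 = 2 ^ 1 := by norm_num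
          _ ≤ 2 ^ (m + 2) := Nat.pow_le_pow_right (by norm_num) (by omega)
      have hb' : 2 ≤ 2 ^ (m + 1) := by
        calc 2 = 2 ^ 1 := by norm_num
          _ ≤ 2 ^ (m + 1) := Nat.pow_le_pow_right (by norm_num) (by omega)
      rcases Nat.mul_eq_zero.mp h2 with h | h <;> omega
    · exact h
  rw [h2] at h1
  have h4 : Tn * (q ^ (2 * m + 1) * (q - 1) * ∏ i : Fin m, (q ^ m - q ^ (i : ℕ))) = Tn * C := by
    rw [← h1]; ring
  exact (Nat.eq_of_mul_eq_mul_left hT h4).symm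

end Cfsg.Agent.S2572
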