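import Cfsg.Statements.S0445
import Mathlib
import Cfsg.Agent.S2572
-- import your own Cfsg.Agent.* helpers here

set_option autoImplicit false
open Cfsg

namespace Cfsg.Agent.S0445

/-- In the special linear group of dimension 5 over the field with two elements, the centraliser of a transvection has order 21504 = 2 ^ 7 · 168 (it is an extension of an extraspecial group of order 2 ^ 7 by the simple group of order 168). -/
theorem result (s : Matrix.SpecialLinearGroup (Fin 5) (ZMod 2)) (hs : (s : Matrix (Fin 5) (Fin 5) (ZMod 2)) = Matrix.transvection 0 1 1) : Nat.card (Subgroup.centralizer ({s} : Set (Matrix.SpecialLinearGroup (Fin 5) (ZMod 2)))) = 21504 := by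
  classical
  haveI : Fact (Nat.Prime 2) := ⟨Nat.prime_two⟩
  let e : Matrix.SpecialLinearGroup (Fin 5) (ZMod 2) →*
      Matrix.GeneralLinearGroup (Fin 5) (ZMod 2) := Matrix.SpecialLinearGroup.toGL
  have hinj : Function.Injective e := Matrix.SpecialLinearGroup.toGL_injective
  have hsurj : Function.Surjective e := by
    intro g
    have hdet : (g : Matrix (Fin 5) (Fin 5) (ZMod 2)).det = 1 := by
      have hu : IsUnit (g : Matrix (Fin 5) (Fin 5) (ZMod 2)).det :=
        (Matrix.isUnit_iff_isUnit_det _).1 g.isUnit
      have h01 : ∀ y : ZMod 2, y ≠ 0 → y = 1 := by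
        intro y hy
        fin_cases y
        · exact absurd rfl hy
        · rfl
      exact h01 _ hu.ne_zero
    refine ⟨⟨(g : Matrix (Fin 5) (Fin 5) (ZMod 2)), hdet⟩, ?_⟩
    apply Units.ext
    exact Matrix.SpecialLinearGroup.coe_GL_coe_matrix (⟨(g : Matrix (Fin 5) (Fin 5) (ZMod 2)), hdet⟩ :
      Matrix.SpecialLinearGroup (Fin 5) (ZMod 2))
  have htv : Cfsg.IsTransvection
      ((e s : Matrix.GeneralLinearGroup (Fin 5) (ZMod 2)) : Matrix (Fin 5) (Fin 5) (ZMod 2)) := by
    have h1 := (Cfsg.Agent.S2572.tv_of72 (F := ZMod 2) (n := 5) (Pi.single 0 1) (Pi.single 1 1)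
      ?_ ?_ ?_).1
    · have e1 : ((e s : Matrix.GeneralLinearGroup (Fin 5) (ZMod 2)) :
          Matrix (Fin 5) (Fin 5) (ZMod 2))
          = 1 + Matrix.vecMulVec (Pi.single 0 1) (Pi.single 1 1) := by
        show (s : Matrix (Fin 5) (Fin 5) (ZMod 2)) = _
        rw [hs, Matrix.transvection]
        congr 1
        ext i j
        simp only [Matrix.single, Matrix.vecMulVec_apply, Pi.single_apply, Matrix.of_apply]
        by_cases hi : i = 0 <;> by_cases hj : j = 1 <;> simp [hi, hj, eq_comm]
      rw [e1]; exact h1
    · intro h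
      have := congrFun h 0
      simp at this
    · intro h
      have := congrFun h 1
      simp at this
    · simp [dotProduct, Pi.single_apply]
  have key := Cfsg.Agent.S2572.result (F := ZMod 2) (q := 2) (n := 5) (by rw [ZMod.card])
    (by norm_num) (e s) htv
  have hcard : Nat.card (Subgroup.centralizer
      ({s} : Set (Matrix.SpecialLinearGroup (Fin 5) (ZMod 2))))
      = Nat.card (Subgroup.centralizer
        ({e s} : Set (Matrix.GeneralLinearGroup (Fin 5) (ZMod 2)))) := by
    have hmap : (Subgroup.centralizer
        ({s} : Set (Matrix.SpecialLinearGroup (Fin 5) (ZMod 2)))).map e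
        = Subgroup.centralizer ({e s} : Set (Matrix.GeneralLinearGroup (Fin 5) (ZMod 2))) := by
      ext g
      constructor
      · rintro ⟨x, hx, rfl⟩
        apply Subgroup.mem_centralizer_iff.2
        intro y hy
        rw [Set.mem_singleton_iff.1 hy, ← map_mul, ← map_mul,
          Subgroup.mem_centralizer_iff.1 hx s rfl]
      · intro hg
        obtain ⟨x, rfl⟩ := hsurj g
        refine ⟨x, ?_, rfl⟩
        apply Subgroup.mem_centralizer_iff.2
        intro y hy
        rw [Set.mem_singleton_iff.1 hy]
        apply hinj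
        rw [map_mul, map_mul]
        exact Subgroup.mem_centralizer_iff.1 hg (e s) rfl
    rw [← hmap, Subgroup.card_map_of_injective hinj]
  rw [hcard, key]
  decide

end Cfsg.Agent.S0445
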