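import Mathlib
import Cfsg.Statements.S0481

set_option autoImplicit false
open Cfsg

namespace Cfsg.Agent.S0481

open scoped Pointwise

/-- Large extraspecial subgroups: let z be an involution of a finite group G whose centraliser C contains a normal 2-subgroup Q with centre of order 2 and all squares central, such that every element of G centralising Q lies in Q. Then C contains a Sylow 2-subgroup of G, and any involution of G whose centraliser contains a Sylow 2-subgroup of G is conjugate to z. -/
theorem result {G : Type*} [Group G] [Finite G] (z : G) (hz : orderOf z = 2) (Q : Subgroup G) (hQC : Q ≤ Subgroup.centralizer ({z} : Set G)) (hQn : ∀ g ∈ Subgroup.centralizer ({z} : Set G), ∀ q ∈ Q, g * q * g⁻¹ ∈ Q) (hQ2 : IsPGroup 2 Q) (hZ : Nat.card (Subgroup.center Q) = 2) (hsq : ∀ x : Q, x ^ 2 ∈ Subgroup.center Q) (hlarge : Subgroup.centralizer (Q : Set G) ≤ Q) : (∃ P : Sylow 2 G, (P : Subgroup G) ≤ Subgroup.centralizer ({z} : Set G)) ∧ ∀ u : G, orderOf u = 2 → (∃ P : Sylow 2 G, (P : Subgroup G) ≤ Subgroup.centralizer ({u}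 : Set G)) → IsConj z u := by
  have : Fact (Nat.Prime 2) := ⟨Nat.prime_two⟩
  have z1 : z ≠ 1 := by
    rintro rfl
    simp at hz
  have hQz : ∀ q ∈ Q, q * z = z * q := by
    intro q hq
    have := hQC hq
    rw [Subgroup.mem_centralizer_iff] at this
    exact (this z (Set.mem_singleton z)).symm
  have hzQ : z ∈ Q := hlarge (by rw [Subgroup.mem_centralizer_iff]; exact hQz)
  have claim : ∀ w : G, w ≠ 1 → (∀ q ∈ Q, q * w = w * q) → w = z := by
    intro w hw1 hw
    have hwQ : w ∈ Q := hlarge (by rw [Subgroup.mem_centralizer_iff]; exact hw)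
    have hwc : (⟨w, hwQ⟩ : Q) ∈ Subgroup.center Q := by
      rw [Subgroup.mem_center_iff]; intro g; ext; exact hw g g.2
    have hzc : (⟨z, hzQ⟩ : Q) ∈ Subgroup.center Q := by
      rw [Subgroup.mem_center_iff]; intro g; ext; exact hQz g g.2
    obtain ⟨y, hy, huniq⟩ := (Nat.card_eq_two_iff' (1 : Subgroup.center Q)).mp hZ
    have e1 := huniq ⟨⟨w, hwQ⟩, hwc⟩ (by
      intro h; apply hw1
      have := congrArg (fun x : Subgroup.center Q => ((x : Q) : G)) h
      simpa using this)
    have e2 := huniq ⟨⟨z, hzQ⟩, hzc⟩ (by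
      intro h; apply z1
      have := congrArg (fun x : Subgroup.center Q => ((x : Q) : G)) h
      simpa using this)
    have := e1.trans e2.symm
    have := congrArg (fun x : Subgroup.center Q => ((x : Q) : G)) this
    simpa using this
  obtain ⟨T, hQT⟩ := hQ2.exists_le_sylow
  have hzT : z ∈ (T : Subgroup G) := hQT hzQ
  have hTz : ∀ t ∈ (T : Subgroup G), t * z = z * t := by
    haveI : Nontrivial (T : Subgroup G) :=
      ⟨⟨⟨z, hzT⟩, 1, by intro h; exact z1 (congrArg Subtype.val h)⟩⟩
    haveI : Nontrivial (Subgroup.center (T : Subgroup G)) := T.isPGroup'.center_nontrivial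
    obtain ⟨w, hw⟩ := exists_ne (1 : Subgroup.center (T : Subgroup G))
    have hwz : ((w : (T : Subgroup G)) : G) = z := by
      apply claim
      · intro h; apply hw
        apply Subtype.ext; apply Subtype.ext; exact h
      · intro q hq
        have := Subgroup.mem_center_iff.mp w.2 ⟨q, hQT hq⟩
        exact congrArg Subtype.val this
    intro t ht
    have := Subgroup.mem_center_iff.mp w.2 ⟨t, ht⟩
    have := congrArg Subtype.val this
    simp only [Subgroup.coe_mul] at this
    rw [hwz] at this
    exact this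
  refine ⟨⟨T, fun t ht => ?_⟩, ?_⟩
  · rw [Subgroup.mem_centralizer_iff]
    intro h hh
    rw [Set.mem_singleton_iff] at hh
    subst hh
    exact (hTz t ht).symm
  · rintro u hu ⟨P, hP⟩
    obtain ⟨g, hg⟩ := MulAction.exists_smul_eq G P T
    have hPu : ∀ x ∈ (P : Subgroup G), x * u = u * x := fun x hx => by
      have := hP hx
      rw [Subgroup.mem_centralizer_iff] at this
      exact (this u (Set.mem_singleton u)).symm
    have hT : (T : Subgroup G) = MulAut.conj g • (P : Subgroup G) := by
      rw [← hg, Sylow.coe_subgroup_smul]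
    have hu'T : ∀ t ∈ (T : Subgroup G), ∃ x ∈ (P : Subgroup G), t = g * x * g⁻¹ := by
      intro t ht
      rw [hT] at ht
      obtain ⟨x, hx, rfl⟩ := (Subgroup.mem_smul_pointwise_iff_exists _ _ _).mp ht
      exact ⟨x, hx, by simp [MulAut.smul_def]⟩
    have hu1 : u ≠ 1 := by
      rintro rfl
      simp at hu
    have hu'ne : g * u * g⁻¹ ≠ 1 := by
      intro h
      apply hu1
      have : u = g⁻¹ * (g * u * g⁻¹) * g := by group
      rw [this, h]; group
    have hu'z : g * u * g⁻¹ = z := by
      apply claim _ hu'ne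
      intro q hq
      obtain ⟨x, hx, rfl⟩ := hu'T q (hQT hq)
      have := hPu x hx
      calc g * x * g⁻¹ * (g * u * g⁻¹) = g * (x * u) * g⁻¹ := by group
        _ = g * (u * x) * g⁻¹ := by rw [this]
        _ = g * u * g⁻¹ * (g * x * g⁻¹) := by group
    rw [isConj_comm, isConj_iff]
    exact ⟨g, hu'z⟩

end Cfsg.Agent.S0481
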