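import Cfsg.Statements.S0493
import Cfsg.Agent.Lib.Lead.Char8
import Cfsg.Agent.Lib.Lead.IndexTwo

set_option autoImplicit false
open Cfsg

namespace Cfsg.Agent.S0493

theorem arith (n : ℕ) (h0 : 0 < n) (h : n ≤ 100)
    (h1 : ¬ ∃ p q a b : ℕ, p.Prime ∧ q.Prime ∧ n = p ^ a * q ^ b) (h2 : ¬ n % 4 = 2)
    (h3 : ¬ n = 84) : n = 60 := by
  by_contra h4
  interval_cases n
  · exact h1 ⟨2, 2, 0, 0, by norm_num, by norm_num, by norm_num⟩
  · exact h1 ⟨2, 2, 0, 1, by norm_num, by norm_num, by norm_num⟩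
  · exact h1 ⟨2, 3, 0, 1, by norm_num, by norm_num, by norm_num⟩
  · exact h1 ⟨2, 2, 0, 2, by norm_num, by norm_num, by norm_num⟩
  · exact h1 ⟨2, 5, 0, 1, by norm_num, by norm_num, by norm_num⟩
  · exact h1 ⟨2, 3, 1, 1, by norm_num, by norm_num, by norm_num⟩
  · exact h1 ⟨2, 7, 0, 1, by norm_num, by norm_num, by norm_num⟩
  · exact h1 ⟨2, 2, 0, 3, by norm_num, by norm_num, by norm_num⟩
  · exact h1 ⟨2, 3, 0, 2, by norm_num, by norm_num, by norm_num⟩
  · exact h1 ⟨2, 5, 1, 1, by norm_num, by norm_num, by norm_num⟩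
  · exact h1 ⟨2, 11, 0, 1, by norm_num, by norm_num, by norm_num⟩
  · exact h1 ⟨2, 3, 2, 1, by norm_num, by norm_num, by norm_num⟩
  · exact h1 ⟨2, 13, 0, 1, by norm_num, by norm_num, by norm_num⟩
  · exact h1 ⟨2, 7, 1, 1, by norm_num, by norm_num, by norm_num⟩
  · exact h1 ⟨3, 5, 1, 1, by norm_num, by norm_num, by norm_num⟩
  · exact h1 ⟨2, 2, 0, 4, by norm_num, by norm_num, by norm_num⟩
  · exact h1 ⟨2, 17, 0, 1, by norm_num, by norm_num, by norm_num⟩
  · exact h1 ⟨2, 3, 1, 2, by norm_num, by norm_num, by norm_num⟩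
  · exact h1 ⟨2, 19, 0, 1, by norm_num, by norm_num, by norm_num⟩
  · exact h1 ⟨2, 5, 2, 1, by norm_num, by norm_num, by norm_num⟩
  · exact h1 ⟨3, 7, 1, 1, by norm_num, by norm_num, by norm_num⟩
  · exact h1 ⟨2, 11, 1, 1, by norm_num, by norm_num, by norm_num⟩
  · exact h1 ⟨2, 23, 0, 1, by norm_num, by norm_num, by norm_num⟩
  · exact h1 ⟨2, 3, 3, 1, by norm_num, by norm_num, by norm_num⟩
  · exact h1 ⟨2, 5, 0, 2, by norm_num, by norm_num, by norm_num⟩
  · exact h1 ⟨2, 13, 1, 1, by norm_num, by norm_num, by norm_num⟩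
  · exact h1 ⟨2, 3, 0, 3, by norm_num, by norm_num, by norm_num⟩
  · exact h1 ⟨2, 7, 2, 1, by norm_num, by norm_num, by norm_num⟩
  · exact h1 ⟨2, 29, 0, 1, by norm_num, by norm_num, by norm_num⟩
  · omega
  · exact h1 ⟨2, 31, 0, 1, by norm_num, by norm_num, by norm_num⟩
  · exact h1 ⟨2, 2, 0, 5, by norm_num, by norm_num, by norm_num⟩
  · exact h1 ⟨3, 11, 1, 1, by norm_num, by norm_num, by norm_num⟩
  · exact h1 ⟨2, 17, 1, 1, by norm_num, by norm_num, by norm_num⟩
  · exact h1 ⟨5, 7, 1, 1, by norm_num, by norm_num, by norm_num⟩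
  · exact h1 ⟨2, 3, 2, 2, by norm_num, by norm_num, by norm_num⟩
  · exact h1 ⟨2, 37, 0, 1, by norm_num, by norm_num, by norm_num⟩
  · exact h1 ⟨2, 19, 1, 1, by norm_num, by norm_num, by norm_num⟩
  · exact h1 ⟨3, 13, 1, 1, by norm_num, by norm_num, by norm_num⟩
  · exact h1 ⟨2, 5, 3, 1, by norm_num, by norm_num, by norm_num⟩
  · exact h1 ⟨2, 41, 0, 1, by norm_num, by norm_num, by norm_num⟩
  · omega
  · exact h1 ⟨2, 43, 0, 1, by norm_num, by norm_num, by norm_num⟩
  · exact h1 ⟨2, 11, 2, 1, by norm_num, by norm_num, by norm_num⟩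
  · exact h1 ⟨3, 5, 2, 1, by norm_num, by norm_num, by norm_num⟩
  · exact h1 ⟨2, 23, 1, 1, by norm_num, by norm_num, by norm_num⟩
  · exact h1 ⟨2, 47, 0, 1, by norm_num, by norm_num, by norm_num⟩
  · exact h1 ⟨2, 3, 4, 1, by norm_num, by norm_num, by norm_num⟩
  · exact h1 ⟨2, 7, 0, 2, by norm_num, by norm_num, by norm_num⟩
  · exact h1 ⟨2, 5, 1, 2, by norm_num, by norm_num, by norm_num⟩
  · exact h1 ⟨3, 17, 1, 1, by norm_num, by norm_num, by norm_num⟩
  · exact h1 ⟨2, 13, 2, 1, by norm_num, by norm_num, by norm_num⟩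
  · exact h1 ⟨2, 53, 0, 1, by norm_num, by norm_num, by norm_num⟩
  · exact h1 ⟨2, 3, 1, 3, by norm_num, by norm_num, by norm_num⟩
  · exact h1 ⟨5, 11, 1, 1, by norm_num, by norm_num, by norm_num⟩
  · exact h1 ⟨2, 7, 3, 1, by norm_num, by norm_num, by norm_num⟩
  · exact h1 ⟨3, 19, 1, 1, by norm_num, by norm_num, by norm_num⟩
  · exact h1 ⟨2, 29, 1, 1, by norm_num, by norm_num, by norm_num⟩
  · exact h1 ⟨2, 59, 0, 1, by norm_num, by norm_num, by norm_num⟩
  · exact absurd rfl h4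
  · exact h1 ⟨2, 61, 0, 1, by norm_num, by norm_num, by norm_num⟩
  · exact h1 ⟨2, 31, 1, 1, by norm_num, by norm_num, by norm_num⟩
  · exact h1 ⟨3, 7, 2, 1, by norm_num, by norm_num, by norm_num⟩
  · exact h1 ⟨2, 2, 0, 6, by norm_num, by norm_num, by norm_num⟩
  · exact h1 ⟨5, 13, 1, 1, by norm_num, by norm_num, by norm_num⟩
  · omega
  · exact h1 ⟨2, 67, 0, 1, by norm_num, by norm_num, by norm_num⟩
  · exact h1 ⟨2, 17, 2, 1, by norm_num, by norm_num, by norm_num⟩
  · exact h1 ⟨3, 23, 1, 1, by norm_num, by norm_num, by norm_num⟩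
  · omega
  · exact h1 ⟨2, 71, 0, 1, by norm_num, by norm_num, by norm_num⟩
  · exact h1 ⟨2, 3, 3, 2, by norm_num, by norm_num, by norm_num⟩
  · exact h1 ⟨2, 73, 0, 1, by norm_num, by norm_num, by norm_num⟩
  · exact h1 ⟨2, 37, 1, 1, by norm_num, by norm_num, by norm_num⟩
  · exact h1 ⟨3, 5, 1, 2, by norm_num, by norm_num, by norm_num⟩
  · exact h1 ⟨2, 19, 2, 1, by norm_num, by norm_num, by norm_num⟩
  · exact h1 ⟨7, 11, 1, 1, by norm_num, by norm_num, by norm_num⟩
  · omega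
  · exact h1 ⟨2, 79, 0, 1, by norm_num, by norm_num, by norm_num⟩
  · exact h1 ⟨2, 5, 4, 1, by norm_num, by norm_num, by norm_num⟩
  · exact h1 ⟨2, 3, 0, 4, by norm_num, by norm_num, by norm_num⟩
  · exact h1 ⟨2, 41, 1, 1, by norm_num, by norm_num, by norm_num⟩
  · exact h1 ⟨2, 83, 0, 1, by norm_num, by norm_num, by norm_num⟩
  · exact absurd rfl h3
  · exact h1 ⟨5, 17, 1, 1, by norm_num, by norm_num, by norm_num⟩
  · exact h1 ⟨2, 43, 1, 1, by norm_num, by norm_num, by norm_num⟩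
  · exact h1 ⟨3, 29, 1, 1, by norm_num, by norm_num, by norm_num⟩
  · exact h1 ⟨2, 11, 3, 1, by norm_num, by norm_num, by norm_num⟩
  · exact h1 ⟨2, 89, 0, 1, by norm_num, by norm_num, by norm_num⟩
  · omega
  · exact h1 ⟨7, 13, 1, 1, by norm_num, by norm_num, by norm_num⟩
  · exact h1 ⟨2, 23, 2, 1, by norm_num, by norm_num, by norm_num⟩
  · exact h1 ⟨3, 31, 1, 1, by norm_num, by norm_num, by norm_num⟩
  · exact h1 ⟨2, 47, 1, 1, by norm_num, by norm_num, by norm_num⟩
  · exact h1 ⟨5, 19, 1, 1, by norm_num, by norm_num, by norm_num⟩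
  · exact h1 ⟨2, 3, 5, 1, by norm_num, by norm_num, by norm_num⟩
  · exact h1 ⟨2, 97, 0, 1, by norm_num, by norm_num, by norm_num⟩
  · exact h1 ⟨2, 7, 1, 2, by norm_num, by norm_num, by norm_num⟩
  · exact h1 ⟨3, 11, 2, 1, by norm_num, by norm_num, by norm_num⟩
  · exact h1 ⟨2, 5, 2, 2, by norm_num, by norm_num, by norm_num⟩

theorem cyclic_of_solvable {G : Type*} [Group G] [Finite G] [hs : IsSimpleGroup G]
    (h : Group.IsSolvable G) : IsCyclic G := by
  have hc := IsSimpleGroup.comm_iff_isSolvable.mpr h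
  letI : CommGroup G := { (inferInstance : Group G) with mul_comm := hc }
  exact @IsSimpleGroup.isCyclic G _ hs

theorem not_84 {G : Type*} [Group G] [Finite G] [IsSimpleGroup G] (h : Nat.card G = 84) : False := by
  haveI : Fact (Nat.Prime 7) := ⟨by norm_num⟩
  let P : Sylow 7 G := default
  have h1 := card_sylow_modEq_one 7 G
  have h2 := P.card_dvd_index
  obtain ⟨k, hk⟩ := IsPGroup.iff_card.mp P.isPGroup'
  have h3 := Subgroup.card_mul_index (P : Subgroup G)
  have h7 : 7 ∣ Nat.card (P : Subgroup G) := P.dvd_card_of_dvd_card (by rw [h]; norm_num)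
  rw [hk] at h7
  rw [hk, h] at h3
  have hk3 : k < 3 := by
    by_contra hh
    have h5 := Nat.pow_le_pow_right (by norm_num : 1 ≤ 7) (not_lt.mp hh)
    have h6 : 0 < (P : Subgroup G).index := Nat.pos_of_ne_zero Subgroup.index_ne_zero_of_finite
    nlinarith
  have hidx : (P : Subgroup G).index = 12 := by
    interval_cases k
    · norm_num at h7
    · omega
    · omega
  rw [hidx] at h2
  obtain ⟨n, hn⟩ : ∃ n, n = Nat.card (Sylow 7 G) := ⟨_, rfl⟩
  rw [← hn] at h1 h2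
  have hn1 : n = 1 := by
    have h8 := Nat.le_of_dvd (by norm_num) h2
    unfold Nat.ModEq at h1
    interval_cases n <;> omega
  rw [hn] at hn1
  haveI : Subsingleton (Sylow 7 G) := (Nat.card_eq_one_iff_unique.mp hn1).1
  haveI : (P : Subgroup G).Normal := Sylow.normal_of_subsingleton P
  have hkk : k = 1 := by
    interval_cases k
    · norm_num at h7
    · rfl
    · omega
  rw [hkk, pow_one] at hk
  rcases Subgroup.Normal.eq_bot_or_eq_top (inferInstance : (P : Subgroup G).Normal) with hb | ht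
  · rw [hb, Subgroup.card_bot] at hk; omega
  · rw [ht, Subgroup.card_top, h] at hk; omega

theorem not_two_mod_four {G : Type*} [Group G] [Finite G] [IsSimpleGroup G]
    (h : Nat.card G % 4 = 2) (hG : ¬ IsCyclic G) : False := by
  haveI : Fact (Nat.Prime 2) := ⟨Nat.prime_two⟩
  let T : Sylow 2 G := default
  have heven : Even (Nat.card G) := by rw [Nat.even_iff]; omega
  obtain ⟨k, hk⟩ := IsPGroup.iff_card.mp T.isPGroup'
  have h2 : 2 ∣ Nat.card (T : Subgroup G) := T.dvd_card_of_dvd_card heven.two_dvd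
  have hk1 : k = 1 := by
    have hk0 : k ≠ 0 := by
      intro h0
      rw [hk, h0, pow_zero] at h2
      omega
    have hk2 : k < 2 := by
      by_contra hh
      have h4 : 2 ^ 2 ∣ Nat.card G :=
        (pow_dvd_pow 2 (not_lt.mp hh)).trans (hk ▸ Subgroup.card_subgroup_dvd_card (T : Subgroup G))
      omega
    omega
  have hcyc : IsCyclic (T : Subgroup G) := isCyclic_of_prime_card (p := 2) (by rw [hk, hk1]; rfl)
  obtain ⟨H, hH⟩ := Cfsg.Agent.Lib.Lead.exists_index_two_of_cyclic_sylow heven T hcyc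
  haveI : H.Normal := Subgroup.normal_of_index_eq_two hH
  rcases Subgroup.Normal.eq_bot_or_eq_top (inferInstance : H.Normal) with hb | ht
  · rw [hb, Subgroup.index_bot] at hH
    exact hG (isCyclic_of_prime_card (p := 2) hH)
  · rw [ht, Subgroup.index_top] at hH; omega

theorem result {G : Type*} [Group G] [Finite G] [IsSimpleGroup G]
    (hG : ¬ IsCyclic G) (h : Nat.card G ≤ 100) : Nat.card G = 60 := by
  have h0 : 0 < Nat.card G := Nat.card_pos
  apply arith (Nat.card G) h0 h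
  · rintro ⟨p, q, a, b, hp, hq, hc⟩
    exact hG (cyclic_of_solvable (Cfsg.Agent.Lib.Lead.burnside_paqb p q a b hp hq hc))
  · intro h2; exact not_two_mod_four h2 hG
  · intro h3; exact not_84 h3

end Cfsg.Agent.S0493
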