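import Cfsg.Statements.S0499
import Cfsg.Agent.Lib.Helper6.FrobNC
set_option autoImplicit false
open Cfsg

namespace Cfsg.Agent.S0499

theorem result {G : Type*} [Group G] [Finite G] [IsSimpleGroup G]
    (hG : ¬ IsMulCommutative G) (h2 : Even (Nat.card G)) :
    12 ∣ Nat.card G ∨ 16 ∣ Nat.card G ∨ 56 ∣ Nat.card G := by
  have hnum : ∀ i < 4, ∀ j < i, ∀ t < 8, t ≠ 1 → t ≠ 2 → t ≠ 4 → t ≠ 6 → t ∣ 2 ^ i - 2 ^ j →
      (t = 3 ∧ 2 ≤ i) ∨ (t = 7 ∧ i = 3) := by
    intro i hi j hj t ht
    interval_cases i <;> interval_cases j <;> interval_cases t <;> simp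
  classical
  by_contra hcon
  push_neg at hcon
  obtain ⟨h12, h16, h56⟩ := hcon
  haveI : Fact (Nat.Prime 2) := ⟨Nat.prime_two⟩
  have hF : Cfsg.Agent.Lib.Helper6.FrobCond 2 G := by
    intro Q hQ
    obtain ⟨i, hi⟩ := IsPGroup.iff_card.mp hQ
    have hQdvd : Nat.card Q ∣ Nat.card G := Subgroup.card_subgroup_dvd_card Q
    have h2i : 2 ^ i ∣ Nat.card G := hi ▸ hQdvd
    have hi3 : i ≤ 3 := by
      by_contra hlt
      push_neg at hlt
      apply h16
      have h1 : (2 : ℕ) ^ 4 ∣ 2 ^ i := pow_dvd_pow 2 hlt
      exact dvd_trans (by norm_num at h1 ⊢; exact h1) h2i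
    have key : ∀ m : ℕ, ∀ g : G, orderOf g = m → g ∈ Subgroup.normalizer (Q : Set G) →
        (orderOf g).Coprime 2 → g ∈ Subgroup.centralizer (Q : Set G) := by
      intro m
      induction m using Nat.strong_induction_on with
      | _ m ih =>
        intro g hgm hgN hgodd
        by_cases hm1 : m = 1
        · have h1 : g = 1 := orderOf_eq_one_iff.mp (hgm.trans hm1)
          rw [h1]; exact Subgroup.one_mem _
        obtain ⟨t, ht, htdvd⟩ := Nat.exists_prime_and_dvd hm1
        haveI : Fact t.Prime := ⟨ht⟩
        have hm0 : 0 < m := by rw [← hgm]; exact orderOf_pos g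
        have htg : t ∣ orderOf g := hgm ▸ htdvd
        have htodd : t ≠ 2 := by
          rintro rfl
          have h1 := Nat.eq_one_of_dvd_coprimes hgodd htg (dvd_refl 2)
          omega
        have hgt : g ^ t ∈ Subgroup.centralizer (Q : Set G) := by
          apply ih (m / t) (Nat.div_lt_self hm0 ht.one_lt) (g ^ t)
          · rw [orderOf_pow_of_dvd ht.ne_zero htg, hgm]
          · exact Subgroup.pow_mem _ hgN t
          · rw [orderOf_pow_of_dvd ht.ne_zero htg]
            exact Nat.Coprime.coprime_dvd_left (Nat.div_dvd_of_dvd htg) hgodd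
        have hconj : ∀ x : Q, g * x * g⁻¹ ∈ Q := by
          intro x
          exact ((Subgroup.mem_normalizer_iff.mp hgN) x).mp x.2
        let f : Function.End Q := fun x => ⟨g * x * g⁻¹, hconj x⟩
        have hfpow : ∀ k : ℕ, ∀ x : Q, (((f ^ k) x : Q) : G) = g ^ k * x * (g ^ k)⁻¹ := by
          intro k
          induction k with
          | zero =>
            intro x
            show (x : G) = g ^ 0 * x * (g ^ 0)⁻¹
            simp
          | succ k ihk =>
            intro x
            rw [pow_succ' f]
            show g * ((f ^ k) x : G) * g⁻¹ = _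
            rw [ihk, pow_succ']; group
        have hft : f ^ t ^ 1 = 1 := by
          rw [pow_one]
          funext x
          apply Subtype.ext
          rw [hfpow]
          have h1 := (Subgroup.mem_centralizer_iff.mp hgt) x x.2
          show g ^ t * x * (g ^ t)⁻¹ = x
          rw [← h1, mul_inv_cancel_right]
        haveI : Fintype Q := Fintype.ofFinite Q
        have hmod := Equiv.Perm.card_fixedPoints_modEq (p := t) (n := 1) hft
        let F : Subgroup Q :=
          { carrier := {x | g * x * g⁻¹ = x}
            mul_mem' := by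
              intro a b ha hb
              show g * ((a * b : Q) : G) * g⁻¹ = ((a * b : Q) : G)
              rw [Subgroup.coe_mul]
              calc g * ((a : G) * b) * g⁻¹ = (g * a * g⁻¹) * (g * b * g⁻¹) := by group
                _ = a * b := by rw [ha, hb]
            one_mem' := by
              show g * ((1 : Q) : G) * g⁻¹ = ((1 : Q) : G)
              simp
            inv_mem' := by
              intro a ha
              show g * ((a⁻¹ : Q) : G) * g⁻¹ = ((a⁻¹ : Q) : G)
              rw [Subgroup.coe_inv]
              calc g * (a : G)⁻¹ * g⁻¹ = (g * a * g⁻¹)⁻¹ := by group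
                _ = (a : G)⁻¹ := by rw [ha] }
        have hFcard : Fintype.card (Function.fixedPoints f) = Nat.card F := by
          rw [← Nat.card_eq_fintype_card]
          apply Nat.card_congr
          exact Equiv.subtypeEquivRight (fun x => by
            show f x = x ↔ g * (x : G) * g⁻¹ = x
            constructor
            · intro h; exact congrArg Subtype.val h
            · intro h; exact Subtype.ext h)
        have hFdvd : Nat.card F ∣ Nat.card Q := Subgroup.card_subgroup_dvd_card F
        rw [hFcard, ← Nat.card_eq_fintype_card, hi] at hmod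
        obtain ⟨j, hj, hFj⟩ := (Nat.dvd_prime_pow Nat.prime_two).mp (hi ▸ hFdvd)
        rw [hFj] at hmod
        by_cases hji : j = i
        · have hFtop : F = ⊤ := by
            apply Subgroup.eq_top_of_card_eq
            rw [hFj, hi, hji]
          rw [Subgroup.mem_centralizer_iff]
          intro x hx
          have hxF : (⟨x, hx⟩ : Q) ∈ F := by rw [hFtop]; exact Subgroup.mem_top _
          have hxe : g * x * g⁻¹ = x := hxF
          calc x * g = (g * x * g⁻¹) * g := by rw [hxe]
            _ = g * x := by group
        · exfalso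
          have hjlt : j < i := lt_of_le_of_ne hj hji
          have htG : t ∣ Nat.card G := dvd_trans htg (orderOf_dvd_natCard g)
          have hle : 2 ^ j ≤ 2 ^ i := Nat.pow_le_pow_right (by norm_num) hj
          have hsub : t ∣ 2 ^ i - 2 ^ j := (Nat.modEq_iff_dvd' hle).mp hmod.symm
          have hlt2 : 2 ^ j < 2 ^ i := Nat.pow_lt_pow_right (by norm_num) hjlt
          have hi8 : 2 ^ i ≤ 2 ^ 3 := Nat.pow_le_pow_right (by norm_num) hi3
          have hj1 : 1 ≤ 2 ^ j := Nat.one_le_two_pow
          have ht8 : t < 8 := by
            have h1 := Nat.le_of_dvd (by omega) hsub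
            omega
          have ht4 : t ≠ 4 := by rintro rfl; norm_num at ht
          have ht6 : t ≠ 6 := by rintro rfl; norm_num at ht
          rcases hnum i (by omega) j hjlt t ht8 ht.one_lt.ne' htodd ht4 ht6 hsub with
            ⟨rfl, h2le⟩ | ⟨rfl, rfl⟩
          · apply h12
            have h4 : 4 ∣ Nat.card G := dvd_trans (by
              have h1 : (2 : ℕ) ^ 2 ∣ 2 ^ i := pow_dvd_pow 2 h2le
              norm_num at h1 ⊢; exact h1) h2i
            exact Nat.Coprime.mul_dvd_of_dvd_of_dvd (by norm_num : Nat.Coprime 4 3) h4 htG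
          · apply h56
            have h8 : 8 ∣ Nat.card G := by norm_num at h2i; exact h2i
            exact Nat.Coprime.mul_dvd_of_dvd_of_dvd (by norm_num : Nat.Coprime 8 7) h8 htG
    intro g hg hcop
    exact key _ g rfl hg hcop
  obtain ⟨P, K, hKn, hKc⟩ := Cfsg.Agent.Lib.Helper6.frobenius_npc hF
  have hcard := hKc.card_mul_card
  rcases hKn.eq_bot_or_eq_top with hK | hK
  · rw [hK, Subgroup.card_bot, one_mul] at hcard
    obtain ⟨k, hk⟩ := IsPGroup.iff_card.mp P.isPGroup'
    have hG2 : IsPGroup 2 G := IsPGroup.of_card (hcard.symm.trans hk)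
    haveI : Nontrivial G := IsSimpleGroup.toNontrivial
    have hcen := hG2.center_nontrivial
    have hcn : (Subgroup.center G).Normal := inferInstance
    rcases hcn.eq_bot_or_eq_top with hc | hc
    · exact absurd hc ((Subgroup.nontrivial_iff_ne_bot _).mp hcen)
    · apply hG
      exact ⟨⟨fun a b => by
        have hb : b ∈ Subgroup.center G := by rw [hc]; exact Subgroup.mem_top b
        exact Subgroup.mem_center_iff.mp hb a⟩⟩
  · rw [hK, Subgroup.card_top] at hcard
    have hP1 : Nat.card (P : Subgroup G) = 1 :=
      Nat.eq_of_mul_eq_mul_left Nat.card_pos (by rw [hcard, mul_one])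
    exact Sylow.ne_bot_of_dvd_card P (even_iff_two_dvd.mp h2) (Subgroup.card_eq_one.mp hP1)
end Cfsg.Agent.S0499
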