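import Cfsg.Statements.S0514
import Mathlib
import Cfsg.Agent.Lib.Helper6.Dih
import Cfsg.Agent.Lib.Helper6.FrobNC
import Cfsg.Agent.Lib.Helper6.Comm
import Cfsg.Agent.Lib.Lead.Invol2

set_option autoImplicit false
open Cfsg
open scoped Pointwise

namespace Cfsg.Agent.S0514


/-- In a finite group whose Sylow 2-subgroups are dihedral of order at least 4, the centralizer of any involution has a
normal subgroup of odd order whose index in the centralizer is a power of 2. -/
theorem result {X : Type*} [Group X] [Finite X]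
    (S : Sylow 2 X) (n : ℕ) (hn : 2 ≤ n) (hS : Nonempty ((S : Subgroup X) ≃* DihedralGroup n)) (t : X)
    (ht : orderOf t = 2) :
    ∃ N : Subgroup (Subgroup.centralizer ({t} : Set X)), N.Normal ∧ Odd (Nat.card N) ∧ ∃ k : ℕ, N.index = 2 ^ k := by
  classical
  obtain ⟨e⟩ := hS
  obtain ⟨hD0, -⟩ := Cfsg.Agent.Lib.Helper6.dihLike_of_equiv (S : Subgroup X) n e
  generalize ((e.symm (DihedralGroup.r 1) : ↥(S : Subgroup X)) : X) = ρ at hD0
  have ht2 : t ^ 2 = 1 := by rw [← ht]; exact pow_orderOf_eq_one t
  have ht1 : t ≠ 1 := by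
    rintro rfl
    rw [orderOf_one] at ht
    omega
  have hF : Cfsg.Agent.Lib.Helper6.FrobCond 2 ↥(Subgroup.centralizer ({t} : Set X)) := by
    intro Q hQ g hg hcop
    have hodd : Odd (orderOf (g : X)) := by
      rw [Subgroup.orderOf_coe]
      exact Nat.Coprime.odd_of_right hcop
    have hgt : (g : X) * t * (g : X)⁻¹ = t := by
      have := Subgroup.mem_centralizer_singleton_iff.mp g.2
      rw [this]; group
    have hQ'2 : IsPGroup 2 (Q.map (Subgroup.centralizer ({t} : Set X)).subtype) := hQ.map _
    have hzt : IsPGroup 2 (Subgroup.zpowers t) := by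
      rw [IsPGroup.iff_card]
      exact ⟨1, by rw [Nat.card_zpowers, ht, pow_one]⟩
    have hQ't : ∀ q ∈ Q.map (Subgroup.centralizer ({t} : Set X)).subtype, q * t = t * q := by
      rintro _ ⟨q, _, rfl⟩
      exact Subgroup.mem_centralizer_singleton_iff.mp q.2
    have hQ''2 : IsPGroup 2 (Q.map (Subgroup.centralizer ({t} : Set X)).subtype ⊔
        Subgroup.zpowers t : Subgroup X) := by
      apply IsPGroup.to_sup_of_normal_right' hQ'2 hzt
      intro q hq
      rw [Subgroup.mem_normalizer_iff]
      intro z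
      have h1 : ∀ z ∈ Subgroup.zpowers t, q * z * q⁻¹ = z := by
        rintro _ ⟨k, rfl⟩
        show q * t ^ k * q⁻¹ = t ^ k
        rw [← conj_zpow]
        congr 1
        rw [hQ't q hq]; group
      constructor
      · intro hz
        rw [h1 z hz]; exact hz
      · intro hz
        have h2 := h1 _ hz
        have h3 : q * z * q⁻¹ = z := mul_left_cancel (mul_right_cancel h2)
        rw [← h3]; exact hz
    obtain ⟨h, hh⟩ := Cfsg.Agent.Lib.Lead.exists_conj_into_sylow S _ hQ''2
    have hD := Cfsg.Agent.Lib.Helper6.dihLike_conj hD0 h⁻¹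
    have hS2 : IsPGroup 2 ↥(MulAut.conj h⁻¹ • (S : Subgroup X)) := by
      have : MulAut.conj h⁻¹ • (S : Subgroup X) =
          (S : Subgroup X).map (MulAut.conj h⁻¹).toMonoidHom := rfl
      rw [this]
      exact S.2.map _
    have hQS : (Q.map (Subgroup.centralizer ({t} : Set X)).subtype ⊔ Subgroup.zpowers t :
        Subgroup X) ≤ MulAut.conj h⁻¹ • (S : Subgroup X) := by
      intro x hx
      rw [Subgroup.mem_pointwise_smul_iff_inv_smul_mem, MulAut.smul_def, MulAut.conj_inv_apply,
        inv_inv]
      exact hh x hx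
    have hgN : (g : X) ∈ Subgroup.normalizer ((Q.map (Subgroup.centralizer ({t} : Set X)).subtype ⊔
        Subgroup.zpowers t : Subgroup X) : Set X) := by
      apply Cfsg.Agent.Lib.Helper6.mem_normalizer_of_conj_mem
      have hle : (Q.map (Subgroup.centralizer ({t} : Set X)).subtype ⊔ Subgroup.zpowers t :
          Subgroup X) ≤ (Q.map (Subgroup.centralizer ({t} : Set X)).subtype ⊔ Subgroup.zpowers t :
          Subgroup X).comap (MulAut.conj (g : X)).toMonoidHom := by
        apply sup_le
        · rintro _ ⟨q, hq, rfl⟩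
          rw [Subgroup.mem_comap]
          apply Subgroup.mem_sup_left
          refine ⟨g * q * g⁻¹, (Subgroup.mem_normalizer_iff.mp hg q).mp hq, ?_⟩
          simp
        · rw [Subgroup.zpowers_le, Subgroup.mem_comap]
          apply Subgroup.mem_sup_right
          show (g : X) * t * (g : X)⁻¹ ∈ Subgroup.zpowers t
          rw [hgt]
          exact Subgroup.mem_zpowers t
      intro x hx
      exact hle hx
    have hcent : ∀ x ∈ (Q.map (Subgroup.centralizer ({t} : Set X)).subtype ⊔ Subgroup.zpowers t :
        Subgroup X), (g : X) * x * (g : X)⁻¹ = x := by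
      by_cases hex : ∃ x ∈ (Q.map (Subgroup.centralizer ({t} : Set X)).subtype ⊔
          Subgroup.zpowers t : Subgroup X), x ^ 2 ≠ 1
      · exact Cfsg.Agent.Lib.Helper6.centralizes_of_dihLike hS2 hD _ hQS (g : X) hgN hodd hex
      · push Not at hex
        have h4 := Cfsg.Agent.Lib.Helper6.card_le_four_of_dihLike hD _ hQS hex
        exact Cfsg.Agent.Lib.Helper6.centralizes_of_card_le_four _ h4 hex t
          (Subgroup.mem_sup_right (Subgroup.mem_zpowers t)) ht1 (g : X) hgN hodd hgt
    rw [Subgroup.mem_centralizer_iff]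
    intro q hq
    have h1 := hcent (q : X) (Subgroup.mem_sup_left ⟨q, hq, rfl⟩)
    apply Subtype.ext
    show (q : X) * (g : X) = (g : X) * (q : X)
    conv_lhs => rw [← h1]
    group
  obtain ⟨P, N, hN, hc⟩ := Cfsg.Agent.Lib.Helper6.frobenius_npc hF
  refine ⟨N, hN, ?_, ?_⟩
  · rw [← hc.index_eq_card]
    exact Nat.odd_iff.mpr (by
      have := P.not_dvd_index
      omega)
  · rw [hc.symm.index_eq_card]
    exact IsPGroup.iff_card.mp P.2

end Cfsg.Agent.S0514
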