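import Cfsg.Statements.S0521
import Mathlib
import Cfsg.Agent.Lib.Helper1.OS5
import Cfsg.Agent.Lib.Lead.PCore
import Cfsg.Agent.Lib.Lead.PCore2
import Cfsg.Agent.Lib.Helper4.Basic

set_option autoImplicit false
open Cfsg

namespace Cfsg.Agent.S0521

open scoped commutatorElement

/-- Let X be a finite solvable group of odd order, p a prime and S a Sylow p-subgroup of X whose commutator subgroup is
cyclic. Then the product of the largest normal subgroup of X of order prime to p with S is a normal subgroup of X. -/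
theorem result {X : Type*} [Group X] [Finite X] [Group.IsSolvable X]
    (hX : Odd (Nat.card X)) (p : ℕ) [Fact p.Prime] (S : Sylow p X) (hS : IsCyclic (commutator (S : Subgroup X))) :
    (Cfsg.pPrimeCore p X ⊔ (S : Subgroup X)).Normal := by
  classical
  have hpr : p.Prime := Fact.out
  haveI hNn : (Cfsg.pPrimeCore p X).Normal := inferInstance
  by_cases hp2 : p = 2
  · have hS1 : (S : Subgroup X) = ⊥ := by
      have h1 : Nat.card (S : Subgroup X) ∣ Nat.card X := Subgroup.card_subgroup_dvd_card _
      obtain ⟨k, hk⟩ := IsPGroup.iff_card.mp S.isPGroup'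
      have hoddS : Odd (Nat.card (S : Subgroup X)) := hX.of_dvd_nat h1
      rw [hk, hp2] at hoddS
      have hk0 : k = 0 := by
        by_contra hk0
        exact (Nat.not_even_iff_odd.mpr hoddS) (Nat.even_pow.mpr ⟨even_two, hk0⟩)
      rw [hk0, pow_zero] at hk
      exact Subgroup.card_eq_one.mp hk
    rw [hS1, sup_bot_eq]; exact hNn
  · have hsurj := QuotientGroup.mk'_surjective (Cfsg.pPrimeCore p X)
    have hoddQ : Odd (Nat.card (X ⧸ Cfsg.pPrimeCore p X)) :=
      hX.of_dvd_nat (Subgroup.card_quotient_dvd_card _)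
    have hTn : (Cfsg.pCore p (X ⧸ Cfsg.pPrimeCore p X)).Normal := Cfsg.pCore_normal p _
    haveI := hTn
    have hTp : IsPGroup p ↥(Cfsg.pCore p (X ⧸ Cfsg.pPrimeCore p X)) :=
      Cfsg.Agent.Lib.Helper4.pCore_isPGroup p _
    have hHH := Cfsg.Agent.Lib.Lead.centralizer_pCore_le (G := X ⧸ Cfsg.pPrimeCore p X) p
      (Cfsg.Agent.Lib.Lead.pPrimeCore_quotient p)
    have hTS : Cfsg.pCore p (X ⧸ Cfsg.pPrimeCore p X) ≤
        (S : Subgroup X).map (QuotientGroup.mk' _) := by
      have := Cfsg.Agent.Lib.Lead.pCore_le_sylow' (S.mapSurjective hsurj)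
      rwa [Sylow.coe_mapSurjective] at this
    have hST : (S : Subgroup X).map (QuotientGroup.mk' (Cfsg.pPrimeCore p X)) ≤
        Cfsg.pCore p (X ⧸ Cfsg.pPrimeCore p X) := by
      rintro _ ⟨x, hx, rfl⟩
      have hcyc : Cfsg.Agent.Lib.Helper1.OsCyc p (Cfsg.pCore p (X ⧸ Cfsg.pPrimeCore p X))
          (QuotientGroup.mk' (Cfsg.pPrimeCore p X) x) := by
        constructor
        · obtain ⟨k, hk⟩ := S.isPGroup' ⟨x, hx⟩
          refine ⟨k, ?_⟩
          rw [← map_pow]
          have hk' : x ^ p ^ k = 1 := congrArg Subtype.val hk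
          rw [hk', map_one]
        · refine ⟨((commutator ↥(S : Subgroup X)).map (S : Subgroup X).subtype).map
            (QuotientGroup.mk' (Cfsg.pPrimeCore p X)), ?_, ?_⟩
          · haveI := hS
            haveI : IsCyclic ↥((commutator ↥(S : Subgroup X)).map (S : Subgroup X).subtype) :=
              isCyclic_of_surjective _
                ((S : Subgroup X).subtype.subgroupMap_surjective (commutator ↥(S : Subgroup X)))
            exact isCyclic_of_surjective _
              ((QuotientGroup.mk' (Cfsg.pPrimeCore p X)).subgroupMap_surjective _)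
          · intro t ht
            obtain ⟨s, hs, rfl⟩ := hTS ht
            rw [← map_commutatorElement]
            apply Subgroup.mem_map_of_mem
            refine ⟨⁅(⟨s, hs⟩ : ↥(S : Subgroup X)), ⟨x, hx⟩⁆, ?_, rfl⟩
            rw [commutator_def]
            exact Subgroup.commutator_mem_commutator (Subgroup.mem_top _) (Subgroup.mem_top _)
      have hres := Cfsg.Agent.Lib.Helper1.os_pstablec hoddQ p hp2
        (Cfsg.pCore p (X ⧸ Cfsg.pPrimeCore p X)) hTp _ hcyc
      exact Cfsg.Agent.Lib.Helper1.os_mem_pCore_of_quot p _ (hTp.to_le hHH) _ hres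
    have hEq : Cfsg.pPrimeCore p X ⊔ (S : Subgroup X) =
        (Cfsg.pCore p (X ⧸ Cfsg.pPrimeCore p X)).comap
          (QuotientGroup.mk' (Cfsg.pPrimeCore p X)) := by
      rw [← le_antisymm hST hTS, Subgroup.comap_map_eq, QuotientGroup.ker_mk', sup_comm]
    rw [hEq]
    exact hTn.comap _

end Cfsg.Agent.S0521
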