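import Cfsg.Statements.S0531
import Mathlib
import Cfsg.Agent.Lib.Helper1.Supersolvable3

set_option autoImplicit false
open Cfsg

namespace Cfsg.Agent.S0531

/-- A finite supersolvable group has a subgroup of each order dividing its order. -/
theorem result {G : Type*} [Group G] [Finite G] (hG : Cfsg.IsSupersolvable G) : Cfsg.HasSubgroupOfEveryOrder G := by
  intro d hd
  exact Cfsg.Agent.Lib.Helper1.hasSubgroupOfEveryOrder_aux (Nat.card G) G le_rfl hG d hd

end Cfsg.Agent.S0531
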