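import Cfsg.Statements.S0533
import Mathlib
import Cfsg.Agent.Lib.Helper1.Supersolvable
import Cfsg.Agent.Lib.Helper1.Supersolvable3
import Cfsg.Agent.Lib.Helper1.CLT
import Cfsg.Agent.Lib.Lead.Coprime

set_option autoImplicit false
open Cfsg

namespace Cfsg.Agent.S0533


universe u

/-- subgroups of prescribed order inside a subgroup -/
theorem clt_sub {G : Type*} [Group G] (h : ∀ H : Subgroup G, Cfsg.HasSubgroupOfEveryOrder H)
    (S : Subgroup G) (d : ℕ) (hd : d ∣ Nat.card S) :
    ∃ T : Subgroup G, T ≤ S ∧ Nat.card T = d := by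
  obtain ⟨T', hT'⟩ := h S d hd
  refine ⟨T'.map S.subtype, ?_, ?_⟩
  · rintro x ⟨y, -, rfl⟩
    exact y.2
  · rw [Subgroup.card_map_of_injective S.subtype_injective, hT']

/-- the hypothesis passes to subgroups -/
theorem clt_hered {G : Type*} [Group G] (h : ∀ H : Subgroup G, Cfsg.HasSubgroupOfEveryOrder H)
    (S : Subgroup G) : ∀ H : Subgroup S, Cfsg.HasSubgroupOfEveryOrder H := by
  intro H
  have e : ↥(H.map S.subtype) ≃* ↥H :=
    (Subgroup.equivMapOfInjective H S.subtype S.subtype_injective).symm
  exact Cfsg.Agent.Lib.Helper1.hasSubgroupOfEveryOrder_of_mulEquiv e (h (H.map S.subtype))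

theorem clt_of_ss {G : Type u} [Group G] [Finite G] (h : Cfsg.IsSupersolvable G) :
    Cfsg.HasSubgroupOfEveryOrder G := by
  intro d hd
  exact Cfsg.Agent.Lib.Helper1.hasSubgroupOfEveryOrder_aux (Nat.card G) G le_rfl h d hd

theorem le_normalizer_of_normal {G : Type*} [Group G] {N : Subgroup G} (hN : N.Normal)
    (H : Subgroup G) : H ≤ Subgroup.normalizer (N : Set G) := by
  intro x _
  rw [Subgroup.mem_normalizer_iff]
  intro y
  constructor
  · intro hy
    exact hN.conj_mem y hy x
  · intro hy
    have := hN.conj_mem _ hy x⁻¹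
    simpa [mul_assoc] using this

theorem main_aux : ∀ (n : ℕ) (G : Type u) [Group G] [Finite G], Nat.card G ≤ n →
    (∀ H : Subgroup G, Cfsg.HasSubgroupOfEveryOrder H) → Cfsg.IsSupersolvable G := by
  intro n
  induction n with
  | zero =>
    intro G _ _ hn
    exact absurd hn (by have := Nat.card_pos (α := G); omega)
  | succ n ih =>
    intro G _ _ hn h
    classical
    by_cases htriv : Nat.card G = 1
    · haveI : Subsingleton G := (Nat.card_eq_one_iff_unique.mp htriv).1
      haveI : IsCyclic G := inferInstance
      exact Cfsg.Agent.Lib.Helper1.isSupersolvable_of_isCyclic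
    -- all proper subgroups are supersolvable
    have hprop : ∀ S : Subgroup G, S ≠ ⊤ → Cfsg.IsSupersolvable S := by
      intro S hS
      apply ih S _ (clt_hered h S)
      have hlt : Nat.card S < Nat.card G := by
        by_contra hge
        push_neg at hge
        apply hS
        exact Subgroup.eq_of_le_of_card_ge (le_top : S ≤ ⊤) (by rw [Subgroup.card_top]; exact hge)
      omega
    have hG1 : 1 < Nat.card G := by
      have := Nat.card_pos (α := G)
      omega
    obtain ⟨p, hp, hpdvd, hpmax⟩ : ∃ p : ℕ, p.Prime ∧ p ∣ Nat.card G ∧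
        ∀ q : ℕ, q.Prime → q ∣ Nat.card G → q ≤ p := by
      have hne : (Nat.card G).primeFactors.Nonempty := Nat.nonempty_primeFactors.mpr hG1
      refine ⟨(Nat.card G).primeFactors.max' hne, ?_, ?_, ?_⟩
      · exact Nat.prime_of_mem_primeFactors (Finset.max'_mem _ hne)
      · exact Nat.dvd_of_mem_primeFactors (Finset.max'_mem _ hne)
      · intro q hq hqd
        exact Finset.le_max' _ q (Nat.mem_primeFactors.mpr ⟨hq, hqd, by omega⟩)
    haveI : Fact p.Prime := ⟨hp⟩
    obtain ⟨P⟩ : Nonempty (Sylow p G) := inferInstance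
    have hPn : (P : Subgroup G).Normal :=
      Cfsg.Agent.Lib.Helper1.sylow_normal_of_hereditary_clt_aux (Nat.card G) G le_rfl h p hpdvd
        hpmax P
    have hPne : (P : Subgroup G) ≠ ⊥ := P.ne_bot_of_dvd_card hpdvd
    have hPp : IsPGroup p (P : Subgroup G) := P.isPGroup'
    have hcop : (Nat.card (P : Subgroup G)).Coprime (P : Subgroup G).index := P.card_coprime_index
    obtain ⟨H, -, hHcard⟩ := clt_sub h ⊤ (P : Subgroup G).index
      (by rw [Subgroup.card_top]; exact Subgroup.index_dvd_card _)
    have hcopPH : (Nat.card (P : Subgroup G)).Coprime (Nat.card H) := by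
      rw [hHcard]; exact hcop
    -- the centre of `P`
    obtain ⟨Z, hZdef⟩ : ∃ Z : Subgroup G,
        Z = (P : Subgroup G) ⊓ Subgroup.centralizer ((P : Subgroup G) : Set G) := ⟨_, rfl⟩
    have hZP : Z ≤ (P : Subgroup G) := by rw [hZdef]; exact inf_le_left
    have hZc : ∀ z ∈ Z, ∀ x ∈ (P : Subgroup G), x * z = z * x := by
      intro z hz x hx
      rw [hZdef] at hz
      exact (Subgroup.mem_centralizer_iff.mp (Subgroup.mem_inf.mp hz).2) x hx
    have hZn : Z.Normal := by
      constructor
      intro z hz g
      rw [hZdef]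
      refine Subgroup.mem_inf.mpr ⟨hPn.conj_mem z (hZP hz) g, ?_⟩
      rw [Subgroup.mem_centralizer_iff]
      intro x hx
      have hx' : g⁻¹ * x * g ∈ (P : Subgroup G) := by
        have := hPn.conj_mem x hx g⁻¹
        simpa using this
      have hc := hZc z hz _ hx'
      calc x * (g * z * g⁻¹) = g * ((g⁻¹ * x * g) * z) * g⁻¹ := by group
        _ = g * (z * (g⁻¹ * x * g)) * g⁻¹ := by rw [hc]
        _ = g * z * g⁻¹ * x := by group
    have hZne : Z ≠ ⊥ := by
      haveI : Nontrivial (P : Subgroup G) := (Subgroup.nontrivial_iff_ne_bot _).mpr hPne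
      haveI := hPp.center_nontrivial
      obtain ⟨z, hz1⟩ := exists_ne (1 : Subgroup.center (P : Subgroup G))
      intro hbot
      apply hz1
      have hzZ : ((z : (P : Subgroup G)) : G) ∈ Z := by
        rw [hZdef]
        refine Subgroup.mem_inf.mpr ⟨(z : (P : Subgroup G)).2, ?_⟩
        rw [Subgroup.mem_centralizer_iff]
        intro x hx
        have := (Subgroup.mem_center_iff.mp z.2) ⟨x, hx⟩
        exact congrArg Subtype.val this
      rw [hbot, Subgroup.mem_bot] at hzZ
      exact Subtype.ext (Subtype.ext hzZ)
    have hZp : IsPGroup p Z := hPp.to_le hZP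
    have hpZ : p ∣ Nat.card Z := by
      obtain ⟨k, hk⟩ := IsPGroup.iff_card.mp hZp
      rcases Nat.eq_zero_or_pos k with rfl | hkpos
      · exfalso
        rw [pow_zero] at hk
        exact hZne (Subgroup.eq_bot_of_card_eq Z hk)
      · rw [hk]
        exact dvd_pow_self p (by omega)
    have hZHdisj : Z ⊓ H = ⊥ := Subgroup.inf_eq_bot_of_coprime
      (Nat.Coprime.coprime_dvd_left (Subgroup.card_dvd_of_le hZP) hcopPH)
    have hZH : Nat.card ↥(Z ⊔ H) = Nat.card Z * Nat.card H :=
      Cfsg.Agent.Lib.Lead.card_sup_of_le_normalizer (le_normalizer_of_normal hZn H) hZHdisj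
    obtain ⟨L, hLle, hLcard⟩ := clt_sub h (Z ⊔ H) (p * Nat.card H)
      (by rw [hZH]; exact Nat.mul_dvd_mul hpZ dvd_rfl)
    obtain ⟨K, hKdef⟩ : ∃ K : Subgroup G, K = Z ⊓ L := ⟨_, rfl⟩
    have hKZ : K ≤ Z := by rw [hKdef]; exact inf_le_left
    have hKL : K ≤ L := by rw [hKdef]; exact inf_le_right
    have hKcard : Nat.card K = p := by
      have hdv : Nat.card K ∣ p * Nat.card H := by
        rw [← hLcard]; exact Subgroup.card_dvd_of_le hKL
      have hcopKH : (Nat.card K).Coprime (Nat.card H) :=
        Nat.Coprime.coprime_dvd_left (Subgroup.card_dvd_of_le (hKZ.trans hZP)) hcopPH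
      have hdvp : Nat.card K ∣ p := hcopKH.dvd_of_dvd_mul_right hdv
      rcases (Nat.dvd_prime hp).mp hdvp with h1 | hpp
      · exfalso
        have hKbot : Z ⊓ L = ⊥ := by
          rw [← hKdef]; exact Subgroup.eq_bot_of_card_eq K h1
        have hcardZL : Nat.card ↥(Z ⊔ L) = Nat.card Z * Nat.card L :=
          Cfsg.Agent.Lib.Lead.card_sup_of_le_normalizer (le_normalizer_of_normal hZn L) hKbot
        have hle : Z ⊔ L ≤ Z ⊔ H := sup_le le_sup_left hLle
        have hd2 := Subgroup.card_dvd_of_le hle
        rw [hcardZL, hZH, hLcard] at hd2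
        have hZpos : 0 < Nat.card Z := Nat.card_pos
        have hHpos : 0 < Nat.card H := Nat.card_pos
        have hle2 := Nat.le_of_dvd (Nat.mul_pos hZpos hHpos) hd2
        have hle3 : p * Nat.card H ≤ Nat.card H := Nat.le_of_mul_le_mul_left hle2 hZpos
        have hle4 : 2 * Nat.card H ≤ p * Nat.card H := Nat.mul_le_mul_right _ hp.two_le
        omega
      · exact hpp
    have hPL : (P : Subgroup G) ⊔ L = ⊤ := by
      apply Subgroup.eq_of_le_of_card_ge le_top
      rw [Subgroup.card_top]
      have d1 : Nat.card (P : Subgroup G) ∣ Nat.card ↥((P : Subgroup G) ⊔ L) :=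
        Subgroup.card_dvd_of_le le_sup_left
      have d2 : Nat.card H ∣ Nat.card ↥((P : Subgroup G) ⊔ L) := by
        have hd : Nat.card L ∣ Nat.card ↥((P : Subgroup G) ⊔ L) :=
          Subgroup.card_dvd_of_le le_sup_right
        rw [hLcard] at hd
        exact (Dvd.intro_left p rfl).trans hd
      have d3 := Nat.Coprime.mul_dvd_of_dvd_of_dvd hcopPH d1 d2
      rw [hHcard, Subgroup.card_mul_index] at d3
      exact Nat.le_of_dvd Nat.card_pos d3
    have hKn : K.Normal := by
      have hle : (P : Subgroup G) ⊔ L ≤ Subgroup.normalizer (K : Set G) := by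
        apply sup_le
        · intro x hx
          rw [Subgroup.mem_normalizer_iff]
          intro y
          constructor
          · intro hy
            have hyZ : y ∈ Z := hKZ hy
            have e : x * y * x⁻¹ = y := by
              rw [hZc y hyZ x hx]; group
            rw [e]; exact hy
          · intro hy
            have hyZ' : x * y * x⁻¹ ∈ Z := hKZ hy
            have hc := hZc _ hyZ' x⁻¹ ((P : Subgroup G).inv_mem hx)
            have e : y = x * y * x⁻¹ := by
              calc y = x⁻¹ * (x * y * x⁻¹) * x := by group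
                _ = (x * y * x⁻¹) * x⁻¹ * x := by rw [hc]
                _ = x * y * x⁻¹ := by group
            rw [e]; exact hy
        · intro x hx
          rw [Subgroup.mem_normalizer_iff]
          intro y
          rw [hKdef]
          constructor
          · intro hy
            obtain ⟨h1, h2⟩ := Subgroup.mem_inf.mp hy
            exact Subgroup.mem_inf.mpr ⟨hZn.conj_mem y h1 x,
              L.mul_mem (L.mul_mem hx h2) (L.inv_mem hx)⟩
          · intro hy
            obtain ⟨h1, h2⟩ := Subgroup.mem_inf.mp hy
            refine Subgroup.mem_inf.mpr ⟨?_, ?_⟩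
            · have := hZn.conj_mem _ h1 x⁻¹
              simpa [mul_assoc] using this
            · have := L.mul_mem (L.mul_mem (L.inv_mem hx) h2) hx
              simpa [mul_assoc] using this
      constructor
      intro y hy g
      have hg : g ∈ Subgroup.normalizer (K : Set G) := hle (by rw [hPL]; exact Subgroup.mem_top g)
      exact ((Subgroup.mem_normalizer_iff.mp hg) y).mp hy
    haveI : K.Normal := hKn
    haveI : IsCyclic K := isCyclic_of_prime_card (p := p) hKcard
    have hcq : Nat.card G = Nat.card (G ⧸ K) * p := by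
      have := Subgroup.card_eq_card_quotient_mul_card_subgroup K
      rw [hKcard] at this
      exact this
    apply Cfsg.Agent.Lib.Helper1.isSupersolvable_of_quotient_cyclic K
    apply ih (G ⧸ K)
    · have hpos : 0 < Nat.card (G ⧸ K) := Nat.card_pos
      have h2 : 2 * Nat.card (G ⧸ K) ≤ Nat.card (G ⧸ K) * p := by
        rw [mul_comm]; exact Nat.mul_le_mul_left _ hp.two_le
      omega
    · -- the quotient has a subgroup of every order
      have hQ : Cfsg.HasSubgroupOfEveryOrder (G ⧸ K) := by
        intro d hd
        obtain ⟨T, -, hTcard⟩ := clt_sub h ⊤ (d * p)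
          (by rw [Subgroup.card_top, hcq]; exact Nat.mul_dvd_mul hd dvd_rfl)
        by_cases hT : T = ⊤
        · refine ⟨⊤, ?_⟩
          rw [Subgroup.card_top]
          rw [hT, Subgroup.card_top, hcq] at hTcard
          exact Nat.eq_of_mul_eq_mul_right hp.pos hTcard
        · have hTss : Cfsg.IsSupersolvable T := hprop T hT
          have hTbss : Cfsg.IsSupersolvable ↥(T.map (QuotientGroup.mk' K)) :=
            Cfsg.Agent.Lib.Helper1.isSupersolvable_of_surjective
              ((QuotientGroup.mk' K).subgroupMap T) ((QuotientGroup.mk' K).subgroupMap_surjective T)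
              hTss
          obtain ⟨Tb, hTb⟩ : ∃ Tb : Subgroup (G ⧸ K), Tb = T.map (QuotientGroup.mk' K) :=
            ⟨_, rfl⟩
          rw [← hTb] at hTbss
          have hcomap : Tb.comap (QuotientGroup.mk' K) = T ⊔ K := by
            rw [hTb, Subgroup.comap_map_eq, QuotientGroup.ker_mk']
          have e1 : (T ⊔ K).index = Tb.index := by
            rw [← hcomap]
            exact Tb.index_comap_of_surjective (QuotientGroup.mk'_surjective K)
          have e2 : Nat.card ↥(T ⊔ K) * (T ⊔ K).index = Nat.card G := Subgroup.card_mul_index _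
          have e3 : Nat.card Tb * Tb.index = Nat.card (G ⧸ K) := Subgroup.card_mul_index _
          have e4 : Nat.card ↥(T ⊔ K) = Nat.card Tb * p := by
            have hidx : 0 < Tb.index := Nat.pos_of_ne_zero Subgroup.index_ne_zero_of_finite
            rw [e1] at e2
            have e5 : Nat.card ↥(T ⊔ K) * Tb.index = (Nat.card Tb * p) * Tb.index := by
              rw [e2, hcq, ← e3]; ring
            exact Nat.eq_of_mul_eq_mul_right hidx e5
          have e6 : d * p ∣ Nat.card Tb * p := by
            rw [← e4, ← hTcard]; exact Subgroup.card_dvd_of_le le_sup_left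
          have e7 : d ∣ Nat.card Tb := Nat.dvd_of_mul_dvd_mul_right hp.pos e6
          obtain ⟨U', hU'⟩ := clt_of_ss hTbss d e7
          exact ⟨U'.map Tb.subtype, by
            rw [Subgroup.card_map_of_injective Tb.subtype_injective, hU']⟩
      intro Sb
      by_cases hSb : Sb = ⊤
      · rw [hSb]
        exact Cfsg.Agent.Lib.Helper1.hasSubgroupOfEveryOrder_of_mulEquiv Subgroup.topEquiv.symm hQ
      · have hS : Sb.comap (QuotientGroup.mk' K) ≠ ⊤ := by
          intro htop
          apply hSb
          have := Subgroup.map_comap_eq_self_of_surjective (QuotientGroup.mk'_surjective K) Sb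
          rw [htop, Subgroup.map_top_of_surjective _ (QuotientGroup.mk'_surjective K)] at this
          exact this.symm
        have hSss := hprop _ hS
        have hSbss : Cfsg.IsSupersolvable Sb :=
          Cfsg.Agent.Lib.Helper1.isSupersolvable_of_surjective
            ((QuotientGroup.mk' K).subgroupComap Sb)
            ((QuotientGroup.mk' K).subgroupComap_surjective_of_surjective Sb
              (QuotientGroup.mk'_surjective K)) hSss
        exact clt_of_ss hSbss

/-- If every subgroup of a finite group has subgroups of all orders dividing its order, then the group is supersolvable. -/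
theorem result {G : Type*} [Group G] [Finite G] (h : ∀ H : Subgroup G, Cfsg.HasSubgroupOfEveryOrder H) : Cfsg.IsSupersolvable G := by
  exact main_aux (Nat.card G) G le_rfl h

end Cfsg.Agent.S0533
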