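import Cfsg.Statements.S0535
import Mathlib
import Cfsg.Agent.Lib.Helper1.HallConverse
import Cfsg.Agent.Lib.Lead.Hall

set_option autoImplicit false
open Cfsg

namespace Cfsg.Agent.S0535

universe u

theorem index_pow_of_coprime {G : Type*} [Group G] [Finite G] (L : Subgroup G) (p j : ℕ) (hp : p.Prime)
    (hcop : (Nat.card L).Coprime p) (hj : L.index = p ^ j) :
    L.index = p ^ (Nat.card G).factorization p := by
  have h3 := Subgroup.card_mul_index L
  rw [hj] at h3
  have hm0 : Nat.card L ≠ 0 := (Nat.card_pos (α := L)).ne'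
  have hfac : (Nat.card G).factorization p = j := by
    rw [← h3, Nat.factorization_mul hm0 (pow_ne_zero _ hp.pos.ne'), Finsupp.add_apply,
      Nat.Prime.factorization_pow hp, Nat.factorization_eq_zero_of_not_dvd]
    · simp
    · intro hd
      exact hp.one_lt.ne' (Nat.Coprime.eq_one_of_dvd hcop.symm hd)
  rw [hfac, hj]

theorem aux : ∀ (n : ℕ) (G : Type u) [Group G] [Finite G], Nat.card G = n →
    (∀ H : Subgroup G, H ≠ ⊥ → ∀ p : ℕ, p.Prime → p ∣ Nat.card H →
      ∃ K : Subgroup H, K ≠ ⊤ ∧ ∃ k : ℕ, K.index = p ^ k) →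
    Group.IsSolvable G := by
  intro n
  induction n using Nat.strong_induction_on with
  | _ n ih =>
  intro G _ _ hn h
  apply Cfsg.Agent.Lib.Helper1.hall_converse
  intro p hp
  by_cases hpG : p ∣ Nat.card G
  · have htop : (⊤ : Subgroup G) ≠ ⊥ := by
      intro h0
      have h1 : Nat.card (⊤ : Subgroup G) = 1 := by rw [h0]; simp
      rw [Subgroup.card_top] at h1
      rw [h1] at hpG
      exact hp.one_lt.ne' (Nat.dvd_one.mp hpG)
    obtain ⟨K, hKtop, k, hk⟩ := h ⊤ htop p hp (by rw [Subgroup.card_top]; exact hpG)
    obtain ⟨K', hK'⟩ : ∃ K' : Subgroup G, K' = K.map (⊤ : Subgroup G).subtype := ⟨_, rfl⟩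
    have hK'idx : K'.index = p ^ k := by
      rw [hK', Subgroup.index_map_subtype, hk, Subgroup.index_top, mul_one]
    have hK'lt : Nat.card K' < Nat.card G := by
      have h1 := Subgroup.card_mul_index K'
      have h2 : K'.index ≠ 1 := by
        rw [hK', Subgroup.index_map_subtype, Subgroup.index_top, mul_one]
        intro h3
        exact hKtop (Subgroup.index_eq_one.mp h3)
      have h3 : 0 < Nat.card K' := Nat.card_pos
      have h4 : K'.index ≠ 0 := Subgroup.index_ne_zero_of_finite
      have h5 : 2 ≤ K'.index := by omega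
      nlinarith
    have hK'solv : Group.IsSolvable K' := by
      apply ih (Nat.card K') (by rw [← hn]; exact hK'lt) K' rfl
      intro H hH q hq hqH
      have hinj : Function.Injective K'.subtype := K'.subtype_injective
      have hH' : H.map K'.subtype ≠ ⊥ := by
        intro h0
        exact hH ((Subgroup.map_eq_bot_iff_of_injective H hinj).mp h0)
      have hcard : Nat.card (H.map K'.subtype) = Nat.card H := Subgroup.card_map_of_injective hinj
      obtain ⟨K2, hK2top, k2, hk2⟩ := h (H.map K'.subtype) hH' q hq (by rw [hcard]; exact hqH)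
      let e : H ≃* H.map K'.subtype := Subgroup.equivMapOfInjective H K'.subtype hinj
      have hidx : (K2.comap e.toMonoidHom).index = K2.index :=
        Subgroup.index_comap_of_surjective K2 e.surjective
      refine ⟨K2.comap e.toMonoidHom, ?_, k2, ?_⟩
      · intro h0
        apply hK2top
        apply Subgroup.index_eq_one.mp
        rw [← hidx]
        exact Subgroup.index_eq_one.mpr h0
      · rw [hidx]; exact hk2
    have hK'0 : Nat.card K' ≠ 0 := (Nat.card_pos (α := K')).ne'
    obtain ⟨v, hv⟩ : ∃ v, v = (Nat.card K').factorization p := ⟨_, rfl⟩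
    obtain ⟨m, hm⟩ : ∃ m, m = Nat.card K' / p ^ v := ⟨_, rfl⟩
    have hmn : Nat.card K' = m * p ^ v := by
      rw [hm, hv]
      exact (Nat.div_mul_cancel (Nat.ordProj_dvd _ _)).symm
    have hmp : m.Coprime p := by
      rw [hm, hv]
      exact (Nat.coprime_ordCompl hp hK'0).symm
    have hcop : m.Coprime (p ^ v) := Nat.Coprime.pow_right _ hmp
    obtain ⟨L, hL, -⟩ := Cfsg.Agent.Lib.Lead.hallD_all (Nat.card K') K' rfl m (p ^ v) hmn hcop ⊥
      (by simp)
    have hinj : Function.Injective K'.subtype := K'.subtype_injective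
    have hcardL : Nat.card (L.map K'.subtype) = m := by
      rw [Subgroup.card_map_of_injective hinj, hL]
    have hLidx : L.index = p ^ v := by
      have h1 := Subgroup.card_mul_index L
      rw [hL, hmn] at h1
      have hm0 : 0 < m := by
        rcases Nat.eq_zero_or_pos m with h0 | h0
        · rw [h0] at hmn; simp at hmn; exact absurd hmn hK'0
        · exact h0
      exact Nat.eq_of_mul_eq_mul_left hm0 h1
    have hidx : (L.map K'.subtype).index = p ^ (v + k) := by
      rw [Subgroup.index_map_subtype, hLidx, hK'idx, pow_add]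
    refine ⟨L.map K'.subtype, ?_⟩
    exact index_pow_of_coprime _ p (v + k) hp (by rw [hcardL]; exact hmp) hidx
  · refine ⟨⊤, ?_⟩
    rw [Subgroup.index_top, Nat.factorization_eq_zero_of_not_dvd hpG, pow_zero]

/-- Suppose that for every nontrivial subgroup H of a finite group and every prime p dividing the order of H there is a proper subgroup of H whose index in H is a power of p. Then the group is solvable. -/
theorem result {G : Type*} [Group G] [Finite G] (h : ∀ H : Subgroup G, H ≠ ⊥ → ∀ p : ℕ, p.Prime → p ∣ Nat.card H → ∃ K : Subgroup H, K ≠ ⊤ ∧ ∃ k : ℕ, K.index = p ^ k) : Group.IsSolvable G := by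
  exact aux _ G rfl h

end Cfsg.Agent.S0535
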