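import Cfsg.Statements.S0537
import Mathlib
import Cfsg.Agent.Lib.Helper1.Schmidt3
import Cfsg.Agent.Lib.Helper1.Abel

set_option autoImplicit false
open Cfsg

namespace Cfsg.Agent.S0537

open Cfsg.Agent.Lib.Helper1 Cfsg.Agent.Lib.Lead Cfsg.Agent.Lib.Helper6

theorem nilpotent_of_comm {H : Type*} [Group H] (h : IsMulCommutative H) :
    Group.IsNilpotent H := by
  let _ : CommGroup H := { (inferInstance : Group H) with mul_comm := fun a b => mul_comm' a b }
  exact CommGroup.isNilpotent

theorem sup_ne_top_of_lt {G : Type*} [Group G] [Finite G] {p q : ℕ} [Fact p.Prime]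
    [Fact q.Prime] (hpq : p ≠ q) (P : Sylow p G) (Q : Sylow q G) (D : Subgroup G) [D.Normal]
    (hDlt : D < (Q : Subgroup G)) : (P : Subgroup G) ⊔ D ≠ ⊤ := by
  intro htop
  have h1 := relIndex_mul_card_of_le (le_sup_left : D ≤ D ⊔ (P : Subgroup G))
  rw [Subgroup.relIndex_sup_left, sup_comm, htop, Subgroup.card_top] at h1
  have h2 := Nat.le_of_dvd Nat.card_pos (Subgroup.relIndex_dvd_card D (P : Subgroup G))
  have h3 := card_lt_of_lt hDlt
  have hcop : (Nat.card (P : Subgroup G)).Coprime (Nat.card (Q : Subgroup G)) :=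
    IsPGroup.coprime_card_of_ne p q hpq _ _ P.isPGroup' Q.isPGroup'
  have h4 := Nat.le_of_dvd Nat.card_pos (Nat.Coprime.mul_dvd_of_dvd_of_dvd hcop
    (Subgroup.card_subgroup_dvd_card (P : Subgroup G))
    (Subgroup.card_subgroup_dvd_card (Q : Subgroup G)))
  have hPpos : 0 < Nat.card (P : Subgroup G) := Nat.card_pos
  have h5 : D.relIndex (P : Subgroup G) * Nat.card D ≤ Nat.card (P : Subgroup G) * Nat.card D :=
    Nat.mul_le_mul_right _ h2
  have h6 : Nat.card (P : Subgroup G) * Nat.card D <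
      Nat.card (P : Subgroup G) * Nat.card (Q : Subgroup G) :=
    (Nat.mul_lt_mul_left hPpos).mpr h3
  omega

theorem centralizes_of_omega {G : Type*} [Group G] (Q : Subgroup G) (hQn : Q.Normal)
    (hQ : ∀ a ∈ Q, ∀ b ∈ Q, a * b = b * a) (q : ℕ) (x : G) (n : ℕ) (hxn : x ^ n = 1)
    (hcop : n.Coprime q) (hΩ : ∀ c ∈ Q, c ^ q = 1 → x * c = c * x) :
    ∀ k : ℕ, ∀ a ∈ Q, a ^ (q ^ k) = 1 → x * a = a * x := by
  intro k
  induction k with
  | zero =>
    intro a _ ha
    rw [pow_zero, pow_one] at ha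
    rw [ha]
    simp
  | succ k ih =>
    intro a haQ ha
    have hb : x * a ^ q = a ^ q * x :=
      ih (a ^ q) (Q.pow_mem haQ q) (by rw [← pow_mul, ← pow_succ']; exact ha)
    obtain ⟨c, hc⟩ : ∃ c, c = x * a * x⁻¹ * a⁻¹ := ⟨_, rfl⟩
    have hxa : x * a * x⁻¹ ∈ Q := hQn.conj_mem a haQ x
    have hcQ : c ∈ Q := hc ▸ Q.mul_mem hxa (Q.inv_mem haQ)
    have hcq : c ^ q = 1 := by
      have h1 : Commute (x * a * x⁻¹) a⁻¹ := hQ _ hxa _ (Q.inv_mem haQ)
      rw [hc, h1.mul_pow, conj_pow, inv_pow, hb]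
      group
    have hxc := hΩ c hcQ hcq
    have hconj : ∀ m : ℕ, x ^ m * a * (x ^ m)⁻¹ = c ^ m * a := by
      intro m
      induction m with
      | zero => simp
      | succ m ihm =>
        have e1 : x ^ (m + 1) * a * (x ^ (m + 1))⁻¹ = x * (x ^ m * a * (x ^ m)⁻¹) * x⁻¹ := by
          rw [pow_succ']
          group
        rw [e1, ihm]
        have e2 : x * c ^ m = c ^ m * x := Commute.pow_right (show Commute x c from hxc) m
        calc x * (c ^ m * a) * x⁻¹ = (x * c ^ m) * a * x⁻¹ := by group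
          _ = c ^ m * (x * a * x⁻¹) := by rw [e2]; group
          _ = c ^ m * (c * a) := by rw [hc]; group
          _ = c ^ (m + 1) * a := by rw [pow_succ]; group
    have h2 := hconj n
    rw [hxn] at h2
    have hcn : c ^ n = 1 := by
      have h2' : a = c ^ n * a := by simpa using h2
      exact (mul_right_cancel (a := c ^ n) (b := a) (c := 1) (by rw [one_mul]; exact h2'.symm))
    have hc1 : c = 1 := by
      have h3 : orderOf c ∣ n := orderOf_dvd_of_pow_eq_one hcn
      have h4 : orderOf c ∣ q := orderOf_dvd_of_pow_eq_one hcq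
      have h5 : orderOf c ∣ 1 := by
        rw [← Nat.Coprime.gcd_eq_one hcop]
        exact Nat.dvd_gcd h3 h4
      exact orderOf_eq_one_iff.mp (Nat.dvd_one.mp h5)
    rw [hc] at hc1
    have e3 : x * a = (x * a * x⁻¹ * a⁻¹) * a * x := by group
    rw [e3, hc1, one_mul]

/-- A finite non-abelian group in which every proper subgroup is abelian is either of prime-power order, or is generated by a cyclic Sylow p-subgroup and a normal Sylow q-subgroup that is elementary abelian, for distinct primes p and q. -/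
theorem result {G : Type*} [Group G] [Finite G] (hna : ¬ IsMulCommutative G) (h : ∀ H : Subgroup G, H ≠ ⊤ → IsMulCommutative H) : (∃ p : ℕ, p.Prime ∧ IsPGroup p G) ∨ ∃ p q : ℕ, p.Prime ∧ q.Prime ∧ p ≠ q ∧ ∃ (P : Sylow p G) (Q : Sylow q G), IsCyclic P ∧ (Q : Subgroup G).Normal ∧ Cfsg.IsElementaryAbelian q (Q : Subgroup G) ∧ (P : Subgroup G) ⊔ Q = ⊤ := by
  have hnil : ∀ H : Subgroup G, H ≠ ⊤ → Group.IsNilpotent H := fun H hH => nilpotent_of_comm (h H hH)
  by_cases hGn : Group.IsNilpotent G
  · left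
    by_contra hnp
    push Not at hnp
    apply hna
    have hsylc : ∀ (p : ℕ) (_ : Fact p.Prime) (P : Sylow p G), IsMulCommutative (P : Subgroup G) := by
      intro p hp P
      apply h
      intro htop
      apply hnp p hp.out
      intro g
      obtain ⟨k, hk⟩ := P.isPGroup' ⟨g, by rw [htop]; trivial⟩
      exact ⟨k, by simpa using congrArg Subtype.val hk⟩
    obtain ⟨e⟩ := ((Group.isNilpotent_of_finite_tfae (G := G)).out 0 4).mp hGn
    constructor
    constructor
    intro a b
    have hab : e.symm a * e.symm b = e.symm b * e.symm a := by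
      funext p
      funext P
      have : Fact (p : ℕ).Prime := ⟨Nat.prime_of_mem_primeFactors p.2⟩
      have hc := hsylc p inferInstance P
      exact mul_comm' _ _
    have := congrArg e hab
    simpa using this
  · right
    obtain ⟨p, q, hp, hq, hpq, P, Q, hcyc, hQn, hsup, hPn⟩ := schmidt_structure hGn hnil
    have : Fact p.Prime := ⟨hp⟩
    have : Fact q.Prime := ⟨hq⟩
    have hQtop : (Q : Subgroup G) ≠ ⊤ := by
      intro htop
      apply hGn
      have hpg : IsPGroup q G := by
        intro g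
        obtain ⟨k, hk⟩ := Q.isPGroup' ⟨g, by rw [htop]; trivial⟩
        exact ⟨k, by simpa using congrArg Subtype.val hk⟩
      exact hpg.isNilpotent
    have hQc := h _ hQtop
    have hQcomm := comm_of_isMulCommutative hQc
    refine ⟨p, q, hp, hq, hpq, P, Q, hcyc, hQn, ⟨hQc, ?_⟩, hsup⟩
    by_contra hex
    push Not at hex
    obtain ⟨a₀, ha₀Q, ha₀⟩ := hex
    obtain ⟨Ω, hΩ⟩ : ∃ Ω : Subgroup G, ∀ a, a ∈ Ω ↔ a ∈ (Q : Subgroup G) ∧ a ^ q = 1 :=
      ⟨{ carrier := {a | a ∈ (Q : Subgroup G) ∧ a ^ q = 1}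
         one_mem' := ⟨Subgroup.one_mem _, one_pow q⟩
         mul_mem' := fun {a b} ha hb => ⟨Subgroup.mul_mem _ ha.1 hb.1, by
           rw [(show Commute a b from hQcomm a ha.1 b hb.1).mul_pow, ha.2, hb.2, one_mul]⟩
         inv_mem' := fun {a} ha => ⟨Subgroup.inv_mem _ ha.1, by rw [inv_pow, ha.2, inv_one]⟩ },
        fun a => Iff.rfl⟩
    have hΩn : Ω.Normal := by
      constructor
      intro a ha g
      rw [hΩ] at ha ⊢
      exact ⟨hQn.conj_mem a ha.1 g, by rw [conj_pow, ha.2]; group⟩
    have hΩlt : Ω < (Q : Subgroup G) := by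
      constructor
      · intro a ha
        exact ((hΩ a).mp ha).1
      · intro hle
        exact ha₀ ((hΩ a₀).mp (hle ha₀Q)).2
    have hne := sup_ne_top_of_lt hpq P Q Ω hΩlt
    have hcom := comm_of_isMulCommutative (h _ hne)
    apply hPn
    rw [← Subgroup.normalizer_eq_top_iff, eq_top_iff, ← hsup]
    refine sup_le Subgroup.le_normalizer ?_
    have hcomm : ∀ x ∈ (P : Subgroup G), ∀ y ∈ (Q : Subgroup G), x * y = y * x := by
      intro x hx y hy
      obtain ⟨i, hi⟩ := orderOf_mem_sylow P hx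
      obtain ⟨j, hj⟩ := orderOf_mem_sylow Q hy
      refine centralizes_of_omega (Q : Subgroup G) hQn hQcomm q x (p ^ i)
        (by rw [← hi]; exact pow_orderOf_eq_one x)
        (Nat.Coprime.pow_left i ((Nat.coprime_primes hp hq).mpr hpq)) ?_ j y hy
        (by rw [← hj]; exact pow_orderOf_eq_one y)
      intro c hcQ hcq
      exact hcom x (Subgroup.mem_sup_left hx) c (Subgroup.mem_sup_right ((hΩ c).mpr ⟨hcQ, hcq⟩))
    intro y hy
    rw [Subgroup.mem_normalizer_iff'']
    intro x
    constructor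
    · intro hx
      have h' := hcomm x hx y hy
      have e : y⁻¹ * x * y = x := by rw [mul_assoc, h', ← mul_assoc, inv_mul_cancel, one_mul]
      rw [e]
      exact hx
    · intro hx
      have h' := hcomm _ hx y hy
      have e : y⁻¹ * x * y = x := by
        have h'' : (y⁻¹ * x * y) * y = x * y := by rw [h']; group
        exact mul_right_cancel h''
      rw [e] at hx
      exact hx

end Cfsg.Agent.S0537
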