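import Cfsg.Statements.S0539
import Mathlib
import Cfsg.Agent.Lib.Helper1.Subnormal

set_option autoImplicit false
open Pointwise
open Cfsg

namespace Cfsg.Agent.S0539

/-- Let S be a family of subnormal subgroups of a finite group that is closed under conjugation, and S₀ a proper subfamily. Then some member of S not in S₀ normalizes the join of S₀. -/
theorem result {G : Type*} [Group G] [Finite G] (S S₀ : Set (Subgroup G)) (hS : ∀ U ∈ S, U.IsSubnormal) (hconj : ∀ U ∈ S, ∀ g : G, MulAut.conj g • U ∈ S) (h₀ : S₀ ⊂ S) : ∃ X ∈ S, X ∉ S₀ ∧ X ≤ Subgroup.normalizer ((sSup S₀ : Subgroup G) : Set G) := by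
  obtain ⟨V, hV⟩ : ∃ V, V = (sSup S₀ : Subgroup G) := ⟨_, rfl⟩
  rw [← hV]
  have hVs : V.IsSubnormal := by
    rw [hV]
    exact Cfsg.Agent.Lib.Helper1.sSup_isSubnormal S₀ (fun U hU => hS U (h₀.subset hU))
  obtain ⟨X₁, hX₁S, hX₁⟩ := Set.exists_of_ssubset h₀
  obtain ⟨r, hr⟩ := Cfsg.Agent.Lib.Helper1.exists_ncs_eq V hVs
  have key : ∀ k, Cfsg.Agent.Lib.Helper1.ncs V k = V →
      ∃ X ∈ S, X ∉ S₀ ∧ X ≤ Subgroup.normalizer ((V : Subgroup G) : Set G) := by
    intro k
    induction k with
    | zero =>
      intro hk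
      refine ⟨X₁, hX₁S, hX₁, ?_⟩
      intro x _
      rw [Subgroup.mem_normalizer_iff]
      intro h
      rw [← hk, Cfsg.Agent.Lib.Helper1.ncs_zero]
      simp
    | succ k ih =>
      intro hk
      by_cases hk' : Cfsg.Agent.Lib.Helper1.ncs V k = V
      · exact ih hk'
      have hnorm : Cfsg.Agent.Lib.Helper1.ncs V k ≤ Subgroup.normalizer ((V : Subgroup G) : Set G) := by
        have := Cfsg.Agent.Lib.Helper1.ncs_le_normalizer V k
        rwa [hk] at this
      cases k with
      | zero =>
        refine ⟨X₁, hX₁S, hX₁, ?_⟩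
        intro x _
        apply hnorm
        rw [Cfsg.Agent.Lib.Helper1.ncs_zero]; trivial
      | succ j =>
        by_contra hno
        push Not at hno
        obtain ⟨R, hR⟩ : ∃ R : Subgroup G,
            R = sSup {X | X ∈ S ∧ X ≤ Cfsg.Agent.Lib.Helper1.ncs V (j + 1)} := ⟨_, rfl⟩
        have hgen : Cfsg.Agent.Lib.Helper1.ncs V (j + 1) ≤ R := by
          rw [Cfsg.Agent.Lib.Helper1.ncs_succ, Subgroup.closure_le]
          rintro x ⟨g, hg, v, hv, rfl⟩
          have h1 : V ≤ MulAut.conj g⁻¹ • R := by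
            rw [hV]
            apply sSup_le
            intro Y hY y hy
            rw [Cfsg.Agent.Lib.Lead.mem_conj_smul, inv_inv]
            have h2 : MulAut.conj g • Y ∈ S := hconj Y (h₀.subset hY) g
            have h3 : MulAut.conj g • Y ≤ Cfsg.Agent.Lib.Helper1.ncs V (j + 1) := by
              intro z hz
              rw [Cfsg.Agent.Lib.Lead.mem_conj_smul] at hz
              rw [Cfsg.Agent.Lib.Helper1.ncs_succ]
              apply Subgroup.subset_closure
              refine ⟨g, hg, g⁻¹ * z * g, ?_, by group⟩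
              rw [hV]
              exact (le_sSup hY : Y ≤ sSup S₀) hz
            have h4 : MulAut.conj g • Y ≤ R := by
              rw [hR]; exact le_sSup ⟨h2, h3⟩
            exact h4 (Cfsg.Agent.Lib.Lead.conj_mem_conj_smul hy)
          have h5 := h1 hv
          rwa [Cfsg.Agent.Lib.Lead.mem_conj_smul, inv_inv] at h5
        have hRV : R ≤ V := by
          rw [hR]
          apply sSup_le
          rintro X ⟨hXS, hXle⟩
          have hXS₀ : X ∈ S₀ := by
            by_contra hX
            exact hno X hXS hX (hXle.trans hnorm)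
          rw [hV]; exact le_sSup hXS₀
        exact hk' (le_antisymm (hgen.trans hRV) (Cfsg.Agent.Lib.Helper1.le_ncs V (j + 1)))
  exact key r hr

end Cfsg.Agent.S0539
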