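import Cfsg.Statements.S0540
import Mathlib
import Cfsg.Agent.Lib.Helper1.Subnormal3

set_option autoImplicit false
open Pointwise
open Cfsg

namespace Cfsg.Agent.S0540

/-- A uniqueness lemma of zipper type. Let A be a subgroup of a finite group G and U a nonempty family of subgroups. For V in U write S(V) for the set of conjugates of A that lie in V and are subnormal in V. Assume: A belongs to S(V) for every V in U; a member of some S(W) that lies in V belongs to S(V); and for all V, W in U the normalizer of the join of S(V) ∩ S(W) lies in some member of U. Then U has a greatest element. -/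
theorem result {G : Type*} [Group G] [Finite G] (A : Subgroup G) (U : Set (Subgroup G)) (hU : U.Nonempty) (S : Subgroup G → Set (Subgroup G)) (hS : ∀ V B : Subgroup G, B ∈ S V ↔ (∃ g : G, B = MulAut.conj g • A) ∧ B ≤ V ∧ (B.subgroupOf V).IsSubnormal) (h1 : ∀ V ∈ U, A ∈ S V) (h2 : ∀ V ∈ U, ∀ W ∈ U, ∀ B ∈ S W, B ≤ V → B ∈ S V) (h3 : ∀ V ∈ U, ∀ W ∈ U, ∃ X ∈ U, Subgroup.normalizer ((sSup (S V ∩ S W) : Subgroup G) : Set G) ≤ X) : ∃ M ∈ U, ∀ V ∈ U, V ≤ M := by
  classical
  obtain ⟨M, hMU, hMmax⟩ := Set.exists_max_image U (fun V => Nat.card V) (Set.toFinite U) hU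
  refine ⟨M, hMU, ?_⟩
  by_contra hcon
  push Not at hcon
  obtain ⟨V₀, hV₀U, hV₀M⟩ := hcon
  obtain ⟨V, hV, hVmax⟩ := Set.exists_max_image {V : Subgroup G | V ∈ U ∧ ¬ V ≤ M}
    (fun V => (S M ∩ S V).ncard) (Set.toFinite _) ⟨V₀, hV₀U, hV₀M⟩
  obtain ⟨hVU, hVM⟩ := hV
  obtain ⟨T, hT⟩ : ∃ T, T = S M ∩ S V := ⟨_, rfl⟩
  obtain ⟨D, hD⟩ : ∃ D : Subgroup G, D = sSup T := ⟨_, rfl⟩
  obtain ⟨X, hXU, hNX⟩ := h3 M hMU V hVU
  rw [← hT, ← hD] at hNX
  have hinv : ∀ V' : Subgroup G, ∀ B ∈ S V', ∀ a ∈ V', MulAut.conj a • B ∈ S V' := by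
    intro V' B hB a ha
    rw [hS] at hB ⊢
    obtain ⟨⟨g, rfl⟩, hle, hsn⟩ := hB
    refine ⟨⟨a * g, by rw [map_mul, mul_smul]⟩, ?_, ?_⟩
    · intro x hx
      rw [Cfsg.Agent.Lib.Lead.mem_conj_smul] at hx
      have h1 := hle hx
      have h2 := Subgroup.mul_mem _ (Subgroup.mul_mem _ ha h1) (Subgroup.inv_mem _ ha)
      have h3 : a * (a⁻¹ * x * a) * a⁻¹ = x := by group
      rwa [h3] at h2
    · have := Cfsg.Agent.Lib.Helper1.conj_smul_subgroupOf V' (MulAut.conj g • A) ⟨a, ha⟩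
      rw [this]
      exact hsn.smul _
  have hstep : ∀ V' : Subgroup G, ∀ T' : Set (Subgroup G), T' ⊂ S V' →
      ∃ B ∈ S V', B ∉ T' ∧ B ≤ Subgroup.normalizer ((sSup T' : Subgroup G) : Set G) := by
    intro V' T' hT'
    apply Cfsg.Agent.Lib.Helper1.exists_normalizing_rel' V' (S V') T'
    · intro B hB; rw [hS] at hB; exact hB.2.1
    · intro B hB; rw [hS] at hB; exact hB.2.2
    · exact hinv V'
    · exact hT'
  have hfull : ∀ V' : Subgroup G,
      V' ≤ Subgroup.normalizer ((sSup (S V') : Subgroup G) : Set G) :=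
    fun V' => Cfsg.Agent.Lib.Helper1.le_normalizer_sSup V' (S V') (hinv V')
  have hTD : ∀ B ∈ T, B ≤ Subgroup.normalizer ((D : Subgroup G) : Set G) := by
    intro B hB
    have : B ≤ D := hD ▸ le_sSup hB
    exact this.trans Subgroup.le_normalizer
  have hXM : X ≤ M := by
    by_contra hXM
    have h1 := hVmax X ⟨hXU, hXM⟩
    have hsub : T ⊆ S M ∩ S X := by
      intro B hB
      have hB' := hB
      rw [hT] at hB'
      exact ⟨hB'.1, h2 X hXU M hMU B hB'.1 ((hTD B hB).trans hNX)⟩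
    have heq : T = S M ∩ S X := by
      apply Set.eq_of_subset_of_ncard_le hsub
      rw [hT]; exact h1
    by_cases hTM : T = S M
    · have h4 : M ≤ X := by
        have := hfull M
        rw [← hTM, ← hD] at this
        exact this.trans hNX
      have h5 := hMmax X hXU
      have h6 : M = X := Subgroup.eq_of_le_of_card_ge h4 h5
      exact hXM (h6 ▸ le_rfl)
    · have hss : T ⊂ S M := by
        refine lt_of_le_of_ne ?_ hTM
        rw [hT]; exact Set.inter_subset_left
      obtain ⟨B, hBM, hBT, hBn⟩ := hstep M T hss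
      rw [← hD] at hBn
      have hBX : B ∈ S X := h2 X hXU M hMU B hBM (hBn.trans hNX)
      apply hBT
      rw [heq]; exact ⟨hBM, hBX⟩
  have hNM : Subgroup.normalizer ((D : Subgroup G) : Set G) ≤ M := hNX.trans hXM
  by_cases hTV : T = S V
  · have := hfull V
    rw [← hTV, ← hD] at this
    exact hVM (this.trans hNM)
  · have hss : T ⊂ S V := by
      refine lt_of_le_of_ne ?_ hTV
      rw [hT]; exact Set.inter_subset_right
    obtain ⟨B, hBV, hBT, hBn⟩ := hstep V T hss
    rw [← hD] at hBn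
    have hBM : B ∈ S M := h2 M hMU V hVU B hBV (hBn.trans hNM)
    apply hBT
    rw [hT]; exact ⟨hBM, hBV⟩

end Cfsg.Agent.S0540
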