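import Cfsg.Statements.S0541
import Mathlib
import Cfsg.Agent.Lib.Helper1.Subnormal2

set_option autoImplicit false
open Pointwise
open Cfsg

namespace Cfsg.Agent.S0541

/-- Let Z and Y be subgroups of a finite group G and p a prime. Suppose that for every g in G the subgroup generated by the conjugates of g Z g⁻¹ under Y is a p-group. Then there is a Sylow p-subgroup P of G such that Y normalizes the subgroup generated by all conjugates of Z contained in P. -/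
theorem result {G : Type*} [Group G] [Finite G] (p : ℕ) [Fact p.Prime] (Z Y : Subgroup G) (h : ∀ g : G, IsPGroup p ↥(⨆ y ∈ Y, MulAut.conj (y * g) • Z)) : ∃ P : Sylow p G, Y ≤ Subgroup.normalizer ((⨆ g ∈ {g : G | MulAut.conj g • Z ≤ (P : Subgroup G)}, MulAut.conj g • Z : Subgroup G) : Set G) := by
  classical
  obtain ⟨W, hW⟩ : ∃ W : Subgroup G → Subgroup G,
      W = fun Q => ⨆ g ∈ {g : G | MulAut.conj g • Z ≤ Q}, MulAut.conj g • Z := ⟨_, rfl⟩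
  have hWdef : ∀ Q : Subgroup G,
      W Q = ⨆ g ∈ {g : G | MulAut.conj g • Z ≤ Q}, MulAut.conj g • Z := by
    intro Q; rw [hW]
  have w1 : ∀ Q : Subgroup G, W Q ≤ Q := by
    intro Q; rw [hW]; exact iSup₂_le (fun g hg => hg)
  have w3 : ∀ (Q : Subgroup G) (g : G), MulAut.conj g • Z ≤ Q → MulAut.conj g • Z ≤ W Q := by
    intro Q g hg
    rw [hW]
    exact le_iSup₂ (f := fun (g : G) (_ : g ∈ {g : G | MulAut.conj g • Z ≤ Q}) => MulAut.conj g • Z) g hg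
  have w2 : ∀ Q Q' : Subgroup G, Q ≤ Q' → W Q ≤ W Q' := by
    intro Q Q' hQQ'
    have : W Q = ⨆ g ∈ {g : G | MulAut.conj g • Z ≤ Q}, MulAut.conj g • Z := by rw [hW]
    rw [this]
    exact iSup₂_le (fun g hg => w3 Q' g (le_trans hg hQQ'))
  obtain ⟨𝒬, h𝒬⟩ : ∃ 𝒬 : Set (Subgroup G), 𝒬 = {Q : Subgroup G | IsPGroup p Q ∧
      Y ≤ Subgroup.normalizer ((Q : Subgroup G) : Set G) ∧ W Q = Q} := ⟨_, rfl⟩
  have hbot : (⊥ : Subgroup G) ∈ 𝒬 := by
    rw [h𝒬]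
    refine ⟨IsPGroup.of_bot, ?_, le_antisymm (w1 ⊥) bot_le⟩
    intro y _
    rw [Subgroup.mem_normalizer_iff]
    intro x
    simp
  obtain ⟨Q, hQ𝒬, hQmax⟩ := Set.exists_max_image 𝒬 (fun Q => Nat.card Q) (Set.toFinite 𝒬) ⟨⊥, hbot⟩
  have hQ𝒬' := hQ𝒬
  rw [h𝒬] at hQ𝒬'
  obtain ⟨hQp, hYQ, hWQ⟩ := hQ𝒬'
  obtain ⟨P, hQP⟩ := hQp.exists_le_sylow
  refine ⟨P, ?_⟩
  have hgoal : (⨆ g ∈ {g : G | MulAut.conj g • Z ≤ (P : Subgroup G)}, MulAut.conj g • Z : Subgroup G)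
      = W P := by rw [hW]
  rw [hgoal]
  suffices hWP : W P = Q by rw [hWP]; exact hYQ
  apply le_antisymm _ (hWQ ▸ w2 Q P hQP)
  by_contra hnot
  have hex : ∃ g₁ : G, MulAut.conj g₁ • Z ≤ (P : Subgroup G) ∧ ¬ MulAut.conj g₁ • Z ≤ Q := by
    by_contra hne
    push Not at hne
    apply hnot
    have : W P = ⨆ g ∈ {g : G | MulAut.conj g • Z ≤ (P : Subgroup G)}, MulAut.conj g • Z := by
      rw [hW]
    rw [this]
    exact iSup₂_le (fun g hg => hne g hg)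
  obtain ⟨g₁, hg₁P, hg₁Q⟩ := hex
  obtain ⟨S, hS⟩ : ∃ S : Set (Subgroup G),
      S = {X | ∃ g : G, X = MulAut.conj g • Z ∧ X ≤ (P : Subgroup G)} := ⟨_, rfl⟩
  obtain ⟨S₀, hS₀⟩ : ∃ S₀ : Set (Subgroup G),
      S₀ = {X | ∃ g : G, X = MulAut.conj g • Z ∧ X ≤ Q} := ⟨_, rfl⟩
  have hSS : S₀ ⊂ S := by
    refine ⟨?_, ?_⟩
    · intro X hX
      rw [hS₀] at hX; rw [hS]
      obtain ⟨g, hg, hXQ⟩ := hX
      exact ⟨g, hg, hXQ.trans hQP⟩
    · intro hsub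
      have h1 : MulAut.conj g₁ • Z ∈ S := by rw [hS]; exact ⟨g₁, rfl, hg₁P⟩
      have h2 := hsub h1
      rw [hS₀] at h2
      obtain ⟨g, _, hle⟩ := h2
      exact hg₁Q hle
  haveI : Group.IsNilpotent (P : Subgroup G) := P.2.isNilpotent
  have hPsub : ∀ U : Subgroup (P : Subgroup G), U.IsSubnormal :=
    fun U => Cfsg.Agent.Lib.Helper1.isSubnormal_of_isNilpotent' U
  have hSP : ∀ X ∈ S, X ≤ (P : Subgroup G) := by
    intro X hX; rw [hS] at hX; obtain ⟨g, _, h⟩ := hX; exact h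
  have hconj : ∀ X ∈ S, ∀ a ∈ (P : Subgroup G), MulAut.conj a • X ∈ S := by
    intro X hX a ha
    rw [hS] at hX ⊢
    obtain ⟨g, rfl, hle⟩ := hX
    refine ⟨a * g, by rw [map_mul, mul_smul], ?_⟩
    intro x hx
    rw [Cfsg.Agent.Lib.Lead.mem_conj_smul] at hx
    have h1 := hle hx
    have h2 := Subgroup.mul_mem _ (Subgroup.mul_mem _ ha h1) (Subgroup.inv_mem _ ha)
    have h3 : a * (a⁻¹ * x * a) * a⁻¹ = x := by group
    rwa [h3] at h2
  obtain ⟨X, hXS, hXS₀, hXn⟩ :=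
    Cfsg.Agent.Lib.Helper1.exists_normalizing_rel (P : Subgroup G) hPsub S S₀ hSP hconj hSS
  have hsup : sSup S₀ = Q := by
    apply le_antisymm
    · apply sSup_le
      intro X' hX'
      rw [hS₀] at hX'
      obtain ⟨g, _, h⟩ := hX'; exact h
    · have : Q = ⨆ g ∈ {g : G | MulAut.conj g • Z ≤ Q}, MulAut.conj g • Z :=
        hWQ.symm.trans (hWdef Q)
      rw [this]
      apply iSup₂_le
      intro g hg
      apply le_sSup
      rw [hS₀]
      exact ⟨g, rfl, hg⟩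
  rw [hsup] at hXn
  rw [hS] at hXS
  obtain ⟨g₀, hXg₀, hXP⟩ := hXS
  have hXQ : ¬ X ≤ Q := by
    intro hle; apply hXS₀; rw [hS₀]; exact ⟨g₀, hXg₀, hle⟩
  -- the Y-closure of X
  obtain ⟨Xt, hXt⟩ : ∃ Xt : Subgroup G, Xt = ⨆ y ∈ Y, MulAut.conj (y * g₀) • Z := ⟨_, rfl⟩
  have hXtp : IsPGroup p Xt := by rw [hXt]; exact h g₀
  have hterm : ∀ y ∈ Y, MulAut.conj (y * g₀) • Z ≤ Xt := by
    intro y hy
    rw [hXt]
    exact le_iSup₂ (f := fun (y : G) (_ : y ∈ Y) => MulAut.conj (y * g₀) • Z) y hy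
  have hXXt : X ≤ Xt := by
    have := hterm 1 Y.one_mem
    rwa [one_mul, ← hXg₀] at this
  have hXtQ : Xt ≤ Subgroup.normalizer ((Q : Subgroup G) : Set G) := by
    rw [hXt]
    apply iSup₂_le
    intro y hy x hx
    rw [map_mul, mul_smul, ← hXg₀, Cfsg.Agent.Lib.Lead.mem_conj_smul] at hx
    have h1 := hXn hx
    have hyN := hYQ hy
    have h2 := Subgroup.mul_mem _ (Subgroup.mul_mem _ hyN h1) (Subgroup.inv_mem _ hyN)
    have h3 : y * (y⁻¹ * x * y) * y⁻¹ = x := by group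
    rwa [h3] at h2
  have hYXt : ∀ y ∈ Y, MulAut.conj y • Xt = Xt := by
    intro y hy
    apply Cfsg.Agent.Lib.Lead.conj_smul_eq_of_mem_normalizer
    apply Cfsg.Agent.Lib.Helper6.mem_normalizer_of_conj_mem
    intro d hd
    have h1 : MulAut.conj y • Xt ≤ Xt := by
      have h0 : MulAut.conj y • (⨆ y' ∈ Y, MulAut.conj (y' * g₀) • Z)
          = ⨆ y', MulAut.conj y • (⨆ (_ : y' ∈ Y), MulAut.conj (y' * g₀) • Z) :=
        Subgroup.map_iSup _ _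
      rw [hXt, h0]
      apply iSup_le
      intro y'
      have h0' : MulAut.conj y • (⨆ (_ : y' ∈ Y), MulAut.conj (y' * g₀) • Z)
          = ⨆ (_ : y' ∈ Y), MulAut.conj y • (MulAut.conj (y' * g₀) • Z) :=
        Subgroup.map_iSup _ _
      rw [h0']
      apply iSup_le
      intro hy'
      rw [← mul_smul, ← map_mul, ← mul_assoc, ← hXt]
      exact hterm (y * y') (Y.mul_mem hy hy')
    exact h1 (Cfsg.Agent.Lib.Lead.conj_mem_conj_smul hd)
  obtain ⟨Q', hQ'⟩ : ∃ Q', Q' = Xt ⊔ Q := ⟨_, rfl⟩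
  have hQ'p : IsPGroup p Q' := by
    rw [hQ']; exact IsPGroup.to_sup_of_normal_right' hXtp hQp hXtQ
  have hQ'Y : Y ≤ Subgroup.normalizer ((Q' : Subgroup G) : Set G) := by
    intro y hy
    apply Cfsg.Agent.Lib.Lead.mem_normalizer_of_conj_smul_eq
    rw [hQ', Subgroup.smul_sup, hYXt y hy,
      Cfsg.Agent.Lib.Lead.conj_smul_eq_of_mem_normalizer (hYQ hy)]
  have hQ'W : W Q' = Q' := by
    apply le_antisymm (w1 Q')
    rw [hQ']
    apply sup_le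
    · calc Xt = ⨆ y ∈ Y, MulAut.conj (y * g₀) • Z := hXt
        _ ≤ W (Xt ⊔ Q) := iSup₂_le (fun y hy => w3 _ _ ((hterm y hy).trans le_sup_left))
    · calc Q = W Q := hWQ.symm
        _ ≤ W (Xt ⊔ Q) := w2 _ _ le_sup_right
  have hQ'mem : Q' ∈ 𝒬 := by rw [h𝒬]; exact ⟨hQ'p, hQ'Y, hQ'W⟩
  have hlt : Q < Q' := by
    refine lt_of_le_of_ne (hQ' ▸ le_sup_right) ?_
    intro heq
    apply hXQ
    rw [heq, hQ']
    exact hXXt.trans le_sup_left
  have h1 := Cfsg.Agent.Lib.Lead.card_lt_of_lt hlt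
  have h2 := hQmax Q' hQ'mem
  exact absurd h1 (not_lt.mpr h2)

end Cfsg.Agent.S0541
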