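import Mathlib
import Cfsg.Statements.S0542

set_option autoImplicit false
open Cfsg

namespace Cfsg.Agent.S0542

theorem relIndex_dvd_index_of_normal_right {G : Type*} [Group G] [Finite G] (Q N : Subgroup G)
    [N.Normal] : Q.relIndex N ∣ Q.index := by
  have h1 : Q.relIndex (Q ⊔ N) ∣ Q.index := Subgroup.relIndex_dvd_index_of_le le_sup_left
  have h2 : Q.relIndex N = Q.relIndex (Q ⊔ N) := by
    have e1 : N.relIndex (Q ⊔ N) = N.relIndex Q := Subgroup.relIndex_sup_right Q N
    have a1 := Subgroup.relIndex_mul_relIndex (⊥ : Subgroup G) N (Q ⊔ N) bot_le le_sup_right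
    have a2 := Subgroup.relIndex_mul_relIndex (⊥ : Subgroup G) Q (Q ⊔ N) bot_le le_sup_left
    have a3 := Subgroup.relIndex_mul_relIndex (⊥ : Subgroup G) (Q ⊓ N) Q bot_le inf_le_left
    have a4 := Subgroup.relIndex_mul_relIndex (⊥ : Subgroup G) (Q ⊓ N) N bot_le inf_le_right
    rw [Subgroup.inf_relIndex_left] at a3
    rw [Subgroup.inf_relIndex_right] at a4
    rw [e1] at a1
    have hpos1 : 0 < (⊥ : Subgroup G).relIndex (Q ⊓ N) := by
      rw [Subgroup.relIndex_bot_left]; exact Nat.card_pos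
    have hpos2 : 0 < N.relIndex Q := Nat.pos_of_ne_zero Subgroup.index_ne_zero_of_finite
    have hpos : 0 < (⊥ : Subgroup G).relIndex (Q ⊓ N) * N.relIndex Q := Nat.mul_pos hpos1 hpos2
    apply Nat.eq_of_mul_eq_mul_left hpos
    calc (⊥ : Subgroup G).relIndex (Q ⊓ N) * N.relIndex Q * Q.relIndex N
        = ((⊥ : Subgroup G).relIndex (Q ⊓ N) * Q.relIndex N) * N.relIndex Q := by ring
      _ = (⊥ : Subgroup G).relIndex N * N.relIndex Q := by rw [a4]
      _ = (⊥ : Subgroup G).relIndex (Q ⊔ N) := a1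
      _ = (⊥ : Subgroup G).relIndex Q * Q.relIndex (Q ⊔ N) := a2.symm
      _ = (⊥ : Subgroup G).relIndex (Q ⊓ N) * N.relIndex Q * Q.relIndex (Q ⊔ N) := by rw [a3]
  rw [h2]; exact h1

theorem result {G : Type*} [Group G] [Finite G] (p : ℕ) [Fact p.Prime] (H : Subgroup G) (hH : H.IsSubnormal) (S : Sylow p G) : ∃ Q : Sylow p H, (Q : Subgroup H) = (S : Subgroup G).subgroupOf H := by
  have key : ∀ S : Sylow p G, ¬ p ∣ (S : Subgroup G).relIndex H := by
    induction hH with
    | top => intro S; rw [Subgroup.relIndex_top_right]; exact S.not_dvd_index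
    | step H K h_le hSubn hN ih =>
      intro S hdvd
      apply ih S
      have := hN
      have h1 := relIndex_dvd_index_of_normal_right ((S : Subgroup G).subgroupOf K) (H.subgroupOf K)
      rw [Subgroup.relIndex_subgroupOf h_le] at h1
      exact hdvd.trans h1
  have hp : IsPGroup p ((S : Subgroup G).subgroupOf H) := S.isPGroup'.comap_subtype
  refine ⟨hp.toSylow (key S), ?_⟩
  exact IsPGroup.toSylow_coe _ _

end Cfsg.Agent.S0542
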