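import Cfsg.Statements.S0544
import Mathlib
import Cfsg.Agent.Lib.Helper1.SylowSystem2

set_option autoImplicit false
open Cfsg

namespace Cfsg.Agent.S0544

/-- In a finite solvable group the intersection of the normalizers of the members of a Hall complement system is a nilpotent subgroup. -/
theorem result {G : Type*} [Group G] [Finite G] [Group.IsSolvable G] (K : Nat.Primes → Subgroup G) (hK : Cfsg.IsComplementSystem K) : Group.IsNilpotent (Cfsg.systemNormalizer K) := by
  classical
  obtain ⟨D, hD⟩ : ∃ D, D = Cfsg.systemNormalizer K := ⟨_, rfl⟩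
  rw [← hD]
  refine ((Group.isNilpotent_of_finite_tfae (G := ↥D)).out 0 3).mpr ?_
  intro r hr Q'
  haveI : Fact r.Prime := hr
  have hKidx : ∀ p : Nat.Primes, ∃ k, (K p).index = (p : ℕ) ^ k := fun p => ⟨_, hK p⟩
  obtain ⟨T, hT⟩ : ∃ T : Finset Nat.Primes,
      T = (Finset.subtype Nat.Prime (Nat.card G).primeFactors).erase ⟨r, hr.out⟩ := ⟨_, rfl⟩
  obtain ⟨S, hS⟩ : ∃ S : Subgroup G, S = T.inf K := ⟨_, rfl⟩
  have hidx : ¬ r ∣ S.index := by
    intro hd
    rw [hS] at hd
    obtain ⟨p, hpT, hpr⟩ :=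
      Cfsg.Agent.Lib.Helper1.prime_dvd_index_finset_inf K hKidx T r hr.out hd
    have hp : p = ⟨r, hr.out⟩ := Subtype.ext hpr
    rw [hT, hp] at hpT
    exact (Finset.notMem_erase _ _) hpT
  have hSle : ∀ p ∈ T, S ≤ K p := fun p hp => hS ▸ Finset.inf_le hp
  have hSp : IsPGroup r S := by
    have hcard : Nat.card S = r ^ (Nat.card S).primeFactorsList.length := by
      apply Nat.eq_prime_pow_of_unique_prime_dvd (Nat.card_pos (α := S)).ne'
      intro d hd hdvd
      by_contra hne
      have hdG : d ∣ Nat.card G := hdvd.trans (Subgroup.card_subgroup_dvd_card S)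
      have hdT : (⟨d, hd⟩ : Nat.Primes) ∈ T := by
        rw [hT]
        apply Finset.mem_erase.mpr
        refine ⟨fun h => hne (congrArg Subtype.val h), ?_⟩
        refine Finset.mem_subtype.mpr ?_
        exact Nat.mem_primeFactors.mpr ⟨hd, hdG, (Nat.card_pos (α := G)).ne'⟩
      have h1 := Cfsg.Agent.Lib.Helper1.coprime_card_of_index (K ⟨d, hd⟩) d hd (hK ⟨d, hd⟩)
      have h2 : d ∣ Nat.card (K ⟨d, hd⟩) := hdvd.trans (Subgroup.card_dvd_of_le (hSle _ hdT))
      have h3 := Nat.Coprime.eq_one_of_dvd h1.symm h2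
      exact hd.one_lt.ne' h3
    exact IsPGroup.of_card hcard
  obtain ⟨P, hP⟩ : ∃ P : Sylow r G, (P : Subgroup G) = S := ⟨hSp.toSylow hidx, rfl⟩
  have hDS : D ≤ Subgroup.normalizer ((S : Subgroup G) : Set G) := by
    intro g hg
    rw [hD, Cfsg.systemNormalizer, Subgroup.mem_iInf] at hg
    rw [Subgroup.mem_normalizer_iff]
    intro h
    rw [hS, Finset.inf_eq_iInf]
    simp only [Subgroup.mem_iInf]
    constructor
    · intro hh p hp
      exact (Subgroup.mem_normalizer_iff.mp (hg p) h).mp (hh p hp)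
    · intro hh p hp
      exact (Subgroup.mem_normalizer_iff.mp (hg p) h).mpr (hh p hp)
  have hQle : (Q' : Subgroup D) ≤ S.subgroupOf D := by
    have h1 : ((Q' : Subgroup D).map D.subtype) ≤ (P : Subgroup G) := by
      apply Cfsg.Agent.Lib.Helper1.le_sylow_of_le_normalizer P _ (Q'.2.map D.subtype)
      rw [hP]
      rintro x ⟨y, _, rfl⟩
      exact hDS y.2
    intro x hx
    rw [Subgroup.mem_subgroupOf, ← hP]
    exact h1 ⟨x, hx, rfl⟩
  have hSD : IsPGroup r (S.subgroupOf D) := hSp.comap_subtype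
  have heq : S.subgroupOf D = (Q' : Subgroup D) := Q'.is_maximal' hSD hQle
  rw [← heq]
  exact Subgroup.normal_subgroupOf_of_le_normalizer hDS

end Cfsg.Agent.S0544
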