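import Cfsg.Statements.S0545
import Mathlib
import Cfsg.Agent.Lib.Helper1.SylowSystem2

set_option autoImplicit false
open Cfsg

namespace Cfsg.Agent.S0545

open Pointwise

theorem fact_coprime_mul (m p j : ℕ) (hp : p.Prime) (hm : m.Coprime p) :
    (m * p ^ j).factorization p = j := by
  have hm0 : m ≠ 0 := by
    rintro rfl
    rw [Nat.coprime_zero_left] at hm
    exact hp.one_lt.ne' hm
  have hpj : p ^ j ≠ 0 := pow_ne_zero _ hp.pos.ne'
  rw [Nat.factorization_mul hm0 hpj, Finsupp.add_apply, Nat.Prime.factorization_pow hp,
    Nat.factorization_eq_zero_of_not_dvd]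
  · simp
  · intro hd
    have := Nat.Coprime.eq_one_of_dvd hm.symm hd
    exact hp.one_lt.ne' this

theorem index_conj_smul' {G : Type*} [Group G] [Finite G] (g : G) (H : Subgroup G) :
    (MulAut.conj g • H).index = H.index := by
  have h1 := Subgroup.card_mul_index (MulAut.conj g • H)
  have h2 := Subgroup.card_mul_index H
  rw [Cfsg.Agent.Lib.Lead.card_conj_smul] at h1
  exact Nat.eq_of_mul_eq_mul_left Nat.card_pos (h1.trans h2.symm)

/-- Let K be a Hall complement system of a finite solvable group G and N a normal subgroup. Then the images of the K p in G modulo N form a Hall complement system of the quotient, and its system normalizer is the image of the system normalizer of K. -/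
theorem result {G : Type*} [Group G] [Finite G] [Group.IsSolvable G] (K : Nat.Primes → Subgroup G) (hK : Cfsg.IsComplementSystem K) (N : Subgroup G) [N.Normal] : Cfsg.IsComplementSystem (fun p => (K p).map (QuotientGroup.mk' N)) ∧ Cfsg.systemNormalizer (fun p => (K p).map (QuotientGroup.mk' N)) = (Cfsg.systemNormalizer K).map (QuotientGroup.mk' N) := by
  have hsurj : Function.Surjective (QuotientGroup.mk' N) := QuotientGroup.mk'_surjective N
  constructor
  · intro p
    show ((K p).map (QuotientGroup.mk' N)).index = _
    have h1 : ((K p).map (QuotientGroup.mk' N)).index ∣ (p : ℕ) ^ (Nat.card G).factorization p := by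
      rw [← hK p]; exact Subgroup.index_map_dvd (K p) hsurj
    obtain ⟨j, _, hj⟩ := (Nat.dvd_prime_pow p.2).mp h1
    have h2 := Subgroup.card_mul_index ((K p).map (QuotientGroup.mk' N))
    have h3 : (Nat.card ((K p).map (QuotientGroup.mk' N))).Coprime p :=
      Nat.Coprime.coprime_dvd_left (Subgroup.card_map_dvd (K p) (QuotientGroup.mk' N))
        (Cfsg.Agent.Lib.Helper1.coprime_card_of_index (K p) p p.2 (hK p))
    rw [hj] at h2
    rw [hj, ← h2, fact_coprime_mul _ _ _ p.2 h3]
  · apply le_antisymm
    · intro x hx
      obtain ⟨g, rfl⟩ := hsurj x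
      rw [Cfsg.systemNormalizer, Subgroup.mem_iInf] at hx
      obtain ⟨R, hRdef⟩ : ∃ R : Nat.Primes → Subgroup G, R = fun p => MulAut.conj g • K p :=
        ⟨_, rfl⟩
      have hR : ∀ p : Nat.Primes, (R p).index = (p : ℕ) ^ (Nat.card G).factorization p := by
        intro p
        rw [hRdef]
        show (MulAut.conj g • K p).index = _
        rw [index_conj_smul', hK p]
      have hN : ∀ p, R p ⊔ N = K p ⊔ N := by
        intro p
        have e1 : (R p).map (QuotientGroup.mk' N) = (K p).map (QuotientGroup.mk' N) := by
          rw [hRdef]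
          show (MulAut.conj g • K p).map (QuotientGroup.mk' N) = _
          rw [Cfsg.Agent.Lib.Lead.map_conj_smul]
          exact Cfsg.Agent.Lib.Lead.conj_smul_eq_of_mem_normalizer (hx p)
        have e2 := congrArg (Subgroup.comap (QuotientGroup.mk' N)) e1
        rw [QuotientGroup.comap_map_mk', QuotientGroup.comap_map_mk'] at e2
        rw [sup_comm, e2, sup_comm]
      obtain ⟨n, hn, hconj⟩ := Cfsg.Agent.Lib.Helper1.conj_systems N K R hK hR hN
      refine ⟨n * g, ?_, ?_⟩
      · show n * g ∈ Cfsg.systemNormalizer K
        rw [Cfsg.systemNormalizer, Subgroup.mem_iInf]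
        intro p
        apply Cfsg.Agent.Lib.Lead.mem_normalizer_of_conj_smul_eq
        rw [map_mul, mul_smul]
        have := hconj p
        rw [hRdef] at this
        exact this
      · rw [map_mul]
        have : (QuotientGroup.mk' N) n = 1 := (QuotientGroup.eq_one_iff n).mpr hn
        rw [this, one_mul]
    · intro x hx
      obtain ⟨g, hg, rfl⟩ := hx
      have hg' : g ∈ Cfsg.systemNormalizer K := hg
      rw [Cfsg.systemNormalizer, Subgroup.mem_iInf] at hg'
      rw [Cfsg.systemNormalizer, Subgroup.mem_iInf]
      intro p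
      exact Subgroup.le_normalizer_map (QuotientGroup.mk' N) ⟨g, hg' p, rfl⟩

end Cfsg.Agent.S0545
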