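import Cfsg.Statements.S0546
import Mathlib
import Cfsg.Agent.Lib.Helper1.SylowSystem2
import Cfsg.Agent.Lib.Lead.SZ3
import Cfsg.Agent.S0545

set_option autoImplicit false
open Cfsg

namespace Cfsg.Agent.S0546

/-- The normal closure of a system normalizer of a finite solvable group is the whole group. -/
theorem result {G : Type*} [Group G] [Finite G] [Group.IsSolvable G] (K : Nat.Primes → Subgroup G) (hK : Cfsg.IsComplementSystem K) : Subgroup.normalClosure ((Cfsg.systemNormalizer K : Subgroup G) : Set G) = ⊤ := by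
  by_contra hne
  obtain ⟨C, hC⟩ : ∃ C, C = Subgroup.normalClosure ((Cfsg.systemNormalizer K : Subgroup G) : Set G) :=
    ⟨_, rfl⟩
  rw [← hC] at hne
  haveI hCn : C.Normal := hC ▸ Subgroup.normalClosure_normal
  have hDC : Cfsg.systemNormalizer K ≤ C := hC ▸ Subgroup.le_normalClosure
  haveI : Nontrivial (G ⧸ C) := QuotientGroup.nontrivial_iff.mpr hne
  obtain ⟨M, hMn, hMp⟩ := Cfsg.Agent.Lib.Lead.exists_normal_prime_index (G ⧸ C)
  obtain ⟨M', hM'⟩ : ∃ M', M' = M.comap (QuotientGroup.mk' C) := ⟨_, rfl⟩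
  haveI hM'n : M'.Normal := hM' ▸ Subgroup.Normal.comap hMn _
  have hidx : M'.index = M.index := by
    rw [hM']; exact Subgroup.index_comap_of_surjective M (QuotientGroup.mk'_surjective C)
  have hCM : C ≤ M' := by
    intro x hx
    rw [hM', Subgroup.mem_comap]
    have : (QuotientGroup.mk' C) x = 1 := (QuotientGroup.eq_one_iff x).mpr hx
    rw [this]; exact M.one_mem
  have h545 := (Cfsg.Agent.S0545.result K hK M').2
  have hbot : (Cfsg.systemNormalizer K).map (QuotientGroup.mk' M') = ⊥ := by
    rw [eq_bot_iff]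
    rintro x ⟨g, hg, rfl⟩
    rw [Subgroup.mem_bot]
    exact (QuotientGroup.eq_one_iff g).mpr (hCM (hDC hg))
  have hprime : (Nat.card (G ⧸ M')).Prime := by
    have : Nat.card (G ⧸ M') = M'.index := rfl
    rw [this, hidx]; exact hMp
  haveI : Fact (Nat.card (G ⧸ M')).Prime := ⟨hprime⟩
  have hcyc : IsCyclic (G ⧸ M') := isCyclic_of_prime_card rfl
  have hcomm : ∀ x y : G ⧸ M', x * y = y * x := fun x y => (IsCyclic.commGroup).mul_comm x y
  have htop : Cfsg.systemNormalizer (fun p => (K p).map (QuotientGroup.mk' M')) = ⊤ := by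
    rw [eq_top_iff]
    intro x _
    rw [Cfsg.systemNormalizer, Subgroup.mem_iInf]
    intro p
    rw [Subgroup.mem_normalizer_iff]
    intro h
    rw [hcomm x h, mul_inv_cancel_right]
  rw [htop, hbot] at h545
  have hone : Nat.card (G ⧸ M') = 1 := by
    have h1 : Nat.card (⊤ : Subgroup (G ⧸ M')) = 1 := by
      rw [h545]; exact Subgroup.card_bot
    rwa [Subgroup.card_top] at h1
  rw [hone] at hprime
  exact Nat.not_prime_one hprime

end Cfsg.Agent.S0546
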