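import Cfsg.Statements.S0547
import Mathlib
import Cfsg.Agent.Lib.Helper1.CoverAvoid

set_option autoImplicit false
open Cfsg

namespace Cfsg.Agent.S0547

theorem prim_core {G : Type*} [Group G] [Finite G] [Group.IsSolvable G] {Ω : Type*}
    [MulAction G Ω] [FaithfulSMul G Ω] (hprim : MulAction.IsPreprimitive G Ω) (M : Subgroup G)
    [M.Normal] (hM : M ≠ ⊥) (hmin : ∀ K : Subgroup G, K.Normal → K ≤ M → K = ⊥ ∨ K = M) :
    MulAction.IsPretransitive M Ω ∧ (∀ ω : Ω, ∀ m ∈ M, m • ω = ω → m = 1) ∧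
      (∀ x ∈ M, ∀ y ∈ M, x * y = y * x) ∧ ∃ p : ℕ, p.Prime ∧ IsPGroup p M := by
  obtain ⟨p, hp, hMp, hab⟩ := Cfsg.Agent.Lib.Helper1.min_normal_pgroup M hM hmin
  have htrans : MulAction.IsPretransitive M Ω := by
    apply MulAction.IsQuasiPreprimitive.isPretransitive_of_normal (G := G)
    intro hfix
    apply hM
    rw [Subgroup.eq_bot_iff_forall]
    intro m hm
    apply FaithfulSMul.eq_of_smul_eq_smul (α := Ω)
    intro ω
    have h1 : ω ∈ MulAction.fixedPoints M Ω := by rw [hfix]; trivial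
    have h2 := h1 ⟨m, hm⟩
    rw [one_smul]
    exact h2
  refine ⟨htrans, ?_, hab, p, hp, hMp⟩
  intro ω m hm hfix
  apply FaithfulSMul.eq_of_smul_eq_smul (α := Ω)
  intro ω'
  obtain ⟨n, hn⟩ := MulAction.exists_smul_eq M ω ω'
  have hn' : (n : G) • ω = ω' := hn
  rw [one_smul, ← hn', ← mul_smul, hab m hm n n.2, mul_smul, hfix]

/-- Let a finite solvable group G act faithfully and primitively on a set, and let M be a minimal normal subgroup of G. Then M is transitive with trivial point stabilizers, and the number of points equals the order of M, which is a prime power p ^ d with d ≥ 1. -/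
theorem result {G : Type*} [Group G] [Finite G] [Group.IsSolvable G] {Ω : Type*} [Nonempty Ω] [MulAction G Ω] [FaithfulSMul G Ω] (hprim : MulAction.IsPreprimitive G Ω) (M : Subgroup G) [M.Normal] (hM : M ≠ ⊥) (hmin : ∀ K : Subgroup G, K.Normal → K ≤ M → K = ⊥ ∨ K = M) : MulAction.IsPretransitive M Ω ∧ (∀ ω : Ω, MulAction.stabilizer M ω = ⊥) ∧ ∃ p d : ℕ, p.Prime ∧ 0 < d ∧ Nat.card Ω = p ^ d ∧ Nat.card M = p ^ d := by
  obtain ⟨htrans, hreg, hab, p, hp, hMp⟩ := prim_core hprim M hM hmin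
  refine ⟨htrans, ?_, ?_⟩
  · intro ω
    rw [Subgroup.eq_bot_iff_forall]
    intro x hx
    have h1 : (x : G) • ω = ω := hx
    exact Subtype.ext (hreg ω x x.2 h1)
  · haveI : Fact p.Prime := ⟨hp⟩
    obtain ⟨d, hd⟩ := IsPGroup.iff_card.mp hMp
    refine ⟨p, d, hp, ?_, ?_, hd⟩
    · rcases Nat.eq_zero_or_pos d with h0 | h0
      · rw [h0, pow_zero] at hd
        exact absurd (Subgroup.card_eq_one.mp hd) hM
      · exact h0
    · obtain ⟨ω₀⟩ := ‹Nonempty Ω›
      rw [← hd]
      symm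
      apply Nat.card_congr
      refine Equiv.ofBijective (fun m : M => (m : G) • ω₀) ⟨?_, ?_⟩
      · intro m n hmn
        have hmn' : (m : G) • ω₀ = (n : G) • ω₀ := hmn
        have h1 : ((n : G)⁻¹ * (m : G)) • ω₀ = ω₀ := by
          rw [mul_smul, hmn', inv_smul_smul]
        have h2 := hreg ω₀ _ (M.mul_mem (M.inv_mem n.2) m.2) h1
        apply Subtype.ext
        have : (m : G) = (n : G) * ((n : G)⁻¹ * (m : G)) := by group
        rw [this, h2, mul_one]
      · intro ω'
        obtain ⟨n, hn⟩ := MulAction.exists_smul_eq M ω₀ ω'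
        exact ⟨n, hn⟩

end Cfsg.Agent.S0547
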