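import Cfsg.Statements.S0548
import Mathlib
import Cfsg.Agent.Lib.Helper1.CoverAvoid
import Cfsg.Agent.S0547

set_option autoImplicit false
open Cfsg

namespace Cfsg.Agent.S0548

/-- Let a finite solvable group G act faithfully and primitively on a set, let M be a minimal normal subgroup and H the stabilizer of a point. Then H is a complement to M, no non-identity element of H centralizes M, and the only subgroups of M normalized by H are the trivial subgroup and M. -/
theorem result {G : Type*} [Group G] [Finite G] [Group.IsSolvable G] {Ω : Type*} [MulAction G Ω] [FaithfulSMul G Ω] (hprim : MulAction.IsPreprimitive G Ω) (M : Subgroup G) [M.Normal] (hM : M ≠ ⊥) (hmin : ∀ K : Subgroup G, K.Normal → K ≤ M → K = ⊥ ∨ K = M) (ω : Ω) : Subgroup.IsComplement' M (MulAction.stabilizer G ω) ∧ MulAction.stabilizer G ω ⊓ Subgroup.centralizer (M : Set G) = ⊥ ∧ ∀ K : Subgroup G, K ≤ M → MulAction.stabilizer G ω ≤ Subgroup.normalizer (K : Set G) → K = ⊥ ∨ K = M := by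
  obtain ⟨htrans, hreg, hab, p, hp, hMp⟩ := Cfsg.Agent.S0547.prim_core hprim M hM hmin
  have hdec : ∀ g : G, ∃ m ∈ M, ∃ h ∈ MulAction.stabilizer G ω, g = m * h := by
    intro g
    obtain ⟨m, hm⟩ := MulAction.exists_smul_eq M ω (g • ω)
    have hm' : (m : G) • ω = g • ω := hm
    refine ⟨m, m.2, (m : G)⁻¹ * g, ?_, by group⟩
    rw [MulAction.mem_stabilizer_iff, mul_smul, ← hm', inv_smul_smul]
  refine ⟨?_, ?_, ?_⟩
  · apply Subgroup.isComplement'_of_disjoint_and_mul_eq_univ
    · rw [disjoint_iff, Subgroup.eq_bot_iff_forall]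
      intro x hx
      obtain ⟨hxM, hxH⟩ := Subgroup.mem_inf.mp hx
      exact hreg ω x hxM (MulAction.mem_stabilizer_iff.mp hxH)
    · rw [Set.eq_univ_iff_forall]
      intro g
      obtain ⟨m, hm, h, hh, hg⟩ := hdec g
      exact Set.mem_mul.mpr ⟨m, hm, h, hh, hg.symm⟩
  · rw [Subgroup.eq_bot_iff_forall]
    intro h hh
    obtain ⟨hhH, hhC⟩ := Subgroup.mem_inf.mp hh
    apply FaithfulSMul.eq_of_smul_eq_smul (α := Ω)
    intro ω'
    obtain ⟨n, hn⟩ := MulAction.exists_smul_eq M ω ω'
    have hn' : (n : G) • ω = ω' := hn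
    have hcomm := Subgroup.mem_centralizer_iff.mp hhC n n.2
    rw [one_smul, ← hn', ← mul_smul, ← hcomm, mul_smul, MulAction.mem_stabilizer_iff.mp hhH]
  · intro K hKM hHK
    have hnorm : ∀ g : G, g ∈ Subgroup.normalizer ((K : Subgroup G) : Set G) := by
      intro g
      obtain ⟨m, hm, h, hh, hg⟩ := hdec g
      rw [hg]
      apply Subgroup.mul_mem _ _ (hHK hh)
      rw [Subgroup.mem_normalizer_iff]
      intro k
      constructor
      · intro hk
        have : m * k * m⁻¹ = k := by rw [hab m hm k (hKM hk)]; group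
        rw [this]; exact hk
      · intro hk
        have hkM : k ∈ M := by
          have h1 := M.mul_mem (M.mul_mem (M.inv_mem hm) (hKM hk)) hm
          have h2 : m⁻¹ * (m * k * m⁻¹) * m = k := by group
          rwa [h2] at h1
        have : m * k * m⁻¹ = k := by rw [hab m hm k hkM]; group
        rwa [this] at hk
    have hKn : K.Normal := by
      rw [← Subgroup.normalizer_eq_top_iff, eq_top_iff]
      intro g _
      exact hnorm g
    exact hmin K hKn hKM

end Cfsg.Agent.S0548
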