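import Mathlib
import Cfsg.Statements.S0549

set_option autoImplicit false
open Cfsg

namespace Cfsg.Agent.S0549

/-- Let U be a maximal subgroup of a finite group G whose normal core is trivial, and N a nontrivial normal subgroup with centralizer C. Then C ∩ U = 1, and either C = 1 or C is a minimal normal subgroup of G. -/
theorem result {G : Type*} [Group G] [Finite G] (U : Subgroup G) (hU : IsCoatom U) (hcore : U.normalCore = ⊥) (N : Subgroup G) [N.Normal] (hN : N ≠ ⊥) : Subgroup.centralizer (N : Set G) ⊓ U = ⊥ ∧ (Subgroup.centralizer (N : Set G) = ⊥ ∨ (Subgroup.centralizer (N : Set G) ≠ ⊥ ∧ ∀ K : Subgroup G, K.Normal → K ≤ Subgroup.centralizer (N : Set G) → K = ⊥ ∨ K = Subgroup.centralizer (N : Set G))) := by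
  have supTop : ∀ K : Subgroup G, K.Normal → K ≠ ⊥ → K ⊔ U = ⊤ := by
    intro K hK hK1
    apply hU.2
    refine lt_of_le_of_ne le_sup_right (fun h => hK1 ?_)
    have hKU : K ≤ U := by rw [h]; exact le_sup_left
    have : K ≤ U.normalCore := (Subgroup.normal_le_normalCore (hN := hK)).mpr hKU
    rw [hcore] at this; exact le_bot_iff.mp this
  have hCn : (Subgroup.centralizer (N : Set G)).Normal := inferInstance
  have h1 : Subgroup.centralizer (N : Set G) ⊓ U = ⊥ := by
    have hnorm : (Subgroup.centralizer (N : Set G) ⊓ U).Normal := by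
      constructor
      intro x hx g
      have hg : g ∈ N ⊔ U := by rw [supTop N inferInstance hN]; trivial
      obtain ⟨n, hn, u, hu, rfl⟩ := Subgroup.mem_sup_of_normal_left.mp hg
      have hux : u * x * u⁻¹ ∈ Subgroup.centralizer (N : Set G) ⊓ U :=
        ⟨hCn.conj_mem x hx.1 u, U.mul_mem (U.mul_mem hu hx.2) (U.inv_mem hu)⟩
      have hcomm : n * (u * x * u⁻¹) = (u * x * u⁻¹) * n := by
        have hh : u * x * u⁻¹ ∈ Subgroup.centralizer (N : Set G) := hux.1
        rw [Subgroup.mem_centralizer_iff] at hh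
        exact hh n hn
      have e : n * u * x * (n * u)⁻¹ = u * x * u⁻¹ := by
        calc n * u * x * (n * u)⁻¹ = n * (u * x * u⁻¹) * n⁻¹ := by group
          _ = (u * x * u⁻¹) * n * n⁻¹ := by rw [hcomm]
          _ = u * x * u⁻¹ := by group
      rw [e]; exact hux
    have : Subgroup.centralizer (N : Set G) ⊓ U ≤ U.normalCore :=
      (Subgroup.normal_le_normalCore (hN := hnorm)).mpr inf_le_right
    rw [hcore] at this; exact le_bot_iff.mp this
  refine ⟨h1, ?_⟩
  by_cases hC1 : Subgroup.centralizer (N : Set G) = ⊥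
  · left; exact hC1
  · right
    refine ⟨hC1, fun K hK hKC => ?_⟩
    by_cases hK1 : K = ⊥
    · left; exact hK1
    · right
      apply le_antisymm hKC
      intro c hc
      have hg : c ∈ K ⊔ U := by rw [supTop K hK hK1]; trivial
      haveI := hK
      obtain ⟨k, hk, u, hu, rfl⟩ := Subgroup.mem_sup_of_normal_left.mp hg
      have huC : u ∈ Subgroup.centralizer (N : Set G) := by
        have : u = k⁻¹ * (k * u) := by group
        rw [this]; exact Subgroup.mul_mem _ (Subgroup.inv_mem _ (hKC hk)) hc
      have : u ∈ Subgroup.centralizer (N : Set G) ⊓ U := ⟨huC, hu⟩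
      rw [h1, Subgroup.mem_bot] at this
      rw [this, mul_one]; exact hk

end Cfsg.Agent.S0549
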