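import Cfsg.Statements.S0550
import Mathlib
import Cfsg.Agent.Lib.Helper1.CoreFree
import Cfsg.Agent.Lib.Helper1.Abel

set_option autoImplicit false
open Cfsg

namespace Cfsg.Agent.S0550

open Pointwise

theorem half {G : Type*} [Group G] [Finite G] (U : Subgroup G) (hU : IsCoatom U)
    (hcore : U.normalCore = ⊥) (A B : Subgroup G) [hAn : A.Normal] [hBn : B.Normal] (hA : A ≠ ⊥)
    (hB : B ≠ ⊥) (hdis : A ⊓ B = ⊥) :
    Subgroup.centralizer (A : Set G) = B ∧ A ⊓ U = ⊥ := by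
  have hcomm : ∀ a ∈ A, ∀ b ∈ B, a * b = b * a := fun a ha b hb =>
    (Subgroup.commute_of_normal_of_disjoint A B hAn hBn (disjoint_iff.mpr hdis) a b ha hb).eq
  have hsupA := Cfsg.Agent.Lib.Helper1.corefree_sup_eq_top U hU hcore A hA
  have hsupB := Cfsg.Agent.Lib.Helper1.corefree_sup_eq_top U hU hcore B hB
  have hBC : B ≤ Subgroup.centralizer (A : Set G) := by
    intro b hb
    rw [Subgroup.mem_centralizer_iff]
    intro a ha
    exact hcomm a ha b hb
  have h1 : Subgroup.centralizer (A : Set G) ⊓ U = ⊥ := by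
    apply Cfsg.Agent.Lib.Helper1.corefree_eq_bot_of_normalized U hcore A hsupA _ inf_le_right
    · intro u hu x hx
      exact ⟨Subgroup.normal_centralizer.conj_mem x hx.1 u,
        U.mul_mem (U.mul_mem hu hx.2) (U.inv_mem hu)⟩
    · intro n hn x hx
      have h2 := Subgroup.mem_centralizer_iff.mp hx.1 n hn
      have : n * x * n⁻¹ = x := by rw [h2]; group
      rw [this]; exact hx
  refine ⟨?_, ?_⟩
  · apply le_antisymm _ hBC
    intro c hc
    obtain ⟨n, hn, u, hu, h⟩ := Cfsg.Agent.Lib.Helper1.dedekind_mul B U _ hsupB hBC c hc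
    rw [h1, Subgroup.mem_bot] at hu
    rw [h, hu, mul_one]; exact hn
  · apply Cfsg.Agent.Lib.Helper1.corefree_eq_bot_of_normalized U hcore B hsupB _ inf_le_right
    · intro u hu x hx
      exact ⟨hAn.conj_mem x hx.1 u, U.mul_mem (U.mul_mem hu hx.2) (U.inv_mem hu)⟩
    · intro n hn x hx
      have h2 := hcomm x hx.1 n hn
      have : n * x * n⁻¹ = x := by rw [← h2]; group
      rw [this]; exact hx

theorem iso_aux {G : Type*} [Group G] (U : Subgroup G) (A B : Subgroup G) [hAn : A.Normal]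
    [hBn : B.Normal] (hsupB : B ⊔ U = ⊤) (hdis : A ⊓ B = ⊥) (hBU : B ⊓ U = ⊥) :
    Nonempty (A ≃* ↥((A ⊔ B) ⊓ U)) := by
  obtain ⟨D, hD⟩ : ∃ D : Subgroup G, D = (A ⊔ B) ⊓ U := ⟨_, rfl⟩
  rw [← hD]
  obtain ⟨ψ, hψ⟩ : ∃ ψ : A →* G ⧸ B, ψ = (QuotientGroup.mk' B).comp A.subtype := ⟨_, rfl⟩
  obtain ⟨χ, hχ⟩ : ∃ χ : D →* G ⧸ B, χ = (QuotientGroup.mk' B).comp D.subtype := ⟨_, rfl⟩
  have hψinj : Function.Injective ψ := by
    rw [injective_iff_map_eq_one]
    intro a ha
    rw [hψ] at ha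
    have h1 : (a : G) ∈ B := (QuotientGroup.eq_one_iff (a : G)).mp ha
    have h2 : (a : G) ∈ A ⊓ B := ⟨a.2, h1⟩
    rw [hdis, Subgroup.mem_bot] at h2
    exact Subtype.ext h2
  have hχinj : Function.Injective χ := by
    rw [injective_iff_map_eq_one]
    intro d hd
    rw [hχ] at hd
    have h1 : (d : G) ∈ B := (QuotientGroup.eq_one_iff (d : G)).mp hd
    have hdD : (d : G) ∈ (A ⊔ B) ⊓ U := hD ▸ d.2
    have h2 : (d : G) ∈ B ⊓ U := ⟨h1, hdD.2⟩
    rw [hBU, Subgroup.mem_bot] at h2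
    exact Subtype.ext h2
  have hrange : ψ.range = χ.range := by
    apply le_antisymm
    · rintro _ ⟨a, rfl⟩
      have haAB : (a : G) ∈ A ⊔ B := (le_sup_left : A ≤ A ⊔ B) a.2
      obtain ⟨b, hb, d, hd, h⟩ :=
        Cfsg.Agent.Lib.Helper1.dedekind_mul B U (A ⊔ B) hsupB le_sup_right (a : G) haAB
      refine ⟨⟨d, hD ▸ hd⟩, ?_⟩
      rw [hψ, hχ]
      show (QuotientGroup.mk' B) d = (QuotientGroup.mk' B) (a : G)
      have hb1 : (QuotientGroup.mk' B) b = 1 := (QuotientGroup.eq_one_iff b).mpr hb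
      rw [h, map_mul, hb1, one_mul]
    · rintro _ ⟨d, rfl⟩
      have hdD : (d : G) ∈ (A ⊔ B) ⊓ U := hD ▸ d.2
      have hdAB : (d : G) ∈ ((A ⊔ B : Subgroup G) : Set G) := hdD.1
      rw [Subgroup.normal_mul] at hdAB
      obtain ⟨a, ha, b, hb, h⟩ := Set.mem_mul.mp hdAB
      refine ⟨⟨a, ha⟩, ?_⟩
      rw [hψ, hχ]
      show (QuotientGroup.mk' B) a = (QuotientGroup.mk' B) (d : G)
      have hb1 : (QuotientGroup.mk' B) b = 1 := (QuotientGroup.eq_one_iff b).mpr hb
      rw [← h, map_mul, hb1, mul_one]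
  exact ⟨(MonoidHom.ofInjective hψinj).trans ((MulEquiv.subgroupCongr hrange).trans
    (MonoidHom.ofInjective hχinj).symm)⟩

/-- Let U be a maximal subgroup with trivial normal core in a finite group G, and A ≠ B two minimal normal subgroups. Then A is the centralizer of B and B that of A, U complements each of them, A and B are non-abelian, and A, B and (A ⊔ B) ∩ U are pairwise isomorphic. -/
theorem result {G : Type*} [Group G] [Finite G] (U : Subgroup G) (hU : IsCoatom U) (hcore : U.normalCore = ⊥) (A B : Subgroup G) [A.Normal] [B.Normal] (hA : A ≠ ⊥) (hB : B ≠ ⊥) (hAmin : ∀ K : Subgroup G, K.Normal → K ≤ A → K = ⊥ ∨ K = A) (hBmin : ∀ K : Subgroup G, K.Normal → K ≤ B → K = ⊥ ∨ K = B) (hAB : A ≠ B) : Subgroup.centralizer (B : Set G) = A ∧ Subgroup.centralizer (A : Set G) = B ∧ Subgroup.IsComplement' A U ∧ Subgroup.IsComplement' B U ∧ ¬ IsMulCommutative A ∧ Nonempty (A ≃* B) ∧ Nonempty (A ≃* ↥((A ⊔ B) ⊓ U)) := by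
  have hdis : A ⊓ B = ⊥ := by
    rcases hAmin (A ⊓ B) inferInstance inf_le_left with h | h
    · exact h
    · exfalso
      have hle : A ≤ B := by rw [← h]; exact inf_le_right
      rcases hBmin A inferInstance hle with h' | h'
      · exact hA h'
      · exact hAB h'
  have hdis' : B ⊓ A = ⊥ := by rw [inf_comm]; exact hdis
  obtain ⟨hCA, hAU⟩ := half U hU hcore A B hA hB hdis
  obtain ⟨hCB, hBU⟩ := half U hU hcore B A hB hA hdis'
  have hsupA := Cfsg.Agent.Lib.Helper1.corefree_sup_eq_top U hU hcore A hA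
  have hsupB := Cfsg.Agent.Lib.Helper1.corefree_sup_eq_top U hU hcore B hB
  have hcompl : ∀ X : Subgroup G, X.Normal → X ⊔ U = ⊤ → X ⊓ U = ⊥ →
      Subgroup.IsComplement' X U := by
    intro X hX hsup hinf
    apply Subgroup.isComplement'_of_disjoint_and_mul_eq_univ (disjoint_iff.mpr hinf)
    rw [← Subgroup.normal_mul, hsup]; rfl
  obtain ⟨e1⟩ := iso_aux U A B hsupB hdis hBU
  obtain ⟨e2⟩ := iso_aux U B A hsupA hdis' hAU
  have heq : (B ⊔ A) ⊓ U = (A ⊔ B) ⊓ U := by rw [sup_comm]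
  refine ⟨hCB, hCA, hcompl A inferInstance hsupA hAU, hcompl B inferInstance hsupB hBU, ?_,
    ⟨e1.trans ((e2.trans (MulEquiv.subgroupCongr heq)).symm)⟩, ⟨e1⟩⟩
  intro hcomm
  have h1 := Cfsg.Agent.Lib.Helper1.comm_of_isMulCommutative hcomm
  have h2 : A ≤ Subgroup.centralizer (A : Set G) := by
    intro x hx
    rw [Subgroup.mem_centralizer_iff]
    intro y hy
    exact h1 y hy x hx
  rw [hCA] at h2
  have h3 : A ≤ A ⊓ B := le_inf le_rfl h2
  rw [hdis] at h3
  exact hA (le_bot_iff.mp h3)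

end Cfsg.Agent.S0550
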