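import Cfsg.Statements.S0551
import Mathlib
import Cfsg.Agent.Lib.Helper1.CoreFree
import Cfsg.Agent.Lib.Helper1.CoverAvoid
import Cfsg.Agent.Lib.Helper6.Wielandt

set_option autoImplicit false
open Pointwise
open Cfsg

namespace Cfsg.Agent.S0551

/-- In a finite solvable group all core-free maximal subgroups are conjugate. -/
theorem result {G : Type*} [Group G] [Finite G] [Group.IsSolvable G] (U V : Subgroup G) (hU : IsCoatom U) (hV : IsCoatom V) (hUc : U.normalCore = ⊥) (hVc : V.normalCore = ⊥) : ∃ g : G, MulAut.conj g • U = V := by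
  classical
  have hntop : (⊤ : Subgroup G) ≠ ⊥ := by
    intro h
    apply hU.1
    apply le_antisymm le_top
    rw [h]; exact bot_le
  obtain ⟨N, hNn, hNne, _, hNmin⟩ := Cfsg.Agent.Lib.Helper6.exists_min_normal_le (⊤ : Subgroup G)
    inferInstance hntop
  haveI := hNn
  obtain ⟨p, hp, hNp, hNab⟩ := Cfsg.Agent.Lib.Helper1.min_normal_pgroup N hNne hNmin
  haveI : Fact p.Prime := ⟨hp⟩
  have hNU := Cfsg.Agent.Lib.Helper1.corefree_inf_eq_bot U hU hUc N hNne hNab
  have hNV := Cfsg.Agent.Lib.Helper1.corefree_inf_eq_bot V hV hVc N hNne hNab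
  have hCN := Cfsg.Agent.Lib.Helper1.corefree_centralizer_eq U hU hUc N hNne hNab
  by_cases hNtop : N = ⊤
  · rw [hNtop, top_inf_eq] at hNU hNV
    exact ⟨1, by rw [hNU, hNV, map_one, one_smul]⟩
  haveI : Nontrivial (G ⧸ N) := QuotientGroup.nontrivial_iff.mpr hNtop
  obtain ⟨q, hq, Lb, hLn, hLne, hLq⟩ := Cfsg.Agent.Lib.Lead.exists_normal_pgroup_of_solvable (G ⧸ N)
  haveI : Fact q.Prime := ⟨hq⟩
  obtain ⟨L, hL⟩ : ∃ L : Subgroup G, L = Lb.comap (QuotientGroup.mk' N) := ⟨_, rfl⟩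
  haveI hLnorm : L.Normal := hL ▸ Subgroup.Normal.comap hLn _
  have hNL : N ≤ L := by
    intro n hn
    rw [hL, Subgroup.mem_comap]
    have : (QuotientGroup.mk' N) n = 1 := (QuotientGroup.eq_one_iff n).mpr hn
    rw [this]; exact Lb.one_mem
  have hcardL : Nat.card L = Nat.card N * Nat.card Lb := by
    rw [hL]; exact Cfsg.Agent.Lib.Lead.card_comap_mk N Lb
  obtain ⟨b, hb⟩ := IsPGroup.iff_card.mp hLq
  obtain ⟨a, ha⟩ := IsPGroup.iff_card.mp hNp
  have hLb1 : Nat.card Lb ≠ 1 := fun h => hLne (Subgroup.card_eq_one.mp h)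
  have hNpos : 0 < Nat.card N := Nat.card_pos
  have hqp : q ≠ p := by
    intro heq
    subst heq
    have hLp : IsPGroup q L := IsPGroup.of_card (n := a + b) (by rw [hcardL, ha, hb, pow_add])
    haveI : Group.IsNilpotent L := hLp.isNilpotent
    have hne' : N.subgroupOf L ≠ ⊥ := by
      intro h
      rw [Subgroup.subgroupOf_eq_bot, disjoint_iff, inf_eq_left.mpr hNL] at h
      exact hNne h
    have h1 := Cfsg.Agent.Lib.Lead.normal_inf_center_ne_bot (N.subgroupOf L) hne'
    obtain ⟨y, hy, hy1⟩ : ∃ y ∈ N.subgroupOf L ⊓ Subgroup.center L, y ≠ 1 := by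
      by_contra h
      push Not at h
      exact h1 ((Subgroup.eq_bot_iff_forall _).mpr h)
    have hyc : (y : G) ∈ Subgroup.centralizer (L : Set G) := by
      rw [Subgroup.mem_centralizer_iff]
      intro l hl
      have h2 := Subgroup.mem_center_iff.mp (Subgroup.mem_inf.mp hy).2 ⟨l, hl⟩
      exact congrArg Subtype.val h2
    have hyX : (y : G) ∈ N ⊓ Subgroup.centralizer (L : Set G) :=
      Subgroup.mem_inf.mpr ⟨(Subgroup.mem_inf.mp hy).1, hyc⟩
    rcases hNmin (N ⊓ Subgroup.centralizer (L : Set G)) inferInstance inf_le_left with h | h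
    · rw [h, Subgroup.mem_bot] at hyX
      exact hy1 (Subtype.ext hyX)
    · have h3 : N ≤ Subgroup.centralizer (L : Set G) := by rw [← h]; exact inf_le_right
      have h4 : L ≤ N := by
        have := Subgroup.le_centralizer_iff.mp h3
        rwa [hCN] at this
      have h5 : L = N := le_antisymm h4 hNL
      rw [h5] at hcardL
      have h6 : Nat.card N * 1 = Nat.card N * Nat.card Lb := by rw [mul_one]; exact hcardL
      exact hLb1 (Nat.eq_of_mul_eq_mul_left hNpos h6).symm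
  have key : ∀ W : Subgroup G, IsCoatom W → W.normalCore = ⊥ →
      Nat.card (L ⊓ W : Subgroup G) = Nat.card Lb ∧
      Subgroup.normalizer ((L ⊓ W : Subgroup G) : Set G) = W ∧
      Nat.card W * Nat.card N = Nat.card G := by
    intro W hW hWc
    have hNW := Cfsg.Agent.Lib.Helper1.corefree_inf_eq_bot W hW hWc N hNne hNab
    have hsupW := Cfsg.Agent.Lib.Helper1.corefree_sup_eq_top W hW hWc N hNne
    have h1 : N ⊔ (L ⊓ W) = L := by
      apply le_antisymm (sup_le hNL inf_le_left)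
      intro l hl
      obtain ⟨n, hn, u, hu, h⟩ := Cfsg.Agent.Lib.Helper1.dedekind_mul N W L hsupW hNL l hl
      rw [h]
      exact Subgroup.mul_mem _ ((le_sup_left : N ≤ N ⊔ (L ⊓ W)) hn)
        ((le_sup_right : L ⊓ W ≤ N ⊔ (L ⊓ W)) hu)
    have h2 : N ⊓ (L ⊓ W) = ⊥ := by
      apply le_bot_iff.mp
      rw [← hNW]
      exact inf_le_inf_left N inf_le_right
    have h3 := Cfsg.Agent.Lib.Lead.card_sup_of_normal_of_disjoint N (L ⊓ W) h2
    rw [h1, hcardL] at h3
    have hc : Nat.card (L ⊓ W : Subgroup G) = Nat.card Lb := (Nat.eq_of_mul_eq_mul_left hNpos h3).symm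
    have hle : W ≤ Subgroup.normalizer ((L ⊓ W : Subgroup G) : Set G) := by
      intro w hw
      apply Cfsg.Agent.Lib.Helper6.mem_normalizer_of_conj_mem
      intro x hx
      exact ⟨hLnorm.conj_mem x hx.1 w, W.mul_mem (W.mul_mem hw hx.2) (W.inv_mem hw)⟩
    have hnt : Subgroup.normalizer ((L ⊓ W : Subgroup G) : Set G) ≠ ⊤ := by
      intro h
      haveI : (L ⊓ W).Normal := Subgroup.normalizer_eq_top_iff.mp h
      have h4 : L ⊓ W ≤ W.normalCore := Subgroup.normal_le_normalCore.mpr inf_le_right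
      rw [hWc] at h4
      have h5 : L ⊓ W = ⊥ := le_bot_iff.mp h4
      rw [h5, Subgroup.card_bot] at hc
      exact hLb1 hc.symm
    refine ⟨hc, ?_, ?_⟩
    · by_contra hne
      exact hnt (hW.2 _ (lt_of_le_of_ne hle (Ne.symm hne)))
    · have h6 := Cfsg.Agent.Lib.Lead.card_sup_of_normal_of_disjoint N W hNW
      rw [hsupW, Subgroup.card_top] at h6
      rw [h6, mul_comm]
  obtain ⟨hcU, hnU, hGU⟩ := key U hU hUc
  obtain ⟨hcV, hnV, hGV⟩ := key V hV hVc
  have hcop : (Nat.card Lb).Coprime (Nat.card N) := by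
    rw [hb, ha]
    exact Nat.Coprime.pow _ _ ((Nat.coprime_primes hq hp).mpr hqp)
  have hLall := Cfsg.Agent.Lib.Lead.hallC_all (Nat.card L) L rfl (Nat.card Lb) (Nat.card N)
    (by rw [hcardL, mul_comm]) hcop ((L ⊓ U).subgroupOf L) ((L ⊓ V).subgroupOf L)
    (by rw [Cfsg.Agent.Lib.Lead.card_subgroupOf_of_le inf_le_left, hcU])
    (by rw [Cfsg.Agent.Lib.Lead.card_subgroupOf_of_le inf_le_left, hcV])
  obtain ⟨l, hl⟩ := hLall
  have hconj : MulAut.conj (l : G) • (L ⊓ U) = L ⊓ V :=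
    Cfsg.Agent.Lib.Lead.conj_smul_eq_of_subgroupOf inf_le_left inf_le_left l hl
  refine ⟨(l : G), ?_⟩
  apply Subgroup.eq_of_le_of_card_ge
  · intro x hx
    rw [Cfsg.Agent.Lib.Lead.mem_conj_smul] at hx
    rw [← hnV]
    apply Cfsg.Agent.Lib.Lead.mem_normalizer_of_conj_smul_eq
    rw [← hconj, ← mul_smul, ← map_mul]
    have hx' : (l : G)⁻¹ * x * (l : G) ∈ Subgroup.normalizer ((L ⊓ U : Subgroup G) : Set G) := by
      rw [hnU]; exact hx
    have hy := Cfsg.Agent.Lib.Lead.conj_smul_eq_of_mem_normalizer hx'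
    have : x * (l : G) = (l : G) * ((l : G)⁻¹ * x * (l : G)) := by group
    rw [this, map_mul, mul_smul, hy]
  · rw [Cfsg.Agent.Lib.Lead.card_conj_smul]
    have : Nat.card V * Nat.card N = Nat.card U * Nat.card N := by rw [hGV, hGU]
    exact (Nat.eq_of_mul_eq_mul_right hNpos this).le

end Cfsg.Agent.S0551
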