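import Cfsg.Statements.S0552
import Cfsg.Agent.Lib.Lead.Fitting

set_option autoImplicit false
open Cfsg

namespace Cfsg.Agent.S0552

theorem result {G : Type*} [Group G] [Finite G] [Group.IsSolvable G] (σ : G ≃* G) (hσ : ∀ x ∈ Cfsg.fittingSubgroup G, σ x = x) (hne : σ ≠ MulEquiv.refl G) : ¬ (orderOf σ).Coprime (Nat.card G) := by
  intro hcop
  apply hne
  have hF := Cfsg.Agent.Lib.Lead.centralizer_fitting_le (G := G)
  have hFn := Cfsg.Agent.Lib.Lead.fitting_normal G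
  -- c g := g⁻¹ * σ g lies in C(F) ≤ F
  have hc : ∀ g : G, g⁻¹ * σ g ∈ Cfsg.fittingSubgroup G := by
    intro g
    apply hF
    rw [Subgroup.mem_centralizer_iff]
    intro f hf
    have h1 : σ (g * f * g⁻¹) = g * f * g⁻¹ := hσ _ (hFn.conj_mem f hf g)
    have h2 : σ g * f * (σ g)⁻¹ = g * f * g⁻¹ := by
      rw [← h1]; simp [hσ f hf]
    have h3 : f * (g⁻¹ * σ g) = g⁻¹ * (g * f * g⁻¹) * σ g := by group
    rw [h3, ← h2]; group
  have hpow : ∀ (n : ℕ) (g : G), (σ ^ n) g = g * (g⁻¹ * σ g) ^ n := by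
    intro n
    induction n with
    | zero => intro g; simp
    | succ n ih =>
      intro g
      rw [pow_succ', MulAut.mul_apply, ih, map_mul, map_pow, hσ _ (hc g)]
      rw [pow_succ' (g⁻¹ * σ g) n, ← mul_assoc g, mul_inv_cancel_left]
  ext g
  have h1 := hpow (orderOf σ) g
  rw [pow_orderOf_eq_one, MulAut.one_apply] at h1
  have h2 : (g⁻¹ * σ g) ^ orderOf σ = 1 := by
    have : g * (g⁻¹ * σ g) ^ orderOf σ = g * 1 := by rw [mul_one]; exact h1.symm
    exact mul_left_cancel this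
  have h3 : (g⁻¹ * σ g) ^ Nat.card G = 1 := pow_card_eq_one'
  have h4 : orderOf (g⁻¹ * σ g) ∣ 1 := by
    have := Nat.dvd_gcd (orderOf_dvd_of_pow_eq_one h2) (orderOf_dvd_of_pow_eq_one h3)
    rwa [Nat.Coprime.gcd_eq_one hcop] at this
  have h5 : g⁻¹ * σ g = 1 := orderOf_eq_one_iff.mp (Nat.dvd_one.mp h4)
  simp only [MulEquiv.refl_apply]
  exact (inv_mul_eq_one.mp h5).symm

end Cfsg.Agent.S0552
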