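import Mathlib
import Cfsg.Statements.S0555
import Cfsg.Agent.Lib.Helper1.NC

set_option autoImplicit false
open Cfsg
open scoped commutatorElement
open Cfsg.Agent.Lib.Helper1

namespace Cfsg.Agent.S0555

theorem aux {G : Type*} [Group G] (A B C : Subgroup G) [hBn : B.Normal] [hCn : C.Normal]
    (hBA : B = ⁅A, A⁆) (hCleB : C ≤ B) (hAcomm : A ≤ commutator G)
    (h₁ : IsCyclic (↥A ⧸ B.subgroupOf A)) (h₂ : IsCyclic (↥B ⧸ C.subgroupOf B)) : B = C := by
  let π := QuotientGroup.mk' C
  have hBbar_cyc : IsCyclic (B.map π) := by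
    let g : B →* B.map π := π.subgroupMap B
    have hg : Function.Surjective g := π.subgroupMap_surjective B
    have hker : C.subgroupOf B ≤ g.ker := by
      intro b hb
      rw [MonoidHom.mem_ker]
      apply Subtype.ext
      show π (b : G) = 1
      exact (QuotientGroup.eq_one_iff _).mpr (Subgroup.mem_subgroupOf.mp hb)
    let g' : B ⧸ C.subgroupOf B →* B.map π := QuotientGroup.lift (C.subgroupOf B) g hker
    have hg' : Function.Surjective g' := by
      intro y; obtain ⟨b, rfl⟩ := hg y; exact ⟨QuotientGroup.mk b, rfl⟩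
    exact isCyclic_of_surjective g' hg'
  have hBbar_n : (B.map π).Normal := Subgroup.Normal.map hBn π (QuotientGroup.mk'_surjective C)
  have hcent := commutator_le_centralizer_of_cyclic (B.map π)
  have hAB : ∀ a ∈ A, ∀ b ∈ B, ⁅a, b⁆ ∈ C := by
    intro a ha b hb
    have h1 : π a ∈ commutator (G ⧸ C) := by
      have : π a ∈ (commutator G).map π := Subgroup.mem_map_of_mem π (hAcomm ha)
      rw [commutator_def, Subgroup.map_commutator] at this
      exact Subgroup.commutator_mono le_top le_top this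
    have h2 := Subgroup.mem_centralizer_iff.mp (hcent h1) (π b) (Subgroup.mem_map_of_mem π hb)
    rw [← QuotientGroup.eq_one_iff (N := C)]
    show π ⁅a, b⁆ = 1
    rw [commutatorElement_def, map_mul, map_mul, map_mul, map_inv, map_inv, ← h2]; group
  have hle : C.subgroupOf A ≤ (QuotientGroup.mk' (B.subgroupOf A)).ker := by
    intro x hx
    rw [QuotientGroup.ker_mk']
    exact Subgroup.mem_subgroupOf.mpr (hCleB (Subgroup.mem_subgroupOf.mp hx))
  let f : A ⧸ C.subgroupOf A →* A ⧸ B.subgroupOf A :=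
    QuotientGroup.lift (C.subgroupOf A) (QuotientGroup.mk' (B.subgroupOf A)) hle
  have hf : f.ker ≤ Subgroup.center (A ⧸ C.subgroupOf A) := by
    intro q hq
    obtain ⟨a, rfl⟩ := QuotientGroup.mk_surjective q
    have haB : (a : G) ∈ B := by
      have h1 : (QuotientGroup.mk' (B.subgroupOf A)) a = 1 := hq
      have h2 : a ∈ B.subgroupOf A := (QuotientGroup.eq_one_iff a).mp h1
      exact Subgroup.mem_subgroupOf.mp h2
    rw [Subgroup.mem_center_iff]
    intro q'
    obtain ⟨a', rfl⟩ := QuotientGroup.mk_surjective q'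
    show (QuotientGroup.mk (a' * a) : A ⧸ C.subgroupOf A) = QuotientGroup.mk (a * a')
    rw [QuotientGroup.eq, Subgroup.mem_subgroupOf]
    have h3 := hAB (a' : G)⁻¹ (A.inv_mem a'.2) (a : G)⁻¹ (B.inv_mem haB)
    have h4 : (((a' * a)⁻¹ * (a * a') : A) : G) = (⁅(a' : G)⁻¹, (a : G)⁻¹⁆)⁻¹ := by
      rw [commutatorElement_def]
      simp only [Subgroup.coe_mul, Subgroup.coe_inv]
      group
    rw [h4]
    exact C.inv_mem h3
  have hcomm := f.isMulCommutative_of_isCyclic_of_ker_le_center hf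
  apply le_antisymm _ hCleB
  rw [hBA, Subgroup.commutator_le]
  intro a ha a' ha'
  have h5 : (QuotientGroup.mk (⟨a⁻¹, A.inv_mem ha⟩ * ⟨a'⁻¹, A.inv_mem ha'⟩ : A) :
      A ⧸ C.subgroupOf A)
      = QuotientGroup.mk (⟨a'⁻¹, A.inv_mem ha'⟩ * ⟨a⁻¹, A.inv_mem ha⟩ : A) := by
    rw [QuotientGroup.mk_mul, QuotientGroup.mk_mul]
    exact hcomm.is_comm.comm _ _
  rw [QuotientGroup.eq, Subgroup.mem_subgroupOf] at h5
  have h6 : ⁅a, a'⁆ = ((((⟨a⁻¹, A.inv_mem ha⟩ * ⟨a'⁻¹, A.inv_mem ha'⟩ : A)⁻¹ *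
      (⟨a'⁻¹, A.inv_mem ha'⟩ * ⟨a⁻¹, A.inv_mem ha⟩ : A) : A) : G))⁻¹ := by
    rw [commutatorElement_def]
    simp only [Subgroup.coe_mul, Subgroup.coe_inv]
    group
  rw [h6]
  exact C.inv_mem h5

theorem result {G : Type*} [Group G] (i : ℕ) (hi : 1 ≤ i) (h₁ : IsCyclic (↥(derivedSeries G i) ⧸ (derivedSeries G (i + 1)).subgroupOf (derivedSeries G i))) (h₂ : IsCyclic (↥(derivedSeries G (i + 1)) ⧸ (derivedSeries G (i + 2)).subgroupOf (derivedSeries G (i + 1)))) : derivedSeries G (i + 1) = derivedSeries G (i + 2) := by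
  have hi' : derivedSeries G i ≤ commutator G := by
    rw [← derivedSeries_one]; exact derivedSeries_antitone G hi
  exact aux (derivedSeries G i) (derivedSeries G (i + 1)) (derivedSeries G (i + 2))
    (derivedSeries_succ G i) (derivedSeries_antitone G (by omega)) hi' h₁ h₂

end Cfsg.Agent.S0555
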