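import Cfsg.Statements.S0556
import Mathlib
import Cfsg.Agent.Lib.Helper1.Herstein
import Cfsg.Agent.Lib.Helper1.Abel

set_option autoImplicit false
open Cfsg

namespace Cfsg.Agent.S0556

open Pointwise
open scoped commutatorElement

/-- If a finite group has a maximal subgroup that is abelian, then the third term of its derived series is trivial (so the group is solvable of derived length at most three). -/
theorem result {G : Type*} [Group G] [Finite G] (A : Subgroup G) (hA : IsCoatom A) [IsMulCommutative A] : derivedSeries G 3 = ⊥ := by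
  have hab := Cfsg.Agent.Lib.Helper1.comm_of_isMulCommutative (H := A) inferInstance
  by_cases hAn : A.Normal
  · have h2 := Cfsg.Agent.Lib.Helper1.derived_two_of_normal_abelian_coatom A hA hab
    rw [derivedSeries_succ, h2, Subgroup.commutator_bot_left]
  obtain ⟨Z, hZ⟩ : ∃ Z : Subgroup G, Z = Subgroup.center G := ⟨_, rfl⟩
  haveI hZn : Z.Normal := hZ ▸ inferInstance
  have hNA : Subgroup.normalizer ((A : Subgroup G) : Set G) = A := by
    by_contra hne
    have hlt : A < Subgroup.normalizer ((A : Subgroup G) : Set G) :=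
      lt_of_le_of_ne Subgroup.le_normalizer (Ne.symm hne)
    exact hAn (Subgroup.normalizer_eq_top_iff.mp (hA.2 _ hlt))
  have hZA : Z ≤ A := by
    by_contra hnot
    have hsup : Z ⊔ A = ⊤ :=
      hA.2 _ (lt_of_le_of_ne le_sup_right (fun h => hnot (le_sup_left.trans h.ge)))
    apply hAn
    refine ⟨fun n hn g => ?_⟩
    obtain ⟨z, hz, a, ha, hg⟩ := Cfsg.Agent.Lib.Helper1.exists_mul_of_sup_eq_top Z A hsup g
    rw [hZ] at hz
    have hzc := Subgroup.mem_center_iff.mp hz
    have h1 : g * n * g⁻¹ = a * n * a⁻¹ := by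
      rw [hg]
      have e1 : z * a * n * (z * a)⁻¹ = z * (a * n * a⁻¹) * z⁻¹ := by group
      rw [e1, ← hzc (a * n * a⁻¹)]
      group
    rw [h1]
    exact A.mul_mem (A.mul_mem ha hn) (A.inv_mem ha)
  have hint : ∀ g : G, g ∉ A → A ⊓ MulAut.conj g • A ≤ Z := by
    intro g hg x hx
    obtain ⟨hxA, hxg⟩ := Subgroup.mem_inf.mp hx
    have hAC : A ≤ Subgroup.centralizer ({x} : Set G) := by
      intro a ha
      rw [Subgroup.mem_centralizer_iff]
      intro h hh
      rw [Set.mem_singleton_iff] at hh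
      rw [hh]; exact hab x hxA a ha
    have hgC : MulAut.conj g • A ≤ Subgroup.centralizer ({x} : Set G) := by
      intro y hy
      rw [Cfsg.Agent.Lib.Lead.mem_conj_smul] at hy hxg
      rw [Subgroup.mem_centralizer_iff]
      intro h hh
      rw [Set.mem_singleton_iff] at hh
      rw [hh]
      have h1 := hab _ hxg _ hy
      have e1 : x * y = g * ((g⁻¹ * x * g) * (g⁻¹ * y * g)) * g⁻¹ := by group
      have e2 : y * x = g * ((g⁻¹ * y * g) * (g⁻¹ * x * g)) * g⁻¹ := by group
      rw [e1, e2, h1]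
    have hsup : A ⊔ MulAut.conj g • A = ⊤ := by
      apply hA.2
      refine lt_of_le_of_ne le_sup_left (fun h => hg ?_)
      have hle : MulAut.conj g • A ≤ A := le_sup_right.trans h.ge
      have heq : MulAut.conj g • A = A :=
        Subgroup.eq_of_le_of_card_ge hle (by rw [Cfsg.Agent.Lib.Lead.card_conj_smul])
      have := Cfsg.Agent.Lib.Lead.mem_normalizer_of_conj_smul_eq heq
      rwa [hNA] at this
    have htop : (⊤ : Subgroup G) ≤ Subgroup.centralizer ({x} : Set G) := hsup ▸ sup_le hAC hgC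
    rw [hZ, Subgroup.mem_center_iff]
    intro g'
    have := Subgroup.mem_centralizer_iff.mp (htop (Subgroup.mem_top g')) x rfl
    exact this.symm
  have hsurj : Function.Surjective (QuotientGroup.mk' Z) := QuotientGroup.mk'_surjective Z
  obtain ⟨Ab, hAb⟩ : ∃ Ab : Subgroup (G ⧸ Z), Ab = A.map (QuotientGroup.mk' Z) := ⟨_, rfl⟩
  have hcomap : Ab.comap (QuotientGroup.mk' Z) = A := by
    rw [hAb, QuotientGroup.comap_map_mk', sup_eq_right.mpr hZA]
  have hAbco : IsCoatom Ab := by
    refine ⟨?_, ?_⟩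
    · intro h
      rw [h, Subgroup.comap_top] at hcomap
      exact hA.1 hcomap.symm
    · intro Bb hlt
      have h1 : A ≤ Bb.comap (QuotientGroup.mk' Z) := by
        rw [← hcomap]; exact Subgroup.comap_mono hlt.le
      have h2 : Bb.comap (QuotientGroup.mk' Z) ≠ A := by
        intro h
        have h3 : (Bb.comap (QuotientGroup.mk' Z)).map (QuotientGroup.mk' Z) = Bb :=
          Subgroup.map_comap_eq_self_of_surjective hsurj Bb
        rw [h, ← hAb] at h3
        exact hlt.ne h3
      have h4 := hA.2 _ (lt_of_le_of_ne h1 (Ne.symm h2))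
      have h5 : (Bb.comap (QuotientGroup.mk' Z)).map (QuotientGroup.mk' Z) = Bb :=
        Subgroup.map_comap_eq_self_of_surjective hsurj Bb
      rw [h4, Subgroup.map_top_of_surjective _ hsurj] at h5
      exact h5.symm
  have habb : ∀ x ∈ Ab, ∀ y ∈ Ab, x * y = y * x := by
    intro x hx y hy
    rw [hAb] at hx hy
    obtain ⟨a, ha, rfl⟩ := hx
    obtain ⟨a', ha', rfl⟩ := hy
    rw [← map_mul, ← map_mul, hab a ha a' ha']
  have hmal : ∀ gb : G ⧸ Z, gb ∉ Ab → Ab ⊓ MulAut.conj gb • Ab = ⊥ := by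
    intro gb hgb
    obtain ⟨g, rfl⟩ := hsurj gb
    have hgA : g ∉ A := fun h => hgb (hAb ▸ ⟨g, h, rfl⟩)
    rw [Subgroup.eq_bot_iff_forall]
    intro xb hxb
    obtain ⟨hx1, hx2⟩ := Subgroup.mem_inf.mp hxb
    rw [hAb] at hx1
    obtain ⟨a, ha, rfl⟩ := hx1
    rw [Cfsg.Agent.Lib.Lead.mem_conj_smul, ← map_inv, ← map_mul, ← map_mul] at hx2
    have h1 : g⁻¹ * a * g ∈ Ab.comap (QuotientGroup.mk' Z) := hx2
    rw [hcomap] at h1
    have h2 : a ∈ A ⊓ MulAut.conj g • A := by
      refine Subgroup.mem_inf.mpr ⟨ha, ?_⟩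
      rw [Cfsg.Agent.Lib.Lead.mem_conj_smul]; exact h1
    exact (QuotientGroup.eq_one_iff a).mpr (hint g hgA h2)
  have h2 := Cfsg.Agent.Lib.Helper1.derived_two_of_malnormal_abelian_coatom Ab hAbco habb hmal
  have hD2 : derivedSeries G 2 ≤ Z := by
    intro x hx
    have h3 : (QuotientGroup.mk' Z) x ∈ (derivedSeries G 2).map (QuotientGroup.mk' Z) :=
      ⟨x, hx, rfl⟩
    rw [map_derivedSeries_eq hsurj, h2, Subgroup.mem_bot] at h3
    exact (QuotientGroup.eq_one_iff x).mp h3
  have hZZ : ⁅Z, Z⁆ = ⊥ := by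
    apply Cfsg.Agent.Lib.Helper1.commutator_eq_bot_of_comm
    intro x hx y _
    rw [hZ] at hx
    exact (Subgroup.mem_center_iff.mp hx y).symm
  rw [derivedSeries_succ, eq_bot_iff, ← hZZ]
  exact Subgroup.commutator_mono hD2 hD2

end Cfsg.Agent.S0556
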