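import Mathlib
import Cfsg.Statements.S0559
import Cfsg.Agent.Lib.Helper1.Conj

set_option autoImplicit false
open Cfsg

namespace Cfsg.Agent.S0559

open scoped Pointwise
open Cfsg.Agent.Lib.Helper1

/-- Let G = HK be a finite group (every element a product of an element of H and an element of K), and let A and B be conjugates of H and K. Then every element is a product of an element of A and one of B, and there is g with A = gHg⁻¹ and B = gKg⁻¹ simultaneously. -/
theorem result {G : Type*} [Group G] [Finite G] (H K A B : Subgroup G) (hHK : ∀ g : G, ∃ h ∈ H, ∃ k ∈ K, g = h * k) (hA : ∃ x : G, A = MulAut.conj x • H) (hB : ∃ y : G, B = MulAut.conj y • K) : (∀ g : G, ∃ a ∈ A, ∃ b ∈ B, g = a * b) ∧ ∃ g : G, A = MulAut.conj g • H ∧ B = MulAut.conj g • K := by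
  obtain ⟨x, rfl⟩ := hA
  obtain ⟨y, rfl⟩ := hB
  obtain ⟨h, hh, k, hk, hxy⟩ := hHK (x⁻¹ * y)
  have hy : y = x * h * k := by rw [mul_assoc, ← hxy]; group
  have e1 : MulAut.conj x • H = MulAut.conj (x * h) • H := by
    rw [map_mul, mul_smul, Subgroup.conj_smul_eq_self_of_mem hh]
  have e2 : MulAut.conj y • K = MulAut.conj (x * h) • K := by
    rw [hy, map_mul, mul_smul, Subgroup.conj_smul_eq_self_of_mem hk]
  have second : ∃ g : G, MulAut.conj x • H = MulAut.conj g • H ∧
      MulAut.conj y • K = MulAut.conj g • K := ⟨x * h, e1, e2⟩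
  refine ⟨?_, second⟩
  intro w
  obtain ⟨g, hg1, hg2⟩ := second
  rw [hg1, hg2]
  obtain ⟨h', hh', k', hk', hw⟩ := hHK (g⁻¹ * w * g)
  refine ⟨g * h' * g⁻¹, conj_mem_smul hh', g * k' * g⁻¹, conj_mem_smul hk', ?_⟩
  calc w = g * (g⁻¹ * w * g) * g⁻¹ := by group
    _ = g * (h' * k') * g⁻¹ := by rw [hw]
    _ = g * h' * g⁻¹ * (g * k' * g⁻¹) := by group

end Cfsg.Agent.S0559
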