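import Cfsg.Statements.S0560
import Mathlib
import Cfsg.Agent.Lib.Lead.Frob2
import Cfsg.Agent.Lib.Helper5.ChermakDelgado
-- import your own Cfsg.Agent.* helpers here

set_option autoImplicit false
open Pointwise
open Cfsg

namespace Cfsg.Agent.S0560

/-- Let the finite group G be the product HK of two subgroups and p a prime. Then there are Sylow p-subgroups P of H and Q of K and a Sylow p-subgroup R of G whose underlying set is the product set of P and Q. -/
theorem result {G : Type*} [Group G] [Finite G] (H K : Subgroup G) (hHK : ∀ g : G, ∃ h ∈ H, ∃ k ∈ K, g = h * k) (p : ℕ) [Fact p.Prime] : ∃ (P : Sylow p H) (Q : Sylow p K) (R : Sylow p G), ((R : Subgroup G) : Set G) = (((P : Subgroup H).map H.subtype : Subgroup G) : Set G) * (((Q : Subgroup K).map K.subtype : Subgroup G) : Set G) := by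
  classical
  have hp : p.Prime := Fact.out
  obtain ⟨P₀⟩ : Nonempty (Sylow p H) := inferInstance
  obtain ⟨Q₀⟩ : Nonempty (Sylow p K) := inferInstance
  obtain ⟨S, hS⟩ := (P₀.isPGroup'.map H.subtype).exists_le_sylow
  obtain ⟨S₂, hS₂⟩ := (Q₀.isPGroup'.map K.subtype).exists_le_sylow
  obtain ⟨g, hg⟩ := MulAction.exists_smul_eq G S₂ S
  obtain ⟨h, hh, k, hk, rfl⟩ := hHK g
  have hR : k • S₂ = h⁻¹ • S := by rw [← hg, mul_smul, inv_smul_smul]
  have memS : ∀ (T : Sylow p G) (a x : G),
      x ∈ ((a • T : Sylow p G) : Subgroup G) ↔ a⁻¹ * x * a ∈ (T : Subgroup G) :=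
    fun T a x => Lib.Lead.frob_mem_conj_smul (T : Subgroup G) a x
  have memH : ∀ (T : Sylow p H) (a x : H),
      x ∈ ((a • T : Sylow p H) : Subgroup H) ↔ a⁻¹ * x * a ∈ (T : Subgroup H) :=
    fun T a x => Lib.Lead.frob_mem_conj_smul (T : Subgroup H) a x
  have memK : ∀ (T : Sylow p K) (a x : K),
      x ∈ ((a • T : Sylow p K) : Subgroup K) ↔ a⁻¹ * x * a ∈ (T : Subgroup K) :=
    fun T a x => Lib.Lead.frob_mem_conj_smul (T : Subgroup K) a x
  refine ⟨(⟨h, hh⟩ : H)⁻¹ • P₀, (⟨k, hk⟩ : K) • Q₀, k • S₂, ?_⟩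
  set P' : Subgroup G := ((((⟨h, hh⟩ : H)⁻¹ • P₀ : Sylow p H) : Subgroup H).map H.subtype) with hP'
  set Q' : Subgroup G := ((((⟨k, hk⟩ : K) • Q₀ : Sylow p K) : Subgroup K).map K.subtype) with hQ'
  have hPR : P' ≤ ((k • S₂ : Sylow p G) : Subgroup G) := by
    rw [hR]
    rintro _ ⟨z, hz, rfl⟩
    rw [SetLike.mem_coe, memH] at hz
    rw [memS]
    apply hS
    refine ⟨_, hz, ?_⟩
    simp
  have hQR : Q' ≤ ((k • S₂ : Sylow p G) : Subgroup G) := by
    rintro _ ⟨z, hz, rfl⟩
    rw [SetLike.mem_coe, memK] at hz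
    rw [memS]
    apply hS₂
    refine ⟨_, hz, ?_⟩
    simp
  have hsub : (P' : Set G) * (Q' : Set G) ⊆ (((k • S₂ : Sylow p G) : Subgroup G) : Set G) := by
    rintro _ ⟨a, ha, b, hb, rfl⟩
    exact mul_mem (hPR ha) (hQR hb)
  symm
  apply Set.eq_of_subset_of_ncard_le hsub ?_ (Set.toFinite _)
  have hcardP : Nat.card P' = p ^ (Nat.card H).factorization p := by
    rw [hP', Subgroup.card_map_of_injective H.subtype_injective]
    exact Sylow.card_eq_multiplicity _
  have hcardQ : Nat.card Q' = p ^ (Nat.card K).factorization p := by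
    rw [hQ', Subgroup.card_map_of_injective K.subtype_injective]
    exact Sylow.card_eq_multiplicity _
  have hcardR : Nat.card ((k • S₂ : Sylow p G) : Subgroup G) = p ^ (Nat.card G).factorization p :=
    Sylow.card_eq_multiplicity _
  have E1 : Nat.card G * Nat.card (H ⊓ K : Subgroup G) = Nat.card H * Nat.card K := by
    have := Lib.Helper5.card_mul_set_mul_card_inf H K
    have huniv : ((H : Set G) * (K : Set G)) = Set.univ := by
      ext g
      simp only [Set.mem_univ, iff_true]
      obtain ⟨h, hh, k, hk, rfl⟩ := hHK g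
      exact Set.mul_mem_mul hh hk
    rw [huniv, Nat.card_coe_set_eq, Set.ncard_univ] at this
    exact this
  have E2 := Lib.Helper5.card_mul_set_mul_card_inf P' Q'
  rw [hcardP, hcardQ] at E2
  have hPp : IsPGroup p P' := (Sylow.isPGroup' _).map H.subtype
  obtain ⟨c, hc⟩ := IsPGroup.iff_card.1 (hPp.to_le (inf_le_left : P' ⊓ Q' ≤ P'))
  have hle : P' ⊓ Q' ≤ H ⊓ K := inf_le_inf (Subgroup.map_subtype_le _) (Subgroup.map_subtype_le _)
  have hdvd : p ^ c ∣ Nat.card (H ⊓ K : Subgroup G) := hc ▸ Subgroup.card_dvd_of_le hle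
  have hc' : c ≤ (Nat.card (H ⊓ K : Subgroup G)).factorization p :=
    (hp.pow_dvd_iff_le_factorization (Nat.card_pos.ne')).1 hdvd
  have hfac : (Nat.card G).factorization p + (Nat.card (H ⊓ K : Subgroup G)).factorization p
      = (Nat.card H).factorization p + (Nat.card K).factorization p := by
    have : (Nat.card G * Nat.card (H ⊓ K : Subgroup G)).factorization p
        = (Nat.card H * Nat.card K).factorization p := by rw [E1]
    rw [Nat.factorization_mul Nat.card_pos.ne' Nat.card_pos.ne',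
      Nat.factorization_mul Nat.card_pos.ne' Nat.card_pos.ne'] at this
    simpa using this
  rw [hc, ← pow_add, ← hfac] at E2
  have hPQ : Nat.card ((P' : Set G) * (Q' : Set G) : Set G)
      = p ^ ((Nat.card G).factorization p + (Nat.card (H ⊓ K : Subgroup G)).factorization p - c) := by
    apply Nat.eq_of_mul_eq_mul_right (pow_pos hp.pos c)
    rw [E2, ← pow_add]
    congr 1
    omega
  rw [← Nat.card_coe_set_eq, ← Nat.card_coe_set_eq, hPQ]
  rw [show Nat.card ((((k • S₂ : Sylow p G) : Subgroup G) : Set G)) = _ from hcardR]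
  exact Nat.pow_le_pow_right hp.pos (by omega)

end Cfsg.Agent.S0560
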