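import Mathlib
import Cfsg.Statements.S0562
import Cfsg.Agent.Lib.Helper1.Conj

set_option autoImplicit false
open Cfsg

namespace Cfsg.Agent.S0562

open scoped Pointwise
open Cfsg.Agent.Lib.Helper1

/-- Let the finite group G be the product HK of subgroups, A normal in H, B normal in K, and L the normalizer of the subgroup generated by A and B. Then every element of L is a product of an element of L ∩ H and an element of L ∩ K. -/
theorem result {G : Type*} [Group G] [Finite G] (H K A B : Subgroup G) (hHK : ∀ g : G, ∃ h ∈ H, ∃ k ∈ K, g = h * k) (hA : A ≤ H) (hAn : (A.subgroupOf H).Normal) (hB : B ≤ K) (hBn : (B.subgroupOf K).Normal) : ∀ g ∈ Subgroup.normalizer ((A ⊔ B : Subgroup G) : Set G), ∃ h ∈ Subgroup.normalizer ((A ⊔ B : Subgroup G) : Set G) ⊓ H, ∃ k ∈ Subgroup.normalizer ((A ⊔ B : Subgroup G) : Set G) ⊓ K, g = h * k := by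
  intro g hg
  obtain ⟨h, hh, k, hk, rfl⟩ := hHK g
  have hAN : H ≤ Subgroup.normalizer (A : Set G) :=
    (Subgroup.normal_subgroupOf_iff_le_normalizer hA).mp hAn
  have hBN : K ≤ Subgroup.normalizer (B : Set G) :=
    (Subgroup.normal_subgroupOf_iff_le_normalizer hB).mp hBn
  have hkB : MulAut.conj k • B = B := mem_normalizer_iff_smul.mp (hBN hk)
  have hhA : MulAut.conj h⁻¹ • A = A := mem_normalizer_iff_smul.mp (hAN (H.inv_mem hh))
  have hgD : MulAut.conj (h * k) • (A ⊔ B) = A ⊔ B := mem_normalizer_iff_smul.mp hg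
  have e : MulAut.conj k • (A ⊔ B) = MulAut.conj h⁻¹ • (A ⊔ B) := by
    rw [map_mul, mul_smul] at hgD
    have := congrArg (fun X => (MulAut.conj h)⁻¹ • X) hgD
    simp only [inv_smul_smul] at this
    rw [map_inv]; exact this
  have hkD : A ⊔ B ≤ MulAut.conj k • (A ⊔ B) := by
    apply sup_le
    · rw [e, Subgroup.smul_sup, hhA]; exact le_sup_left
    · rw [Subgroup.smul_sup, hkB]; exact le_sup_right
  have hkD' : A ⊔ B = MulAut.conj k • (A ⊔ B) :=
    Subgroup.eq_of_le_of_card_ge hkD (by rw [card_conj_smul])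
  have hkN : k ∈ Subgroup.normalizer ((A ⊔ B : Subgroup G) : Set G) :=
    mem_normalizer_iff_smul.mpr hkD'.symm
  have hhN : h ∈ Subgroup.normalizer ((A ⊔ B : Subgroup G) : Set G) := by
    have : h = (h * k) * k⁻¹ := by group
    rw [this]; exact Subgroup.mul_mem _ hg (Subgroup.inv_mem _ hkN)
  exact ⟨h, ⟨hhN, hh⟩, k, ⟨hkN, hk⟩, rfl⟩

end Cfsg.Agent.S0562
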