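import Cfsg.Statements.S0566
import Mathlib

set_option autoImplicit false
open Pointwise
open Cfsg

namespace Cfsg.Agent.S0566


theorem mem_conj {G : Type*} [Group G] {x g : G} {B : Subgroup G} :
    g ∈ MulAut.conj x • B ↔ ∃ b ∈ B, g = x * b * x⁻¹ := by
  rw [Subgroup.mem_smul_pointwise_iff_exists]
  constructor
  · rintro ⟨b, hb, rfl⟩
    exact ⟨b, hb, rfl⟩
  · rintro ⟨b, hb, rfl⟩
    exact ⟨b, hb, rfl⟩

/-- the two subgroups permute elementwise -/
def Permutes {G : Type*} [Group G] (X C : Subgroup G) : Prop :=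
  (∀ c ∈ C, ∀ a ∈ X, ∃ a' ∈ X, ∃ c' ∈ C, c * a = a' * c') ∧
  (∀ c ∈ C, ∀ a ∈ X, ∃ a' ∈ X, ∃ c' ∈ C, a * c = c' * a')

theorem le_of_eq_mul {G : Type*} [Group G] {X C S : Subgroup G}
    (hS : (S : Set G) = (X : Set G) * (C : Set G)) : X ≤ S ∧ C ≤ S := by
  constructor
  · intro a ha
    have h1 : a ∈ (S : Set G) := by
      rw [hS]; exact Set.mem_mul.mpr ⟨a, ha, 1, C.one_mem, mul_one a⟩
    exact h1
  · intro c hc
    have h1 : c ∈ (S : Set G) := by
      rw [hS]; exact Set.mem_mul.mpr ⟨1, X.one_mem, c, hc, one_mul c⟩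
    exact h1

theorem permutes_of_eq {G : Type*} [Group G] {X C S : Subgroup G}
    (hS : (S : Set G) = (X : Set G) * (C : Set G)) : Permutes X C := by
  obtain ⟨hX, hC⟩ := le_of_eq_mul hS
  have key : ∀ g ∈ S, ∃ a' ∈ X, ∃ c' ∈ C, g = a' * c' := by
    intro g hg
    have h1 : g ∈ (S : Set G) := hg
    rw [hS] at h1
    obtain ⟨a', ha', c', hc', h⟩ := Set.mem_mul.mp h1
    exact ⟨a', ha', c', hc', h.symm⟩
  constructor
  · intro c hc a ha
    exact key _ (S.mul_mem (hC hc) (hX ha))
  · intro c hc a ha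
    obtain ⟨a', ha', c', hc', h⟩ := key _ (S.mul_mem (S.inv_mem (hC hc)) (S.inv_mem (hX ha)))
    refine ⟨a'⁻¹, X.inv_mem ha', c'⁻¹, C.inv_mem hc', ?_⟩
    have h2 : (a * c)⁻¹ = (c'⁻¹ * a'⁻¹)⁻¹ := by
      rw [mul_inv_rev, mul_inv_rev, inv_inv, inv_inv]; exact h
    exact inv_injective h2

theorem permutes_sup {G : Type*} [Group G] {X X' C : Subgroup G} (h1 : Permutes X C)
    (h2 : Permutes X' C) : Permutes (X ⊔ X') C := by
  let U : Subgroup G :=
    { carrier := {g | (∀ c ∈ C, ∃ a' ∈ X ⊔ X', ∃ c' ∈ C, c * g = a' * c') ∧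
        (∀ c ∈ C, ∃ a' ∈ X ⊔ X', ∃ c' ∈ C, g * c = c' * a')}
      one_mem' := ⟨fun c hc => ⟨1, one_mem _, c, hc, by rw [mul_one, one_mul]⟩,
        fun c hc => ⟨1, one_mem _, c, hc, by rw [one_mul, mul_one]⟩⟩
      mul_mem' := by
        rintro g h ⟨hg1, hg2⟩ ⟨hh1, hh2⟩
        constructor
        · intro c hc
          obtain ⟨g', hg', c', hc', e1⟩ := hg1 c hc
          obtain ⟨h', hh', c'', hc'', e2⟩ := hh1 c' hc'
          refine ⟨g' * h', mul_mem hg' hh', c'', hc'', ?_⟩
          calc c * (g * h) = c * g * h := by rw [mul_assoc]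
            _ = g' * (c' * h) := by rw [e1, mul_assoc]
            _ = g' * h' * c'' := by rw [e2, mul_assoc]
        · intro c hc
          obtain ⟨h', hh', c', hc', e1⟩ := hh2 c hc
          obtain ⟨g', hg', c'', hc'', e2⟩ := hg2 c' hc'
          refine ⟨g' * h', mul_mem hg' hh', c'', hc'', ?_⟩
          calc g * h * c = g * (h * c) := by rw [mul_assoc]
            _ = g * c' * h' := by rw [e1, mul_assoc]
            _ = c'' * (g' * h') := by rw [e2, mul_assoc]
      inv_mem' := by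
        rintro g ⟨hg1, hg2⟩
        constructor
        · intro c hc
          obtain ⟨g', hg', c', hc', e⟩ := hg2 c⁻¹ (inv_mem hc)
          refine ⟨g'⁻¹, inv_mem hg', c'⁻¹, inv_mem hc', ?_⟩
          have h3 : (c * g⁻¹)⁻¹ = (g'⁻¹ * c'⁻¹)⁻¹ := by
            rw [mul_inv_rev, mul_inv_rev, inv_inv, inv_inv, inv_inv]; exact e
          exact inv_injective h3
        · intro c hc
          obtain ⟨g', hg', c', hc', e⟩ := hg1 c⁻¹ (inv_mem hc)
          refine ⟨g'⁻¹, inv_mem hg', c'⁻¹, inv_mem hc', ?_⟩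
          have h3 : (g⁻¹ * c)⁻¹ = (c'⁻¹ * g'⁻¹)⁻¹ := by
            rw [mul_inv_rev, mul_inv_rev, inv_inv, inv_inv, inv_inv]; exact e
          exact inv_injective h3 }
  have hXU : X ≤ U := by
    intro a ha
    constructor
    · intro c hc
      obtain ⟨a', ha', c', hc', e⟩ := h1.1 c hc a ha
      exact ⟨a', Subgroup.mem_sup_left ha', c', hc', e⟩
    · intro c hc
      obtain ⟨a', ha', c', hc', e⟩ := h1.2 c hc a ha
      exact ⟨a', Subgroup.mem_sup_left ha', c', hc', e⟩
  have hX'U : X' ≤ U := by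
    intro a ha
    constructor
    · intro c hc
      obtain ⟨a', ha', c', hc', e⟩ := h2.1 c hc a ha
      exact ⟨a', Subgroup.mem_sup_right ha', c', hc', e⟩
    · intro c hc
      obtain ⟨a', ha', c', hc', e⟩ := h2.2 c hc a ha
      exact ⟨a', Subgroup.mem_sup_right ha', c', hc', e⟩
  have key : X ⊔ X' ≤ U := sup_le hXU hX'U
  exact ⟨fun c hc a ha => (key ha).1 c hc, fun c hc a ha => (key ha).2 c hc⟩

theorem permutes_conj {G : Type*} [Group G] {X C : Subgroup G} (h : Permutes X C) (y : G) :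
    Permutes (MulAut.conj y • X) (MulAut.conj y • C) := by
  constructor
  · intro c hc a ha
    obtain ⟨c0, hc0, rfl⟩ := mem_conj.mp hc
    obtain ⟨a0, ha0, rfl⟩ := mem_conj.mp ha
    obtain ⟨a', ha', c', hc', e⟩ := h.1 c0 hc0 a0 ha0
    refine ⟨y * a' * y⁻¹, mem_conj.mpr ⟨a', ha', rfl⟩, y * c' * y⁻¹,
      mem_conj.mpr ⟨c', hc', rfl⟩, ?_⟩
    calc y * c0 * y⁻¹ * (y * a0 * y⁻¹) = y * (c0 * a0) * y⁻¹ := by group
      _ = y * (a' * c') * y⁻¹ := by rw [e]
      _ = y * a' * y⁻¹ * (y * c' * y⁻¹) := by group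
  · intro c hc a ha
    obtain ⟨c0, hc0, rfl⟩ := mem_conj.mp hc
    obtain ⟨a0, ha0, rfl⟩ := mem_conj.mp ha
    obtain ⟨a', ha', c', hc', e⟩ := h.2 c0 hc0 a0 ha0
    refine ⟨y * a' * y⁻¹, mem_conj.mpr ⟨a', ha', rfl⟩, y * c' * y⁻¹,
      mem_conj.mpr ⟨c', hc', rfl⟩, ?_⟩
    calc y * a0 * y⁻¹ * (y * c0 * y⁻¹) = y * (a0 * c0) * y⁻¹ := by group
      _ = y * (c' * a') * y⁻¹ := by rw [e]
      _ = y * c' * y⁻¹ * (y * a' * y⁻¹) := by group

theorem prod_of_permutes {G : Type*} [Group G] {X C : Subgroup G} (h : Permutes X C) :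
    ∀ g ∈ X ⊔ C, ∃ a ∈ X, ∃ c ∈ C, g = a * c := by
  let T : Subgroup G :=
    { carrier := {g | ∃ a ∈ X, ∃ c ∈ C, g = a * c}
      one_mem' := ⟨1, X.one_mem, 1, C.one_mem, by rw [mul_one]⟩
      mul_mem' := by
        rintro _ _ ⟨a, ha, c, hc, rfl⟩ ⟨a2, ha2, c2, hc2, rfl⟩
        obtain ⟨a', ha', c', hc', e⟩ := h.1 c hc a2 ha2
        refine ⟨a * a', X.mul_mem ha ha', c' * c2, C.mul_mem hc' hc2, ?_⟩
        calc a * c * (a2 * c2) = a * (c * a2) * c2 := by group
          _ = a * (a' * c') * c2 := by rw [e]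
          _ = a * a' * (c' * c2) := by group
      inv_mem' := by
        rintro _ ⟨a, ha, c, hc, rfl⟩
        obtain ⟨a', ha', c', hc', e⟩ := h.1 c⁻¹ (C.inv_mem hc) a⁻¹ (X.inv_mem ha)
        exact ⟨a', ha', c', hc', by rw [mul_inv_rev]; exact e⟩ }
  have hle : X ⊔ C ≤ T := sup_le (fun a ha => ⟨a, ha, 1, C.one_mem, by rw [mul_one]⟩)
    (fun c hc => ⟨1, X.one_mem, c, hc, by rw [one_mul]⟩)
  intro g hg
  exact hle hg

theorem main (G : Type*) [Group G] [Finite G] (B : Subgroup G) :
    ∀ (m : ℕ) (A : Subgroup G), Nat.card G - Nat.card A ≤ m → A ≠ ⊥ →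
      (∀ x : G, ∃ S : Subgroup G, S ≠ ⊤ ∧
        (S : Set G) = (A : Set G) * ((MulAut.conj x • B : Subgroup G) : Set G)) →
      ∃ N : Subgroup G, N.Normal ∧ N ≠ ⊤ ∧ (A ≤ N ∨ B ≤ N) := by
  intro m
  induction m with
  | zero =>
    intro A hm hA h
    exfalso
    obtain ⟨S, hS, hSeq⟩ := h 1
    have hAS : A ≤ S := (le_of_eq_mul hSeq).1
    have hAtop : A = ⊤ := Subgroup.eq_of_le_of_card_ge le_top (by rw [Subgroup.card_top]; omega)
    apply hS
    rw [eq_top_iff, ← hAtop]
    exact hAS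
  | succ m ih =>
    intro A hm hA h
    by_cases hcase : ∀ x : G, MulAut.conj x • B ≤ Subgroup.normalizer (A : Set G)
    · by_cases hnorm : Subgroup.normalizer (A : Set G) = ⊤
      · refine ⟨A, ?_, ?_, Or.inl le_rfl⟩
        · constructor
          intro n hn g
          have hg : g ∈ Subgroup.normalizer (A : Set G) := by
            rw [hnorm]; exact Subgroup.mem_top g
          exact ((Subgroup.mem_normalizer_iff.mp hg) n).mp hn
        · obtain ⟨S, hS, hSeq⟩ := h 1
          intro hAtop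
          apply hS
          rw [eq_top_iff, ← hAtop]
          exact (le_of_eq_mul hSeq).1
      · refine ⟨Subgroup.normalClosure (B : Set G), Subgroup.normalClosure_normal, ?_,
          Or.inr Subgroup.le_normalClosure⟩
        intro htop
        apply hnorm
        rw [eq_top_iff, ← htop]
        show Subgroup.closure (Group.conjugatesOfSet (B : Set G)) ≤ _
        apply (Subgroup.closure_le _).mpr
        intro g hg
        obtain ⟨b, hb, hconj⟩ := Group.mem_conjugatesOfSet_iff.mp hg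
        obtain ⟨c, rfl⟩ := isConj_iff.mp hconj
        exact hcase c (mem_conj.mpr ⟨b, hb, rfl⟩)
    · push_neg at hcase
      obtain ⟨x, hx⟩ := hcase
      obtain ⟨y, hyB, hyN⟩ := SetLike.not_le_iff_exists.mp hx
      obtain ⟨Sx, hSx, hSxeq⟩ := h x
      have hperm : ∀ z : G, Permutes A (MulAut.conj z • B) := by
        intro z
        obtain ⟨S, -, hSeq⟩ := h z
        exact permutes_of_eq hSeq
      obtain ⟨hASx, hBSx⟩ := le_of_eq_mul hSxeq
      obtain ⟨A₁, hA₁⟩ : ∃ A₁ : Subgroup G, A₁ = A ⊔ MulAut.conj y • A := ⟨_, rfl⟩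
      have hAA₁ : A ≤ A₁ := by rw [hA₁]; exact le_sup_left
      have hA₁Sx : A₁ ≤ Sx := by
        rw [hA₁]
        apply sup_le hASx
        intro g hg
        obtain ⟨a, ha, rfl⟩ := mem_conj.mp hg
        exact Sx.mul_mem (Sx.mul_mem (hBSx hyB) (hASx ha)) (Sx.inv_mem (hBSx hyB))
      have hne : A ≠ A₁ := by
        intro heq
        apply hyN
        have hle : MulAut.conj y • A ≤ A := by
          have h1 : MulAut.conj y • A ≤ A₁ := by rw [hA₁]; exact le_sup_right
          rw [← heq] at h1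
          exact h1
        rw [Subgroup.mem_normalizer_iff]
        intro g
        constructor
        · intro hg
          exact hle (mem_conj.mpr ⟨g, hg, rfl⟩)
        · intro hg
          have hinj : Function.Injective (fun a : A =>
              (⟨y * (a : G) * y⁻¹, hle (mem_conj.mpr ⟨(a : G), a.2, rfl⟩)⟩ : A)) := by
            intro a b hab
            have h1 := congrArg Subtype.val hab
            apply Subtype.ext
            simpa using h1
          obtain ⟨a, ha⟩ := Finite.surjective_of_injective hinj ⟨y * g * y⁻¹, hg⟩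
          have h2 := congrArg Subtype.val ha
          have h3 : (a : G) = g := by simpa using h2
          rw [← h3]
          exact a.2
      have hlt : Nat.card A < Nat.card A₁ := by
        by_contra hc
        push_neg at hc
        exact hne (Subgroup.eq_of_le_of_card_ge hAA₁ hc)
      have hperm₁ : ∀ z : G, Permutes A₁ (MulAut.conj z • B) := by
        intro z
        rw [hA₁]
        apply permutes_sup (hperm z)
        have h1 := permutes_conj (hperm (y⁻¹ * z)) y
        have e : MulAut.conj y • (MulAut.conj (y⁻¹ * z) • B) = MulAut.conj z • B := by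
          rw [smul_smul, ← map_mul, mul_inv_cancel_left]
        rw [e] at h1
        exact h1
      by_cases hall : ∀ z : G, A₁ ⊔ MulAut.conj z • B ≠ ⊤
      · have hcardle : Nat.card A₁ ≤ Nat.card G := Subgroup.card_le_card_group A₁
        have hA₁ne : A₁ ≠ ⊥ := by
          intro hbot
          apply hA
          rw [← le_bot_iff, ← hbot]
          exact hAA₁
        obtain ⟨N, hN, hNtop, hor⟩ := ih A₁ (by omega) hA₁ne (by
          intro z
          refine ⟨A₁ ⊔ MulAut.conj z • B, hall z, ?_⟩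
          ext g
          constructor
          · intro hg
            obtain ⟨a, ha, c, hc, rfl⟩ := prod_of_permutes (hperm₁ z) g hg
            exact Set.mem_mul.mpr ⟨a, ha, c, hc, rfl⟩
          · intro hg
            obtain ⟨a, ha, c, hc, rfl⟩ := Set.mem_mul.mp hg
            exact (A₁ ⊔ MulAut.conj z • B).mul_mem (Subgroup.mem_sup_left ha)
              (Subgroup.mem_sup_right hc))
        exact ⟨N, hN, hNtop, hor.imp (fun h' => hAA₁.trans h') id⟩
      · push_neg at hall
        obtain ⟨z, hz⟩ := hall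
        exfalso
        apply hSx
        rw [eq_top_iff, ← hz]
        apply sup_le hA₁Sx
        have hg : x * z⁻¹ ∈ A₁ ⊔ MulAut.conj z • B := by
          rw [hz]; exact Subgroup.mem_top _
        obtain ⟨a₁, ha₁, c, hc, hgeq⟩ := prod_of_permutes (hperm₁ z) _ hg
        intro b' hb'
        obtain ⟨b'', hb'', e⟩ := mem_conj.mp (show c⁻¹ * b' * c ∈ MulAut.conj z • B from
          mul_mem (mul_mem (inv_mem hc) hb') hc)
        have hx' : x = a₁ * c * z := by
          rw [← hgeq]; group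
        have e' : b' = c * (z * b'' * z⁻¹) * c⁻¹ := by
          rw [← e]; group
        have hb : b' = a₁⁻¹ * (x * b'' * x⁻¹) * a₁ := by
          rw [e', hx']; group
        rw [hb]
        exact Sx.mul_mem (Sx.mul_mem (Sx.inv_mem (hA₁Sx ha₁))
          (hBSx (mem_conj.mpr ⟨b'', hb'', rfl⟩))) (hA₁Sx ha₁)

/-- Let A and B be nontrivial subgroups of a finite group G such that for every x the product set of A and xBx⁻¹ is a proper subgroup of G. Then there is a proper normal subgroup of G containing A or containing B. -/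
theorem result {G : Type*} [Group G] [Finite G] (A B : Subgroup G) (hA : A ≠ ⊥) (hB : B ≠ ⊥) (h : ∀ x : G, ∃ S : Subgroup G, S ≠ ⊤ ∧ (S : Set G) = (A : Set G) * ((MulAut.conj x • B : Subgroup G) : Set G)) : ∃ N : Subgroup G, N.Normal ∧ N ≠ ⊤ ∧ (A ≤ N ∨ B ≤ N) := by
  exact main G B (Nat.card G) A (Nat.sub_le _ _) hA h

end Cfsg.Agent.S0566
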