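import Mathlib
import Cfsg.Statements.S0567
import Cfsg.Agent.Lib.Helper1.Conj

set_option autoImplicit false
open Cfsg

namespace Cfsg.Agent.S0567

open scoped commutatorElement
open Cfsg.Agent.Lib.Helper1

/-- A subgroup H of a group G is subnormal exactly when, for some m, the subgroup obtained from G by taking the commutator with H m times in succession is contained in H. -/
theorem result {G : Type*} [Group G] (H : Subgroup G) : H.IsSubnormal ↔ ∃ m : ℕ, (fun K : Subgroup G => ⁅K, H⁆)^[m] ⊤ ≤ H := by
  constructor
  · intro h
    induction h with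
    | top => exact ⟨0, le_rfl⟩
    | step H K h_le hSubn hN ih =>
      obtain ⟨m, hm⟩ := ih
      refine ⟨m + 1, ?_⟩
      have mono : ∀ i, (fun X : Subgroup G => ⁅X, H⁆)^[i] ⊤ ≤
          (fun X : Subgroup G => ⁅X, K⁆)^[i] ⊤ := by
        intro i
        induction i with
        | zero => exact le_rfl
        | succ i ihi =>
          rw [Function.iterate_succ_apply', Function.iterate_succ_apply']
          exact Subgroup.commutator_mono ihi h_le
      rw [Function.iterate_succ_apply']
      have hKN : K ≤ Subgroup.normalizer (H : Set G) :=
        (Subgroup.normal_subgroupOf_iff_le_normalizer h_le).mp hN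
      calc ⁅(fun X : Subgroup G => ⁅X, H⁆)^[m] ⊤, H⁆ ≤ ⁅K, H⁆ :=
            Subgroup.commutator_mono ((mono m).trans hm) le_rfl
        _ ≤ H := Subgroup.le_normalizer_iff_commutator_le_right.mp hKN
  · rintro ⟨m, hm⟩
    set L : ℕ → Subgroup G := fun i => (fun K : Subgroup G => ⁅K, H⁆)^[i] ⊤ with hL
    have Lsucc : ∀ i, L (i + 1) = ⁅L i, H⁆ := fun i => Function.iterate_succ_apply' _ _ _
    have L0 : L 0 = ⊤ := rfl
    have hHN : ∀ i, H ≤ Subgroup.normalizer (L i : Set G) := by
      intro i
      cases i with
      | zero => rw [L0]; exact le_top.trans Subgroup.le_normalizer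
      | succ i => rw [Lsucc]; exact Subgroup.normalizer_commutator_ge_right (L i) H
    have hanti : ∀ i, L (i + 1) ≤ L i := by
      intro i; rw [Lsucc]
      exact Subgroup.le_normalizer_iff_commutator_le_left.mp (hHN i)
    have key : ∀ i, (H ⊔ L i).IsSubnormal := by
      intro i
      induction i with
      | zero =>
        have : H ⊔ L 0 = ⊤ := by rw [L0]; simp
        rw [this]; exact Subgroup.IsSubnormal.top
      | succ i ih =>
        have hle : H ⊔ L (i + 1) ≤ H ⊔ L i := sup_le_sup_left (hanti i) H
        refine Subgroup.IsSubnormal.step _ _ hle ih ?_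
        rw [Subgroup.normal_subgroupOf_iff_le_normalizer hle]
        apply sup_le
        · apply le_normalizer_of_conj
          intro g hg x hx
          have : (H ⊔ L (i + 1)).map (MulAut.conj g : G →* G) ≤ H ⊔ L (i + 1) := by
            rw [Subgroup.map_sup]
            apply sup_le_sup
            · rw [Subgroup.mem_normalizer_iff_map_conj_eq.mp (Subgroup.le_normalizer hg)]
            · rw [Subgroup.mem_normalizer_iff_map_conj_eq.mp (hHN (i + 1) hg)]
          exact this (Subgroup.mem_map_of_mem _ hx)
        · apply le_normalizer_of_conj
          intro g hg x hx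
          have : (H ⊔ L (i + 1)).map (MulAut.conj g : G →* G) ≤ H ⊔ L (i + 1) := by
            rw [Subgroup.map_sup]
            apply sup_le
            · rintro _ ⟨h, hh, rfl⟩
              have hc : ⁅g, h⁆ ∈ L (i + 1) := by
                rw [Lsucc]; exact Subgroup.commutator_mem_commutator hg hh
              have e : (MulAut.conj g : G →* G) h = ⁅g, h⁆ * h := by
                simp [commutatorElement_def]
              rw [e]
              exact Subgroup.mul_mem _ ((le_sup_right : L (i + 1) ≤ H ⊔ L (i + 1)) hc)
                ((le_sup_left : H ≤ H ⊔ L (i + 1)) hh)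
            · have hgN : g ∈ Subgroup.normalizer ((L (i + 1) : Subgroup G) : Set G) := by
                rw [Lsucc]; exact Subgroup.normalizer_commutator_ge_left (L i) H hg
              rw [Subgroup.mem_normalizer_iff_map_conj_eq.mp hgN]; exact le_sup_right
          exact this (Subgroup.mem_map_of_mem _ hx)
    have := key m
    rwa [sup_eq_left.mpr hm] at this

end Cfsg.Agent.S0567
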