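import Cfsg.Statements.S0568
import Mathlib
import Cfsg.Agent.Lib.Helper1.CoverAvoid
import Cfsg.Agent.S0545

set_option autoImplicit false
open Cfsg

namespace Cfsg.Agent.S0568

open scoped commutatorElement

/-- Let D be the system normalizer of a Hall complement system of a finite solvable group G, and let A < B be normal subgroups with no normal subgroup of G strictly between them (a chief factor). If G centralizes B modulo A then B ≤ A ⊔ D (D covers the factor); otherwise B ∩ D ≤ A (D avoids it). -/
theorem result {G : Type*} [Group G] [Finite G] [Group.IsSolvable G] (K : Nat.Primes → Subgroup G) (hK : Cfsg.IsComplementSystem K) (A B : Subgroup G) [A.Normal] [B.Normal] (hAB : A < B) (hchief : ∀ N : Subgroup G, N.Normal → A ≤ N → N ≤ B → N = A ∨ N = B) : (⁅B, (⊤ : Subgroup G)⁆ ≤ A → B ≤ A ⊔ Cfsg.systemNormalizer K) ∧ (¬ ⁅B, (⊤ : Subgroup G)⁆ ≤ A → B ⊓ Cfsg.systemNormalizer K ≤ A) := by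
  obtain ⟨h1, h2⟩ := Cfsg.Agent.S0545.result K hK A
  have hsurj : Function.Surjective (QuotientGroup.mk' A) := QuotientGroup.mk'_surjective A
  have h2' : (⨅ p : Nat.Primes, Subgroup.normalizer
      (((K p).map (QuotientGroup.mk' A) : Subgroup (G ⧸ A)) : Set (G ⧸ A)))
      = (Cfsg.systemNormalizer K).map (QuotientGroup.mk' A) := h2
  constructor
  · intro hc b hb
    have hbc : (QuotientGroup.mk' A) b ∈ Subgroup.center (G ⧸ A) := by
      rw [Subgroup.mem_center_iff]
      intro g'
      obtain ⟨g, rfl⟩ := hsurj g'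
      have h3 : ⁅b, g⁆ ∈ A := hc (Subgroup.commutator_mem_commutator hb (Subgroup.mem_top g))
      have h4 : (QuotientGroup.mk' A) ⁅b, g⁆ = 1 := (QuotientGroup.eq_one_iff _).mpr h3
      rw [map_commutatorElement, commutatorElement_eq_one_iff_commute] at h4
      exact h4.eq.symm
    have h5 : (QuotientGroup.mk' A) b ∈ (⨅ p : Nat.Primes, Subgroup.normalizer
        (((K p).map (QuotientGroup.mk' A) : Subgroup (G ⧸ A)) : Set (G ⧸ A))) := by
      rw [Subgroup.mem_iInf]
      intro p
      exact Cfsg.Agent.Lib.Helper1.center_le_normalizer' _ hbc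
    rw [h2'] at h5
    have h6 : b ∈ ((Cfsg.systemNormalizer K).map (QuotientGroup.mk' A)).comap (QuotientGroup.mk' A) :=
      h5
    rwa [QuotientGroup.comap_map_mk'] at h6
  · intro hnc x hx
    obtain ⟨hxB, hxD⟩ := Subgroup.mem_inf.mp hx
    haveI hBbn : (B.map (QuotientGroup.mk' A)).Normal := Subgroup.Normal.map inferInstance _ hsurj
    have hBle : ∀ b ∈ B, (QuotientGroup.mk' A) b = 1 → b ∈ A :=
      fun b _ h => (QuotientGroup.eq_one_iff b).mp h
    have hBbne : B.map (QuotientGroup.mk' A) ≠ ⊥ := by
      intro h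
      apply hAB.not_ge
      intro b hb
      have : (QuotientGroup.mk' A) b ∈ B.map (QuotientGroup.mk' A) := ⟨b, hb, rfl⟩
      rw [h, Subgroup.mem_bot] at this
      exact (QuotientGroup.eq_one_iff b).mp this
    have hBbmin : ∀ N : Subgroup (G ⧸ A), N.Normal → N ≤ B.map (QuotientGroup.mk' A) →
        N = ⊥ ∨ N = B.map (QuotientGroup.mk' A) := by
      intro N hN hNB
      have hAN : A ≤ N.comap (QuotientGroup.mk' A) := by
        intro a ha
        rw [Subgroup.mem_comap]
        have : (QuotientGroup.mk' A) a = 1 := (QuotientGroup.eq_one_iff a).mpr ha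
        rw [this]; exact N.one_mem
      have hNB' : N.comap (QuotientGroup.mk' A) ≤ B := by
        have h3 := Subgroup.comap_mono (f := QuotientGroup.mk' A) hNB
        rw [QuotientGroup.comap_map_mk', sup_eq_right.mpr hAB.le] at h3
        exact h3
      have hmap : (N.comap (QuotientGroup.mk' A)).map (QuotientGroup.mk' A) = N :=
        Subgroup.map_comap_eq_self_of_surjective hsurj N
      rcases hchief _ (Subgroup.Normal.comap hN _) hAN hNB' with h | h
      · left
        rw [← hmap, h, QuotientGroup.map_mk'_self]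
      · right
        rw [← hmap, h]
    have hBbnc : ¬ B.map (QuotientGroup.mk' A) ≤ Subgroup.center (G ⧸ A) := by
      intro hcen
      apply hnc
      rw [Subgroup.commutator_le]
      intro b hb g _
      apply (QuotientGroup.eq_one_iff _).mp
      show (QuotientGroup.mk' A) ⁅b, g⁆ = 1
      rw [map_commutatorElement, commutatorElement_eq_one_iff_commute]
      have h3 := Subgroup.mem_center_iff.mp (hcen ⟨b, hb, rfl⟩) ((QuotientGroup.mk' A) g)
      exact h3.symm
    have hav := Cfsg.Agent.Lib.Helper1.avoid_core (fun p => (K p).map (QuotientGroup.mk' A)) h1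
      (B.map (QuotientGroup.mk' A)) hBbne hBbmin hBbnc
    rw [h2'] at hav
    have h7 : (QuotientGroup.mk' A) x ∈ B.map (QuotientGroup.mk' A) ⊓
        (Cfsg.systemNormalizer K).map (QuotientGroup.mk' A) := ⟨⟨x, hxB, rfl⟩, ⟨x, hxD, rfl⟩⟩
    rw [hav, Subgroup.mem_bot] at h7
    exact (QuotientGroup.eq_one_iff x).mp h7

end Cfsg.Agent.S0568
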