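import Cfsg.Statements.S0572
import Mathlib
import Cfsg.Agent.Lib.Helper1.Abel
import Cfsg.Agent.Lib.Lead.Coprime

set_option autoImplicit false
open Cfsg

namespace Cfsg.Agent.S0572

open scoped commutatorElement

lemma comm_right_absorb {G : Type*} [Group G] (a b₂ a₂ : G) (h : a₂ * a = a * a₂) :
    ⁅a, b₂ * a₂⁆ = ⁅a, b₂⁆ := by
  have h' : a₂ * a⁻¹ = a⁻¹ * a₂ := by
    calc a₂ * a⁻¹ = a⁻¹ * (a * a₂) * a⁻¹ := by group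
      _ = a⁻¹ * (a₂ * a) * a⁻¹ := by rw [h]
      _ = a⁻¹ * a₂ := by group
  rw [commutatorElement_def, commutatorElement_def]
  calc a * (b₂ * a₂) * a⁻¹ * (b₂ * a₂)⁻¹ = a * b₂ * (a₂ * a⁻¹) * a₂⁻¹ * b₂⁻¹ := by group
    _ = a * b₂ * (a⁻¹ * a₂) * a₂⁻¹ * b₂⁻¹ := by rw [h']
    _ = a * b₂ * a⁻¹ * b₂⁻¹ := by group

lemma comm_left_absorb {G : Type*} [Group G] (a₃ b₃ b : G) (h : b₃ * b = b * b₃) :
    ⁅a₃ * b₃, b⁆ = ⁅a₃, b⁆ := by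
  rw [commutatorElement_def, commutatorElement_def]
  calc a₃ * b₃ * b * (a₃ * b₃)⁻¹ * b⁻¹ = a₃ * (b₃ * b) * b₃⁻¹ * a₃⁻¹ * b⁻¹ := by group
    _ = a₃ * (b * b₃) * b₃⁻¹ * a₃⁻¹ * b⁻¹ := by rw [h]
    _ = a₃ * b * a₃⁻¹ * b⁻¹ := by group

lemma conj_comm {G : Type*} [Group G] (g x y : G) :
    g * ⁅x, y⁆ * g⁻¹ = ⁅g * x * g⁻¹, g * y * g⁻¹⁆ := by
  simp only [commutatorElement_def]; group

lemma conj_fix {G : Type*} [Group G] (g x : G) (h : g * x = x * g) : g * x * g⁻¹ = x := by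
  rw [h]; group

/-- Itô's key identity -/
lemma ito_key {G : Type*} [Group G] (A B : Subgroup G)
    (hA : ∀ x ∈ A, ∀ y ∈ A, x * y = y * x) (hB : ∀ x ∈ B, ∀ y ∈ B, x * y = y * x)
    (hAB : ∀ g : G, ∃ a ∈ A, ∃ b ∈ B, g = a * b)
    (a a₁ b b₁ : G) (ha : a ∈ A) (ha₁ : a₁ ∈ A) (hb : b ∈ B) (hb₁ : b₁ ∈ B) :
    (a₁ * b₁) * ⁅a, b⁆ * (a₁ * b₁)⁻¹ = (b₁ * a₁) * ⁅a, b⁆ * (b₁ * a₁)⁻¹ := by
  obtain ⟨a₂', ha₂', b₂', hb₂', h2⟩ := hAB (a₁ * b * a₁⁻¹)⁻¹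
  obtain ⟨b₂, hb₂, hb₂e⟩ : ∃ b₂ ∈ B, b₂ = b₂'⁻¹ := ⟨_, B.inv_mem hb₂', rfl⟩
  obtain ⟨a₂, ha₂, ha₂e⟩ : ∃ a₂ ∈ A, a₂ = a₂'⁻¹ := ⟨_, A.inv_mem ha₂', rfl⟩
  have hu : a₁ * b * a₁⁻¹ = b₂ * a₂ := by
    rw [hb₂e, ha₂e, ← mul_inv_rev, ← h2, inv_inv]
  obtain ⟨a₃, ha₃, b₃, hb₃, hv⟩ := hAB (b₁ * a * b₁⁻¹)
  have e1 : (a₁ * b₁) * ⁅a, b⁆ * (a₁ * b₁)⁻¹ = a₁ * (b₁ * ⁅a, b⁆ * b₁⁻¹) * a₁⁻¹ := by group
  have e2 : (b₁ * a₁) * ⁅a, b⁆ * (b₁ * a₁)⁻¹ = b₁ * (a₁ * ⁅a, b⁆ * a₁⁻¹) * b₁⁻¹ := by group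
  rw [e1, e2, conj_comm b₁, conj_comm a₁ a b, hv, hu, conj_fix b₁ b (hB b₁ hb₁ b hb),
    conj_fix a₁ a (hA a₁ ha₁ a ha), comm_left_absorb a₃ b₃ b (hB b₃ hb₃ b hb),
    comm_right_absorb a b₂ a₂ (hA a₂ ha₂ a ha), conj_comm a₁, conj_comm b₁, hu, hv,
    conj_fix a₁ a₃ (hA a₁ ha₁ a₃ ha₃), conj_fix b₁ b₂ (hB b₁ hb₁ b₂ hb₂),
    comm_right_absorb a₃ b₂ a₂ (hA a₂ ha₂ a₃ ha₃), comm_left_absorb a₃ b₃ b₂ (hB b₃ hb₃ b₂ hb₂)]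

lemma ito_comm {G : Type*} [Group G] (A B : Subgroup G)
    (hA : ∀ x ∈ A, ∀ y ∈ A, x * y = y * x) (hB : ∀ x ∈ B, ∀ y ∈ B, x * y = y * x)
    (hAB : ∀ g : G, ∃ a ∈ A, ∃ b ∈ B, g = a * b)
    (a a' b b' : G) (ha : a ∈ A) (ha' : a' ∈ A) (hb : b ∈ B) (hb' : b' ∈ B) :
    ⁅a', b'⁆ * ⁅a, b⁆ = ⁅a, b⁆ * ⁅a', b'⁆ := by
  have key := ito_key A B hA hB hAB a a'⁻¹ b b'⁻¹ ha (A.inv_mem ha') hb (B.inv_mem hb')
  have e : ⁅a', b'⁆ = (b'⁻¹ * a'⁻¹)⁻¹ * (a'⁻¹ * b'⁻¹) := by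
    rw [commutatorElement_def]; group
  rw [e]
  calc (b'⁻¹ * a'⁻¹)⁻¹ * (a'⁻¹ * b'⁻¹) * ⁅a, b⁆
      = (b'⁻¹ * a'⁻¹)⁻¹ * ((a'⁻¹ * b'⁻¹) * ⁅a, b⁆ * (a'⁻¹ * b'⁻¹)⁻¹) * (a'⁻¹ * b'⁻¹) := by group
    _ = (b'⁻¹ * a'⁻¹)⁻¹ * ((b'⁻¹ * a'⁻¹) * ⁅a, b⁆ * (b'⁻¹ * a'⁻¹)⁻¹) * (a'⁻¹ * b'⁻¹) := by rw [key]
    _ = ⁅a, b⁆ * ((b'⁻¹ * a'⁻¹)⁻¹ * (a'⁻¹ * b'⁻¹)) := by group

/-- the commutator subgroup `[A, B]` is abelian and contains the derived subgroup -/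
lemma ito_main {G : Type*} [Group G] (A B : Subgroup G)
    (hA : ∀ x ∈ A, ∀ y ∈ A, x * y = y * x) (hB : ∀ x ∈ B, ∀ y ∈ B, x * y = y * x)
    (hAB : ∀ g : G, ∃ a ∈ A, ∃ b ∈ B, g = a * b) :
    (∀ x ∈ ⁅A, B⁆, ∀ y ∈ ⁅A, B⁆, x * y = y * x) ∧ commutator G ≤ ⁅A, B⁆ := by
  have hgen : ∀ a ∈ A, ∀ b ∈ B, ⁅A, B⁆ ≤ Subgroup.centralizer ({⁅a, b⁆} : Set G) := by
    intro a ha b hb
    rw [Subgroup.commutator_le]
    intro a' ha' b' hb'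
    rw [Subgroup.mem_centralizer_iff]
    intro x hx
    rw [Set.mem_singleton_iff] at hx
    rw [hx]
    exact (ito_comm A B hA hB hAB a' a b' b ha' ha hb' hb)
  have hcomm : ∀ x ∈ ⁅A, B⁆, ∀ y ∈ ⁅A, B⁆, x * y = y * x := by
    intro x hx
    have h1 : ⁅A, B⁆ ≤ Subgroup.centralizer ({x} : Set G) := by
      rw [Subgroup.commutator_le]
      intro a ha b hb
      have h2 := hgen a ha b hb hx
      rw [Subgroup.mem_centralizer_iff] at h2 ⊢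
      intro z hz
      rw [Set.mem_singleton_iff] at hz
      rw [hz]
      exact (h2 _ rfl).symm
    intro y hy
    have h3 := h1 hy
    rw [Subgroup.mem_centralizer_iff] at h3
    exact h3 x rfl
  refine ⟨hcomm, ?_⟩
  have hnorm : ∀ g : G, g ∈ Subgroup.normalizer ((⁅A, B⁆ : Subgroup G) : Set G) := by
    intro g
    obtain ⟨a, ha, b, hb, rfl⟩ := hAB g
    exact Subgroup.mul_mem _ (Cfsg.Agent.Lib.Lead.le_normalizer_commutator A B ha)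
      (Cfsg.Agent.Lib.Lead.le_normalizer_commutator_right A B hb)
  have hD : (⁅A, B⁆ : Subgroup G).Normal := by
    rw [← Subgroup.normalizer_eq_top_iff, Subgroup.eq_top_iff']
    exact hnorm
  rw [commutator_def, Subgroup.commutator_le]
  intro g _ h _
  rw [← QuotientGroup.eq_one_iff, commutatorElement_def]
  obtain ⟨a, ha, b, hb, rfl⟩ := hAB g
  obtain ⟨a', ha', b', hb', rfl⟩ := hAB h
  have q1 : ∀ x ∈ A, ∀ y ∈ B, ((x * y : G) : G ⧸ ⁅A, B⁆) = ((y * x : G) : G ⧸ ⁅A, B⁆) := by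
    intro x hx y hy
    rw [QuotientGroup.eq]
    have h1 : (x * y)⁻¹ * (y * x) = ⁅y⁻¹, x⁻¹⁆ := by rw [commutatorElement_def]; group
    rw [h1, ← Subgroup.commutator_comm]
    exact Subgroup.commutator_mem_commutator (B.inv_mem hy) (A.inv_mem hx)
  have qa : ((a * a' : G) : G ⧸ ⁅A, B⁆) = ((a' * a : G) : G ⧸ ⁅A, B⁆) := by rw [hA a ha a' ha']
  have qb : ((b * b' : G) : G ⧸ ⁅A, B⁆) = ((b' * b : G) : G ⧸ ⁅A, B⁆) := by rw [hB b hb b' hb']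
  have q2 := q1 a' ha' b hb
  have q3 := q1 a ha b' hb'
  simp only [QuotientGroup.mk_mul, QuotientGroup.mk_inv] at qa qb q2 q3 ⊢
  generalize ((a : G) : G ⧸ ⁅A, B⁆) = α at *
  generalize ((b : G) : G ⧸ ⁅A, B⁆) = β at *
  generalize ((a' : G) : G ⧸ ⁅A, B⁆) = α' at *
  generalize ((b' : G) : G ⧸ ⁅A, B⁆) = β' at *
  have c1 : Commute α α' := qa
  have c2 : Commute α β' := q3
  have c3 : Commute β α' := q2.symm
  have c4 : Commute β β' := qb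
  have c : Commute (α * β) (α' * β') := (c1.mul_right c2).mul_left (c3.mul_right c4)
  rw [c.eq]
  group

/-- Itô's Theorem: if a group G is the product AB of two abelian subgroups, then the commutator subgroup of G is abelian, i.e. the second term of the derived series is trivial. -/
theorem result {G : Type*} [Group G] (A B : Subgroup G) [IsMulCommutative A] [IsMulCommutative B] (hAB : ∀ g : G, ∃ a ∈ A, ∃ b ∈ B, g = a * b) : derivedSeries G 2 = ⊥ := by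
  have hA := Cfsg.Agent.Lib.Helper1.comm_of_isMulCommutative (inferInstance : IsMulCommutative A)
  have hB := Cfsg.Agent.Lib.Helper1.comm_of_isMulCommutative (inferInstance : IsMulCommutative B)
  obtain ⟨hcomm, hle⟩ := ito_main A B hA hB hAB
  have h1 : derivedSeries G 1 ≤ ⁅A, B⁆ := by
    rw [derivedSeries_succ, derivedSeries_zero, ← commutator_def]
    exact hle
  rw [derivedSeries_succ, eq_bot_iff]
  refine le_trans (Subgroup.commutator_mono h1 h1) ?_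
  rw [le_bot_iff, Subgroup.commutator_eq_bot_iff_le_centralizer]
  intro x hx
  rw [Subgroup.mem_centralizer_iff]
  intro y hy
  exact hcomm y hy x hx

end Cfsg.Agent.S0572
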