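import Cfsg.Statements.S0573
import Cfsg.Agent.S0572
import Cfsg.Agent.Lib.Helper1.Abel
import Mathlib

set_option autoImplicit false
open Cfsg

namespace Cfsg.Agent.S0573


open scoped commutatorElement Pointwise

universe u

theorem of_center {G : Type u} [Group G] (A B : Subgroup G)
    (hA : ∀ x ∈ A, ∀ y ∈ A, x * y = y * x) (hB : ∀ x ∈ B, ∀ y ∈ B, x * y = y * x)
    (hAB : ∀ g : G, ∃ a ∈ A, ∃ b ∈ B, g = a * b)
    (z : G) (hz : ∀ g : G, g * z = z * g) (hz1 : z ≠ 1) :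
    ∃ N : Subgroup G, N.Normal ∧ N ≠ ⊥ ∧ (N ≤ A ∨ N ≤ B) := by
  obtain ⟨a, ha, b, hb, hzab⟩ := hAB z
  have hac : ∀ g : G, g * a = a * g := by
    intro g
    obtain ⟨a₂, ha₂, b₂, hb₂, rfl⟩ := hAB g
    have e : a = z * b⁻¹ := by rw [hzab]; group
    have h1 : b₂ * a = a * b₂ := by
      rw [e]
      calc b₂ * (z * b⁻¹) = z * (b₂ * b⁻¹) := by rw [← mul_assoc, hz b₂, mul_assoc]
        _ = z * (b⁻¹ * b₂) := by rw [hB b₂ hb₂ b⁻¹ (B.inv_mem hb)]
        _ = z * b⁻¹ * b₂ := by rw [mul_assoc]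
    calc a₂ * b₂ * a = a₂ * (b₂ * a) := by rw [mul_assoc]
      _ = a₂ * (a * b₂) := by rw [h1]
      _ = (a₂ * a) * b₂ := by rw [mul_assoc]
      _ = (a * a₂) * b₂ := by rw [hA a₂ ha₂ a ha]
      _ = a * (a₂ * b₂) := by rw [mul_assoc]
  have key : ∀ (c : G) (C : Subgroup G), c ∈ C → (∀ g : G, g * c = c * g) → c ≠ 1 →
      ∃ N : Subgroup G, N.Normal ∧ N ≠ ⊥ ∧ N ≤ C := by
    intro c C hcC hcc hc1
    have hcen : ∀ n ∈ Subgroup.zpowers c, ∀ g : G, g * n = n * g := by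
      intro n hn g
      obtain ⟨k, rfl⟩ := Subgroup.mem_zpowers_iff.mp hn
      exact (Commute.zpow_right (show Commute g c from hcc g) k).eq
    refine ⟨Subgroup.zpowers c, ⟨fun n hn g => ?_⟩, ?_, ?_⟩
    · rw [hcen n hn g, mul_inv_cancel_right]; exact hn
    · intro hbot
      have h : c ∈ (⊥ : Subgroup G) := hbot ▸ Subgroup.mem_zpowers c
      exact hc1 (Subgroup.mem_bot.mp h)
    · exact Subgroup.zpowers_le.mpr hcC
  by_cases ha1 : a = 1
  · have hzb : z = b := by rw [hzab, ha1, one_mul]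
    obtain ⟨N, h1, h2, h3⟩ := key z B (by rw [hzb]; exact hb) hz hz1
    exact ⟨N, h1, h2, Or.inr h3⟩
  · obtain ⟨N, h1, h2, h3⟩ := key a A ha hac ha1
    exact ⟨N, h1, h2, Or.inl h3⟩

theorem caseI {G : Type u} [Group G] [Finite G] (A B : Subgroup G)
    (hA : ∀ x ∈ A, ∀ y ∈ A, x * y = y * x) (hB : ∀ x ∈ B, ∀ y ∈ B, x * y = y * x)
    (hAB : ∀ g : G, ∃ a ∈ A, ∃ b ∈ B, g = a * b)
    (hV : ∀ x ∈ commutator G, ∀ y ∈ commutator G, x * y = y * x)
    (hAV : ∀ g : G, ∃ a ∈ A, ∃ v ∈ commutator G, g = a * v)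
    (hBV : ∀ g : G, ∃ b ∈ B, ∃ v ∈ commutator G, g = b * v)
    (hnt : ∃ g : G, g ≠ 1) :
    ∃ z : G, (∀ g : G, g * z = z * g) ∧ z ≠ 1 := by
  have hVn : (commutator G).Normal := inferInstance
  have hconjV : ∀ g v : G, v ∈ commutator G → g⁻¹ * v * g ∈ commutator G := by
    intro g v hv
    have h := hVn.conj_mem v hv g⁻¹
    rwa [inv_inv] at h
  by_cases hVb : commutator G = ⊥
  · obtain ⟨g, hg⟩ := hnt
    refine ⟨g, fun h => ?_, hg⟩
    have h4 : ⁅h, g⁆ ∈ commutator G :=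
      Subgroup.commutator_mem_commutator (Subgroup.mem_top h) (Subgroup.mem_top g)
    rw [hVb, Subgroup.mem_bot] at h4
    exact (commutatorElement_eq_one_iff_commute.mp h4).eq
  · obtain ⟨N, ⟨hNn, hNb, hNV⟩, hmin⟩ := wellFounded_lt.has_min
      {K : Subgroup G | K.Normal ∧ K ≠ ⊥ ∧ K ≤ commutator G} ⟨commutator G, hVn, hVb, le_refl _⟩
    obtain ⟨⟨x, hxN⟩, hx1'⟩ := (Subgroup.ne_bot_iff_exists_ne_one).mp hNb
    have hx1 : x ≠ 1 := fun h => hx1' (Subtype.ext h)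
    have hxV : x ∈ commutator G := hNV hxN
    obtain ⟨a₁, ha₁, b₁, hb₁, hx⟩ := hAB x
    obtain ⟨a, haA, hax⟩ : ∃ a ∈ A, a * x ∈ B :=
      ⟨a₁⁻¹, A.inv_mem ha₁, by rw [hx]; simpa using hb₁⟩
    have key : ∀ v ∈ commutator G, ∃ a' ∈ A,
        v⁻¹ * (a⁻¹ * v * a) = (a'⁻¹ * x * a') * x⁻¹ := by
      intro v hv
      obtain ⟨a₂, ha₂, b₂, hb₂, hv2⟩ := hAB v
      obtain ⟨a', ha'A, hb'⟩ : ∃ a' ∈ A, a' * v ∈ B :=
        ⟨a₂⁻¹, A.inv_mem ha₂, by rw [hv2]; simpa using hb₂⟩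
      refine ⟨a', ha'A, ?_⟩
      have hcomm := hB _ hax _ hb'
      have hp : a'⁻¹ * x * a' ∈ commutator G := hconjV a' x hxV
      have hq : a⁻¹ * v * a ∈ commutator G := hconjV a v hv
      obtain ⟨p, hpdef⟩ : ∃ p, p = a'⁻¹ * x * a' := ⟨_, rfl⟩
      obtain ⟨q, hqdef⟩ : ∃ q, q = a⁻¹ * v * a := ⟨_, rfl⟩
      have h1 : p * v = q * x := by
        rw [hpdef, hqdef]
        have e1 : (a'⁻¹ * x * a') * v = a'⁻¹ * a⁻¹ * ((a * x) * (a' * v)) := by group
        have e2 : a'⁻¹ * a⁻¹ * ((a' * v) * (a * x)) = (a'⁻¹ * a⁻¹ * a') * v * a * x := by group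
        have e3 : a'⁻¹ * a⁻¹ * a' = a⁻¹ := by
          have h := hA a⁻¹ (A.inv_mem haA) a' ha'A
          calc a'⁻¹ * a⁻¹ * a' = a'⁻¹ * (a⁻¹ * a') := by rw [mul_assoc]
            _ = a'⁻¹ * (a' * a⁻¹) := by rw [h]
            _ = a⁻¹ := by group
        rw [e1, hcomm, e2, e3]
      have h3 : p * v = v * p := hV p (by rw [hpdef]; exact hp) v hv
      rw [← hqdef, ← hpdef]
      calc v⁻¹ * q = v⁻¹ * ((q * x) * x⁻¹) := by group
        _ = v⁻¹ * ((p * v) * x⁻¹) := by rw [h1]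
        _ = v⁻¹ * ((v * p) * x⁻¹) := by rw [h3]
        _ = p * x⁻¹ := by group
    obtain ⟨R, hR⟩ : ∃ R : Subgroup G, ∀ y, y ∈ R ↔ ∃ v ∈ commutator G, v⁻¹ * (a⁻¹ * v * a) = y :=
      ⟨{ carrier := {y | ∃ v ∈ commutator G, v⁻¹ * (a⁻¹ * v * a) = y}
         mul_mem' := by
           rintro y₁ y₂ ⟨v₁, hv₁, rfl⟩ ⟨v₂, hv₂, rfl⟩
           refine ⟨v₁ * v₂, Subgroup.mul_mem _ hv₁ hv₂, ?_⟩
           have hq₁ : a⁻¹ * v₁ * a ∈ commutator G := hconjV a v₁ hv₁
           have hc' : v₂⁻¹ * (v₁⁻¹ * (a⁻¹ * v₁ * a)) = (v₁⁻¹ * (a⁻¹ * v₁ * a)) * v₂⁻¹ :=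
             hV _ (Subgroup.inv_mem _ hv₂) _ (Subgroup.mul_mem _ (Subgroup.inv_mem _ hv₁) hq₁)
           calc (v₁ * v₂)⁻¹ * (a⁻¹ * (v₁ * v₂) * a)
               = (v₂⁻¹ * (v₁⁻¹ * (a⁻¹ * v₁ * a))) * (a⁻¹ * v₂ * a) := by group
             _ = ((v₁⁻¹ * (a⁻¹ * v₁ * a)) * v₂⁻¹) * (a⁻¹ * v₂ * a) := by rw [hc']
             _ = v₁⁻¹ * (a⁻¹ * v₁ * a) * (v₂⁻¹ * (a⁻¹ * v₂ * a)) := by group
         one_mem' := ⟨1, Subgroup.one_mem _, by group⟩
         inv_mem' := by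
           rintro y ⟨v, hv, rfl⟩
           refine ⟨v⁻¹, Subgroup.inv_mem _ hv, ?_⟩
           have hq' : a⁻¹ * v⁻¹ * a ∈ commutator G := hconjV a v⁻¹ (Subgroup.inv_mem _ hv)
           calc (v⁻¹)⁻¹ * (a⁻¹ * v⁻¹ * a) = v * (a⁻¹ * v⁻¹ * a) := by group
             _ = (a⁻¹ * v⁻¹ * a) * v := hV v hv _ hq'
             _ = (v⁻¹ * (a⁻¹ * v * a))⁻¹ := by group }, fun y => Iff.rfl⟩
    have hRN : R ≤ N := by
      intro y hy
      obtain ⟨v, hv, rfl⟩ := (hR y).mp hy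
      obtain ⟨a', ha'A, he⟩ := key v hv
      rw [he]
      have h := hNn.conj_mem x hxN a'⁻¹
      rw [inv_inv] at h
      exact N.mul_mem h (N.inv_mem hxN)
    have hRn : R.Normal := by
      refine ⟨fun y hy g => ?_⟩
      obtain ⟨v, hv, rfl⟩ := (hR y).mp hy
      obtain ⟨a₂, ha₂, u, hu, rfl⟩ := hAV g
      refine (hR _).mpr ⟨a₂ * v * a₂⁻¹, hVn.conj_mem v hv a₂, ?_⟩
      have hc2 : a⁻¹ * a₂ = a₂ * a⁻¹ := hA a⁻¹ (A.inv_mem haA) a₂ ha₂
      have em1 : a₂⁻¹ * a⁻¹ * a₂ = a⁻¹ := by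
        calc a₂⁻¹ * a⁻¹ * a₂ = a₂⁻¹ * (a⁻¹ * a₂) := by rw [mul_assoc]
          _ = a₂⁻¹ * (a₂ * a⁻¹) := by rw [hc2]
          _ = a⁻¹ := by group
      have em2 : a₂⁻¹ * a = a * a₂⁻¹ := hA a₂⁻¹ (A.inv_mem ha₂) a haA
      have hyV : v⁻¹ * (a⁻¹ * v * a) ∈ commutator G :=
        Subgroup.mul_mem _ (Subgroup.inv_mem _ hv) (hconjV a v hv)
      have huy : u * (v⁻¹ * (a⁻¹ * v * a)) = (v⁻¹ * (a⁻¹ * v * a)) * u := hV u hu _ hyV
      calc (a₂ * v * a₂⁻¹)⁻¹ * (a⁻¹ * (a₂ * v * a₂⁻¹) * a)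
          = a₂ * v⁻¹ * (a₂⁻¹ * a⁻¹ * a₂) * v * (a₂⁻¹ * a) := by group
        _ = a₂ * v⁻¹ * a⁻¹ * v * (a * a₂⁻¹) := by rw [em1, em2]
        _ = a₂ * ((v⁻¹ * (a⁻¹ * v * a)) * u) * u⁻¹ * a₂⁻¹ := by group
        _ = a₂ * (u * (v⁻¹ * (a⁻¹ * v * a))) * u⁻¹ * a₂⁻¹ := by rw [huy]
        _ = a₂ * u * (v⁻¹ * (a⁻¹ * v * a)) * (a₂ * u)⁻¹ := by group
    by_cases hRb : R = ⊥
    · have hcen : ∀ v ∈ commutator G, a * v = v * a := by
        intro v hv
        have h : v⁻¹ * (a⁻¹ * v * a) ∈ R := (hR _).mpr ⟨v, hv, rfl⟩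
        rw [hRb, Subgroup.mem_bot] at h
        have h' : v = a⁻¹ * v * a := inv_mul_eq_one.mp h
        calc a * v = a * (a⁻¹ * v * a) := congrArg (fun t => a * t) h'
          _ = v * a := by group
      by_cases ha1 : a = 1
      · rw [ha1, one_mul] at hax
        refine ⟨x, fun g => ?_, hx1⟩
        obtain ⟨b₂, hb₂, u, hu, rfl⟩ := hBV g
        calc b₂ * u * x = b₂ * (u * x) := by rw [mul_assoc]
          _ = b₂ * (x * u) := by rw [hV u hu x hxV]
          _ = (b₂ * x) * u := by rw [mul_assoc]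
          _ = (x * b₂) * u := by rw [hB b₂ hb₂ x hax]
          _ = x * (b₂ * u) := by rw [mul_assoc]
      · refine ⟨a, fun g => ?_, ha1⟩
        obtain ⟨a₂, ha₂, u, hu, rfl⟩ := hAV g
        calc a₂ * u * a = a₂ * (u * a) := by rw [mul_assoc]
          _ = a₂ * (a * u) := by rw [hcen u hu]
          _ = (a₂ * a) * u := by rw [mul_assoc]
          _ = (a * a₂) * u := by rw [hA a₂ ha₂ a haA]
          _ = a * (a₂ * u) := by rw [mul_assoc]
    · exfalso
      have hRN' : R = N := eq_of_le_of_not_lt hRN (hmin R ⟨hRn, hRb, hRN.trans hNV⟩)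
      have hxi : x⁻¹ ∈ R := by rw [hRN']; exact N.inv_mem hxN
      obtain ⟨v, hv, he⟩ := (hR _).mp hxi
      obtain ⟨a', ha'A, he'⟩ := key v hv
      rw [he] at he'
      have h1 : a'⁻¹ * x * a' = 1 := by
        have h2 : (a'⁻¹ * x * a') * x⁻¹ = 1 * x⁻¹ := by rw [one_mul]; exact he'.symm
        exact mul_right_cancel h2
      apply hx1
      calc x = a' * (a'⁻¹ * x * a') * a'⁻¹ := by group
        _ = 1 := by rw [h1]; group

theorem aux : ∀ (n : ℕ) (G : Type u) [Group G] [Finite G] (A B : Subgroup G),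
    (∀ x ∈ A, ∀ y ∈ A, x * y = y * x) → (∀ x ∈ B, ∀ y ∈ B, x * y = y * x) →
    (∀ g : G, ∃ a ∈ A, ∃ b ∈ B, g = a * b) → Nat.card G = n → (∃ g : G, g ≠ 1) →
    ∃ N : Subgroup G, N.Normal ∧ N ≠ ⊥ ∧ (N ≤ A ∨ N ≤ B) := by
  intro n
  induction n using Nat.strong_induction_on with
  | _ n ih =>
    intro G _ _ A B hA hB hAB hn hnt
    haveI : IsMulCommutative A := ⟨⟨fun x y => Subtype.ext (hA x.1 x.2 y.1 y.2)⟩⟩
    haveI : IsMulCommutative B := ⟨⟨fun x y => Subtype.ext (hB x.1 x.2 y.1 y.2)⟩⟩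
    have hVn : (commutator G).Normal := inferInstance
    have hV : ∀ x ∈ commutator G, ∀ y ∈ commutator G, x * y = y * x := by
      have h2 := Cfsg.Agent.S0572.result A B hAB
      rw [show (2 : ℕ) = 1 + 1 from rfl, derivedSeries_succ, derivedSeries_one] at h2
      intro x hx y hy
      have h4 : ⁅x, y⁆ ∈ ⁅commutator G, commutator G⁆ := Subgroup.commutator_mem_commutator hx hy
      rw [h2, Subgroup.mem_bot] at h4
      exact (commutatorElement_eq_one_iff_commute.mp h4).eq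
    have hBA : ∀ g : G, ∃ b ∈ B, ∃ a ∈ A, g = b * a := by
      intro g
      obtain ⟨a, ha, b, hb, h⟩ := hAB g⁻¹
      exact ⟨b⁻¹, B.inv_mem hb, a⁻¹, A.inv_mem ha, by rw [← mul_inv_rev, ← h, inv_inv]⟩
    have red : ∀ (A B : Subgroup G), (∀ x ∈ A, ∀ y ∈ A, x * y = y * x) →
        (∀ x ∈ B, ∀ y ∈ B, x * y = y * x) →
        (∀ g : G, ∃ a ∈ A, ∃ b ∈ B, g = a * b) → A ⊔ commutator G ≠ ⊤ →
        ∃ N : Subgroup G, N.Normal ∧ N ≠ ⊥ ∧ (N ≤ A ∨ N ≤ B) := by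
      intro A B hA hB hAB hM
      obtain ⟨M, hMdef⟩ : ∃ M : Subgroup G, M = A ⊔ commutator G := ⟨_, rfl⟩
      have hAM : A ≤ M := by rw [hMdef]; exact le_sup_left
      have hVM : commutator G ≤ M := by rw [hMdef]; exact le_sup_right
      have hMtop : M ≠ ⊤ := by rw [hMdef]; exact hM
      have hMn : ∀ m ∈ M, ∀ g : G, g * m * g⁻¹ ∈ M := by
        intro m hm g
        have hc : ⁅g, m⁆ ∈ commutator G :=
          Subgroup.commutator_mem_commutator (Subgroup.mem_top g) (Subgroup.mem_top m)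
        have h := M.mul_mem (hVM hc) hm
        have e : ⁅g, m⁆ * m = g * m * g⁻¹ := by rw [commutatorElement_def]; group
        rwa [e] at h
      by_cases hMnt : ∃ m ∈ M, m ≠ 1
      swap
      · push_neg at hMnt
        obtain ⟨g₀, hg₀⟩ := hnt
        refine ⟨⊤, inferInstance, ?_, Or.inr ?_⟩
        · intro h
          have h' : g₀ ∈ (⊥ : Subgroup G) := h ▸ Subgroup.mem_top g₀
          exact hg₀ (Subgroup.mem_bot.mp h')
        · intro g _
          obtain ⟨a, ha, b, hb, rfl⟩ := hAB g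
          have h1 : a = 1 := hMnt a (hAM ha)
          rw [h1, one_mul]; exact hb
      have hcard : Nat.card M < n := by
        have h1 : Nat.card M ≤ Nat.card G := Subgroup.card_le_card_group M
        have h2 : Nat.card M ≠ Nat.card G := fun h => hMtop ((Subgroup.card_eq_iff_eq_top M).mp h)
        omega
      obtain ⟨N₁, hN₁n, hN₁b, hN₁⟩ := ih (Nat.card M) hcard (↥M) (A.subgroupOf M) (B.subgroupOf M)
        (fun x hx y hy => Subtype.ext (hA x.1 (Subgroup.mem_subgroupOf.mp hx) y.1 (Subgroup.mem_subgroupOf.mp hy)))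
        (fun x hx y hy => Subtype.ext (hB x.1 (Subgroup.mem_subgroupOf.mp hx) y.1 (Subgroup.mem_subgroupOf.mp hy)))
        (by
          intro m
          obtain ⟨a, ha, b, hb, h⟩ := hAB m.1
          have hbM : b ∈ M := by
            have e : b = a⁻¹ * m.1 := by rw [h]; group
            rw [e]; exact M.mul_mem (M.inv_mem (hAM ha)) m.2
          exact ⟨⟨a, hAM ha⟩, Subgroup.mem_subgroupOf.mpr ha, ⟨b, hbM⟩, Subgroup.mem_subgroupOf.mpr hb,
            Subtype.ext h⟩)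
        rfl
        (by
          obtain ⟨m, hm, hm1⟩ := hMnt
          exact ⟨⟨m, hm⟩, fun h => hm1 (congrArg Subtype.val h)⟩)
      obtain ⟨N₂, hN₂def⟩ : ∃ N₂ : Subgroup G, N₂ = N₁.map M.subtype := ⟨_, rfl⟩
      have hN₂b : ∃ y ∈ N₂, y ≠ 1 := by
        obtain ⟨⟨m, hm⟩, hm1⟩ := (Subgroup.ne_bot_iff_exists_ne_one).mp hN₁b
        refine ⟨m.1, ?_, fun h => hm1 (Subtype.ext (Subtype.ext h))⟩
        rw [hN₂def]; exact ⟨m, hm, rfl⟩
      have hN₂conj : ∀ y ∈ N₂, ∀ m ∈ M, m * y * m⁻¹ ∈ N₂ := by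
        intro y hy m hm
        rw [hN₂def] at hy ⊢
        obtain ⟨y', hy', rfl⟩ := hy
        exact ⟨⟨m, hm⟩ * y' * ⟨m, hm⟩⁻¹, hN₁n.conj_mem y' hy' ⟨m, hm⟩, rfl⟩
      rcases hN₁ with hN₁A | hN₁B
      · have hN₂A : ∀ y ∈ N₂, y ∈ A := by
          intro y hy
          rw [hN₂def] at hy
          obtain ⟨m, hm, rfl⟩ := hy
          exact Subgroup.mem_subgroupOf.mp (hN₁A hm)
        have hz : ∃ z ∈ A, z ≠ 1 ∧ ∀ v ∈ commutator G, z * v = v * z := by
          by_cases hT : ∃ t ∈ A, t ∈ commutator G ∧ t ≠ 1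
          · obtain ⟨t, htA, htV, ht1⟩ := hT
            exact ⟨t, htA, ht1, fun v hv => hV t htV v hv⟩
          · push_neg at hT
            obtain ⟨y, hy, hy1⟩ := hN₂b
            refine ⟨y, hN₂A y hy, hy1, fun v hv => ?_⟩
            have hc1 : y * v * y⁻¹ * v⁻¹ ∈ N₂ := by
              have h' : v * y⁻¹ * v⁻¹ ∈ N₂ := hN₂conj y⁻¹ (N₂.inv_mem hy) v (hVM hv)
              have h := N₂.mul_mem hy h'
              have e : y * (v * y⁻¹ * v⁻¹) = y * v * y⁻¹ * v⁻¹ := by group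
              rwa [e] at h
            have hc2 : y * v * y⁻¹ * v⁻¹ ∈ commutator G :=
              (commutator G).mul_mem (hVn.conj_mem v hv y) ((commutator G).inv_mem hv)
            have h1 := hT _ (hN₂A _ hc1) hc2
            calc y * v = (y * v * y⁻¹ * v⁻¹) * (v * y) := by group
              _ = v * y := by rw [h1, one_mul]
        obtain ⟨z, hzA, hz1, hzV⟩ := hz
        haveI hMnormal : M.Normal := ⟨hMn⟩
        obtain ⟨Z, hZdef⟩ : ∃ Z : Subgroup G, Z = M ⊓ Subgroup.centralizer (M : Set G) := ⟨_, rfl⟩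
        have hZn : Z.Normal := by rw [hZdef]; infer_instance
        have hzM : ∀ m ∈ M, m * z = z * m := by
          intro m hm
          have hm' : m ∈ ((A ⊔ commutator G : Subgroup G) : Set G) := by rw [← hMdef]; exact hm
          rw [Subgroup.mul_normal] at hm'
          obtain ⟨a, ha, v, hv, rfl⟩ := Set.mem_mul.mp hm'
          calc a * v * z = a * (v * z) := by rw [mul_assoc]
            _ = a * (z * v) := by rw [hzV v hv]
            _ = (a * z) * v := by rw [mul_assoc]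
            _ = (z * a) * v := by rw [hA a ha z hzA]
            _ = z * (a * v) := by rw [mul_assoc]
        have hzZ : z ∈ Z := by
          rw [hZdef]
          exact Subgroup.mem_inf.mpr ⟨hAM hzA, Subgroup.mem_centralizer_iff.mpr (fun m hm => hzM m hm)⟩
        by_cases hZA : Z ≤ A
        · refine ⟨Z, hZn, fun h => hz1 ?_, Or.inl hZA⟩
          have h' : z ∈ (⊥ : Subgroup G) := h ▸ hzZ
          exact Subgroup.mem_bot.mp h'
        · obtain ⟨w, hwZ, hwA⟩ := SetLike.not_le_iff_exists.mp hZA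
          rw [hZdef] at hwZ
          obtain ⟨hwM, hwC0⟩ := Subgroup.mem_inf.mp hwZ
          have hwC : ∀ h ∈ (M : Set G), h * w = w * h := Subgroup.mem_centralizer_iff.mp hwC0
          have hwM' : w ∈ ((A ⊔ commutator G : Subgroup G) : Set G) := by rw [← hMdef]; exact hwM
          rw [Subgroup.mul_normal] at hwM'
          obtain ⟨a, ha, v, hv, hav⟩ := Set.mem_mul.mp hwM'
          have hvA : v ∉ A := fun h => hwA (by rw [← hav]; exact A.mul_mem ha h)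
          have hvc : ∀ a₂ ∈ A, a₂ * v = v * a₂ := by
            intro a₂ ha₂
            have e : v = a⁻¹ * w := by rw [← hav]; group
            have h1 := hwC a₂ (hAM ha₂)
            have h2 := hA a₂ ha₂ a⁻¹ (A.inv_mem ha)
            rw [e]
            calc a₂ * (a⁻¹ * w) = (a₂ * a⁻¹) * w := by rw [mul_assoc]
              _ = (a⁻¹ * a₂) * w := by rw [h2]
              _ = a⁻¹ * (a₂ * w) := by rw [mul_assoc]
              _ = a⁻¹ * (w * a₂) := by rw [h1]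
              _ = a⁻¹ * w * a₂ := by rw [mul_assoc]
          obtain ⟨a₁, ha₁, b₁, hb₁, hv2⟩ := hAB v
          have hb₁c : ∀ g : G, g * b₁ = b₁ * g := by
            intro g
            obtain ⟨a₂, ha₂, b₂, hb₂, rfl⟩ := hAB g
            have e : b₁ = a₁⁻¹ * v := by rw [hv2]; group
            have h1 : a₂ * b₁ = b₁ * a₂ := by
              rw [e]
              calc a₂ * (a₁⁻¹ * v) = (a₂ * a₁⁻¹) * v := by rw [mul_assoc]
                _ = (a₁⁻¹ * a₂) * v := by rw [hA a₂ ha₂ a₁⁻¹ (A.inv_mem ha₁)]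
                _ = a₁⁻¹ * (a₂ * v) := by rw [mul_assoc]
                _ = a₁⁻¹ * (v * a₂) := by rw [hvc a₂ ha₂]
                _ = a₁⁻¹ * v * a₂ := by rw [mul_assoc]
            calc a₂ * b₂ * b₁ = a₂ * (b₂ * b₁) := by rw [mul_assoc]
              _ = a₂ * (b₁ * b₂) := by rw [hB b₂ hb₂ b₁ hb₁]
              _ = (a₂ * b₁) * b₂ := by rw [mul_assoc]
              _ = (b₁ * a₂) * b₂ := by rw [h1]
              _ = b₁ * (a₂ * b₂) := by rw [mul_assoc]
          have hb₁1 : b₁ ≠ 1 := by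
            intro h
            apply hvA
            rw [hv2, h, mul_one]; exact ha₁
          exact of_center A B hA hB hAB b₁ hb₁c hb₁1
      · have hN₂B : ∀ y ∈ N₂, y ∈ B := by
          intro y hy
          rw [hN₂def] at hy
          obtain ⟨m, hm, rfl⟩ := hy
          exact Subgroup.mem_subgroupOf.mp (hN₁B hm)
        refine ⟨N₂, ⟨fun y hy g => ?_⟩, ?_, Or.inr hN₂B⟩
        · obtain ⟨a, ha, b, hb, rfl⟩ := hAB g
          have e : a * b * y * (a * b)⁻¹ = a * (b * y * b⁻¹) * a⁻¹ := by group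
          have e2 : b * y * b⁻¹ = y := by rw [hB b hb y (hN₂B y hy), mul_inv_cancel_right]
          rw [e, e2]; exact hN₂conj y hy a (hAM ha)
        · intro h
          obtain ⟨y, hy, hy1⟩ := hN₂b
          rw [h] at hy
          exact hy1 (Subgroup.mem_bot.mp hy)
    by_cases h1 : A ⊔ commutator G = ⊤
    · by_cases h2 : B ⊔ commutator G = ⊤
      · have hAV : ∀ g : G, ∃ a ∈ A, ∃ v ∈ commutator G, g = a * v := by
          intro g
          have hg : g ∈ ((A ⊔ commutator G : Subgroup G) : Set G) := by rw [h1]; trivial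
          rw [Subgroup.mul_normal] at hg
          obtain ⟨a, ha, v, hv, h⟩ := Set.mem_mul.mp hg
          exact ⟨a, ha, v, hv, h.symm⟩
        have hBV : ∀ g : G, ∃ b ∈ B, ∃ v ∈ commutator G, g = b * v := by
          intro g
          have hg : g ∈ ((B ⊔ commutator G : Subgroup G) : Set G) := by rw [h2]; trivial
          rw [Subgroup.mul_normal] at hg
          obtain ⟨b, hb, v, hv, h⟩ := Set.mem_mul.mp hg
          exact ⟨b, hb, v, hv, h.symm⟩
        obtain ⟨z, hz, hz1⟩ := caseI A B hA hB hAB hV hAV hBV hnt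
        exact of_center A B hA hB hAB z hz hz1
      · obtain ⟨N, h1', h2', h3'⟩ := red B A hB hA hBA h2
        exact ⟨N, h1', h2', h3'.symm⟩
    · exact red A B hA hB hAB h1

theorem result {G : Type*} [Group G] [Finite G] [Nontrivial G] (A B : Subgroup G) [IsMulCommutative A] [IsMulCommutative B] (hAB : ∀ g : G, ∃ a ∈ A, ∃ b ∈ B, g = a * b) : ∃ N : Subgroup G, N.Normal ∧ N ≠ ⊥ ∧ (N ≤ A ∨ N ≤ B) := by
  have hA := Cfsg.Agent.Lib.Helper1.comm_of_isMulCommutative (inferInstance : IsMulCommutative A)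
  have hB := Cfsg.Agent.Lib.Helper1.comm_of_isMulCommutative (inferInstance : IsMulCommutative B)
  exact aux (Nat.card G) G A B hA hB hAB rfl (exists_ne (1 : G))

end Cfsg.Agent.S0573
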