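import Cfsg.Statements.S0571
import Cfsg.Agent.S0573
import Cfsg.Agent.Lib.Helper1.Supersolvable
import Mathlib

set_option autoImplicit false
open Cfsg

namespace Cfsg.Agent.S0571


universe u

theorem cyc_comm {G : Type*} [Group G] (A : Subgroup G) [IsCyclic A] :
    ∀ x ∈ A, ∀ y ∈ A, x * y = y * x := by
  intro x hx y hy
  letI := IsCyclic.commGroup (α := A)
  exact congrArg Subtype.val (mul_comm (⟨x, hx⟩ : A) ⟨y, hy⟩)

theorem cyc_of_le {G : Type*} [Group G] (N A : Subgroup G) [IsCyclic A] (h : N ≤ A) :
    IsCyclic N := by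
  haveI : IsCyclic (N.subgroupOf A) := inferInstance
  exact isCyclic_of_surjective (Subgroup.subgroupOfEquivOfLe h).toMonoidHom
    (Subgroup.subgroupOfEquivOfLe h).surjective

theorem cyc_map {G H : Type*} [Group G] [Group H] (f : G →* H) (A : Subgroup G) [IsCyclic A] :
    IsCyclic (A.map f) :=
  isCyclic_of_surjective (f.subgroupMap A) (f.subgroupMap_surjective A)

theorem aux : ∀ (n : ℕ) (G : Type u) [Group G] [Finite G] (A B : Subgroup G),
    IsCyclic A → IsCyclic B → (∀ g : G, ∃ a ∈ A, ∃ b ∈ B, g = a * b) → Nat.card G = n →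
    Cfsg.IsSupersolvable G := by
  intro n
  induction n using Nat.strong_induction_on with
  | _ n ih =>
    intro G _ _ A B hAc hBc hAB hn
    by_cases hnt : ∃ g : G, g ≠ 1
    · obtain ⟨N, hNn, hNb, hN⟩ := Cfsg.Agent.S0573.aux (Nat.card G) G A B (cyc_comm A)
        (cyc_comm B) hAB rfl hnt
      haveI := hNn
      haveI : IsCyclic N := by
        rcases hN with h | h
        · exact cyc_of_le N A h
        · exact cyc_of_le N B h
      have hcard : Nat.card (G ⧸ N) < n := by
        have h1 : 1 < Nat.card N := by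
          rw [Subgroup.one_lt_card_iff_ne_bot]; exact hNb
        have h2 : 0 < N.index := Nat.pos_of_ne_zero Subgroup.index_ne_zero_of_finite
        have h3 := Subgroup.card_mul_index N
        have h4 : N.index = Nat.card (G ⧸ N) := Subgroup.index_eq_card N
        rw [← hn, ← h4]
        nlinarith
      have hq := ih _ hcard (G ⧸ N) (A.map (QuotientGroup.mk' N)) (B.map (QuotientGroup.mk' N))
        (cyc_map _ A) (cyc_map _ B) (by
          intro q
          obtain ⟨g, rfl⟩ := QuotientGroup.mk'_surjective N q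
          obtain ⟨a, ha, b, hb, rfl⟩ := hAB g
          exact ⟨_, Subgroup.mem_map_of_mem _ ha, _, Subgroup.mem_map_of_mem _ hb,
            map_mul _ _ _⟩) rfl
      exact Cfsg.Agent.Lib.Helper1.isSupersolvable_of_quotient_cyclic N hq
    · have hnt' : ∀ g : G, g = 1 := fun g => by_contra (fun h => hnt ⟨g, h⟩)
      haveI : Subsingleton G := ⟨fun a b => by rw [hnt' a, hnt' b]⟩
      haveI : IsCyclic G := isCyclic_of_subsingleton
      exact Cfsg.Agent.Lib.Helper1.isSupersolvable_of_isCyclic
theorem result {G : Type*} [Group G] [Finite G] (A B : Subgroup G) [IsCyclic A] [IsCyclic B] (hAB : ∀ g : G, ∃ a ∈ A, ∃ b ∈ B, g = a * b) : Cfsg.IsSupersolvable G := by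
  exact aux (Nat.card G) G A B inferInstance inferInstance hAB rfl

end Cfsg.Agent.S0571
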