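import Mathlib
import Cfsg.Statements.S0575

set_option autoImplicit false
open Cfsg

namespace Cfsg.Agent.S0575

/-- If H is a normal subgroup of a finite group G, then the Frattini subgroup of H, viewed in G, lies in the Frattini subgroup of G. -/
theorem result {G : Type*} [Group G] [Finite G] (H : Subgroup G) [H.Normal] : (frattini ↥H).map H.subtype ≤ frattini G := by
  have hFn : ((frattini ↥H).map H.subtype).Normal := ConjAct.normal_of_characteristic_of_normal
  have hFH : (frattini ↥H).map H.subtype ≤ H := by
    rintro _ ⟨y, _, rfl⟩; exact y.2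
  have key : ∀ M : Subgroup G, IsCoatom M → (frattini ↥H).map H.subtype ≤ M := by
    intro M hM
    by_contra hne
    have hsup : M ⊔ (frattini ↥H).map H.subtype = ⊤ :=
      hM.2 _ (lt_of_le_of_ne le_sup_left (fun h => hne (by rw [h]; exact le_sup_right)))
    have htop : (M.subgroupOf H) ⊔ frattini ↥H = ⊤ := by
      rw [eq_top_iff]
      rintro ⟨x, hx⟩ -
      have hx' : x ∈ M ⊔ (frattini ↥H).map H.subtype := by rw [hsup]; trivial
      obtain ⟨m, hm, f, hf, rfl⟩ := Subgroup.mem_sup_of_normal_right.mp hx'
      obtain ⟨f', hf', rfl⟩ := hf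
      have hmH : m ∈ H := by
        have : m = (m * H.subtype f') * (H.subtype f')⁻¹ := by group
        rw [this]; exact H.mul_mem hx (H.inv_mem f'.2)
      have : (⟨m * H.subtype f', hx⟩ : H) = ⟨m, hmH⟩ * f' := Subtype.ext rfl
      rw [this]
      exact Subgroup.mul_mem_sup (Subgroup.mem_subgroupOf.mpr hm) hf'
    have h1 := frattini_nongenerating htop
    rw [Subgroup.subgroupOf_eq_top] at h1
    exact hne (hFH.trans h1)
  show (frattini ↥H).map H.subtype ≤ ⨅ a ∈ {a : Subgroup G | IsCoatom a}, a
  exact le_iInf₂ key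

end Cfsg.Agent.S0575
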