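import Cfsg.Statements.S0576
import Mathlib

set_option autoImplicit false
open Cfsg

namespace Cfsg.Agent.S0576

theorem inn_normal (H : Type*) [Group H] : (MulAut.conj : H →* MulAut H).range.Normal := by
  constructor
  rintro _ ⟨h, rfl⟩ α
  refine ⟨α h, ?_⟩
  ext x
  simp [MulAut.conj_apply]

/-- Let H be a normal subgroup of a finite group G with H contained in the Frattini subgroup of G. Then the group of inner automorphisms of H is contained in the Frattini subgroup of the automorphism group of H. -/
theorem result {G : Type*} [Group G] [Finite G] (H : Subgroup G) [H.Normal] (hH : H ≤ frattini G) : (MulAut.conj : ↥H →* MulAut ↥H).range ≤ frattini (MulAut ↥H) := by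
  rw [frattini, Order.radical]
  refine le_iInf₂ fun M hM => ?_
  by_contra hnot
  have hM' : IsCoatom M := hM
  have hn := inn_normal ↥H
  have hsup : M ⊔ (MulAut.conj : ↥H →* MulAut ↥H).range = ⊤ := by
    by_contra hne
    have hlt : M < M ⊔ (MulAut.conj : ↥H →* MulAut ↥H).range := by
      refine lt_of_le_of_ne le_sup_left ?_
      intro heq
      apply hnot
      rw [heq]
      exact le_sup_right
    exact hne (hM'.2 _ hlt)
  have hL : (M.comap (MulAut.conjNormal (H := H))) ⊔ frattini G = ⊤ := by
    rw [eq_top_iff]
    intro g _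
    have hg : MulAut.conjNormal (H := H) g ∈
        ((M ⊔ (MulAut.conj : ↥H →* MulAut ↥H).range : Subgroup (MulAut ↥H)) : Set (MulAut ↥H)) := by
      rw [hsup]; trivial
    rw [Subgroup.mul_normal] at hg
    obtain ⟨m, hm, n, hn', hmn⟩ := Set.mem_mul.mp hg
    obtain ⟨h, rfl⟩ := hn'
    have h1 : g * (h : G)⁻¹ ∈ M.comap (MulAut.conjNormal (H := H)) := by
      rw [Subgroup.mem_comap, map_mul, map_inv, MulAut.conjNormal_val, ← hmn]
      simpa using hm
    have h2 : (h : G) ∈ frattini G := hH h.2
    have h3 : g = g * (h : G)⁻¹ * h := by group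
    rw [h3]
    exact Subgroup.mul_mem _ (Subgroup.mem_sup_left h1) (Subgroup.mem_sup_right h2)
  have htop := frattini_nongenerating hL
  apply hnot
  rintro _ ⟨h, rfl⟩
  have : (h : G) ∈ M.comap (MulAut.conjNormal (H := H)) := by rw [htop]; trivial
  rw [Subgroup.mem_comap, MulAut.conjNormal_val] at this
  exact this

end Cfsg.Agent.S0576
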