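import Cfsg.Statements.S0577
import Mathlib
import Cfsg.Agent.Lib.Helper1.Schmidt3
import Cfsg.Agent.Lib.Helper1.Abel

set_option autoImplicit false
open Cfsg

namespace Cfsg.Agent.S0577

open Cfsg.Agent.Lib.Helper1 Cfsg.Agent.Lib.Lead Cfsg.Agent.Lib.Helper6
open scoped commutatorElement

/-- Let G be a finite minimal non-nilpotent group and Q a normal Sylow q-subgroup of G, and let D be the commutator subgroup of Q regarded in G (a normal subgroup). Then G modulo D is non-abelian and all its proper subgroups are abelian. -/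
theorem result {G : Type*} [Group G] [Finite G] (hG : Cfsg.IsMinimalNonNilpotent G) (q : ℕ) [Fact q.Prime] (hq : q ∣ Nat.card G) (Q : Sylow q G) (hQ : (Q : Subgroup G).Normal) (D : Subgroup G) [D.Normal] (hD : D = (commutator ↥(Q : Subgroup G)).map (Q : Subgroup G).subtype) : ¬ IsMulCommutative (G ⧸ D) ∧ ∀ K : Subgroup (G ⧸ D), K ≠ ⊤ → IsMulCommutative K := by
  obtain ⟨p, q₀, hp, hq₀, hpq, P, Q₀, hcyc, hQ₀n, hsup, hPn⟩ := schmidt_structure hG.1 hG.2
  have : Fact p.Prime := ⟨hp⟩
  have : Fact q₀.Prime := ⟨hq₀⟩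
  have hq' : q = p ∨ q = q₀ := prime_dvd_card_of_sup_eq_top P Q₀ hQ₀n hsup q Fact.out hq
  rcases hq' with hqp | hqq
  · exfalso
    subst hqp
    rw [sylow_eq_of_normal Q P hQ] at hPn
    exact hPn hQ
  subst hqq
  have hQQ : Q₀ = Q := sylow_eq_of_normal Q Q₀ hQ
  subst hQQ
  have hD_le : D ≤ (Q₀ : Subgroup G) := by rw [hD]; exact Subgroup.map_subtype_le _
  have hQne : (Q₀ : Subgroup G) ≠ ⊥ := Sylow.ne_bot_of_dvd_card Q₀ hq
  have hDne : D ≠ (Q₀ : Subgroup G) := by
    intro h
    have h1 : commutator ↥(Q₀ : Subgroup G) = ⊤ := by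
      apply Subgroup.map_injective (Subgroup.subtype_injective (Q₀ : Subgroup G))
      rw [← hD, h, ← MonoidHom.range_eq_map, Subgroup.range_subtype]
    have : Nontrivial ↥(Q₀ : Subgroup G) := (Subgroup.nontrivial_iff_ne_bot _).mpr hQne
    have : Group.IsNilpotent ↥(Q₀ : Subgroup G) := Q₀.isPGroup'.isNilpotent
    exact (Group.IsSolvable.commutator_lt_top_of_nontrivial ↥(Q₀ : Subgroup G)).ne h1
  have hDlt : D < (Q₀ : Subgroup G) := lt_of_le_of_ne hD_le hDne
  constructor
  · intro hcomm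
    have hcD : ∀ a b : G, a * b * a⁻¹ * b⁻¹ ∈ D := by
      intro a b
      rw [← QuotientGroup.eq_one_iff]
      have h1 : (a : G ⧸ D) * (b : G ⧸ D) = (b : G ⧸ D) * (a : G ⧸ D) := mul_comm' _ _
      rw [QuotientGroup.mk_mul, QuotientGroup.mk_mul, QuotientGroup.mk_mul, QuotientGroup.mk_inv,
        QuotientGroup.mk_inv, h1]
      group
    have hKn : ((P : Subgroup G) ⊔ D).Normal := by
      constructor
      intro k hk g
      have : g * k * g⁻¹ = (g * k * g⁻¹ * k⁻¹) * k := by group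
      rw [this]
      exact Subgroup.mul_mem _ (Subgroup.mem_sup_right (hcD g k)) hk
    have hKne : (P : Subgroup G) ⊔ D ≠ ⊤ := by
      intro htop
      have h1 := relIndex_mul_card_of_le (le_sup_left : D ≤ D ⊔ (P : Subgroup G))
      rw [Subgroup.relIndex_sup_left, sup_comm, htop, Subgroup.card_top] at h1
      have h2 := Nat.le_of_dvd Nat.card_pos (Subgroup.relIndex_dvd_card D (P : Subgroup G))
      have h3 := card_lt_of_lt hDlt
      have hcop : (Nat.card (P : Subgroup G)).Coprime (Nat.card (Q₀ : Subgroup G)) :=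
        IsPGroup.coprime_card_of_ne p q hpq _ _ P.isPGroup' Q₀.isPGroup'
      have h4 := Nat.le_of_dvd Nat.card_pos (Nat.Coprime.mul_dvd_of_dvd_of_dvd hcop
        (Subgroup.card_subgroup_dvd_card (P : Subgroup G))
        (Subgroup.card_subgroup_dvd_card (Q₀ : Subgroup G)))
      have hPpos : 0 < Nat.card (P : Subgroup G) := Nat.card_pos
      have h5 : D.relIndex (P : Subgroup G) * Nat.card D ≤ Nat.card (P : Subgroup G) * Nat.card D :=
        Nat.mul_le_mul_right _ h2
      have h6 : Nat.card (P : Subgroup G) * Nat.card D <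
          Nat.card (P : Subgroup G) * Nat.card (Q₀ : Subgroup G) :=
        (Nat.mul_lt_mul_left hPpos).mpr h3
      omega
    have hKnil := hG.2 _ hKne
    have hKN := le_normalizer_of_nilpotent _ hKnil P le_sup_left
    have hfr := Sylow.normalizer_sup_eq_top' P
      (le_sup_left : (P : Subgroup G) ≤ (P : Subgroup G) ⊔ D)
    apply hPn
    rw [← Subgroup.normalizer_eq_top_iff, ← hfr]
    exact (sup_eq_left.mpr hKN).symm
  · intro Kb hKb
    obtain ⟨K, hKdef⟩ : ∃ K : Subgroup G, K = Kb.comap (QuotientGroup.mk' D) := ⟨_, rfl⟩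
    have hKne : K ≠ ⊤ := by
      intro h
      apply hKb
      rw [← Subgroup.map_comap_eq_self_of_surjective (QuotientGroup.mk'_surjective D) Kb,
        ← hKdef, h, Subgroup.map_top_of_surjective _ (QuotientGroup.mk'_surjective D)]
    have hKnil := hG.2 K hKne
    have hcardK : ∀ r : ℕ, r.Prime → r ∣ Nat.card K → r = p ∨ r = q := fun r hr hrd =>
      prime_dvd_card_of_sup_eq_top P Q₀ hQ hsup r hr
        (hrd.trans (Subgroup.card_subgroup_dvd_card K))
    obtain ⟨A, B, hA, hB, hAB, hcAB⟩ := exists_decomp_of_nilpotent hpq K hKnil hcardK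
    have hKb' : Kb = A.map (QuotientGroup.mk' D) ⊔ B.map (QuotientGroup.mk' D) := by
      rw [← Subgroup.map_sup, hAB, hKdef,
        Subgroup.map_comap_eq_self_of_surjective (QuotientGroup.mk'_surjective D)]
    rw [hKb']
    apply isMulCommutative_of_comm
    apply comm_of_mem_sup
    · rintro _ ⟨a, ha, rfl⟩ _ ⟨a', ha', rfl⟩
      rw [← map_mul, ← map_mul, comm_of_pgroup_of_cyclic_sylow P hcyc A hA a ha a' ha']
    · rintro _ ⟨a, ha, rfl⟩ _ ⟨b, hb, rfl⟩
      rw [← map_mul, ← map_mul, hcAB a ha b hb]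
    · rintro _ ⟨b, hb, rfl⟩ _ ⟨b', hb', rfl⟩
      have hBQ := le_normal_sylow Q₀ hQ B hB
      rw [← map_mul, ← map_mul]
      show ((b * b' : G) : G ⧸ D) = ((b' * b : G) : G ⧸ D)
      rw [QuotientGroup.eq, hD]
      refine ⟨⁅(⟨b'⁻¹, inv_mem (hBQ hb')⟩ : ↥(Q₀ : Subgroup G)), ⟨b⁻¹, inv_mem (hBQ hb)⟩⁆, ?_, ?_⟩
      · rw [SetLike.mem_coe, commutator_def]
        exact Subgroup.commutator_mem_commutator (Subgroup.mem_top _) (Subgroup.mem_top _)
      · simp [commutatorElement_def, mul_assoc]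

end Cfsg.Agent.S0577
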