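import Cfsg.Statements.S0578
import Mathlib
import Cfsg.Agent.Lib.Helper1.Abel
import Cfsg.Agent.Lib.Helper3.Nilp

set_option autoImplicit false
open Cfsg

namespace Cfsg.Agent.S0578

open scoped commutatorElement

lemma comm_of_normal_abelian_central {Q : Type*} [Group Q] [Finite Q] [Group.IsNilpotent Q]
    (h : ∀ A₀ : Subgroup Q, A₀.Normal → IsMulCommutative A₀ → A₀ ≤ Subgroup.center Q) :
    ∀ a b : Q, a * b = b * a := by
  by_contra hcon
  have hne : ¬ (⊤ : Subgroup Q) ≤ Subgroup.center Q := by
    intro hle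
    apply hcon
    intro a b
    exact (Subgroup.mem_center_iff.mp (hle (Subgroup.mem_top b)) a)
  obtain ⟨x, -, hxC, hx⟩ := Cfsg.Agent.Lib.Helper3.exists_central_mod (Subgroup.center Q) ⊤ le_top hne
  have hZab : IsMulCommutative (Subgroup.center Q) :=
    Cfsg.Agent.Lib.Helper1.isMulCommutative_of_comm (fun a ha b _ =>
      ((Subgroup.mem_center_iff.mp ha) b).symm)
  have hab : IsMulCommutative ↥(Subgroup.center Q ⊔ Subgroup.zpowers x) :=
    Cfsg.Agent.Lib.Helper1.isMulCommutative_sup_zpowers hZab x (fun a ha =>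
      ((Subgroup.mem_center_iff.mp ha) x).symm)
  have hnorm : (Subgroup.center Q ⊔ Subgroup.zpowers x).Normal := by
    constructor
    intro n hn g
    have hle : Subgroup.center Q ⊔ Subgroup.zpowers x ≤
        (Subgroup.center Q ⊔ Subgroup.zpowers x).comap (MulAut.conj g).toMonoidHom := by
      apply sup_le
      · intro z hz
        rw [Subgroup.mem_comap]
        apply Subgroup.mem_sup_left
        show g * z * g⁻¹ ∈ Subgroup.center Q
        exact Subgroup.Normal.conj_mem inferInstance z hz g
      · rw [Subgroup.zpowers_le, Subgroup.mem_comap]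
        show g * x * g⁻¹ ∈ Subgroup.center Q ⊔ Subgroup.zpowers x
        have e : g * x * g⁻¹ = (g * x * g⁻¹ * x⁻¹) * x := by group
        rw [e]
        exact Subgroup.mul_mem _ (Subgroup.mem_sup_left (hx g))
          (Subgroup.mem_sup_right (Subgroup.mem_zpowers x))
    exact hle hn
  exact hxC (h _ hnorm hab (Subgroup.mem_sup_right (Subgroup.mem_zpowers x)))

lemma sylow_comm {G : Type*} [Group G] [Finite G]
    (h : ∀ A : Subgroup G, IsMulCommutative A →
      Subgroup.normalizer (A : Set G) = Subgroup.centralizer (A : Set G))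
    (p : ℕ) [Fact p.Prime] (P : Sylow p G) : ∀ a b : (P : Subgroup G), a * b = b * a := by
  have hnil : Group.IsNilpotent (P : Subgroup G) := P.isPGroup'.isNilpotent
  apply comm_of_normal_abelian_central
  intro A₀ hA₀n hA₀c
  have hAc : IsMulCommutative (A₀.map (P : Subgroup G).subtype) := by
    apply Cfsg.Agent.Lib.Helper1.isMulCommutative_of_comm
    rintro _ ⟨a, ha, rfl⟩ _ ⟨b, hb, rfl⟩
    have := Cfsg.Agent.Lib.Helper1.comm_of_isMulCommutative hA₀c a ha b hb
    have h2 := congrArg Subtype.val this
    simpa using h2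
  have hNC := h _ hAc
  intro a₀ ha₀
  rw [Subgroup.mem_center_iff]
  intro g
  have hg : (g : G) ∈ Subgroup.normalizer ((A₀.map (P : Subgroup G).subtype : Subgroup G) :
      Set G) := by
    rw [Subgroup.mem_normalizer_iff]
    intro y
    constructor
    · rintro ⟨a, ha, rfl⟩
      exact ⟨g * a * g⁻¹, hA₀n.conj_mem a ha g, by simp⟩
    · rintro ⟨b, hb, hb'⟩
      have h3 := hA₀n.conj_mem b hb g⁻¹
      refine ⟨g⁻¹ * b * g⁻¹⁻¹, h3, ?_⟩
      simp only [Subgroup.coe_subtype, Subgroup.coe_mul, Subgroup.coe_inv, inv_inv]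
      rw [Subgroup.coe_subtype] at hb'
      rw [hb']
      group
  rw [hNC, Subgroup.mem_centralizer_iff] at hg
  have h4 := hg (a₀ : G) ⟨a₀, ha₀, rfl⟩
  exact Subtype.ext h4.symm

/-- If in a finite group the normalizer of each abelian subgroup coincides with its centralizer, then the group is abelian. -/
theorem result {G : Type*} [Group G] [Finite G] (h : ∀ A : Subgroup G, IsMulCommutative A → Subgroup.normalizer (A : Set G) = Subgroup.centralizer (A : Set G)) : IsMulCommutative G := by
  classical
  have hcomm : ∀ a b : G, a * b = b * a := by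
    intro a b
    have hc1 : ⁅a, b⁆ = 1 := by
      by_contra hne
      have ho : orderOf ⁅a, b⁆ ≠ 1 := by rwa [Ne, orderOf_eq_one_iff]
      obtain ⟨p, hp, hpd⟩ := Nat.exists_prime_and_dvd ho
      have : Fact p.Prime := ⟨hp⟩
      obtain ⟨P⟩ := (inferInstance : Nonempty (Sylow p G))
      have hPc := sylow_comm h p P
      have hPab : IsMulCommutative (P : Subgroup G) := ⟨⟨hPc⟩⟩
      have hNC : Subgroup.normalizer ((P : Subgroup G) : Set G) ≤
          Subgroup.centralizer ((P : Subgroup G) : Set G) := (h _ hPab).le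
      have hcompl := MonoidHom.ker_transferSylow_isComplement' P hNC
      have hmem : ⁅a, b⁆ ∈ (MonoidHom.transferSylow P hNC).ker := by
        rw [MonoidHom.mem_ker, map_commutatorElement, commutatorElement_eq_one_iff_mul_comm]
        exact hPc _ _
      have hK := hcompl.card_mul_card
      have hidx := Subgroup.card_mul_index (P : Subgroup G)
      have hKeq : Nat.card (MonoidHom.transferSylow P hNC).ker = (P : Subgroup G).index := by
        have hpos : 0 < Nat.card (P : Subgroup G) := Nat.card_pos
        apply Nat.eq_of_mul_eq_mul_right hpos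
        rw [hK, mul_comm, hidx]
      have hdvd : orderOf ⁅a, b⁆ ∣ Nat.card (MonoidHom.transferSylow P hNC).ker := by
        have := orderOf_dvd_natCard (⟨⁅a, b⁆, hmem⟩ : (MonoidHom.transferSylow P hNC).ker)
        rwa [Subgroup.orderOf_mk] at this
      rw [hKeq] at hdvd
      exact P.not_dvd_index (hpd.trans hdvd)
    exact commutatorElement_eq_one_iff_mul_comm.mp hc1
  exact ⟨⟨hcomm⟩⟩

end Cfsg.Agent.S0578
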