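import Mathlib
import Cfsg.Statements.S0583

set_option autoImplicit false
open Cfsg

namespace Cfsg.Agent.S0583

/-- In a finite group the Fitting subgroup is contained in the centralizer of each minimal normal subgroup. -/
theorem result {G : Type*} [Group G] [Finite G] (M : Subgroup G) [M.Normal] (hM : M ≠ ⊥) (hmin : ∀ K : Subgroup G, K.Normal → K ≤ M → K = ⊥ ∨ K = M) : Cfsg.fittingSubgroup G ≤ Subgroup.centralizer (M : Set G) := by
  apply sSup_le
  rintro N ⟨hN, hnil⟩
  haveI := hN
  obtain ⟨n, hn⟩ := (Subgroup.isNilpotent_iff_lowerCentralSeries N).mp hnil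
  rw [← Subgroup.commutator_eq_bot_iff_le_centralizer]
  have hnorm : (⁅M, N⁆ : Subgroup G).Normal := inferInstance
  rcases hmin ⁅M, N⁆ hnorm (Subgroup.commutator_le_left M N) with h | h
  · rw [Subgroup.commutator_comm]; exact h
  · exfalso
    have hMN : M ≤ N := by rw [← h]; exact Subgroup.commutator_le_right M N
    have key : ∀ k, M ≤ N.lowerCentralSeries k := by
      intro k
      induction k with
      | zero => simpa using hMN
      | succ k ih =>
        rw [Subgroup.lowerCentralSeries_succ]
        calc M = ⁅M, N⁆ := h.symm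
          _ ≤ ⁅N.lowerCentralSeries k, N⁆ := Subgroup.commutator_mono ih le_rfl
    have := key n
    rw [hn] at this
    exact hM (le_bot_iff.mp this)

end Cfsg.Agent.S0583
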