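import Cfsg.Statements.S0584
import Mathlib

set_option autoImplicit false
open Cfsg

namespace Cfsg.Agent.S0584

/-- Let B ≤ A be normal subgroups of a finite group G with B contained in the Frattini subgroup of G. If A modulo B is nilpotent then A is nilpotent. -/
theorem result {G : Type*} [Group G] [Finite G] (A B : Subgroup G) [A.Normal] [B.Normal] (hBA : B ≤ A) (hB : B ≤ frattini G) (h : Group.IsNilpotent (↥A ⧸ B.subgroupOf A)) : Group.IsNilpotent A := by
  have q := (Group.isNilpotent_of_finite_tfae (G := A)).out 0 3
  rw [q]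
  intro p hp P
  have q' := (Group.isNilpotent_of_finite_tfae (G := ↥A ⧸ B.subgroupOf A)).out 0 3
  have hall := q'.mp h
  have hsurj : Function.Surjective (QuotientGroup.mk' (B.subgroupOf A)) :=
    QuotientGroup.mk'_surjective _
  have hPbar := hall p hp (P.mapSurjective hsurj)
  have hQn : ((P : Subgroup A) ⊔ B.subgroupOf A).Normal := by
    have h1 : (((P.mapSurjective hsurj : Sylow p _) : Subgroup _).comap
        (QuotientGroup.mk' (B.subgroupOf A))).Normal := Subgroup.Normal.comap hPbar _
    rwa [Sylow.coe_mapSurjective, Subgroup.comap_map_eq, QuotientGroup.ker_mk'] at h1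
  have hfrA : Subgroup.normalizer ((P : Subgroup A) : Set A) ⊔
      ((P : Subgroup A) ⊔ B.subgroupOf A) = ⊤ := Sylow.normalizer_sup_eq_top' P le_sup_left
  have hfrA2 : Subgroup.normalizer ((P : Subgroup A) : Set A) ⊔ B.subgroupOf A = ⊤ := by
    rw [eq_top_iff, ← hfrA]
    exact sup_le le_sup_left (sup_le (le_sup_of_le_left Subgroup.le_normalizer) le_sup_right)
  have hfrG := Sylow.normalizer_sup_eq_top P
  have hkey : Subgroup.normalizer (((P : Subgroup A).map A.subtype : Subgroup G) : Set G) ⊔
      frattini G = ⊤ := by
    rw [eq_top_iff, ← hfrG]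
    refine sup_le le_sup_left ?_
    intro a ha
    have hmem : (⟨a, ha⟩ : A) ∈ Subgroup.normalizer ((P : Subgroup A) : Set A) ⊔
        B.subgroupOf A := by rw [hfrA2]; trivial
    have h2 : A.subtype ⟨a, ha⟩ ∈ (Subgroup.normalizer ((P : Subgroup A) : Set A) ⊔
        B.subgroupOf A).map A.subtype := Subgroup.mem_map_of_mem _ hmem
    rw [Subgroup.map_sup] at h2
    have hle : (Subgroup.normalizer ((P : Subgroup A) : Set A)).map A.subtype ⊔
        (B.subgroupOf A).map A.subtype ≤
        Subgroup.normalizer (((P : Subgroup A).map A.subtype : Subgroup G) : Set G) ⊔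
          frattini G := by
      apply sup_le_sup
      · exact Subgroup.le_normalizer_map A.subtype
      · rw [Subgroup.subgroupOf_map_subtype]
        exact le_trans inf_le_left hB
    exact hle h2
  have hN := frattini_nongenerating hkey
  have hPn : ((P : Subgroup A).map A.subtype).Normal := Subgroup.normalizer_eq_top_iff.mp hN
  exact hPn.of_map_subtype

end Cfsg.Agent.S0584
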