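import Mathlib
import Cfsg.Statements.S0585

set_option autoImplicit false
open Cfsg

namespace Cfsg.Agent.S0585

theorem result {G : Type*} [Group G] [Finite G] (hΦ : frattini G = ⊥) (A : Subgroup G) [A.Normal] [IsMulCommutative A] : ∃ H : Subgroup G, Subgroup.IsComplement' A H := by
  have hcomm : ∀ a ∈ A, ∀ b ∈ A, a * b = b * a := by
    intro a ha b hb
    have := mul_comm' (⟨a, ha⟩ : A) ⟨b, hb⟩
    exact congrArg Subtype.val this
  obtain ⟨H, hH, hmin⟩ := wellFounded_lt.has_min {H : Subgroup G | A ⊔ H = ⊤} ⟨⊤, sup_top_eq A⟩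
  have hH' : A ⊔ H = ⊤ := hH
  have hDnormal : (A ⊓ H).Normal := by
    constructor
    intro d hd g
    have hg : g ∈ A ⊔ H := by rw [hH']; trivial
    obtain ⟨a, ha, h, hh, rfl⟩ := Subgroup.mem_sup_of_normal_left.mp hg
    have hd' : h * d * h⁻¹ ∈ A ⊓ H :=
      ⟨Subgroup.Normal.conj_mem inferInstance d hd.1 h, H.mul_mem (H.mul_mem hh hd.2) (H.inv_mem hh)⟩
    have e : a * h * d * (a * h)⁻¹ = h * d * h⁻¹ := by
      have := hcomm a ha (h * d * h⁻¹) hd'.1
      calc a * h * d * (a * h)⁻¹ = a * (h * d * h⁻¹) * a⁻¹ := by group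
        _ = (h * d * h⁻¹) * a * a⁻¹ := by rw [this]
        _ = h * d * h⁻¹ := by group
    rw [e]; exact hd'
  have hD : A ⊓ H = ⊥ := by
    by_contra hne
    have hex : ∃ M : Subgroup G, IsCoatom M ∧ ¬ (A ⊓ H ≤ M) := by
      by_contra hcon
      push Not at hcon
      apply hne
      rw [eq_bot_iff, ← hΦ]
      unfold frattini Order.radical
      exact le_iInf₂ (fun M hM => hcon M hM)
    obtain ⟨M, hM, hDM⟩ := hex
    have hsup : (A ⊓ H) ⊔ M = ⊤ := by
      apply hM.2
      refine lt_of_le_of_ne le_sup_right ?_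
      intro heq
      apply hDM
      rw [heq]; exact le_sup_left
    have hHle : H ≤ A ⊔ (H ⊓ M) := by
      intro h hh
      have hg : h ∈ (A ⊓ H) ⊔ M := by rw [hsup]; trivial
      obtain ⟨d, hd, m, hm, rfl⟩ := Subgroup.mem_sup_of_normal_left.mp hg
      have hmH : m ∈ H := by
        have : m = d⁻¹ * (d * m) := by group
        rw [this]; exact H.mul_mem (H.inv_mem hd.2) hh
      exact Subgroup.mul_mem_sup hd.1 ⟨hmH, hm⟩
    have htop : A ⊔ (H ⊓ M) = ⊤ := by
      rw [eq_top_iff, ← hH']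
      exact sup_le le_sup_left hHle
    have hnlt : ¬ (H ⊓ M < H) := hmin (H ⊓ M) htop
    have hHM : H ≤ M := by
      by_contra hc
      apply hnlt
      refine lt_of_le_of_ne inf_le_left ?_
      intro heq
      apply hc
      rw [← heq]; exact inf_le_right
    exact hDM (inf_le_right.trans hHM)
  refine ⟨H, Subgroup.isComplement'_of_disjoint_and_mul_eq_univ (disjoint_iff.mpr hD) ?_⟩
  rw [← Subgroup.normal_mul, hH']; rfl

end Cfsg.Agent.S0585
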