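import Cfsg.Statements.S0586
import Mathlib
import Cfsg.Agent.Lib.Helper1.CoreFree
import Cfsg.Agent.Lib.Helper1.Abel
import Cfsg.Agent.Lib.Helper6.Wielandt
import Cfsg.Agent.Lib.Lead.Fitting2
import Cfsg.Agent.Lib.Lead.PFrat

set_option autoImplicit false
open Cfsg

namespace Cfsg.Agent.S0586

open scoped commutatorElement

theorem normal_of_sup_eq_top {G : Type*} [Group G] [Finite G] (X A H : Subgroup G)
    (hsup : A ⊔ H = ⊤) (hA : ∀ a ∈ A, ∀ x ∈ X, a * x * a⁻¹ ∈ X)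
    (hH : ∀ h ∈ H, ∀ x ∈ X, h * x * h⁻¹ ∈ X) : X.Normal := by
  have h1 : A ⊔ H ≤ Subgroup.normalizer ((X : Subgroup G) : Set G) :=
    sup_le (fun a ha => Cfsg.Agent.Lib.Helper6.mem_normalizer_of_conj_mem (hA a ha))
      (fun h hh => Cfsg.Agent.Lib.Helper6.mem_normalizer_of_conj_mem (hH h hh))
  rw [hsup, top_le_iff] at h1
  exact Subgroup.normalizer_eq_top_iff.mp h1

theorem exists_coatom_not_le {G : Type*} [Group G] (hΦ : frattini G = ⊥) (X : Subgroup G)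
    (hX : X ≠ ⊥) : ∃ M : Subgroup G, IsCoatom M ∧ ¬ X ≤ M := by
  by_contra h
  push Not at h
  apply hX
  have : X ≤ frattini G := by
    rw [frattini, Order.radical]
    exact le_iInf₂ (fun M hM => h M hM)
  rw [hΦ] at this
  exact le_bot_iff.mp this

theorem commutator_le_coatom {G : Type*} [Group G] [Finite G] (F : Subgroup G) [F.Normal]
    [Group.IsNilpotent F] (M : Subgroup G) (hM : IsCoatom M) : ⁅F, F⁆ ≤ M := by
  by_contra hnot
  have hsup : ⁅F, F⁆ ⊔ M = ⊤ :=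
    hM.2 _ (lt_of_le_of_ne le_sup_right (fun h => hnot (le_sup_left.trans h.ge)))
  have hK' : M.subgroupOf F ≠ ⊤ := by
    intro h
    rw [Subgroup.subgroupOf_eq_top] at h
    exact hnot ((Subgroup.commutator_le_left F F).trans h)
  obtain ⟨K₁, hK₁, hle⟩ := (eq_top_or_exists_le_coatom (M.subgroupOf F)).resolve_left hK'
  have h02 := ((Group.isNilpotent_of_finite_tfae (G := ↥F)).out 0 2).mp ‹Group.IsNilpotent ↥F›
  haveI hK₁n : K₁.Normal := h02 K₁ hK₁
  have hprime : (Nat.card (↥F ⧸ K₁)).Prime := by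
    have h1 := Cfsg.Agent.Lib.Lead.index_prime_of_normal_coatom K₁ hK₁
    exact h1
  haveI : Fact (Nat.card (↥F ⧸ K₁)).Prime := ⟨hprime⟩
  have hcyc : IsCyclic (↥F ⧸ K₁) := isCyclic_of_prime_card rfl
  have hcomm : ∀ x y : ↥F ⧸ K₁, x * y = y * x := fun x y => (IsCyclic.commGroup).mul_comm x y
  have hcle : _root_.commutator ↥F ≤ K₁ := by
    rw [commutator_def, Subgroup.commutator_le]
    intro x _ y _
    apply (QuotientGroup.eq_one_iff _).mp
    show (QuotientGroup.mk' K₁) ⁅x, y⁆ = 1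
    rw [map_commutatorElement, commutatorElement_eq_one_iff_commute]
    exact hcomm _ _
  apply hK₁.1
  rw [eq_top_iff]
  intro f _
  obtain ⟨c, hc, m, hm, heq⟩ := Cfsg.Agent.Lib.Helper1.exists_mul_of_sup_eq_top ⁅F, F⁆ M hsup (f : G)
  rw [← Subgroup.map_subtype_commutator] at hc
  obtain ⟨c', hc', rfl⟩ := hc
  have hmF : m ∈ F := by
    have : m = (F.subtype c')⁻¹ * (f : G) := by rw [heq]; group
    rw [this]
    exact F.mul_mem (F.inv_mem c'.2) f.2
  have hm' : (⟨m, hmF⟩ : F) ∈ K₁ := hle hm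
  have hf : f = c' * ⟨m, hmF⟩ := Subtype.ext heq
  rw [hf]
  exact K₁.mul_mem (hcle hc') hm'

theorem exists_complement {G : Type*} [Group G] [Finite G] (hΦ : frattini G = ⊥) (A : Subgroup G)
    [hAn : A.Normal] (hab : ∀ x ∈ A, ∀ y ∈ A, x * y = y * x) :
    ∃ H : Subgroup G, A ⊔ H = ⊤ ∧ A ⊓ H = ⊥ := by
  obtain ⟨H, hH, hHmin⟩ := Set.exists_min_image {H : Subgroup G | A ⊔ H = ⊤}
    (fun H => Nat.card H) (Set.toFinite _) ⟨⊤, sup_top_eq _⟩
  have hH' : A ⊔ H = ⊤ := hH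
  refine ⟨H, hH', ?_⟩
  by_contra hne
  haveI hXn : (A ⊓ H).Normal := by
    apply normal_of_sup_eq_top (A ⊓ H) A H hH'
    · intro a ha x hx
      have : a * x * a⁻¹ = x := by rw [hab a ha x hx.1]; group
      rw [this]; exact hx
    · intro h hh x hx
      exact ⟨hAn.conj_mem x hx.1 h, H.mul_mem (H.mul_mem hh hx.2) (H.inv_mem hh)⟩
  obtain ⟨M, hM, hnot⟩ := exists_coatom_not_le hΦ _ hne
  have hsup : (A ⊓ H) ⊔ M = ⊤ :=
    hM.2 _ (lt_of_le_of_ne le_sup_right (fun h => hnot (le_sup_left.trans h.ge)))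
  have h1 : A ⊔ (H ⊓ M) = ⊤ := by
    rw [eq_top_iff, ← hH']
    apply sup_le le_sup_left
    intro h hh
    obtain ⟨x, hx, m, hm, heq⟩ := Cfsg.Agent.Lib.Helper1.exists_mul_of_sup_eq_top (A ⊓ H) M hsup h
    have hmH : m ∈ H := by
      have : m = x⁻¹ * h := by rw [heq]; group
      rw [this]
      exact H.mul_mem (H.inv_mem hx.2) hh
    rw [heq]
    exact Subgroup.mul_mem _ ((le_sup_left : A ≤ A ⊔ (H ⊓ M)) hx.1)
      ((le_sup_right : H ⊓ M ≤ A ⊔ (H ⊓ M)) ⟨hmH, hm⟩)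
  have h2 := hHmin (H ⊓ M) h1
  have h3 : H ⊓ M = H := Subgroup.eq_of_le_of_card_ge inf_le_left h2
  apply hnot
  calc A ⊓ H ≤ H := inf_le_right
    _ = H ⊓ M := h3.symm
    _ ≤ M := inf_le_right

/-- If the Frattini subgroup of a finite group G is trivial, then the Fitting subgroup of G equals the join of all abelian minimal normal subgroups of G. -/
theorem result {G : Type*} [Group G] [Finite G] (hΦ : frattini G = ⊥) : Cfsg.fittingSubgroup G = sSup {N : Subgroup G | N.Normal ∧ N ≠ ⊥ ∧ IsMulCommutative N ∧ ∀ K : Subgroup G, K.Normal → K ≤ N → K = ⊥ ∨ K = N} := by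
  classical
  obtain ⟨F, hF⟩ : ∃ F, F = Cfsg.fittingSubgroup G := ⟨_, rfl⟩
  rw [← hF]
  haveI hFn : F.Normal := hF ▸ Cfsg.Agent.Lib.Lead.fitting_normal G
  haveI hFnil : Group.IsNilpotent F := hF ▸ Cfsg.Agent.Lib.Lead.fitting_isNilpotent
  have hFab : ∀ x ∈ F, ∀ y ∈ F, x * y = y * x := by
    have h1 : ⁅F, F⁆ = ⊥ := by
      by_contra hne
      obtain ⟨M, hM, hnot⟩ := exists_coatom_not_le hΦ _ hne
      exact hnot (commutator_le_coatom F M hM)
    have h3 := Subgroup.commutator_eq_bot_iff_le_centralizer.mp h1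
    intro x hx y hy
    exact Subgroup.mem_centralizer_iff.mp (h3 hy) x hx
  obtain ⟨𝒜, h𝒜⟩ : ∃ 𝒜 : Set (Subgroup G), 𝒜 = {N : Subgroup G | N.Normal ∧ N ≠ ⊥ ∧
      IsMulCommutative N ∧ ∀ K : Subgroup G, K.Normal → K ≤ N → K = ⊥ ∨ K = N} := ⟨_, rfl⟩
  rw [← h𝒜]
  have hSF : sSup 𝒜 ≤ F := by
    apply sSup_le
    intro N hN
    rw [h𝒜] at hN
    obtain ⟨hNn, _, hNc, _⟩ := hN
    rw [hF, Cfsg.fittingSubgroup]
    apply le_sSup
    refine ⟨hNn, ?_⟩
    letI : CommGroup N := { (inferInstance : Group N) with mul_comm := fun a b => mul_comm' a b }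
    exact CommGroup.isNilpotent
  haveI hSn : (sSup 𝒜).Normal :=
    Subgroup.sSup_normal _ (fun N hN => by rw [h𝒜] at hN; exact hN.1)
  obtain ⟨H, hsup, hinf⟩ := exists_complement hΦ (sSup 𝒜)
    (fun x hx y hy => hFab x (hSF hx) y (hSF hy))
  have hY : F ⊓ H = ⊥ := by
    by_contra hne
    haveI : (F ⊓ H).Normal := by
      apply normal_of_sup_eq_top (F ⊓ H) (sSup 𝒜) H hsup
      · intro a ha x hx
        have : a * x * a⁻¹ = x := by rw [hFab a (hSF ha) x hx.1]; group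
        rw [this]; exact hx
      · intro h hh x hx
        exact ⟨hFn.conj_mem x hx.1 h, H.mul_mem (H.mul_mem hh hx.2) (H.inv_mem hh)⟩
    obtain ⟨A₁, hA₁n, hA₁ne, hA₁le, hA₁min⟩ :=
      Cfsg.Agent.Lib.Helper6.exists_min_normal_le (F ⊓ H) inferInstance hne
    have hA₁mem : A₁ ∈ 𝒜 := by
      rw [h𝒜]
      exact ⟨hA₁n, hA₁ne, Cfsg.Agent.Lib.Helper1.isMulCommutative_of_comm
        (fun a ha b hb => hFab a (hA₁le ha).1 b (hA₁le hb).1), hA₁min⟩
    have : A₁ ≤ sSup 𝒜 ⊓ H := le_inf (le_sSup hA₁mem) (hA₁le.trans inf_le_right)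
    rw [hinf] at this
    exact hA₁ne (le_bot_iff.mp this)
  apply le_antisymm _ hSF
  intro f hf
  obtain ⟨s, hs, u, hu, h⟩ := Cfsg.Agent.Lib.Helper1.dedekind_mul (sSup 𝒜) H F hsup hSF f hf
  rw [hY, Subgroup.mem_bot] at hu
  rw [h, hu, mul_one]; exact hs

end Cfsg.Agent.S0586
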