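import Cfsg.Statements.S0587
import Mathlib
import Cfsg.Agent.Lib.Lead.Coprime
import Cfsg.Agent.Lib.Lead.Fitting
import Cfsg.Agent.Lib.Lead.Fitting2

set_option autoImplicit false
open Cfsg

namespace Cfsg.Agent.S0587


open Cfsg.Agent.Lib.Lead

/-- a subgroup whose elements conjugate `D` into itself normalises `D` -/
theorem le_nrm87 {G : Type*} [Group G] (K D : Subgroup G)
    (h : ∀ x ∈ K, ∀ d ∈ D, x * d * x⁻¹ ∈ D) : K ≤ Subgroup.normalizer (D : Set G) := by
  intro x hx
  rw [Subgroup.mem_normalizer_iff]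
  intro d
  refine ⟨fun hd => h x hx d hd, fun hd => ?_⟩
  have h1 := h x⁻¹ (K.inv_mem hx) _ hd
  have e : x⁻¹ * (x * d * x⁻¹) * x⁻¹⁻¹ = d := by group
  rwa [e] at h1

/-- elements of order dividing `p` in a commutative subgroup -/
def omega87 {G : Type*} [Group G] (L : Subgroup G) (p : ℕ)
    (hcomm : ∀ a ∈ L, ∀ b ∈ L, a * b = b * a) : Subgroup G where
  carrier := {x | x ∈ L ∧ x ^ p = 1}
  one_mem' := ⟨L.one_mem, one_pow p⟩
  mul_mem' := by
    rintro a b ⟨ha, hap⟩ ⟨hb, hbp⟩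
    exact ⟨L.mul_mem ha hb, by
      rw [(show Commute a b from hcomm a ha b hb).mul_pow, hap, hbp, one_mul]⟩
  inv_mem' := by
    rintro a ⟨ha, hap⟩
    exact ⟨L.inv_mem ha, by rw [inv_pow, hap, inv_one]⟩

theorem mem_omega87 {G : Type*} [Group G] (L : Subgroup G) (p : ℕ)
    (hcomm : ∀ a ∈ L, ∀ b ∈ L, a * b = b * a) (x : G) :
    x ∈ omega87 L p hcomm ↔ x ∈ L ∧ x ^ p = 1 := Iff.rfl

/-- Let G be a finite group whose largest normal p-subgroup L is nontrivial, and M a maximal subgroup of G with trivial normal core. Then L is elementary abelian, M is a complement to L, L is a minimal normal subgroup of G, the centralizer of L is L, and for every prime q such that the largest normal q-subgroup of M is nontrivial, the order of L is congruent to 1 modulo q and q ≠ p. -/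
theorem result {G : Type*} [Group G] [Finite G] (p : ℕ) [Fact p.Prime] (hL : Cfsg.pCore p G ≠ ⊥) (M : Subgroup G) (hM : IsCoatom M) (hcore : M.normalCore = ⊥) : Cfsg.IsElementaryAbelian p (Cfsg.pCore p G) ∧ Subgroup.IsComplement' (Cfsg.pCore p G) M ∧ (∀ K : Subgroup G, K.Normal → K ≤ Cfsg.pCore p G → K = ⊥ ∨ K = Cfsg.pCore p G) ∧ Subgroup.centralizer ((Cfsg.pCore p G : Subgroup G) : Set G) = Cfsg.pCore p G ∧ ∀ (q : ℕ) [Fact q.Prime], Cfsg.pCore q ↥M ≠ ⊥ → Nat.card (Cfsg.pCore p G) % q = 1 % q ∧ q ≠ p := by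
  classical
  obtain ⟨L, hLdef⟩ : ∃ L, L = Cfsg.pCore p G := ⟨_, rfl⟩
  rw [← hLdef] at hL ⊢
  have hLn : L.Normal := by rw [hLdef]; exact pCore_normal p G
  have hLp : IsPGroup p L := by rw [hLdef]; exact pCore_isPGroup' p
  have hLmax : ∀ N : Subgroup G, N.Normal → IsPGroup p N → N ≤ L := by
    intro N hN hNp
    rw [hLdef]
    show N ≤ sSup {N : Subgroup G | N.Normal ∧ IsPGroup p N}
    exact le_sSup ⟨hN, hNp⟩
  have hstar : ∀ N : Subgroup G, N.Normal → N ≤ M → N = ⊥ := by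
    intro N hN hNM
    haveI := hN
    have h1 : N ≤ M.normalCore := Subgroup.normal_le_normalCore.mpr hNM
    rw [hcore] at h1
    exact le_bot_iff.mp h1
  have hsup : ∀ N : Subgroup G, N.Normal → N ≠ ⊥ → N ⊔ M = ⊤ := by
    intro N hN hN0
    by_contra hne
    have h1 : ¬ (M < N ⊔ M) := fun h => hne (hM.2 _ h)
    have h2 : N ⊔ M = M := by
      by_contra h3
      exact h1 (lt_of_le_of_ne le_sup_right (Ne.symm h3))
    exact hN0 (hstar N hN ((le_sup_left : N ≤ N ⊔ M).trans h2.le))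
  -- the centre of L
  haveI hLnt : Nontrivial ↥L := (Subgroup.nontrivial_iff_ne_bot L).mpr hL
  haveI hcnt : Nontrivial (Subgroup.center ↥L) := hLp.center_nontrivial
  obtain ⟨z, hz1⟩ := exists_ne (1 : Subgroup.center ↥L)
  have hCn : (Subgroup.centralizer (L : Set G)).Normal := by
    refine ⟨fun x hx g => ?_⟩
    rw [Subgroup.mem_centralizer_iff] at hx ⊢
    intro h hh
    have hh' : g⁻¹ * h * g ∈ L := by
      have := hLn.conj_mem h hh g⁻¹
      rwa [inv_inv] at this
    have h1 := hx (g⁻¹ * h * g) hh'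
    calc h * (g * x * g⁻¹) = g * (g⁻¹ * h * g * x) * g⁻¹ := by group
      _ = g * (x * (g⁻¹ * h * g)) * g⁻¹ := by rw [h1]
      _ = g * x * g⁻¹ * h := by group
  obtain ⟨Z, hZdef⟩ : ∃ Z, Z = L ⊓ Subgroup.centralizer (L : Set G) := ⟨_, rfl⟩
  have hZn : Z.Normal := by
    rw [hZdef]
    exact ⟨fun x hx g => Subgroup.mem_inf.mpr
      ⟨hLn.conj_mem x (Subgroup.mem_inf.mp hx).1 g, hCn.conj_mem x (Subgroup.mem_inf.mp hx).2 g⟩⟩
  have hzZ : ((z : ↥L) : G) ∈ Z := by
    rw [hZdef]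
    refine Subgroup.mem_inf.mpr ⟨(z : ↥L).2, ?_⟩
    rw [Subgroup.mem_centralizer_iff]
    intro y hy
    have h1 := (Subgroup.mem_center_iff.mp z.2) ⟨y, hy⟩
    exact congrArg Subtype.val h1
  have hZ0 : Z ≠ ⊥ := by
    intro h
    rw [h, Subgroup.mem_bot] at hzZ
    apply hz1
    apply Subtype.ext
    apply Subtype.ext
    exact hzZ
  have hZM : Z ⊔ M = ⊤ := hsup Z hZn hZ0
  have hZc : ∀ x ∈ Z, ∀ d ∈ L, x * d * x⁻¹ = d := by
    intro x hx d hd
    rw [hZdef] at hx
    have hxc := (Subgroup.mem_inf.mp hx).2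
    rw [Subgroup.mem_centralizer_iff] at hxc
    have h2 := hxc d hd
    rw [← h2]; group
  have hDn : (L ⊓ M).Normal := by
    have h1 : (Z ⊔ M) ≤ Subgroup.normalizer ((L ⊓ M : Subgroup G) : Set G) := by
      refine sup_le (le_nrm87 _ _ ?_) (le_nrm87 _ _ ?_)
      · intro x hx d hd
        rw [hZc x hx d (Subgroup.mem_inf.mp hd).1]; exact hd
      · intro m hm d hd
        exact Subgroup.mem_inf.mpr ⟨hLn.conj_mem d (Subgroup.mem_inf.mp hd).1 m,
          M.mul_mem (M.mul_mem hm (Subgroup.mem_inf.mp hd).2) (M.inv_mem hm)⟩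
    rw [hZM] at h1
    exact Subgroup.normalizer_eq_top_iff.mp (top_le_iff.mp h1)
  have hD : L ⊓ M = ⊥ := hstar _ hDn inf_le_right
  have hclub : ∀ N : Subgroup G, N.Normal → N ≤ L → N ≠ ⊥ → N = L := by
    intro N hN hNL hN0
    refine le_antisymm hNL ?_
    intro x hx
    have h1 : x ∈ N ⊔ M := by rw [hsup N hN hN0]; exact Subgroup.mem_top x
    obtain ⟨n, hn, m, hm, rfl⟩ :=
      mem_sup_of_le_normalizer (le_nrm87 M N (fun y _ d hd => hN.conj_mem d hd y)) h1
    have hmL : m ∈ L := by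
      have := L.mul_mem (L.inv_mem (hNL hn)) hx
      rwa [inv_mul_cancel_left] at this
    have hm1 : m = 1 := by
      have : m ∈ L ⊓ M := Subgroup.mem_inf.mpr ⟨hmL, hm⟩
      rw [hD] at this
      exact Subgroup.mem_bot.mp this
    rw [hm1, mul_one]; exact hn
  have hZL : Z = L := hclub Z hZn (by rw [hZdef]; exact inf_le_left) hZ0
  have hLC : L ≤ Subgroup.centralizer (L : Set G) := by
    intro x hx
    have : x ∈ Z := by rw [hZL]; exact hx
    rw [hZdef] at this
    exact (Subgroup.mem_inf.mp this).2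
  have hcomm : ∀ a ∈ L, ∀ b ∈ L, a * b = b * a := by
    intro a ha b hb
    have := hLC hb
    rw [Subgroup.mem_centralizer_iff] at this
    exact this a ha
  -- exponent p
  have hOmn : (omega87 L p hcomm).Normal := by
    refine ⟨fun x hx g => ?_⟩
    obtain ⟨hx1, hx2⟩ := (mem_omega87 L p hcomm x).mp hx
    refine (mem_omega87 L p hcomm _).mpr ⟨hLn.conj_mem x hx1 g, ?_⟩
    rw [conj_pow, hx2, mul_one, mul_inv_cancel]
  have hOm0 : omega87 L p hcomm ≠ ⊥ := by
    have hdvd : p ∣ Nat.card ↥L :=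
      (hLp.card_eq_or_dvd).resolve_left (fun h => hL (Subgroup.eq_bot_of_card_eq L h))
    obtain ⟨w, hw⟩ := exists_prime_orderOf_dvd_card' (G := ↥L) p hdvd
    have h1 : w ^ p = 1 := by
      have := pow_orderOf_eq_one w
      rwa [hw] at this
    have h2 : (w : G) ^ p = 1 := by
      rw [← Subgroup.coe_pow, h1]; rfl
    have hw1 : w ≠ 1 := by
      intro h
      rw [h, orderOf_one] at hw
      exact (Fact.out : p.Prime).one_lt.ne hw
    intro h
    have h3 : (w : G) ∈ omega87 L p hcomm := (mem_omega87 L p hcomm _).mpr ⟨w.2, h2⟩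
    rw [h, Subgroup.mem_bot] at h3
    exact hw1 (Subtype.ext h3)
  have hOmL : omega87 L p hcomm = L :=
    hclub _ hOmn (fun x hx => ((mem_omega87 L p hcomm x).mp hx).1) hOm0
  have hexp : ∀ a ∈ L, a ^ p = 1 := by
    intro a ha
    have : a ∈ omega87 L p hcomm := by rw [hOmL]; exact ha
    exact ((mem_omega87 L p hcomm a).mp this).2
  -- complement
  have hLM : L ⊔ M = ⊤ := hsup L hLn hL
  have hMnL : M ≤ Subgroup.normalizer (L : Set G) :=
    le_nrm87 M L (fun y _ d hd => hLn.conj_mem d hd y)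
  have hcardLM : Nat.card L * Nat.card M = Nat.card G := by
    rw [← card_sup_of_le_normalizer hMnL hD, hLM, Subgroup.card_top]
  have hcompl : Subgroup.IsComplement' L M :=
    Subgroup.isComplement'_of_card_mul_and_disjoint hcardLM (disjoint_iff.mpr hD)
  -- centralizer
  have hEn : (Subgroup.centralizer (L : Set G) ⊓ M).Normal := by
    have h1 : (L ⊔ M) ≤
        Subgroup.normalizer ((Subgroup.centralizer (L : Set G) ⊓ M : Subgroup G) : Set G) := by
      refine sup_le (le_nrm87 _ _ ?_) (le_nrm87 _ _ ?_)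
      · intro x hx d hd
        have hdc := (Subgroup.mem_inf.mp hd).1
        rw [Subgroup.mem_centralizer_iff] at hdc
        have h2 := hdc x hx
        have h3 : x * d * x⁻¹ = d := by rw [h2]; group
        rw [h3]; exact hd
      · intro m hm d hd
        exact Subgroup.mem_inf.mpr ⟨hCn.conj_mem d (Subgroup.mem_inf.mp hd).1 m,
          M.mul_mem (M.mul_mem hm (Subgroup.mem_inf.mp hd).2) (M.inv_mem hm)⟩
    rw [hLM] at h1
    exact Subgroup.normalizer_eq_top_iff.mp (top_le_iff.mp h1)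
  have hE : Subgroup.centralizer (L : Set G) ⊓ M = ⊥ := hstar _ hEn inf_le_right
  have hCL : Subgroup.centralizer (L : Set G) = L := by
    refine le_antisymm ?_ hLC
    intro x hx
    have h1 : x ∈ L ⊔ M := by rw [hLM]; exact Subgroup.mem_top x
    obtain ⟨n, hn, m, hm, rfl⟩ := mem_sup_of_le_normalizer hMnL h1
    have hmC : m ∈ Subgroup.centralizer (L : Set G) := by
      have := Subgroup.mul_mem _ (Subgroup.inv_mem _ (hLC hn)) hx
      rwa [inv_mul_cancel_left] at this
    have hm1 : m = 1 := by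
      have : m ∈ Subgroup.centralizer (L : Set G) ⊓ M := Subgroup.mem_inf.mpr ⟨hmC, hm⟩
      rw [hE] at this
      exact Subgroup.mem_bot.mp this
    rw [hm1, mul_one]; exact hn
  refine ⟨⟨⟨⟨fun a b => Subtype.ext (hcomm a.1 a.2 b.1 b.2)⟩⟩, hexp⟩, hcompl,
    fun K hK hKL => ?_, hCL, ?_⟩
  · by_cases h : K = ⊥
    · exact Or.inl h
    · exact Or.inr (hclub K hK hKL h)
  intro q hq hQ0
  obtain ⟨Q0, hQ0def⟩ : ∃ Q0, Q0 = Cfsg.pCore q ↥M := ⟨_, rfl⟩
  rw [← hQ0def] at hQ0
  have hQ0n : Q0.Normal := by rw [hQ0def]; exact pCore_normal q ↥M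
  have hQ0p : IsPGroup q Q0 := by rw [hQ0def]; exact pCore_isPGroup' q
  obtain ⟨Q, hQdef⟩ : ∃ Q, Q = Q0.map M.subtype := ⟨_, rfl⟩
  have hQp : IsPGroup q Q := by rw [hQdef]; exact hQ0p.map M.subtype
  have hQM : Q ≤ M := by
    rw [hQdef]
    rintro _ ⟨y0, -, rfl⟩
    exact y0.2
  have hQne : Q ≠ ⊥ := by
    intro h
    rw [hQdef] at h
    exact hQ0 ((Subgroup.map_eq_bot_iff_of_injective Q0 M.subtype_injective).mp h)
  have hQL : ¬ Q ≤ L := by
    intro h
    have h1 : Q ≤ L ⊓ M := le_inf h hQM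
    rw [hD] at h1
    exact hQne (le_bot_iff.mp h1)
  have hQnM : ∀ m ∈ M, ∀ y ∈ Q, m * y * m⁻¹ ∈ Q := by
    intro m hm y hy
    rw [hQdef] at hy ⊢
    obtain ⟨y0, hy0, rfl⟩ := Subgroup.mem_map.mp hy
    exact Subgroup.mem_map_of_mem M.subtype (hQ0n.conj_mem y0 hy0 ⟨m, hm⟩)
  have hQnL : Q ≤ Subgroup.normalizer (L : Set G) :=
    le_nrm87 Q L (fun y _ d hd => hLn.conj_mem d hd y)
  have hqp : q ≠ p := by
    intro hqp
    have hQp' : IsPGroup p Q := hqp ▸ hQp
    haveI := hLn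
    have hsupP : IsPGroup p (L ⊔ Q : Subgroup G) := IsPGroup.to_sup_of_normal_left hLp hQp'
    have hN : (L ⊔ Q).Normal := by
      have h1 : (L ⊔ M) ≤ Subgroup.normalizer ((L ⊔ Q : Subgroup G) : Set G) := by
        refine sup_le ?_ (le_nrm87 _ _ ?_)
        · exact (le_sup_left : L ≤ L ⊔ Q).trans Subgroup.le_normalizer
        · intro m hm d hd
          obtain ⟨n, hn, y, hy, rfl⟩ := mem_sup_of_le_normalizer hQnL hd
          have e : m * (n * y) * m⁻¹ = (m * n * m⁻¹) * (m * y * m⁻¹) := by group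
          rw [e]
          exact Subgroup.mul_mem _ (Subgroup.mem_sup_left (hLn.conj_mem n hn m))
            (Subgroup.mem_sup_right (hQnM m hm y hy))
      rw [hLM] at h1
      exact Subgroup.normalizer_eq_top_iff.mp (top_le_iff.mp h1)
    exact hQL (le_sup_right.trans (hLmax _ hN hsupP))
  refine ⟨?_, hqp⟩
  have hFn : (L ⊓ Subgroup.centralizer (Q : Set G)).Normal := by
    have h1 : (L ⊔ M) ≤
        Subgroup.normalizer ((L ⊓ Subgroup.centralizer (Q : Set G) : Subgroup G) : Set G) := by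
      refine sup_le (le_nrm87 _ _ ?_) (le_nrm87 _ _ ?_)
      · intro x hx d hd
        have h2 := hcomm x hx d (Subgroup.mem_inf.mp hd).1
        have h3 : x * d * x⁻¹ = d := by rw [h2]; group
        rw [h3]; exact hd
      · intro m hm d hd
        refine Subgroup.mem_inf.mpr ⟨hLn.conj_mem d (Subgroup.mem_inf.mp hd).1 m, ?_⟩
        have hdc := (Subgroup.mem_inf.mp hd).2
        rw [Subgroup.mem_centralizer_iff] at hdc ⊢
        intro y hy
        have hy' : m⁻¹ * y * m ∈ Q := by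
          have := hQnM m⁻¹ (M.inv_mem hm) y hy
          rwa [inv_inv] at this
        have h2 := hdc _ hy'
        calc y * (m * d * m⁻¹) = m * (m⁻¹ * y * m * d) * m⁻¹ := by group
          _ = m * (d * (m⁻¹ * y * m)) * m⁻¹ := by rw [h2]
          _ = m * d * m⁻¹ * y := by group
    rw [hLM] at h1
    exact Subgroup.normalizer_eq_top_iff.mp (top_le_iff.mp h1)
  have hF : L ⊓ Subgroup.centralizer (Q : Set G) = ⊥ := by
    by_contra hne
    have h1 := hclub _ hFn inf_le_left hne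
    apply hQL
    intro y hy
    rw [← hCL, Subgroup.mem_centralizer_iff]
    intro l hl
    have hl' : l ∈ L ⊓ Subgroup.centralizer (Q : Set G) := by rw [h1]; exact hl
    have h2 := (Subgroup.mem_inf.mp hl').2
    rw [Subgroup.mem_centralizer_iff] at h2
    exact (h2 y hy).symm
  haveI := hLn
  letI act : MulAction ↥Q ↥L :=
    MulAction.compHom ↥L ((MulAut.conjNormal (H := L)).comp Q.subtype)
  have hsmul : ∀ (x : ↥Q) (l : ↥L), ((x • l : ↥L) : G) = (x : G) * (l : G) * (x : G)⁻¹ := by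
    intro x l
    rfl
  have hfix : ∀ l : ↥L, l ∈ MulAction.fixedPoints ↥Q ↥L → l = 1 := by
    intro l hl
    rw [MulAction.mem_fixedPoints] at hl
    have hlF : (l : G) ∈ L ⊓ Subgroup.centralizer (Q : Set G) := by
      refine Subgroup.mem_inf.mpr ⟨l.2, ?_⟩
      rw [Subgroup.mem_centralizer_iff]
      intro y hy
      have h2 := congrArg Subtype.val (hl ⟨y, hy⟩)
      have h3 : y * (l : G) * y⁻¹ = (l : G) := (hsmul ⟨y, hy⟩ l).symm.trans h2
      calc y * (l : G) = y * (l : G) * y⁻¹ * y := by group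
        _ = (l : G) * y := by rw [h3]
    rw [hF, Subgroup.mem_bot] at hlF
    exact Subtype.ext hlF
  have hfixcard : Nat.card ↥(MulAction.fixedPoints ↥Q ↥L) = 1 := by
    rw [Nat.card_eq_one_iff_unique]
    refine ⟨⟨fun a b => Subtype.ext ?_⟩, ⟨⟨1, ?_⟩⟩⟩
    · rw [hfix a.1 a.2, hfix b.1 b.2]
    · rw [MulAction.mem_fixedPoints]
      intro x
      apply Subtype.ext
      rw [hsmul]
      simp
  have hmod := hQp.card_modEq_card_fixedPoints ↥L
  rw [hfixcard] at hmod
  exact hmod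

end Cfsg.Agent.S0587
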