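import Mathlib
import Cfsg.Statements.S0590

set_option autoImplicit false
open Cfsg
open scoped commutatorElement

namespace Cfsg.Agent.S0590

theorem result {G : Type*} [Group G] [Finite G] {p : ℕ} [Fact p.Prime] (V H : Subgroup G) (hV : Cfsg.IsElementaryAbelian p V) (hHV : H ≤ Subgroup.normalizer (V : Set G)) (hq : ⁅⁅V, H⁆, H⁆ = ⊥) : ⁅H, H⁆ ≤ Subgroup.centralizer (V : Set G) ∧ ∀ a ∈ H, a ^ p ∈ Subgroup.centralizer (V : Set G) := by
  constructor
  · have h1 : ⁅⁅H, V⁆, H⁆ = ⊥ := by rw [Subgroup.commutator_comm H V]; exact hq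
    have h3 := Subgroup.commutator_commutator_eq_bot_of_rotate h1 hq
    exact Subgroup.commutator_eq_bot_iff_le_centralizer.mp h3
  · intro a ha
    rw [Subgroup.mem_centralizer_iff]
    intro v hv
    set w := a * v * a⁻¹ * v⁻¹ with hw
    have hwV : w ∈ V :=
      V.mul_mem ((Subgroup.mem_normalizer_iff.mp (hHV ha) v).mp hv) (V.inv_mem hv)
    have hwc : w ∈ ⁅V, H⁆ := by
      rw [Subgroup.commutator_comm]; exact Subgroup.commutator_mem_commutator ha hv
    have hcent : ⁅V, H⁆ ≤ Subgroup.centralizer (H : Set G) :=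
      Subgroup.commutator_eq_bot_iff_le_centralizer.mp hq
    have hwa : a * w = w * a := Subgroup.mem_centralizer_iff.mp (hcent hwc) a ha
    have hav : a * v = w * v * a := by rw [hw]; group
    have key : ∀ k : ℕ, a ^ k * v = w ^ k * v * a ^ k := by
      intro k
      induction k with
      | zero => simp
      | succ k ih =>
        have hwk : a * w ^ k = w ^ k * a := Commute.pow_right hwa k
        calc a ^ (k + 1) * v = a * (a ^ k * v) := by rw [pow_succ']; group
          _ = a * (w ^ k * v * a ^ k) := by rw [ih]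
          _ = (a * w ^ k) * v * a ^ k := by group
          _ = w ^ k * (a * v) * a ^ k := by rw [hwk]; group
          _ = w ^ k * (w * v * a) * a ^ k := by rw [hav]
          _ = w ^ (k + 1) * v * a ^ (k + 1) := by rw [pow_succ, pow_succ]; group
    have h := key p
    rw [hV.2 w hwV, one_mul] at h
    exact h.symm

end Cfsg.Agent.S0590
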