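import Mathlib
import Cfsg.Statements.S0591
import Cfsg.Agent.Lib.Helper1.Abel

set_option autoImplicit false
open Cfsg
open scoped commutatorElement
open Cfsg.Agent.Lib.Helper1

namespace Cfsg.Agent.S0591

theorem result {G : Type*} [Group G] [Finite G] {p : ℕ} [Fact p.Prime] (V : Subgroup G) (hV : Cfsg.IsElementaryAbelian p V) (a : G) (ha : a ∈ Subgroup.normalizer (V : Set G)) (hq : ⁅⁅V, Subgroup.zpowers a⁆, Subgroup.zpowers a⁆ = ⊥) : Nat.card V ≤ Nat.card ↥(V ⊓ Subgroup.centralizer (Subgroup.zpowers a : Set G)) ^ 2 := by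
  have hcomm := comm_of_isMulCommutative hV.1
  have hconj : ∀ v ∈ V, a * v * a⁻¹ ∈ V := fun v hv =>
    (Subgroup.mem_normalizer_iff.mp ha v).mp hv
  have hmem : ∀ v ∈ V, a * v * a⁻¹ * v⁻¹ ∈ V := fun v hv =>
    V.mul_mem (hconj v hv) (V.inv_mem hv)
  let φ : V →* V := MonoidHom.mk' (fun v => ⟨a * v * a⁻¹ * (v : G)⁻¹, hmem v v.2⟩) (by
    intro v v'
    apply Subtype.ext
    show a * ((v : G) * (v' : G)) * a⁻¹ * ((v : G) * (v' : G))⁻¹
      = (a * v * a⁻¹ * (v : G)⁻¹) * (a * v' * a⁻¹ * (v' : G)⁻¹)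
    calc a * ((v : G) * (v' : G)) * a⁻¹ * ((v : G) * (v' : G))⁻¹
        = (a * v * a⁻¹) * (((a * v' * a⁻¹) * (v' : G)⁻¹) * (v : G)⁻¹) := by group
      _ = (a * v * a⁻¹) * ((v : G)⁻¹ * ((a * v' * a⁻¹) * (v' : G)⁻¹)) := by
          rw [hcomm _ (V.mul_mem (hconj v' v'.2) (V.inv_mem v'.2)) _ (V.inv_mem v.2)]
      _ = _ := by group)
  set C := V ⊓ Subgroup.centralizer (Subgroup.zpowers a : Set G) with hC
  have hker : φ.ker = C.subgroupOf V := by
    ext v
    rw [MonoidHom.mem_ker, Subgroup.mem_subgroupOf, hC, Subgroup.mem_inf]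
    constructor
    · intro h
      have h1 : a * v * a⁻¹ * (v : G)⁻¹ = 1 := congrArg Subtype.val h
      have h2 : a * v = v * a := by
        have h3 : a * v = (a * v * a⁻¹ * (v : G)⁻¹) * (v * a) := by group
        rw [h3, h1, one_mul]
      refine ⟨v.2, ?_⟩
      rw [Subgroup.mem_centralizer_iff]
      intro z hz
      obtain ⟨n, rfl⟩ := Subgroup.mem_zpowers_iff.mp hz
      exact (Commute.zpow_left h2 n)
    · rintro ⟨-, h⟩
      have h2 : a * v = v * a := Subgroup.mem_centralizer_iff.mp h a (Subgroup.mem_zpowers a)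
      apply Subtype.ext
      show a * v * a⁻¹ * (v : G)⁻¹ = 1
      rw [h2]; group
  have hrange : φ.range ≤ C.subgroupOf V := by
    rintro _ ⟨v, rfl⟩
    rw [Subgroup.mem_subgroupOf, hC, Subgroup.mem_inf]
    refine ⟨hmem v v.2, ?_⟩
    have hwc : a * v * a⁻¹ * (v : G)⁻¹ ∈ ⁅V, Subgroup.zpowers a⁆ := by
      rw [Subgroup.commutator_comm]
      exact Subgroup.commutator_mem_commutator (Subgroup.mem_zpowers a) v.2
    exact (Subgroup.commutator_eq_bot_iff_le_centralizer.mp hq) hwc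
  have hcard1 : Nat.card V = Nat.card φ.ker * Nat.card φ.range := by
    rw [← Subgroup.index_ker, Subgroup.card_mul_index]
  have hcardC : Nat.card (C.subgroupOf V) = Nat.card C :=
    Nat.card_congr (Subgroup.subgroupOfEquivOfLe inf_le_left).toEquiv
  calc Nat.card V = Nat.card φ.ker * Nat.card φ.range := hcard1
    _ ≤ Nat.card (C.subgroupOf V) * Nat.card (C.subgroupOf V) := by
        rw [hker]; exact Nat.mul_le_mul_left _ (Subgroup.card_le_of_le hrange)
    _ = Nat.card C ^ 2 := by rw [hcardC, sq]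

end Cfsg.Agent.S0591
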