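import Cfsg.Statements.S0600
import Mathlib
import Cfsg.Agent.Lib.Helper1.PCoreCent
import Cfsg.Agent.Lib.Helper1.Abel
import Cfsg.Agent.Lib.Lead.Basic
import Cfsg.Agent.Lib.Lead.PCore2

set_option autoImplicit false
open Cfsg

namespace Cfsg.Agent.S0600

/-- A normal elementary abelian p-subgroup generated by the fixed points of the Sylow p-subgroups admits no nontrivial normal p-subgroup of G modulo its centralizer. -/
theorem result {G : Type*} [Group G] [Finite G] {p : ℕ} [Fact p.Prime] (V : Subgroup G) [V.Normal] (hV : Cfsg.IsElementaryAbelian p V) (hgen : V = ⨆ S : Sylow p G, V ⊓ Subgroup.centralizer ((S : Subgroup G) : Set G)) : Cfsg.pCore p (G ⧸ Subgroup.centralizer (V : Set G)) = ⊥ := by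
  apply Cfsg.Agent.Lib.Helper1.pCore_quotient_eq_bot_of_forall
  rintro D hD hCD ⟨k, hk⟩
  haveI := hD
  have key := Cfsg.Agent.Lib.Helper1.le_centralizer_of_sylow_family
    (fun S : Sylow p G => V ⊓ Subgroup.centralizer ((S : Subgroup G) : Set G))
    (fun S => inf_le_right) D k (by rw [← hgen]; exact hk)
  rw [← hgen] at key
  exact key

end Cfsg.Agent.S0600
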