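import Cfsg.Statements.S0601
import Mathlib
import Cfsg.Agent.Lib.Helper1.PCoreCent
import Cfsg.Agent.Lib.Helper1.Abel
import Cfsg.Agent.Lib.Lead.Basic
import Cfsg.Agent.Lib.Lead.PCore2

set_option autoImplicit false
open Cfsg

namespace Cfsg.Agent.S0601

/-- When O_p(G) contains its centralizer, the normal closure of Ω₁(Z(S)) is elementary abelian and G has no nontrivial normal p-subgroup modulo its centralizer. -/
theorem result {G : Type*} [Group G] [Finite G] {p : ℕ} [Fact p.Prime] (hc : Subgroup.centralizer (Cfsg.pCore p G : Set G) ≤ Cfsg.pCore p G) : (⨆ S : Sylow p G, Cfsg.omegaOne p (((S : Subgroup G)) ⊓ Subgroup.centralizer ((S : Subgroup G) : Set G))).Normal ∧ Cfsg.IsElementaryAbelian p (⨆ S : Sylow p G, Cfsg.omegaOne p (((S : Subgroup G)) ⊓ Subgroup.centralizer ((S : Subgroup G) : Set G))) ∧ ∀ D : Subgroup G, D.Normal → Subgroup.centralizer ((⨆ S : Sylow p G, Cfsg.omegaOne p (((S : Subgroup G)) ⊓ Subgroup.centralizer ((S : Subgroup G) : Set G)) : Subgroup G)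 : Set G) ≤ D → (∃ k : ℕ, (Subgroup.centralizer ((⨆ S : Sylow p G, Cfsg.omegaOne p (((S : Subgroup G)) ⊓ Subgroup.centralizer ((S : Subgroup G) : Set G)) : Subgroup G) : Set G)).relIndex D = p ^ k) → D = Subgroup.centralizer ((⨆ S : Sylow p G, Cfsg.omegaOne p (((S : Subgroup G)) ⊓ Subgroup.centralizer ((S : Subgroup G) : Set G)) : Subgroup G) : Set G) := by
  classical
  obtain ⟨V, hV⟩ : ∃ V : Subgroup G, V = ⨆ S : Sylow p G, Cfsg.omegaOne p
      ((S : Subgroup G) ⊓ Subgroup.centralizer ((S : Subgroup G) : Set G)) := ⟨_, rfl⟩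
  rw [← hV]
  have hgen : ∀ (S : Sylow p G) (x : G),
      x ∈ (S : Subgroup G) ⊓ Subgroup.centralizer ((S : Subgroup G) : Set G) → x ^ p = 1 →
      x ∈ V := by
    intro S x hx hxp
    rw [hV]
    refine (le_iSup (fun S : Sylow p G => Cfsg.omegaOne p
      ((S : Subgroup G) ⊓ Subgroup.centralizer ((S : Subgroup G) : Set G))) S) ?_
    exact Subgroup.subset_closure ⟨hx, hxp⟩
  have hVle : ∀ K : Subgroup G, (∀ (S : Sylow p G) (x : G),
      x ∈ (S : Subgroup G) ⊓ Subgroup.centralizer ((S : Subgroup G) : Set G) → x ^ p = 1 →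
      x ∈ K) → V ≤ K := by
    intro K hK
    rw [hV]
    apply iSup_le
    intro S
    unfold Cfsg.omegaOne
    rw [Subgroup.closure_le]
    rintro x ⟨hx1, hx2⟩
    exact hK S x hx1 hx2
  refine ⟨?_, ?_, ?_⟩
  · constructor
    intro n hn g
    have hle : V ≤ V.comap (MulAut.conj g).toMonoidHom := by
      apply hVle
      intro S x hx hxp
      rw [Subgroup.mem_comap]
      show (MulAut.conj g) x ∈ V
      rw [MulAut.conj_apply]
      apply hgen (g • S) (g * x * g⁻¹)
      · rw [Sylow.coe_subgroup_smul]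
        refine Subgroup.mem_inf.mpr
          ⟨Cfsg.Agent.Lib.Lead.conj_mem_conj_smul (Subgroup.mem_inf.mp hx).1, ?_⟩
        rw [Subgroup.mem_centralizer_iff]
        intro y hy
        rw [SetLike.mem_coe, Cfsg.Agent.Lib.Lead.mem_conj_smul] at hy
        have h1 := Subgroup.mem_centralizer_iff.mp (Subgroup.mem_inf.mp hx).2 _ hy
        calc y * (g * x * g⁻¹) = g * ((g⁻¹ * y * g) * x) * g⁻¹ := by group
          _ = g * (x * (g⁻¹ * y * g)) * g⁻¹ := by rw [h1]
          _ = g * x * g⁻¹ * y := by group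
      · rw [conj_pow, hxp]; group
    have h2 := hle hn
    rw [Subgroup.mem_comap] at h2
    exact h2
  · let E : Subgroup G :=
      { carrier := {x | x ∈ Cfsg.pCore p G ⊓ Subgroup.centralizer (Cfsg.pCore p G : Set G) ∧
          x ^ p = 1}
        one_mem' := ⟨Subgroup.one_mem _, one_pow p⟩
        mul_mem' := by
          rintro x y ⟨hx, hx2⟩ ⟨hy, hy2⟩
          refine ⟨Subgroup.mul_mem _ hx hy, ?_⟩
          have hcm : Commute x y :=
            Subgroup.mem_centralizer_iff.mp (Subgroup.mem_inf.mp hy).2 x (Subgroup.mem_inf.mp hx).1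
          rw [hcm.mul_pow, hx2, hy2, one_mul]
        inv_mem' := by
          rintro x ⟨hx, hx2⟩
          exact ⟨Subgroup.inv_mem _ hx, by rw [inv_pow, hx2, inv_one]⟩ }
    have hVE : V ≤ E := by
      apply hVle
      intro S x hx hxp
      have hQS : Cfsg.pCore p G ≤ (S : Subgroup G) := Cfsg.Agent.Lib.Lead.pCore_le_sylow' S
      have hxc : x ∈ Subgroup.centralizer (Cfsg.pCore p G : Set G) :=
        Subgroup.centralizer_le (SetLike.coe_subset_coe.mpr hQS) (Subgroup.mem_inf.mp hx).2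
      exact ⟨Subgroup.mem_inf.mpr ⟨hc hxc, hxc⟩, hxp⟩
    refine ⟨Cfsg.Agent.Lib.Helper1.isMulCommutative_of_comm ?_, fun a ha => (hVE ha).2⟩
    intro a ha b hb
    have h1 := (hVE ha).1
    have h2 := (hVE hb).1
    exact Subgroup.mem_centralizer_iff.mp (Subgroup.mem_inf.mp h2).2 a (Subgroup.mem_inf.mp h1).1
  · rintro D hD hCD ⟨k, hk⟩
    haveI := hD
    apply le_antisymm _ hCD
    have key := Cfsg.Agent.Lib.Helper1.le_centralizer_of_sylow_family
      (fun S : Sylow p G => Cfsg.omegaOne p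
        ((S : Subgroup G) ⊓ Subgroup.centralizer ((S : Subgroup G) : Set G)))
      (fun S => by
        unfold Cfsg.omegaOne
        rw [Subgroup.closure_le]
        rintro x ⟨hx1, -⟩
        exact (Subgroup.mem_inf.mp hx1).2) D k (by rw [← hV]; exact hk)
    rw [← hV] at key
    exact key

end Cfsg.Agent.S0601
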