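import Mathlib
import Cfsg.Statements.S0605
import Cfsg.Agent.Lib.Helper1.Thompson

set_option autoImplicit false
open Cfsg
open Cfsg.Agent.Lib.Helper1

namespace Cfsg.Agent.S0605

theorem result {G : Type*} [Group G] [Finite G] {p : ℕ} [Fact p.Prime] (x : G) (hx : x ∈ Subgroup.centralizer (Cfsg.thompsonSubgroup p G : Set G)) (ho : orderOf x = p) : x ∈ Cfsg.thompsonSubgroup p G := by
  obtain ⟨A, hA⟩ := maxEA_nonempty (G := G) p
  have hAJ : A ≤ thompsonSubgroup p G := le_sSup hA
  apply hAJ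
  apply mem_of_maxEA hA x
  · intro a ha
    exact Subgroup.mem_centralizer_iff.mp hx a (hAJ ha)
  · rw [← ho]; exact pow_orderOf_eq_one x

end Cfsg.Agent.S0605
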