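import Cfsg.Statements.S0642
import Mathlib
import Cfsg.Agent.Lib.Lead.PFrat
import Cfsg.Agent.Lib.Helper6.Comm

set_option autoImplicit false
open Cfsg

namespace Cfsg.Agent.S0642

open scoped commutatorElement

theorem eq_bot_of_le_powerClosure {G : Type*} [Group G] [Finite G] {p : ℕ} [Fact p.Prime]
    (hG : IsPGroup p G) (K : Subgroup G) (h : K ≤ Cfsg.powerClosure p 1 K) : K = ⊥ := by
  by_contra hK
  haveI : Nontrivial K := (Subgroup.nontrivial_iff_ne_bot K).mpr hK
  obtain ⟨M, hM, -⟩ := (eq_top_or_exists_le_coatom (⊥ : Subgroup K)).resolve_left bot_ne_top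
  have hKp : IsPGroup p K := hG.to_subgroup K
  have h2 := (Cfsg.Agent.Lib.Lead.commutator_pow_mem_coatom hKp M hM).2
  have h3 : Cfsg.powerClosure p 1 K ≤ M.map K.subtype := by
    unfold Cfsg.powerClosure
    rw [Subgroup.closure_le]
    rintro y ⟨x, hx, rfl⟩
    refine ⟨(⟨x, hx⟩ : K) ^ p, h2 _, ?_⟩
    simp
  apply hM.1
  rw [eq_top_iff]
  intro k _
  obtain ⟨m, hm, hmk⟩ := h3 (h k.2)
  have : m = k := Subtype.ext hmk
  rw [← this]; exact hm

theorem comm_of_regular_two {G : Type*} [Group G] [Finite G] (hG : IsPGroup 2 G)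
    (hreg : Cfsg.IsRegularPGroup 2 G) (a b : G) : a * b = b * a := by
  classical
  haveI : Fact (Nat.Prime 2) := ⟨Nat.prime_two⟩
  obtain ⟨c, hc, hcab⟩ := hreg.2 a b 1
  obtain ⟨H, hH⟩ : ∃ H : Subgroup G, H = Subgroup.closure ({a, b} : Set G) := ⟨_, rfl⟩
  rw [← hH] at hc
  obtain ⟨P, hP⟩ : ∃ P : Subgroup G, P = Cfsg.powerClosure 2 1 ⁅H, H⁆ := ⟨_, rfl⟩
  rw [← hP] at hc
  have haH : a ∈ H := by rw [hH]; exact Subgroup.subset_closure (by simp)
  have hbH : b ∈ H := by rw [hH]; exact Subgroup.subset_closure (by simp)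
  -- H normalizes P
  have hnorm : ∀ k ∈ H, ∀ d ∈ P, k * d * k⁻¹ ∈ P := by
    intro k hk
    have hle : P ≤ P.comap (MulAut.conj k).toMonoidHom := by
      nth_rewrite 1 [hP]
      unfold Cfsg.powerClosure
      rw [Subgroup.closure_le]
      rintro y ⟨x, hx, rfl⟩
      show (MulAut.conj k).toMonoidHom (x ^ 2 ^ 1) ∈ P
      have h1 : (MulAut.conj k).toMonoidHom (x ^ 2 ^ 1) = (k * x * k⁻¹) ^ 2 ^ 1 := by
        simp [MulAut.conj_apply, conj_pow]
      rw [h1, hP]
      apply Subgroup.subset_closure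
      refine ⟨k * x * k⁻¹, ?_, rfl⟩
      exact (Subgroup.mem_normalizer_iff.mp
        (Subgroup.normalizer_commutator_ge_left H H hk) x).mp hx
    intro d hd
    exact hle hd
  -- ⁅b, a⁆ ∈ P
  have hba : ⁅b, a⁆ ∈ P := by
    have e1 : a * b * a * b = a * a * b * b * c := by
      have := hcab
      simp only [pow_one, pow_two] at this
      rw [← mul_assoc, ← mul_assoc] at this
      simpa [mul_assoc] using this
    have e2 : b⁻¹ * a⁻¹ * b * a = b * c * b⁻¹ := by
      have e3 : b * a * b = a * b * b * c := by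
        have := congrArg (fun t => a⁻¹ * t) e1
        simpa [mul_assoc] using this
      have e4 : b * a = a * b * b * c * b⁻¹ := by rw [← e3]; group
      calc b⁻¹ * a⁻¹ * b * a = b⁻¹ * a⁻¹ * (b * a) := by group
        _ = b⁻¹ * a⁻¹ * (a * b * b * c * b⁻¹) := by rw [e4]
        _ = b * c * b⁻¹ := by group
    have h1 : b⁻¹ * a⁻¹ * b * a ∈ P := by rw [e2]; exact hnorm b hbH c hc
    have h2 := hnorm (a * b) (H.mul_mem haH hbH) _ h1
    have e5 : a * b * (b⁻¹ * a⁻¹ * b * a) * (a * b)⁻¹ = ⁅b, a⁆ := by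
      rw [commutatorElement_def]; group
    rw [e5] at h2
    exact h2
  have hab : ⁅a, b⁆ ∈ P := by
    rw [← commutatorElement_inv]; exact P.inv_mem hba
  -- ⁅H,H⁆ ≤ P
  have hHP : ⁅H, H⁆ ≤ P := by
    rw [Subgroup.commutator_le]
    intro u hu v hv
    rw [hH] at hu hv
    refine Subgroup.closure_induction₂ (p := fun x y _ _ => ⁅x, y⁆ ∈ P) ?_ ?_ ?_ ?_ ?_ ?_ ?_ hu hv
    · intro x y hx hy
      rcases hx with rfl | rfl <;> rcases hy with rfl | rfl
      · rw [commutatorElement_self]; exact P.one_mem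
      · exact hab
      · exact hba
      · rw [commutatorElement_self]; exact P.one_mem
    · intro x _
      rw [commutatorElement_one_left]; exact P.one_mem
    · intro x _
      rw [commutatorElement_one_right]; exact P.one_mem
    · intro x y z hx _ _ hxz hyz
      rw [commutatorElement_mul_left_eq_conj_mul]
      rw [← hH] at hx
      exact P.mul_mem (hnorm x hx _ hyz) hxz
    · intro y z x hy _ _ hxy hxz
      rw [commutatorElement_mul_right_eq_mul_conj]
      rw [← hH] at hy
      have h1 := hnorm y hy _ hxz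
      have e : ⁅x, y⁆ * y * ⁅x, z⁆ * y⁻¹ = ⁅x, y⁆ * (y * ⁅x, z⁆ * y⁻¹) := by group
      rw [e]
      exact P.mul_mem hxy h1
    · intro x y hx _ hxy
      rw [commutatorElement_inv_left]
      rw [← hH] at hx
      have h0 : ⁅y, x⁆ ∈ P := by rw [← commutatorElement_inv]; exact P.inv_mem hxy
      have h1 := hnorm x⁻¹ (H.inv_mem hx) _ h0
      rw [inv_inv] at h1
      exact h1
    · intro x y _ hy hxy
      rw [commutatorElement_inv_right]
      rw [← hH] at hy
      have h0 : ⁅y, x⁆ ∈ P := by rw [← commutatorElement_inv]; exact P.inv_mem hxy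
      have h1 := hnorm y⁻¹ (H.inv_mem hy) _ h0
      rw [inv_inv] at h1
      exact h1
  have hbot : ⁅H, H⁆ = ⊥ := eq_bot_of_le_powerClosure hG _ (by rw [← hP]; exact hHP)
  have h1 : ⁅a, b⁆ ∈ ⁅H, H⁆ := Subgroup.commutator_mem_commutator haH hbH
  rw [hbot, Subgroup.mem_bot] at h1
  exact commutatorElement_eq_one_iff_mul_comm.mp h1

/-- Among finite 2-groups the regular ones are exactly the abelian ones. -/
theorem result {G : Type*} [Group G] [Finite G] (hG : IsPGroup 2 G) : Cfsg.IsRegularPGroup 2 G ↔ ∀ a b : G, a * b = b * a := by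
  constructor
  · intro hreg a b
    exact comm_of_regular_two hG hreg a b
  · intro hcomm
    refine ⟨hG, ?_⟩
    intro a b n
    refine ⟨1, Subgroup.one_mem _, ?_⟩
    have hc : Commute a b := hcomm a b
    rw [hc.mul_pow, mul_one]

end Cfsg.Agent.S0642
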