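import Cfsg.Statements.S0663
import Mathlib
import Cfsg.Agent.Lib.Helper1.Uniserial

set_option autoImplicit false
open Cfsg

namespace Cfsg.Agent.S0663

/-- A p-group acts uniserially on a p-group N of order p^n exactly when the iterated commutator chain from N has length n; in that case the chain terms are all the invariant subgroups of N and they are normal in N. -/
theorem result {L : Type*} [Group L] [Finite L] {p : ℕ} [Fact p.Prime] (N G : Subgroup L) (hN : IsPGroup p N) (hG : IsPGroup p G) (hGN : G ≤ Subgroup.normalizer (N : Set L)) (n : ℕ) (hn : Nat.card N = p ^ n) : ((∀ H : Subgroup L, H ≤ N → G ≤ Subgroup.normalizer (H : Set L) → H ≠ ⊥ → (⁅H, G⁆).relIndex H = p) ↔ Cfsg.iterCommutator N G (n - 1) ≠ ⊥ ∨ n = 0) ∧ ((∀ H : Subgroup L, H ≤ N → G ≤ Subgroup.normalizer (H : Set L) → H ≠ ⊥ → (⁅H, G⁆).relIndex H = p) → ∀ H : Subgroup L, H ≤ N → G ≤ Subgroup.normalizer (H : Set L) → (∃ i ≤ n, H = Cfsg.iterCommutator N G i) ∧ N ≤ Subgroup.normalizer (H : Set L)) := by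
  classical
  constructor
  · constructor
    · intro hU
      have hcc := Cfsg.Agent.Lib.Helper1.chain_of_unis N G hGN n hn hU
      rcases Nat.eq_zero_or_pos n with h0 | hpos
      · right; exact h0
      · left
        intro hbot
        have h1 := hcc (n - 1) (by omega)
        rw [hbot, Subgroup.card_bot] at h1
        have h2 : 1 < p ^ (n - (n - 1)) :=
          Nat.one_lt_pow (by omega) (Fact.out : p.Prime).one_lt
        omega
    · intro h
      exact Cfsg.Agent.Lib.Helper1.unis_of_chain N G hN hG hGN n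
        (Cfsg.Agent.Lib.Helper1.chain_of_ne_bot N G hN hG hGN n hn h)
  · intro hU H hHN hGH
    have hcc := Cfsg.Agent.Lib.Helper1.chain_of_unis N G hGN n hn hU
    obtain ⟨j, -, hj2, hj3⟩ :=
      Cfsg.Agent.Lib.Helper1.chain_inv N G hN hG hGN n hcc 0 (Nat.zero_le n) H hGH hHN
    refine ⟨⟨j, hj2, hj3⟩, ?_⟩
    rw [hj3]
    exact Cfsg.Agent.Lib.Helper1.chain_normal N G hN hG hGN n hcc j hj2

end Cfsg.Agent.S0663
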