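import Cfsg.Statements.S0666
import Mathlib
import Cfsg.Agent.Lib.Helper1.FrobAct

set_option autoImplicit false
open Cfsg

namespace Cfsg.Agent.S0666

/-- Conjugation action of `F ≤ N_G(V)` on `V`. -/
def conjHom {G : Type*} [Group G] (V F : Subgroup G)
    (hFV : F ≤ Subgroup.normalizer (V : Set G)) : ↥F →* MulAut ↥V where
  toFun f :=
    { toFun := fun v => ⟨(f : G) * v * (f : G)⁻¹,
        ((Subgroup.mem_normalizer_iff.mp (hFV f.2)) v).mp v.2⟩
      invFun := fun v => ⟨(f : G)⁻¹ * v * (f : G),
        ((Subgroup.mem_normalizer_iff.mp (hFV f.2)) _).mpr (by simpa [mul_assoc] using v.2)⟩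
      left_inv := fun v => Subtype.ext (by simp [mul_assoc])
      right_inv := fun v => Subtype.ext (by simp [mul_assoc])
      map_mul' := fun v w => Subtype.ext (by simp [mul_assoc]) }
  map_one' := by ext v; simp
  map_mul' := fun f g => by ext v; simp [mul_assoc]

theorem conjHom_apply {G : Type*} [Group G] (V F : Subgroup G)
    (hFV : F ≤ Subgroup.normalizer (V : Set G)) (f : F) (v : V) :
    ((conjHom V F hFV f v : V) : G) = (f : G) * v * (f : G)⁻¹ := rfl

/-- A Frobenius group acting on a nontrivial abelian group of order prime to that of its kernel, with the kernel acting without nontrivial fixed points, has a complement with a nontrivial fixed point. -/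
theorem result {G : Type*} [Group G] [Finite G] (V F : Subgroup G) (hVab : IsMulCommutative V) (hV1 : V ≠ ⊥) (hFV : F ≤ Subgroup.normalizer (V : Set G)) (H : Subgroup ↥F) (hH : Cfsg.IsFrobeniusComplement H) (hcop : (Nat.card V).Coprime (Nat.card (Cfsg.frobeniusKernel H))) (hCK : V ⊓ Subgroup.centralizer (Subtype.val '' Cfsg.frobeniusKernel H : Set G) = ⊥) : V ⊓ Subgroup.centralizer ((H.map F.subtype : Subgroup G) : Set G) ≠ ⊥ := by
  classical
  obtain ⟨N, hN, hNn, hc⟩ := Cfsg.Agent.Lib.Lead.frobenius_kernel_subgroup H hH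
  intro hcon
  haveI := hVab
  have hcard : Nat.card N = Nat.card (Cfsg.frobeniusKernel H) := by
    rw [← hN]; rfl
  have key := Cfsg.Agent.Lib.Helper1.frob_action_trivial (conjHom V F hFV) H N hH hN hNn hc
    (by rw [hcard]; exact hcop) ?_ ?_
  · apply hV1
    rw [Subgroup.eq_bot_iff_forall]
    intro x hx
    exact congrArg Subtype.val (key ⟨x, hx⟩)
  · intro a ha
    have hmem : (a : G) ∈ V ⊓ Subgroup.centralizer (Subtype.val '' Cfsg.frobeniusKernel H : Set G) := by
      refine Subgroup.mem_inf.mpr ⟨a.2, ?_⟩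
      rw [Subgroup.mem_centralizer_iff]
      rintro _ ⟨n, hn, rfl⟩
      have hnN : n ∈ N := by
        have : n ∈ (N : Set F) := by rw [hN]; exact hn
        exact this
      have h1 := congrArg Subtype.val (ha n hnN)
      rw [conjHom_apply] at h1
      have : (n : G) * a = (n : G) * a * (n : G)⁻¹ * n := by group
      rw [this, h1]
    rw [hCK, Subgroup.mem_bot] at hmem
    exact Subtype.ext hmem
  · intro a ha
    have hmem : (a : G) ∈ V ⊓ Subgroup.centralizer ((H.map F.subtype : Subgroup G) : Set G) := by
      refine Subgroup.mem_inf.mpr ⟨a.2, ?_⟩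
      rw [Subgroup.mem_centralizer_iff]
      rintro _ ⟨n, hn, rfl⟩
      have h1 := congrArg Subtype.val (ha n hn)
      rw [conjHom_apply] at h1
      have : (F.subtype n : G) * a = (n : G) * a * (n : G)⁻¹ * n := by
        rw [Subgroup.coe_subtype]; group
      rw [this, h1]; rfl
    rw [hcon, Subgroup.mem_bot] at hmem
    exact Subtype.ext hmem

end Cfsg.Agent.S0666
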