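import Cfsg.Statements.S0668

set_option autoImplicit false
open Cfsg

namespace Cfsg.Agent.S0668

/-- the linear map with matrix constant on orbits -/
noncomputable def Phi (K G Ω₁ Ω₂ : Type*) [Field K] [Group G] [Fintype Ω₁] [Fintype Ω₂]
    [MulAction G Ω₁] [MulAction G Ω₂] :
    (MulAction.orbitRel.Quotient G (Ω₁ × Ω₂) → K) →ₗ[K] ((Ω₁ → K) →ₗ[K] (Ω₂ → K)) where
  toFun c :=
    { toFun := fun f y => ∑ x, c (Quotient.mk'' (x, y)) * f x
      map_add' := by
        intro f₁ f₂; funext y
        simp only [Pi.add_apply, mul_add, Finset.sum_add_distrib]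
      map_smul' := by
        intro r f; funext y
        simp only [Pi.smul_apply, smul_eq_mul, RingHom.id_apply, Finset.mul_sum]
        exact Finset.sum_congr rfl (fun x _ => by ring) }
  map_add' := by
    intro c₁ c₂
    apply LinearMap.ext; intro f; funext y
    show ∑ x, (c₁ + c₂) (Quotient.mk'' (x, y)) * f x
      = ∑ x, c₁ (Quotient.mk'' (x, y)) * f x + ∑ x, c₂ (Quotient.mk'' (x, y)) * f x
    simp only [Pi.add_apply, add_mul, Finset.sum_add_distrib]
  map_smul' := by
    intro r c
    apply LinearMap.ext; intro f; funext y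
    show ∑ x, (r • c) (Quotient.mk'' (x, y)) * f x = r * ∑ x, c (Quotient.mk'' (x, y)) * f x
    simp only [Pi.smul_apply, smul_eq_mul, Finset.mul_sum, mul_assoc]

theorem Phi_apply (K G Ω₁ Ω₂ : Type*) [Field K] [Group G] [Fintype Ω₁] [Fintype Ω₂]
    [MulAction G Ω₁] [MulAction G Ω₂] (c : MulAction.orbitRel.Quotient G (Ω₁ × Ω₂) → K)
    (f : Ω₁ → K) (y : Ω₂) :
    Phi K G Ω₁ Ω₂ c f y = ∑ x, c (Quotient.mk'' (x, y)) * f x := rfl

theorem result {G : Type*} [Group G] {K : Type*} [Field K] {Ω₁ Ω₂ : Type*} [Fintype Ω₁] [Fintype Ω₂] [MulAction G Ω₁] [MulAction G Ω₂] : Module.finrank K ((Cfsg.permRep K G Ω₁).linHom (Cfsg.permRep K G Ω₂)).invariants = Nat.card (MulAction.orbitRel.Quotient G (Ω₁ × Ω₂)) := by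
  classical
  letI : Fintype (MulAction.orbitRel.Quotient G (Ω₁ × Ω₂)) := Fintype.ofFinite _
  have hinj : Function.Injective (Phi K G Ω₁ Ω₂) := by
    rw [← LinearMap.ker_eq_bot, LinearMap.ker_eq_bot']
    intro c hc
    funext q
    induction q using Quotient.inductionOn' with
    | h p =>
      obtain ⟨x, y⟩ := p
      have h1 := congrFun (LinearMap.congr_fun hc (Pi.single x 1)) y
      rw [Phi_apply] at h1
      simp only [Pi.single_apply, mul_ite, mul_one, mul_zero, Finset.sum_ite_eq', Finset.mem_univ,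
        if_true, LinearMap.zero_apply, Pi.zero_apply] at h1
      exact h1
  have hrange : LinearMap.range (Phi K G Ω₁ Ω₂)
      = ((Cfsg.permRep K G Ω₁).linHom (Cfsg.permRep K G Ω₂)).invariants := by
    ext T
    constructor
    · rintro ⟨c, rfl⟩
      rw [Representation.mem_invariants]
      intro g
      apply LinearMap.ext; intro f; funext y
      show ∑ x, c (Quotient.mk'' (x, g⁻¹ • y)) * f (g⁻¹⁻¹ • x) = ∑ x, c (Quotient.mk'' (x, y)) * f x
      rw [← Equiv.sum_comp (MulAction.toPerm g⁻¹)
        (fun x => c (Quotient.mk'' (x, g⁻¹ • y)) * f (g⁻¹⁻¹ • x))]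
      apply Finset.sum_congr rfl
      intro x _
      have e1 : (Quotient.mk'' (g⁻¹ • x, g⁻¹ • y) : MulAction.orbitRel.Quotient G (Ω₁ × Ω₂))
          = Quotient.mk'' (x, y) := by
        apply Quotient.sound'
        exact ⟨g⁻¹, rfl⟩
      show c (Quotient.mk'' (g⁻¹ • x, g⁻¹ • y)) * f (g⁻¹⁻¹ • g⁻¹ • x) = _
      rw [e1, inv_inv, smul_inv_smul]
    · intro hT
      rw [Representation.mem_invariants] at hT
      have key : ∀ (g : G) (x : Ω₁) (y : Ω₂),
          T (Pi.single (g • x) 1) (g • y) = T (Pi.single x 1) y := by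
        intro g x y
        have h1 := congrFun (LinearMap.congr_fun (hT g) (Pi.single (g • x) 1)) (g • y)
        rw [← h1]
        show T ((Cfsg.permRep K G Ω₁) g⁻¹ (Pi.single (g • x) 1)) (g⁻¹ • g • y) = _
        have e2 : (Cfsg.permRep K G Ω₁) g⁻¹ (Pi.single (g • x) 1) = Pi.single x 1 := by
          funext x'
          show (Pi.single (g • x) (1:K) : Ω₁ → K) (g⁻¹⁻¹ • x') = _
          rw [inv_inv, Pi.single_apply, Pi.single_apply]
          by_cases h : x' = x
          · rw [if_pos h, if_pos (by rw [h])]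
          · rw [if_neg h, if_neg (fun hh => h (smul_left_cancel g hh))]
        rw [e2, inv_smul_smul]
      refine ⟨fun q => Quotient.liftOn' q (fun p => T (Pi.single p.1 1) p.2) ?_, ?_⟩
      · rintro ⟨x, y⟩ ⟨x', y'⟩ h
        obtain ⟨g, hg⟩ := h
        have hx : g • x' = x := congrArg Prod.fst hg
        have hy : g • y' = y := congrArg Prod.snd hg
        show T (Pi.single x 1) y = T (Pi.single x' 1) y'
        rw [← hx, ← hy, key]
      · apply LinearMap.ext; intro f; funext y
        show ∑ x, T (Pi.single x 1) y * f x = T f y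
        conv_rhs => rw [← Finset.univ_sum_single f]
        rw [map_sum, Finset.sum_apply]
        apply Finset.sum_congr rfl
        intro x _
        have e3 : (Pi.single x (f x) : Ω₁ → K) = f x • Pi.single x 1 := by
          rw [← Pi.single_smul, smul_eq_mul, mul_one]
        rw [e3, map_smul, Pi.smul_apply, smul_eq_mul, mul_comm]
  rw [← hrange, LinearMap.finrank_range_of_inj hinj, Module.finrank_fintype_fun_eq_card,
    Nat.card_eq_fintype_card]

end Cfsg.Agent.S0668
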