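import Mathlib
import Cfsg.Statements.S0669

set_option autoImplicit false
open Cfsg

namespace Cfsg.Agent.S0669

/-- The rank of a transitive action: orbits on ordered pairs correspond to orbits of a point stabiliser. -/
theorem result {G : Type*} [Group G] {Ω : Type*} [Finite Ω] [MulAction G Ω] [MulAction.IsPretransitive G Ω] (a : Ω) : Nat.card (MulAction.orbitRel.Quotient G (Ω × Ω)) = Nat.card (MulAction.orbitRel.Quotient (MulAction.stabilizer G a) Ω) := by
  symm
  apply Nat.card_congr
  let f : MulAction.orbitRel.Quotient (MulAction.stabilizer G a) Ω →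
      MulAction.orbitRel.Quotient G (Ω × Ω) :=
    Quotient.map' (fun b => (a, b)) (by
      intro b b' h
      have h' : b ∈ MulAction.orbit (MulAction.stabilizer G a) b' := h
      obtain ⟨s, rfl⟩ := h'
      show (a, s • b') ∈ MulAction.orbit G (a, b')
      refine ⟨(s : G), ?_⟩
      show ((s : G) • a, (s : G) • b') = (a, s • b')
      rw [MulAction.mem_stabilizer_iff.mp s.2]; rfl)
  refine Equiv.ofBijective f ⟨?_, ?_⟩
  · intro x y
    induction x using Quotient.inductionOn' with | _ b
    induction y using Quotient.inductionOn' with | _ b'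
    intro h
    have h2 : (a, b) ∈ MulAction.orbit G (a, b') := Quotient.exact' h
    obtain ⟨g, hg⟩ := h2
    apply Quotient.sound'
    have h1 : g • a = a := congrArg Prod.fst hg
    have h3 : g • b' = b := congrArg Prod.snd hg
    show b ∈ MulAction.orbit (MulAction.stabilizer G a) b'
    exact ⟨⟨g, h1⟩, h3⟩
  · intro y
    induction y using Quotient.inductionOn' with | _ p
    obtain ⟨x, y⟩ := p
    obtain ⟨g, rfl⟩ := MulAction.exists_smul_eq G a x
    refine ⟨Quotient.mk'' (g⁻¹ • y), ?_⟩
    apply Quotient.sound'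
    show (a, g⁻¹ • y) ∈ MulAction.orbit G (g • a, y)
    refine ⟨g⁻¹, ?_⟩
    show (g⁻¹ • g • a, g⁻¹ • y) = (a, g⁻¹ • y)
    rw [inv_smul_smul]

end Cfsg.Agent.S0669
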