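import Cfsg.Statements.S0670
import Cfsg.Agent.Lib.Helper2.PermMod

set_option autoImplicit false
open Cfsg

namespace Cfsg.Agent.S0670

theorem result {G : Type*} [Group G] [Finite G] {K : Type*} [Field K] {p f : ℕ} [Fact p.Prime] [CharP K p] {Ω : Type*} [Fintype Ω] [MulAction G Ω] [MulAction.IsPretransitive G Ω] (hf : 1 ≤ f) (hcard : Fintype.card Ω = p ^ f) (W : Subrepresentation (Cfsg.permRep K G Ω)) (hW : W.toSubmodule ≠ ⊥) : (Cfsg.permConstants K G Ω).toSubmodule ≤ W.toSubmodule := by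
  have h1 := Cfsg.Agent.Lib.Helper2.PermMod.one_mem_of_ne_bot (G := G) (K := K) hcard W hW
  show Submodule.span K {fun _ => (1:K)} ≤ W.toSubmodule
  exact Submodule.span_le.mpr (Set.singleton_subset_iff.mpr h1)

end Cfsg.Agent.S0670
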