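import Cfsg.Statements.S0671
import Cfsg.Agent.Lib.Helper2.PermMod

set_option autoImplicit false
open Cfsg

namespace Cfsg.Agent.S0671

open Cfsg.Agent.Lib.Helper2.PermMod

/-- kernel operator -/
noncomputable def kerMap {K Ω : Type*} [Field K] [Fintype Ω] (k : Ω → Ω → K) :
    (Ω → K) →ₗ[K] (Ω → K) where
  toFun f y := ∑ x, k x y * f x
  map_add' := by
    intro f₁ f₂; funext y
    simp only [Pi.add_apply, mul_add, Finset.sum_add_distrib]
  map_smul' := by
    intro r f; funext y
    simp only [Pi.smul_apply, smul_eq_mul, RingHom.id_apply, Finset.mul_sum]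
    exact Finset.sum_congr rfl (fun x _ => by ring)

theorem kerMap_apply {K Ω : Type*} [Field K] [Fintype Ω] (k : Ω → Ω → K) (f : Ω → K) (y : Ω) :
    kerMap k f y = ∑ x, k x y * f x := rfl

theorem kerMap_equivariant {G K Ω : Type*} [Group G] [Field K] [Fintype Ω] [MulAction G Ω]
    (k : Ω → Ω → K) (hk : ∀ (g : G) x y, k (g • x) (g • y) = k x y) (g : G) (f : Ω → K) :
    kerMap k (Cfsg.permRep K G Ω g f) = Cfsg.permRep K G Ω g (kerMap k f) := by
  funext y
  show ∑ x, k x y * f (g⁻¹ • x) = ∑ x, k x (g⁻¹ • y) * f x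
  rw [← Equiv.sum_comp (MulAction.toPerm g) (fun x => k x y * f (g⁻¹ • x))]
  apply Finset.sum_congr rfl
  intro x _
  show k (g • x) y * f (g⁻¹ • g • x) = k x (g⁻¹ • y) * f x
  rw [inv_smul_smul]
  congr 1
  have h1 := hk g x (g⁻¹ • y)
  rw [smul_inv_smul] at h1
  exact h1

/-- a proper subrepresentation of the permutation module lies in the sum-zero functions -/
theorem le_sumZero_of_ne_top {G : Type*} [Group G] [Finite G] {K : Type*} [Field K] {p f : ℕ}
    [Fact p.Prime] [CharP K p] {Ω : Type*} [Fintype Ω] [MulAction G Ω] [MulAction.IsPretransitive G Ω]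
    (hcard : Fintype.card Ω = p ^ f) (U : Subrepresentation (Cfsg.permRep K G Ω))
    (hU : U.toSubmodule ≠ ⊤) : ∀ u ∈ U.toSubmodule, ∑ x, u x = 0 := by
  classical
  let Uperp : Subrepresentation (Cfsg.permRep K G Ω) :=
    { toSubmodule :=
        { carrier := {f | ∀ u ∈ U.toSubmodule, ∑ x, f x * u x = 0}
          add_mem' := by
            intro f₁ f₂ h₁ h₂ u hu
            show ∑ x, (f₁ + f₂) x * u x = 0
            simp only [Pi.add_apply, add_mul, Finset.sum_add_distrib]
            rw [h₁ u hu, h₂ u hu, add_zero]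
          zero_mem' := by
            intro u hu
            show ∑ x, (0 : Ω → K) x * u x = 0
            simp
          smul_mem' := by
            intro c f hf u hu
            show ∑ x, (c • f) x * u x = 0
            simp only [Pi.smul_apply, smul_eq_mul, mul_assoc, ← Finset.mul_sum]
            rw [hf u hu, mul_zero] }
      apply_mem_toSubmodule := by
        intro g f hf u hu
        show ∑ x, f (g⁻¹ • x) * u x = 0
        have h1 : ∑ x, f x * u (g⁻¹⁻¹ • x) = 0 :=
          hf (Cfsg.permRep K G Ω g⁻¹ u) (U.apply_mem_toSubmodule g⁻¹ hu)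
        rw [← Equiv.sum_comp (MulAction.toPerm g) (fun x => f (g⁻¹ • x) * u x), ← h1]
        apply Finset.sum_congr rfl
        intro x _
        show f (g⁻¹ • g • x) * u (g • x) = f x * u (g⁻¹⁻¹ • x)
        rw [inv_smul_smul, inv_inv] }
  have hne : Uperp.toSubmodule ≠ ⊥ := by
    obtain ⟨ℓ, hℓ0, hℓ⟩ := Submodule.exists_le_ker_of_lt_top U.toSubmodule (lt_top_iff_ne_top.mpr hU)
    have hrep : ∀ u : Ω → K, ℓ u = ∑ x, ℓ (Pi.single x 1) * u x := by
      intro u
      conv_lhs => rw [← Finset.univ_sum_single u]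
      rw [map_sum]
      apply Finset.sum_congr rfl
      intro x _
      have e3 : (Pi.single x (u x) : Ω → K) = u x • Pi.single x 1 := by
        rw [← Pi.single_smul, smul_eq_mul, mul_one]
      rw [e3, map_smul, smul_eq_mul, mul_comm]
    intro hbot
    apply hℓ0
    have hmem : (fun x => ℓ (Pi.single x 1)) ∈ Uperp.toSubmodule := by
      intro u hu
      show ∑ x, ℓ (Pi.single x 1) * u x = 0
      rw [← hrep u]
      exact hℓ hu
    rw [hbot, Submodule.mem_bot] at hmem
    apply LinearMap.ext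
    intro u
    rw [hrep u, LinearMap.zero_apply]
    apply Finset.sum_eq_zero
    intro x _
    have h2 := congrFun hmem x
    simp only [Pi.zero_apply] at h2
    rw [h2, zero_mul]
  have h1 := one_mem_of_ne_bot hcard Uperp hne
  intro u hu
  have h2 : ∑ x, (1 : K) * u x = 0 := h1 u hu
  simpa using h2

theorem result {G : Type*} [Group G] [Finite G] {K : Type*} [Field K] {p f : ℕ} [Fact p.Prime] [CharP K p] {Ω : Type*} [Fintype Ω] [MulAction G Ω] [MulAction.IsPretransitive G Ω] (hf : 1 ≤ f) (hcard : Fintype.card Ω = p ^ f) (h : ∀ W W' : Subrepresentation (Cfsg.permRep K G Ω), (Cfsg.permConstants K G Ω).toSubmodule ≤ W.toSubmodule → W.toSubmodule < W'.toSubmodule → W'.toSubmodule ≤ (Cfsg.permSumZero K G Ω).toSubmodule → ∃ g : G, ∃ v ∈ W'.toSubmodule, Cfsg.permRep K G Ω g v - v ∉ W.toSubmodule) : MulAction.IsMultiplyPretransitive G Ω 2 := by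
  classical
  by_contra hnot
  rw [MulAction.is_two_pretransitive_iff] at hnot
  push_neg at hnot
  obtain ⟨a, b, c, d, hab, hcd, hno⟩ := hnot
  obtain ⟨k₂, hk₂⟩ : ∃ k₂ : Ω → Ω → K,
      k₂ = fun x y => if (∃ g : G, g • a = x ∧ g • b = y) then 1 else 0 := ⟨_, rfl⟩
  have hk₂inv : ∀ (g : G) x y, k₂ (g • x) (g • y) = k₂ x y := by
    intro g x y
    rw [hk₂]
    have hiff : (∃ g' : G, g' • a = g • x ∧ g' • b = g • y) ↔ (∃ g' : G, g' • a = x ∧ g' • b = y) := by
      constructor
      · rintro ⟨g', h1, h2⟩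
        exact ⟨g⁻¹ * g', by rw [mul_smul, h1, inv_smul_smul], by rw [mul_smul, h2, inv_smul_smul]⟩
      · rintro ⟨g', h1, h2⟩
        exact ⟨g * g', by rw [mul_smul, h1], by rw [mul_smul, h2]⟩
    simp only [hiff]
  have hcol : ∀ y y', ∑ x, k₂ x y' = ∑ x, k₂ x y := by
    intro y y'
    obtain ⟨g, rfl⟩ := MulAction.exists_smul_eq G y y'
    calc ∑ x, k₂ x (g • y) = ∑ x, k₂ (g • x) (g • y) :=
          (Equiv.sum_comp (MulAction.toPerm g) (fun x => k₂ x (g • y))).symm
      _ = ∑ x, k₂ x y := Finset.sum_congr rfl (fun x _ => hk₂inv g x y)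
  obtain ⟨r, hr⟩ : ∃ r : K, r = ∑ x, k₂ x a := ⟨_, rfl⟩
  obtain ⟨k, hk⟩ : ∃ k : Ω → Ω → K, k = fun x y => k₂ x y - r * (if x = y then 1 else 0) := ⟨_, rfl⟩
  have hkinv : ∀ (g : G) x y, k (g • x) (g • y) = k x y := by
    intro g x y
    rw [hk]
    simp only [hk₂inv, smul_left_cancel_iff]
  obtain ⟨φ, hφ⟩ : ∃ φ, φ = kerMap k := ⟨_, rfl⟩
  have hφeq : ∀ (g : G) (f : Ω → K), φ (Cfsg.permRep K G Ω g f) = Cfsg.permRep K G Ω g (φ f) :=
    fun g f => hφ ▸ kerMap_equivariant k hkinv g f
  have hφ1 : φ (fun _ => 1) = 0 := by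
    funext y
    rw [hφ, kerMap_apply]
    simp only [hk, mul_one, Finset.sum_sub_distrib, ← Finset.mul_sum, Finset.sum_ite_eq',
      Finset.mem_univ, if_true, Pi.zero_apply]
    rw [hcol a y, ← hr]; ring
  obtain ⟨σ, hσ⟩ : ∃ σ, σ = kerMap (fun (_ _ : Ω) => (1:K)) := ⟨_, rfl⟩
  have hσapp : ∀ (f : Ω → K) (y : Ω), σ f y = ∑ x, f x := by
    intro f y; rw [hσ, kerMap_apply]; simp
  have hσeq : ∀ (g : G) (f : Ω → K), σ (Cfsg.permRep K G Ω g f) = Cfsg.permRep K G Ω g (σ f) :=
    fun g f => hσ ▸ kerMap_equivariant _ (fun _ _ _ => rfl) g f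
  have e1 : ∀ x y, φ (Pi.single x 1) y = k x y := by
    intro x y
    rw [hφ, kerMap_apply]
    simp [Pi.single_apply]
  have e2 : ∀ x y, σ (Pi.single x (1:K)) y = 1 := by
    intro x y
    rw [hσapp]
    simp [Pi.single_apply]
  have hA : ∀ c' : K, φ ≠ c' • σ := by
    intro c' hc'
    have h1 := congrFun (LinearMap.congr_fun hc' (Pi.single c 1)) d
    have h2 := congrFun (LinearMap.congr_fun hc' (Pi.single a 1)) b
    rw [LinearMap.smul_apply, Pi.smul_apply, e1, e2, smul_eq_mul, mul_one] at h1 h2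
    have hkcd : k c d = 0 := by
      rw [hk]
      simp only [if_neg hcd, mul_zero, sub_zero, hk₂]
      rw [if_neg]
      rintro ⟨g, h3, h4⟩
      exact hno g h3 h4
    have hkab : k a b = 1 := by
      rw [hk]
      simp only [if_neg hab, mul_zero, sub_zero, hk₂]
      rw [if_pos ⟨1, one_smul _ _, one_smul _ _⟩]
    rw [hkcd] at h1
    rw [hkab, ← h1] at h2
    exact one_ne_zero h2
  -- subrepresentations from equivariant maps
  have kerSub : ∀ θ : (Ω → K) →ₗ[K] (Ω → K),
      (∀ (g : G) (f : Ω → K), θ (Cfsg.permRep K G Ω g f) = Cfsg.permRep K G Ω g (θ f)) →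
      ∃ U : Subrepresentation (Cfsg.permRep K G Ω), U.toSubmodule = LinearMap.ker θ := by
    intro θ hθ
    exact ⟨{ toSubmodule := LinearMap.ker θ
             apply_mem_toSubmodule := by
               intro g v hv
               rw [LinearMap.mem_ker] at hv ⊢
               rw [hθ, hv, map_zero] }, rfl⟩
  have rangeSub : ∀ θ : (Ω → K) →ₗ[K] (Ω → K),
      (∀ (g : G) (f : Ω → K), θ (Cfsg.permRep K G Ω g f) = Cfsg.permRep K G Ω g (θ f)) →
      ∃ U : Subrepresentation (Cfsg.permRep K G Ω), U.toSubmodule = LinearMap.range θ := by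
    intro θ hθ
    exact ⟨{ toSubmodule := LinearMap.range θ
             apply_mem_toSubmodule := by
               rintro g _ ⟨v, rfl⟩
               exact ⟨Cfsg.permRep K G Ω g v, hθ g v⟩ }, rfl⟩
  have hone_ne : (fun _ => (1:K)) ≠ (0 : Ω → K) := by
    intro h0
    have := congrFun h0 a
    simp at this
  -- range φ ≤ sum zero
  have hrS : ∀ v : Ω → K, ∑ x, φ v x = 0 := by
    intro v
    obtain ⟨Ur, hUr⟩ := rangeSub φ hφeq
    have hUr_ne : Ur.toSubmodule ≠ ⊤ := by
      rw [hUr]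
      intro htop
      have hsurj : Function.Surjective φ := LinearMap.range_eq_top.mp htop
      have hinj : Function.Injective φ := LinearMap.injective_iff_surjective.mpr hsurj
      exact hone_ne (hinj (by rw [hφ1, map_zero]))
    exact le_sumZero_of_ne_top hcard Ur hUr_ne (φ v) (by rw [hUr]; exact ⟨v, rfl⟩)
  have hf0 : f ≠ 0 := by omega
  have hcard0 : ((Fintype.card Ω : ℕ) : K) = 0 := by
    rw [hcard, Nat.cast_pow, CharP.cast_eq_zero K p, zero_pow hf0]
  have hCS : ∀ z ∈ (Cfsg.permConstants K G Ω).toSubmodule, ∑ x, z x = 0 := by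
    intro z hz
    obtain ⟨c', rfl⟩ := Submodule.mem_span_singleton.mp hz
    simp only [Pi.smul_apply, smul_eq_mul, mul_one, Finset.sum_const, Finset.card_univ, nsmul_eq_mul]
    rw [hcard0, zero_mul]
  have hCfix : ∀ (g : G), ∀ z ∈ (Cfsg.permConstants K G Ω).toSubmodule,
      Cfsg.permRep K G Ω g z = z := by
    intro g z hz
    obtain ⟨c', rfl⟩ := Submodule.mem_span_singleton.mp hz
    rfl
  have hSdiff : ∀ (g : G) (m : Ω → K),
      Cfsg.permRep K G Ω g m - m ∈ (Cfsg.permSumZero K G Ω).toSubmodule := by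
    intro g m
    show ∑ x, (Cfsg.permRep K G Ω g m - m) x = 0
    simp only [Pi.sub_apply, Finset.sum_sub_distrib]
    have h1 : ∑ x, Cfsg.permRep K G Ω g m x = ∑ x, m x :=
      Equiv.sum_comp (MulAction.toPerm g⁻¹) m
    rw [h1, sub_self]
  let W : Subrepresentation (Cfsg.permRep K G Ω) :=
    { toSubmodule := (Cfsg.permSumZero K G Ω).toSubmodule.map φ ⊔ (Cfsg.permConstants K G Ω).toSubmodule
      apply_mem_toSubmodule := by
        intro g v hv
        obtain ⟨y, ⟨s, hs, rfl⟩, z, hz, rfl⟩ := Submodule.mem_sup.mp hv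
        rw [map_add]
        exact Submodule.add_mem _
          (Submodule.mem_sup_left ⟨Cfsg.permRep K G Ω g s,
            (Cfsg.permSumZero K G Ω).apply_mem_toSubmodule g hs, hφeq g s⟩)
          (Submodule.mem_sup_right ((Cfsg.permConstants K G Ω).apply_mem_toSubmodule g hz)) }
  let W' : Subrepresentation (Cfsg.permRep K G Ω) :=
    { toSubmodule := LinearMap.range φ ⊔ (Cfsg.permConstants K G Ω).toSubmodule
      apply_mem_toSubmodule := by
        intro g v hv
        obtain ⟨y, ⟨s, rfl⟩, z, hz, rfl⟩ := Submodule.mem_sup.mp hv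
        rw [map_add]
        exact Submodule.add_mem _
          (Submodule.mem_sup_left ⟨Cfsg.permRep K G Ω g s, hφeq g s⟩)
          (Submodule.mem_sup_right ((Cfsg.permConstants K G Ω).apply_mem_toSubmodule g hz)) }
  have hWW' : W.toSubmodule ≤ W'.toSubmodule :=
    sup_le_sup_right (LinearMap.map_le_range) _
  have hne : W.toSubmodule ≠ W'.toSubmodule := by
    intro heq
    have h1 : φ (Pi.single a 1) ∈ W.toSubmodule := by
      rw [heq]
      exact Submodule.mem_sup_left ⟨_, rfl⟩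
    obtain ⟨y, ⟨s, hs, rfl⟩, z, hz, hyz⟩ := Submodule.mem_sup.mp h1
    obtain ⟨c', rfl⟩ := Submodule.mem_span_singleton.mp hz
    have hs0 : ∑ x, s x = 0 := hs
    have hθeq : ∀ (g : G) (f : Ω → K), (φ - c' • σ) (Cfsg.permRep K G Ω g f)
        = Cfsg.permRep K G Ω g ((φ - c' • σ) f) := by
      intro g f
      rw [LinearMap.sub_apply, LinearMap.sub_apply, LinearMap.smul_apply, LinearMap.smul_apply,
        hφeq, hσeq, map_sub, map_smul]
    obtain ⟨Uk, hUk⟩ := kerSub (φ - c' • σ) hθeq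
    have hm1 : Pi.single a 1 - s ∈ Uk.toSubmodule := by
      rw [hUk, LinearMap.mem_ker, LinearMap.sub_apply, LinearMap.smul_apply, map_sub, ← hyz]
      funext x
      simp only [Pi.sub_apply, Pi.add_apply, Pi.smul_apply, smul_eq_mul, mul_one, hσapp,
        Finset.sum_sub_distrib, hs0, sub_zero, Pi.zero_apply, Pi.single_apply,
        Finset.sum_ite_eq', Finset.mem_univ, if_true]
      ring
    by_cases htop : Uk.toSubmodule = ⊤
    · rw [hUk] at htop
      apply hA c'
      have h0 : φ - c' • σ = 0 := LinearMap.ker_eq_top.mp htop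
      exact sub_eq_zero.mp h0
    · have h2 := le_sumZero_of_ne_top hcard Uk htop _ hm1
      simp only [Pi.sub_apply, Finset.sum_sub_distrib, hs0, sub_zero, Pi.single_apply,
        Finset.sum_ite_eq', Finset.mem_univ, if_true] at h2
      exact one_ne_zero h2
  have hW'S : W'.toSubmodule ≤ (Cfsg.permSumZero K G Ω).toSubmodule := by
    apply sup_le
    · rintro _ ⟨v, rfl⟩
      exact hrS v
    · intro z hz
      exact hCS z hz
  obtain ⟨g, v, hv, hvnot⟩ := h W W' le_sup_right (lt_of_le_of_ne hWW' hne) hW'S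
  apply hvnot
  obtain ⟨y, ⟨m, rfl⟩, z, hz, rfl⟩ := Submodule.mem_sup.mp hv
  have e : Cfsg.permRep K G Ω g (φ m + z) - (φ m + z) = φ (Cfsg.permRep K G Ω g m - m) := by
    rw [map_add, hCfix g z hz, ← hφeq, map_sub]
    abel
  rw [e]
  exact Submodule.mem_sup_left ⟨_, hSdiff g m, rfl⟩

end Cfsg.Agent.S0671
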