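import Cfsg.Statements.S0672

set_option autoImplicit false
open Cfsg

namespace Cfsg.Agent.S0672

open scoped Pointwise

/-- kernel operator between two index sets -/
noncomputable def kerMap2 {K Ω Ω' : Type*} [Field K] [Fintype Ω] (k : Ω → Ω' → K) :
    (Ω → K) →ₗ[K] (Ω' → K) where
  toFun f y := ∑ x, k x y * f x
  map_add' := by
    intro f₁ f₂; funext y
    simp only [Pi.add_apply, mul_add, Finset.sum_add_distrib]
  map_smul' := by
    intro r f; funext y
    simp only [Pi.smul_apply, smul_eq_mul, RingHom.id_apply, Finset.mul_sum]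
    exact Finset.sum_congr rfl (fun x _ => by ring)

theorem kerMap2_apply {K Ω Ω' : Type*} [Field K] [Fintype Ω] (k : Ω → Ω' → K) (f : Ω → K) (y : Ω') :
    kerMap2 k f y = ∑ x, k x y * f x := rfl

theorem step1 {G K Ω : Type*} [Group G] [Field K] [Fintype Ω] [DecidableEq Ω] [MulAction G Ω]
    (h2 : MulAction.IsMultiplyPretransitive G Ω 2)
    (h : ∀ f : Representation.IntertwiningMap (Cfsg.permSumZero K G Ω).toRepresentation
      (Cfsg.permRep K G (Set.powersetCard Ω 2)),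
      (∀ v : (Cfsg.permSumZero K G Ω).toSubmodule,
        (v : Ω → K) ∈ (Cfsg.permConstants K G Ω).toSubmodule → f v = 0) → f = 0)
    (a b e e' : Ω) (hab : a ≠ b) (hea : e ≠ a) (heb : e ≠ b) (he'a : e' ≠ a) (he'b : e' ≠ b) :
    ∃ g : G, (g • a = a ∨ g • a = b) ∧ (g • b = a ∨ g • b = b) ∧ g • e = e' := by
  classical
  by_contra hcon
  obtain ⟨s₀, hs₀⟩ : ∃ s₀ : Set.powersetCard Ω 2, (s₀ : Finset Ω) = {a, b} :=
    ⟨⟨{a, b}, Finset.card_pair hab⟩, rfl⟩
  obtain ⟨R, hR⟩ : ∃ R : Ω → Set.powersetCard Ω 2 → Prop,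
      R = fun (z : Ω) (s : Set.powersetCard Ω 2) => ∃ g : G, g • a ∈ (s : Finset Ω) ∧ g • b ∈ (s : Finset Ω) ∧ g • e = z :=
    ⟨_, rfl⟩
  have hRinv : ∀ (g : G) z s, R (g • z) (g • s) ↔ R z s := by
    intro g z s
    rw [hR]
    constructor
    · rintro ⟨g', h1, h2, h3⟩
      rw [Set.powersetCard.coe_smul] at h1 h2
      refine ⟨g⁻¹ * g', ?_, ?_, ?_⟩
      · rw [mul_smul, Finset.inv_smul_mem_iff]; exact h1
      · rw [mul_smul, Finset.inv_smul_mem_iff]; exact h2
      · rw [mul_smul, h3, inv_smul_smul]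
    · rintro ⟨g', h1, h2, h3⟩
      refine ⟨g * g', ?_, ?_, ?_⟩
      · rw [mul_smul, Set.powersetCard.coe_smul]; exact Finset.smul_mem_smul_finset h1
      · rw [mul_smul, Set.powersetCard.coe_smul]; exact Finset.smul_mem_smul_finset h2
      · rw [mul_smul, h3]
  have hmem_inv : ∀ (g : G) z (s : Set.powersetCard Ω 2),
      g • z ∈ ((g • s : Set.powersetCard Ω 2) : Finset Ω) ↔ z ∈ (s : Finset Ω) := by
    intro g z s
    rw [Set.powersetCard.coe_smul, Finset.smul_mem_smul_finset_iff]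
  have hnotR : ¬ R e' s₀ := by
    rw [hR]
    rintro ⟨g, h1, h2, h3⟩
    apply hcon
    rw [hs₀] at h1 h2
    refine ⟨g, ?_, ?_, h3⟩
    · simpa using h1
    · simpa using h2
  have hRe : R e s₀ := by
    rw [hR]
    refine ⟨1, ?_, ?_, one_smul _ _⟩
    · rw [hs₀, one_smul]; simp
    · rw [hs₀, one_smul]; simp
  have hes₀ : e ∉ (s₀ : Finset Ω) := by rw [hs₀]; simp [hea, heb]
  have he's₀ : e' ∉ (s₀ : Finset Ω) := by rw [hs₀]; simp [he'a, he'b]
  have has₀ : a ∈ (s₀ : Finset Ω) := by rw [hs₀]; simp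
  obtain ⟨N, hN⟩ : ∃ N : ℕ,
      N = (Finset.univ.filter (fun z => z ∉ (s₀ : Finset Ω) ∧ R z s₀)).card := ⟨_, rfl⟩
  obtain ⟨N', M', hNM, hNMne⟩ : ∃ N' M' : K, 2 * N' + N * M' = 0 ∧ (M' ≠ 0 ∨ N' ≠ 0) := by
    by_cases h2K : (2:K) = 0
    · exact ⟨1, 0, by rw [mul_one, mul_zero, add_zero]; exact h2K, Or.inr one_ne_zero⟩
    · exact ⟨N, -2, by ring, Or.inl (neg_ne_zero.mpr h2K)⟩
  obtain ⟨c, hc⟩ : ∃ c : Ω → Set.powersetCard Ω 2 → K,
      c = fun (z : Ω) (s : Set.powersetCard Ω 2) => if z ∈ (s : Finset Ω) then N' else if R z s then M' else 0 := ⟨_, rfl⟩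
  have hcinv : ∀ (g : G) z s, c (g • z) (g • s) = c z s := by
    intro g z s
    rw [hc]
    simp only [hmem_inv, hRinv]
  -- row sums vanish
  have hF0 : ∑ z, c z s₀ = 0 := by
    have hpt : ∀ z, c z s₀ = (if z ∈ (s₀ : Finset Ω) then N' else 0)
        + (if (z ∉ (s₀ : Finset Ω) ∧ R z s₀) then M' else 0) := by
      intro z
      rw [hc]
      by_cases hz : z ∈ (s₀ : Finset Ω)
      · simp [hz]
      · simp [hz]
    rw [Finset.sum_congr rfl (fun z _ => hpt z), Finset.sum_add_distrib, Finset.sum_ite,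
      Finset.sum_ite, Finset.sum_const_zero, Finset.sum_const_zero, add_zero, add_zero,
      Finset.sum_const, Finset.sum_const, ← hN, nsmul_eq_mul, nsmul_eq_mul]
    have hcard2 : (Finset.univ.filter (fun z => z ∈ (s₀ : Finset Ω))).card = 2 := by
      rw [Finset.filter_mem_eq_inter, Finset.univ_inter]
      exact s₀.2
    rw [hcard2]
    push_cast
    exact hNM
  have htrans : ∀ s : Set.powersetCard Ω 2, ∃ g : G, g • s₀ = s := by
    intro s
    obtain ⟨x, y, hxy, hs⟩ := Finset.card_eq_two.mp s.2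
    obtain ⟨g, hga, hgb⟩ := MulAction.is_two_pretransitive_iff.mp h2 hab hxy
    refine ⟨g, ?_⟩
    apply Subtype.ext
    rw [Set.powersetCard.coe_smul, hs₀]
    show g • ({a, b} : Finset Ω) = (s : Finset Ω)
    rw [show (s : Finset Ω) = {x, y} from hs, Finset.smul_finset_insert, Finset.smul_finset_singleton,
      hga, hgb]
  have hF : ∀ s, ∑ z, c z s = 0 := by
    intro s
    obtain ⟨g, rfl⟩ := htrans s
    rw [← hF0]
    calc ∑ z, c z (g • s₀) = ∑ z, c (g • z) (g • s₀) :=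
          (Equiv.sum_comp (MulAction.toPerm g) (fun z => c z (g • s₀))).symm
      _ = ∑ z, c z s₀ := Finset.sum_congr rfl (fun z _ => hcinv g z s₀)
  -- the intertwining map
  have hLeq : ∀ (g : G) (v : Ω → K), kerMap2 c (Cfsg.permRep K G Ω g v)
      = Cfsg.permRep K G (Set.powersetCard Ω 2) g (kerMap2 c v) := by
    intro g v
    funext s
    show ∑ z, c z s * v (g⁻¹ • z) = ∑ z, c z (g⁻¹ • s) * v z
    rw [← Equiv.sum_comp (MulAction.toPerm g) (fun z => c z s * v (g⁻¹ • z))]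
    apply Finset.sum_congr rfl
    intro z _
    show c (g • z) s * v (g⁻¹ • g • z) = c z (g⁻¹ • s) * v z
    rw [inv_smul_smul]
    congr 1
    have h1 := hcinv g z (g⁻¹ • s)
    rw [smul_inv_smul] at h1
    exact h1
  let f : Representation.IntertwiningMap (Cfsg.permSumZero K G Ω).toRepresentation
      (Cfsg.permRep K G (Set.powersetCard Ω 2)) :=
    LinearMap.intertwiningMap_of_isIntertwiningMap _ _
      (kerMap2 c ∘ₗ (Cfsg.permSumZero K G Ω).toSubmodule.subtype)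
      (fun g v => hLeq g (v : Ω → K))
  have hfapp : ∀ v : (Cfsg.permSumZero K G Ω).toSubmodule, f v = kerMap2 c (v : Ω → K) :=
    fun v => rfl
  have hf0 : f = 0 := by
    apply h f
    intro v hv
    rw [hfapp]
    obtain ⟨c', hc'⟩ := Submodule.mem_span_singleton.mp hv
    rw [← hc', map_smul]
    have h1 : kerMap2 c (fun _ => (1:K)) = 0 := by
      funext s
      rw [kerMap2_apply]
      simp only [mul_one, Pi.zero_apply]
      exact hF s
    rw [h1, smul_zero]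
  -- a test vector
  obtain ⟨x, hx⟩ : ∃ x, c x s₀ ≠ 0 := by
    rcases hNMne with hM | hN'
    · refine ⟨e, ?_⟩
      rw [hc]
      simp only [if_neg hes₀, if_pos hRe]
      exact hM
    · refine ⟨a, ?_⟩
      rw [hc]
      simp only [if_pos has₀]
      exact hN'
  have hce' : c e' s₀ = 0 := by
    rw [hc]
    simp only [if_neg he's₀, if_neg hnotR]
  have hvS : (Pi.single x 1 - Pi.single e' 1 : Ω → K) ∈ (Cfsg.permSumZero K G Ω).toSubmodule := by
    show ∑ z, (Pi.single x 1 - Pi.single e' 1 : Ω → K) z = 0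
    simp [Pi.single_apply, Finset.sum_sub_distrib]
  have h3 := congrFun (DFunLike.congr_fun hf0 ⟨_, hvS⟩) s₀
  rw [hfapp] at h3
  rw [kerMap2_apply] at h3
  simp only [Pi.sub_apply, Pi.single_apply, mul_sub, mul_ite, mul_one, mul_zero,
    Finset.sum_sub_distrib, Finset.sum_ite_eq', Finset.mem_univ, if_true,
    Representation.IntertwiningMap.coe_zero, Pi.zero_apply] at h3
  rw [hce', sub_zero] at h3
  exact hx h3

theorem step2 {G Ω : Type*} [Group G] [Finite G] [MulAction G Ω] [FaithfulSMul G Ω]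
    (h2 : MulAction.IsMultiplyPretransitive G Ω 2)
    (heven : ∀ a : Ω, Even (Nat.card (MulAction.stabilizer G a))) (a b : Ω) (hab : a ≠ b) :
    ∃ (t : G) (z₀ : Ω), t • a = b ∧ t • b = a ∧ t • z₀ = z₀ ∧ z₀ ≠ a ∧ z₀ ≠ b := by
  haveI : Fact (Nat.Prime 2) := ⟨Nat.prime_two⟩
  obtain ⟨s, hs⟩ := exists_prime_orderOf_dvd_card' (G := MulAction.stabilizer G a) 2
    (heven a).two_dvd
  have hs1 : (s : G) ≠ 1 := by
    intro h1
    have h2' : s = 1 := Subtype.ext h1
    rw [h2', orderOf_one] at hs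
    omega
  have hss : (s : G) * (s : G) = 1 := by
    have h1 := pow_orderOf_eq_one s
    rw [hs, pow_two] at h1
    exact congrArg Subtype.val h1
  obtain ⟨u, hu⟩ : ∃ u : Ω, (s : G) • u ≠ u := by
    by_contra hh
    push_neg at hh
    exact hs1 (FaithfulSMul.eq_of_smul_eq_smul (α := Ω) (fun x => by rw [hh x, one_smul]))
  have hsa : (s : G) • a = a := s.2
  have hsw : (s : G) • ((s : G) • u) = u := by rw [← mul_smul, hss, one_smul]
  have hua : u ≠ a := by rintro rfl; exact hu hsa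
  have hwa : (s : G) • u ≠ a := by
    intro h1
    have h3 : u = a := by rw [← hsw, h1, hsa]
    exact hua h3
  obtain ⟨g, hgu, hgw⟩ := MulAction.is_two_pretransitive_iff.mp h2 (Ne.symm hu) hab
  have hinv_a : g⁻¹ • a = u := by rw [inv_smul_eq_iff, hgu]
  have hinv_b : g⁻¹ • b = (s : G) • u := by rw [inv_smul_eq_iff, hgw]
  refine ⟨g * s * g⁻¹, g • a, ?_, ?_, ?_, ?_, ?_⟩
  · rw [mul_smul, mul_smul, hinv_a, hgw]
  · rw [mul_smul, mul_smul, hinv_b, hsw, hgu]
  · rw [mul_smul, mul_smul, inv_smul_smul, hsa]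
  · intro h1
    exact hua (smul_left_cancel g (hgu.trans h1.symm))
  · intro h1
    exact hwa (smul_left_cancel g (hgw.trans h1.symm))

theorem result {G : Type*} [Group G] [Finite G] {K : Type*} [Field K] {p : ℕ} [Fact p.Prime] [CharP K p] {Ω : Type*} [Fintype Ω] [DecidableEq Ω] [MulAction G Ω] [FaithfulSMul G Ω] (h2 : MulAction.IsMultiplyPretransitive G Ω 2) (hp : p ∣ Fintype.card Ω) (heven : ∀ a : Ω, Even (Nat.card (MulAction.stabilizer G a))) (h : ∀ f : Representation.IntertwiningMap (Cfsg.permSumZero K G Ω).toRepresentation (Cfsg.permRep K G (Set.powersetCard Ω 2)), (∀ v : (Cfsg.permSumZero K G Ω).toSubmodule, (v : Ω → K) ∈ (Cfsg.permConstants K G Ω).toSubmodule → f v = 0) → f = 0) : MulAction.IsMultiplyPretransitive G Ω 3 := by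
  classical
  -- stabiliser of two points is transitive on the rest
  have key : ∀ a b : Ω, a ≠ b → ∃ z₀ : Ω, z₀ ≠ a ∧ z₀ ≠ b ∧
      ∀ e : Ω, e ≠ a → e ≠ b → ∃ g : G, g • a = a ∧ g • b = b ∧ g • e = z₀ := by
    intro a b hab
    obtain ⟨t, z₀, hta, htb, htz, hz₀a, hz₀b⟩ := step2 h2 heven a b hab
    refine ⟨z₀, hz₀a, hz₀b, ?_⟩
    intro e hea heb
    obtain ⟨g, hga, hgb, hge⟩ := step1 h2 h a b e z₀ hab hea heb hz₀a hz₀b
    rcases hga with hga | hga
    · refine ⟨g, hga, ?_, hge⟩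
      rcases hgb with hgb | hgb
      · exfalso
        exact hab (smul_left_cancel g (hga.trans hgb.symm))
      · exact hgb
    · refine ⟨t * g, ?_, ?_, ?_⟩
      · rw [mul_smul, hga, htb]
      · rcases hgb with hgb | hgb
        · rw [mul_smul, hgb, hta]
        · exfalso
          exact hab (smul_left_cancel g (hga.trans hgb.symm))
      · rw [mul_smul, hge, htz]
  constructor
  intro j j'
  have h01 : j 0 ≠ j 1 := j.injective.ne (by decide)
  have h02 : j 2 ≠ j 0 := j.injective.ne (by decide)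
  have h12 : j 2 ≠ j 1 := j.injective.ne (by decide)
  have h01' : j' 0 ≠ j' 1 := j'.injective.ne (by decide)
  have h02' : j' 2 ≠ j' 0 := j'.injective.ne (by decide)
  have h12' : j' 2 ≠ j' 1 := j'.injective.ne (by decide)
  obtain ⟨z₀, hz₀a, hz₀b, hkey⟩ := key (j 0) (j 1) h01
  obtain ⟨g₀, hg₀a, hg₀b⟩ := MulAction.is_two_pretransitive_iff.mp h2 h01' h01
  obtain ⟨g₁, hg₁a, hg₁b, hg₁z⟩ := hkey (j 2) h02 h12
  have he'a : g₀ • j' 2 ≠ j 0 := by
    rw [← hg₀a]; intro h1; exact h02' (smul_left_cancel g₀ h1)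
  have he'b : g₀ • j' 2 ≠ j 1 := by
    rw [← hg₀b]; intro h1; exact h12' (smul_left_cancel g₀ h1)
  obtain ⟨g₂, hg₂a, hg₂b, hg₂z⟩ := hkey (g₀ • j' 2) he'a he'b
  refine ⟨g₀⁻¹ * g₂⁻¹ * g₁, ?_⟩
  ext i
  rw [Function.Embedding.smul_apply]
  fin_cases i
  · show (g₀⁻¹ * g₂⁻¹ * g₁) • j 0 = j' 0
    rw [mul_smul, mul_smul, hg₁a, inv_smul_eq_iff.mpr hg₂a.symm, inv_smul_eq_iff, hg₀a]
  · show (g₀⁻¹ * g₂⁻¹ * g₁) • j 1 = j' 1
    rw [mul_smul, mul_smul, hg₁b, inv_smul_eq_iff.mpr hg₂b.symm, inv_smul_eq_iff, hg₀b]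
  · show (g₀⁻¹ * g₂⁻¹ * g₁) • j 2 = j' 2
    rw [mul_smul, mul_smul, hg₁z, inv_smul_eq_iff.mpr hg₂z.symm, inv_smul_smul]

end Cfsg.Agent.S0672
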