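import Cfsg.Statements.S0680
import Mathlib
import Cfsg.Agent.Lib.Lead.Sharp2
-- import your own Cfsg.Agent.* helpers here

set_option autoImplicit false
open Cfsg

namespace Cfsg.Agent.S0680

/-- A finite sharply doubly transitive permutation group has degree a prime power `p ^ j`; a Sylow `p`-subgroup is normal, elementary abelian and regular, and consists of the identity together with the elements without fixed points. (Frobenius' Theorem is not needed.) -/
theorem result {α : Type*} [Fintype α] [DecidableEq α] (G : Subgroup (Equiv.Perm α)) [MulAction.IsMultiplyPretransitive G α 2] (hsharp : ∀ x : Fin 2 ↪ α, MulAction.stabilizer G x = ⊥) (h2 : 2 ≤ Fintype.card α) : ∃ p j : ℕ, p.Prime ∧ 1 ≤ j ∧ Fintype.card α = p ^ j ∧ ∀ (hp : Fact p.Prime) (P : Sylow p G), (P : Subgroup G).Normal ∧ IsMulCommutative (P : Subgroup G) ∧ (∀ x ∈ (P : Subgroup G), x ^ p = 1) ∧ MulAction.IsPretransitive (P : Subgroup G) α ∧ (∀ a : α, MulAction.stabilizer (P : Subgroup G) a = ⊥) ∧ ∀ g : G,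 g ∈ (P : Subgroup G) ↔ g = 1 ∨ ∀ a : α, g • a ≠ a := by
  classical
  have hsh : ∀ (g : G) (a b : α), a ≠ b → g • a = a → g • b = b → g = 1 := by
    intro g a b hab ha hb
    have : g ∈ MulAction.stabilizer G (Function.Embedding.embFinTwo hab) := by
      rw [MulAction.mem_stabilizer_iff]
      ext i
      fin_cases i
      · exact ha
      · exact hb
    rw [hsharp] at this
    exact Subgroup.mem_bot.1 this
  have h2t : MulAction.IsMultiplyPretransitive G α 2 := inferInstance
  obtain ⟨N, hNn, hmem, hcard⟩ := Lib.Lead.sharp2_kernel h2t hsh h2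
  obtain ⟨p, j, hp, hj, hpj, hexp, hcomm, htrans, hfree, hsyl⟩ :=
    Lib.Lead.sharp2_structure h2t hsh h2 N hNn hmem hcard
  refine ⟨p, j, hp, hj, hpj, ?_⟩
  intro hp' P
  have hPN := hsyl hp' P
  refine ⟨hPN ▸ hNn, ?_, ?_, ?_, ?_, ?_⟩
  · exact ⟨⟨fun x y => Subtype.ext (hcomm x.1 (hPN ▸ x.2) y.1 (hPN ▸ y.2))⟩⟩
  · intro x hx; exact hexp x (hPN ▸ hx)
  · constructor
    intro a b
    obtain ⟨x, hx, hxab⟩ := htrans a b
    exact ⟨⟨x, hPN ▸ hx⟩, hxab⟩
  · intro a
    rw [eq_bot_iff]
    intro x hx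
    rw [Subgroup.mem_bot]
    apply Subtype.ext
    exact hfree x.1 (hPN ▸ x.2) a (MulAction.mem_stabilizer_iff.1 hx)
  · intro g
    rw [hPN]
    exact hmem g

end Cfsg.Agent.S0680
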