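import Cfsg.Statements.S0681
import Mathlib
-- import your own Cfsg.Agent.* helpers here

set_option autoImplicit false
open Cfsg

namespace Cfsg.Agent.S0681

/-- The affine maps `x ↦ x * a + b`, `a ≠ 0`, of a near-field form a sharply doubly transitive permutation group. -/
theorem result {F : Type*} [Cfsg.NearField F] : ∃ H : Subgroup (Equiv.Perm F), (∀ σ : Equiv.Perm F, σ ∈ H ↔ ∃ a b : F, a ≠ 0 ∧ ∀ x : F, σ x = x * a + b) ∧ MulAction.IsMultiplyPretransitive H F 2 ∧ ∀ x : Fin 2 ↪ F, MulAction.stabilizer H x = ⊥ := by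
  classical
  have rd := @Cfsg.NearField.right_distrib F _
  have mz := @Cfsg.NearField.mul_zero F _
  have h01 := @Cfsg.NearField.zero_ne_one F _
  have hinv := @Cfsg.NearField.exists_inv F _
  have zm : ∀ a : F, 0 * a = 0 := by
    intro a
    have := rd 0 0 a
    rw [add_zero] at this
    exact add_eq_left.1 this.symm
  have nm : ∀ u a : F, (-u) * a = -(u * a) := by
    intro u a
    have := rd u (-u) a
    rw [add_neg_cancel, zm] at this
    exact (neg_eq_of_add_eq_zero_right this.symm).symm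
  have sm : ∀ u v a : F, (u - v) * a = u * a - v * a := by
    intro u v a; rw [sub_eq_add_neg, rd, nm, ← sub_eq_add_neg]
  have mne : ∀ a b : F, a ≠ 0 → b ≠ 0 → a * b ≠ 0 := by
    intro a b ha hb h
    obtain ⟨c, hbc, hcb⟩ := hinv b hb
    apply ha
    have : a = (a * b) * c := by rw [mul_assoc, hbc, mul_one]
    rw [this, h, zm]
  have mk : ∀ a b : F, a ≠ 0 → ∃ σ : Equiv.Perm F, ∀ x, σ x = x * a + b := by
    intro a b ha
    obtain ⟨c, hac, hca⟩ := hinv a ha
    refine ⟨⟨fun x => x * a + b, fun y => (y - b) * c, ?_, ?_⟩, fun x => rfl⟩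
    · intro x
      show (x * a + b - b) * c = x
      rw [add_sub_cancel_right, mul_assoc, hac, mul_one]
    · intro y
      show (y - b) * c * a + b = y
      rw [mul_assoc, hca, mul_one, sub_add_cancel]
  let H : Subgroup (Equiv.Perm F) :=
    { carrier := {σ | ∃ a b : F, a ≠ 0 ∧ ∀ x : F, σ x = x * a + b}
      mul_mem' := by
        rintro σ τ ⟨a, b, ha, hσ⟩ ⟨a', b', ha', hτ⟩
        refine ⟨a' * a, b' * a + b, mne a' a ha' ha, fun x => ?_⟩
        rw [Equiv.Perm.mul_apply, hτ, hσ, rd, mul_assoc, add_assoc]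
      one_mem' := ⟨1, 0, h01.symm, fun x => by rw [Equiv.Perm.one_apply, mul_one, add_zero]⟩
      inv_mem' := by
        rintro σ ⟨a, b, ha, hσ⟩
        obtain ⟨c, hac, hca⟩ := hinv a ha
        have hc : c ≠ 0 := by
          intro h; rw [h, mz] at hac; exact h01 hac
        refine ⟨c, -(b * c), hc, fun y => ?_⟩
        rw [Equiv.Perm.inv_eq_iff_eq, hσ, rd, mul_assoc, hca, mul_one, nm, mul_assoc, hca,
          mul_one, add_assoc, neg_add_cancel, add_zero] }
  refine ⟨H, fun σ => Iff.rfl, ?_, ?_⟩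
  · refine ⟨fun x y => ?_⟩
    have hx : x 0 - x 1 ≠ 0 := sub_ne_zero.2 (fun h => by simpa using x.injective h)
    have hy : y 0 - y 1 ≠ 0 := sub_ne_zero.2 (fun h => by simpa using y.injective h)
    obtain ⟨di, hd1, hd2⟩ := hinv _ hx
    have hdi : di ≠ 0 := by
      intro h; rw [h, mz] at hd1; exact h01 hd1
    have ha : di * (y 0 - y 1) ≠ 0 := mne _ _ hdi hy
    obtain ⟨σ, hσ⟩ := mk (di * (y 0 - y 1)) (-(x 1 * (di * (y 0 - y 1))) + y 1) ha
    refine ⟨⟨σ, _, _, ha, hσ⟩, ?_⟩
    ext i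
    fin_cases i
    · show σ (x 0) = y 0
      rw [hσ, ← add_assoc, ← sub_eq_add_neg, ← sm, ← mul_assoc, hd1, one_mul, sub_add_cancel]
    · show σ (x 1) = y 1
      rw [hσ, add_neg_cancel_left]
  · intro x
    rw [eq_bot_iff]
    rintro ⟨σ, a, b, ha, hσ⟩ hg
    rw [Subgroup.mem_bot]
    have hg' := MulAction.mem_stabilizer_iff.1 hg
    have h0 : σ (x 0) = x 0 := congrArg (fun e : Fin 2 ↪ F => e 0) hg'
    have h1 : σ (x 1) = x 1 := congrArg (fun e : Fin 2 ↪ F => e 1) hg'
    rw [hσ] at h0 h1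
    have hx : x 0 - x 1 ≠ 0 := sub_ne_zero.2 (fun h => by simpa using x.injective h)
    obtain ⟨di, hd1, hd2⟩ := hinv _ hx
    have hda : (x 0 - x 1) * a = x 0 - x 1 := by
      rw [sm]
      calc x 0 * a - x 1 * a = (x 0 * a + b) - (x 1 * a + b) :=
            (add_sub_add_right_eq_sub _ _ _).symm
        _ = x 0 - x 1 := by rw [h0, h1]
    have ha1 : a = 1 := by
      calc a = di * ((x 0 - x 1) * a) := by rw [← mul_assoc, hd2, one_mul]
        _ = 1 := by rw [hda, hd2]
    have hb0 : b = 0 := by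
      rw [ha1, mul_one] at h0
      exact add_eq_left.1 h0
    apply Subtype.ext
    ext y
    show σ y = y
    rw [hσ, ha1, hb0, mul_one, add_zero]

end Cfsg.Agent.S0681
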