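import Cfsg.Statements.S0682
import Mathlib
-- import your own Cfsg.Agent.* helpers here

set_option autoImplicit false
open Cfsg

namespace Cfsg.Agent.S0682

/-- A finite near-field has prime-power order; its additive group is commutative of prime exponent. -/
theorem result {F : Type*} [Cfsg.NearField F] [Finite F] : ∃ p j : ℕ, p.Prime ∧ 1 ≤ j ∧ Nat.card F = p ^ j ∧ (∀ x y : F, x + y = y + x) ∧ ∀ x : F, p • x = 0 := by
  classical
  have rd := @Cfsg.NearField.right_distrib F _
  have mz := @Cfsg.NearField.mul_zero F _
  have h01 := @Cfsg.NearField.zero_ne_one F _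
  have hinv := @Cfsg.NearField.exists_inv F _
  have zm : ∀ a : F, 0 * a = 0 := by
    intro a
    have := rd 0 0 a
    rw [add_zero] at this
    exact add_eq_left.1 this.symm
  have nsm : ∀ (n : ℕ) (x a : F), (n • x) * a = n • (x * a) := by
    intro n x a
    induction n with
    | zero => rw [zero_nsmul, zero_nsmul, zm]
    | succ n ih => rw [succ_nsmul, succ_nsmul, rd, ih]
  have hord : ∀ x a : F, a ≠ 0 → addOrderOf (x * a) = addOrderOf x := by
    intro x a ha
    obtain ⟨b, hab, hba⟩ := hinv a ha
    rw [addOrderOf_eq_addOrderOf_iff]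
    intro n
    constructor
    · intro h
      have h2 : (n • (x * a)) * b = 0 * b := by rw [h]
      rw [nsm, mul_assoc, hab, mul_one, zm] at h2
      exact h2
    · intro h
      rw [← nsm, h, zm]
  have hall : ∀ x : F, x ≠ 0 → addOrderOf x = addOrderOf (1 : F) := by
    intro x hx
    have := hord 1 x hx
    rwa [one_mul] at this
  have hn0 : addOrderOf (1 : F) ≠ 0 := (addOrderOf_pos (1 : F)).ne'
  have hn1 : addOrderOf (1 : F) ≠ 1 := by
    intro h; rw [AddMonoid.addOrderOf_eq_one_iff] at h; exact h01 h.symm
  have hprime : (addOrderOf (1 : F)).Prime := by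
    have hp := Nat.minFac_prime hn1
    obtain ⟨m, hm⟩ := Nat.minFac_dvd (addOrderOf (1 : F))
    by_cases hy : m • (1 : F) = 0
    · exfalso
      have hd := addOrderOf_dvd_of_nsmul_eq_zero hy
      have hm0 : m ≠ 0 := by
        intro h0; rw [h0, mul_zero] at hm; exact hn0 hm
      have hle := Nat.le_of_dvd (Nat.pos_of_ne_zero hm0) hd
      have h2 := hp.two_le
      have h3 : 2 * m ≤ (addOrderOf (1 : F)).minFac * m := Nat.mul_le_mul_right m h2
      have h4 := Nat.pos_of_ne_zero hm0
      omega
    · have ho := hall _ hy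
      have h3 : (addOrderOf (1 : F)).minFac • (m • (1 : F)) = 0 := by
        rw [← mul_nsmul', ← hm]; exact addOrderOf_nsmul_eq_zero 1
      have hd := addOrderOf_dvd_of_nsmul_eq_zero h3
      rw [ho] at hd
      have := Nat.dvd_antisymm hd (Nat.minFac_dvd _)
      rw [this]; exact hp
  have hpx : ∀ x : F, addOrderOf (1 : F) • x = 0 := by
    intro x
    by_cases hx : x = 0
    · rw [hx, nsmul_zero]
    · rw [← hall x hx]; exact addOrderOf_nsmul_eq_zero x
  haveI : Fact (addOrderOf (1 : F)).Prime := ⟨hprime⟩
  haveI : Nontrivial F := ⟨⟨0, 1, h01⟩⟩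
  haveI : Finite (Multiplicative F) := inferInstanceAs (Finite F)
  haveI : Nontrivial (Multiplicative F) := inferInstanceAs (Nontrivial F)
  have hpg : IsPGroup (addOrderOf (1 : F)) (Multiplicative F) := by
    intro g
    refine ⟨1, ?_⟩
    rw [pow_one]
    apply Multiplicative.toAdd.injective
    rw [toAdd_pow, toAdd_one]
    exact hpx _
  obtain ⟨j, hj⟩ := IsPGroup.iff_card.1 hpg
  have hj' : Nat.card F = addOrderOf (1 : F) ^ j := hj
  have hcomm : ∀ x y : F, x + y = y + x := by
    haveI := hpg.center_nontrivial
    obtain ⟨z, hz⟩ := exists_ne (1 : Subgroup.center (Multiplicative F))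
    have hz0 : Multiplicative.toAdd (z : Multiplicative F) ≠ 0 := by
      intro h
      apply hz
      apply Subtype.ext
      exact Multiplicative.toAdd.injective h
    have hzc : ∀ x : F, x + Multiplicative.toAdd (z : Multiplicative F)
        = Multiplicative.toAdd (z : Multiplicative F) + x := fun x => by
      have := Subgroup.mem_center_iff.1 z.2 (Multiplicative.ofAdd x)
      exact congrArg Multiplicative.toAdd this
    intro x y
    by_cases hy : y = 0
    · rw [hy, add_zero, zero_add]
    obtain ⟨zi, hz1, hz2⟩ := hinv _ hz0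
    have ha : zi * y ≠ 0 := by
      intro h
      apply hy
      have : y = Multiplicative.toAdd (z : Multiplicative F) * (zi * y) := by
        rw [← mul_assoc, hz1, one_mul]
      rw [this, h, mz]
    obtain ⟨b, hab, hba⟩ := hinv _ ha
    have hy' : Multiplicative.toAdd (z : Multiplicative F) * (zi * y) = y := by
      rw [← mul_assoc, hz1, one_mul]
    have hx' : (x * b) * (zi * y) = x := by rw [mul_assoc, hba, mul_one]
    calc x + y = (x * b) * (zi * y) + Multiplicative.toAdd (z : Multiplicative F) * (zi * y) := by
          rw [hx', hy']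
      _ = (x * b + Multiplicative.toAdd (z : Multiplicative F)) * (zi * y) := (rd _ _ _).symm
      _ = (Multiplicative.toAdd (z : Multiplicative F) + x * b) * (zi * y) := by rw [hzc]
      _ = Multiplicative.toAdd (z : Multiplicative F) * (zi * y) + x * b * (zi * y) := rd _ _ _
      _ = y + x := by rw [hx', hy']
  refine ⟨addOrderOf (1 : F), j, hprime, ?_, hj', hcomm, hpx⟩
  by_contra hj0
  have : j = 0 := by omega
  rw [this, pow_zero] at hj'
  have := Finite.one_lt_card (α := F)
  omega

end Cfsg.Agent.S0682
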