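import Cfsg.Statements.S0683
import Mathlib
import Cfsg.Agent.Lib.Lead.Sharp2
-- import your own Cfsg.Agent.* helpers here

set_option autoImplicit false
open Cfsg

namespace Cfsg.Agent.S0683

/-- A finite sharply doubly transitive permutation group is the affine group of a near-field: the permuted set carries a near-field structure for which the group consists exactly of the maps `x ↦ x * a + b` with `a ≠ 0`. -/
theorem result {α : Type*} [Fintype α] [DecidableEq α] (H : Subgroup (Equiv.Perm α)) [MulAction.IsMultiplyPretransitive H α 2] (hsharp : ∀ x : Fin 2 ↪ α, MulAction.stabilizer H x = ⊥) (h2 : 2 ≤ Fintype.card α) : ∃ _ : Cfsg.NearField α, ∀ σ : Equiv.Perm α, σ ∈ H ↔ ∃ a b : α, a ≠ 0 ∧ ∀ x : α, σ x = x * a + b := by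
  classical
  have hsh : ∀ (g : H) (a b : α), a ≠ b → g • a = a → g • b = b → g = 1 := by
    intro g a b hab ha hb
    have : g ∈ MulAction.stabilizer H (Function.Embedding.embFinTwo hab) := by
      rw [MulAction.mem_stabilizer_iff]
      ext i
      fin_cases i
      · exact ha
      · exact hb
    rw [hsharp] at this
    exact Subgroup.mem_bot.1 this
  have h2t : MulAction.IsMultiplyPretransitive H α 2 := inferInstance
  have h2t' : ∀ (a b c d : α), a ≠ b → c ≠ d → ∃ g : H, g • a = c ∧ g • b = d :=
    fun a b c d h h' => (MulAction.is_two_pretransitive_iff.1 h2t) h h'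
  obtain ⟨N, hNn, hmem, hcard⟩ := Lib.Lead.sharp2_kernel h2t hsh h2
  obtain ⟨p, j, hp, hj, hpj, hexp, hcomm, htrans, hfree, hsyl⟩ :=
    Lib.Lead.sharp2_structure h2t hsh h2 N hNn hmem hcard
  have hne : Nonempty α := Fintype.card_pos_iff.1 (by omega)
  obtain ⟨o⟩ := hne
  obtain ⟨e, heo⟩ : ∃ e : α, e ≠ o := by
    by_contra hh
    push Not at hh
    have : Fintype.card α ≤ 1 := Fintype.card_le_one_iff.2 (fun x y => by rw [hh x, hh y])
    omega
  -- translations
  choose nn hnnN hnn using (fun x : α => htrans o x)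
  have hnu : ∀ n ∈ N, n = nn (n • o) := by
    intro n hn
    have h1 : ((nn (n • o))⁻¹ * n) • o = o := by
      rw [mul_smul, inv_smul_eq_iff, hnn]
    have h2 := hfree _ (N.mul_mem (N.inv_mem (hnnN _)) hn) o h1
    exact (inv_mul_eq_one.1 h2).symm
  have hnn0 : nn o = 1 := by
    have := hnu 1 N.one_mem
    rw [one_smul] at this
    exact this.symm
  have hnnmul : ∀ x y : α, nn (nn y • x) = nn y * nn x := by
    intro x y
    have := hnu (nn y * nn x) (N.mul_mem (hnnN y) (hnnN x))
    rw [mul_smul, hnn x] at this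
    exact this.symm
  -- dilations
  have hexh : ∀ a : α, ∃ h : H, a ≠ o → (h • o = o ∧ h • e = a) := by
    intro a
    by_cases ha : a = o
    · exact ⟨1, fun h => absurd ha h⟩
    · obtain ⟨h, h1, h2⟩ := h2t' o e o a (Ne.symm heo) (Ne.symm ha)
      exact ⟨h, fun _ => ⟨h1, h2⟩⟩
  choose hh hhspec using hexh
  have hho : ∀ a : α, a ≠ o → hh a • o = o := fun a ha => (hhspec a ha).1
  have hhe : ∀ a : α, a ≠ o → hh a • e = a := fun a ha => (hhspec a ha).2
  have hne_o : ∀ h : H, h • o = o → ∀ x : α, x ≠ o → h • x ≠ o := by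
    intro h ho x hx hxo
    rw [← ho] at hxo
    exact hx (smul_left_cancel h hxo)
  have hhu : ∀ h : H, h • o = o → h = hh (h • e) := by
    intro h ho
    have hne' : h • e ≠ o := hne_o h ho e heo
    have h1 : ((hh (h • e))⁻¹ * h) • o = o := by
      rw [mul_smul, inv_smul_eq_iff, ho, hho _ hne']
    have h2 : ((hh (h • e))⁻¹ * h) • e = e := by
      rw [mul_smul, inv_smul_eq_iff, hhe _ hne']
    exact (inv_mul_eq_one.1 (hsh _ o e (Ne.symm heo) h1 h2)).symm
  have hhe1 : hh e = 1 := by
    have := hhu 1 (one_smul _ _)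
    rw [one_smul] at this
    exact this.symm
  have hhmul : ∀ a b : α, a ≠ o → b ≠ o → hh (hh b • a) = hh b * hh a := by
    intro a b ha hb
    have := hhu (hh b * hh a) (by rw [mul_smul, hho a ha, hho b hb])
    rw [mul_smul, hhe a ha] at this
    exact this.symm
  have hconj : ∀ c b : α, c ≠ o → hh c * nn b * (hh c)⁻¹ = nn (hh c • b) := by
    intro c b hc
    have h1 : hh c * nn b * (hh c)⁻¹ ∈ N := hNn.conj_mem _ (hnnN b) _
    have h2 := hnu _ h1
    have h3 : (hh c)⁻¹ • o = o := by rw [inv_smul_eq_iff, hho c hc]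
    rw [mul_smul, mul_smul, h3, hnn] at h2
    exact h2
  have A1 : ∀ x y z : α, nn z • (nn y • x) = nn (nn z • y) • x := by
    intro x y z
    rw [hnnmul, mul_smul]
  have A2 : ∀ x : α, nn x • o = x := hnn
  have A3 : ∀ x : α, nn x • ((nn x)⁻¹ • o) = o := by
    intro x
    rw [smul_inv_smul]
  have M1 : ∀ x a b : α, (if b = o then o else hh b • (if a = o then o else hh a • x))
      = if (if b = o then o else hh b • a) = o then o
        else hh (if b = o then o else hh b • a) • x := by
    intro x a b
    by_cases hb : b = o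
    · simp [hb]
    · by_cases ha : a = o
      · simp [hb, ha, hho b hb]
      · have hba : hh b • a ≠ o := hne_o _ (hho b hb) a ha
        simp only [hb, ha, if_false, hba]
        rw [hhmul a b ha hb, mul_smul]
  have M2 : ∀ a : α, (if a = o then o else hh a • e) = a := by
    intro a
    by_cases ha : a = o
    · simp [ha]
    · simp only [ha, if_false]
      exact hhe a ha
  have M3 : ∀ x : α, (if e = o then o else hh e • x) = x := by
    intro x
    simp only [heo, if_false]
    rw [hhe1, one_smul]
  have D1 : ∀ a b c : α, (if c = o then o else hh c • (nn b • a))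
      = nn (if c = o then o else hh c • b) • (if c = o then o else hh c • a) := by
    intro a b c
    by_cases hc : c = o
    · simp only [hc, if_true]
      rw [hnn0, one_smul]
    · simp only [hc, if_false]
      rw [← hconj c b hc, mul_smul, mul_smul, inv_smul_smul]
  have I1 : ∀ a : α, a ≠ o → ∃ b : α, (if b = o then o else hh b • a) = e ∧
      (if a = o then o else hh a • b) = e := by
    intro a ha'
    have hb : (hh a)⁻¹ • e ≠ o := hne_o _ (by rw [inv_smul_eq_iff, hho a ha']) e heo
    have hhb : hh ((hh a)⁻¹ • e) = (hh a)⁻¹ := by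
      have := hhu ((hh a)⁻¹) (by rw [inv_smul_eq_iff, hho a ha'])
      exact this.symm
    refine ⟨(hh a)⁻¹ • e, ?_, ?_⟩
    · simp only [hb, if_false]
      rw [hhb, inv_smul_eq_iff, hhe a ha']
    · simp only [ha', if_false]
      rw [smul_inv_smul]
  letI iA : Add α := ⟨fun x y => nn y • x⟩
  letI iZ : Zero α := ⟨o⟩
  letI iN : Neg α := ⟨fun x => (nn x)⁻¹ • o⟩
  let AG : AddGroup α := AddGroup.ofLeftAxioms A1 A2 A3
  let MM : Monoid α :=
    { mul := fun x a => if a = o then o else hh a • x
      one := e
      mul_assoc := M1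
      one_mul := M2
      mul_one := M3 }
  refine ⟨{ toAddGroup := AG
            toMonoid := MM
            right_distrib := D1
            mul_zero := fun a => if_pos rfl
            zero_ne_one := Ne.symm heo
            exists_inv := I1 }, ?_⟩
  intro σ
  show σ ∈ H ↔ ∃ a b : α, a ≠ o ∧ ∀ x : α, σ x = nn b • (if a = o then o else hh a • x)
  constructor
  · intro hσ
    let s : H := ⟨σ, hσ⟩
    have hs : ∀ x, s • x = σ x := fun x => rfl
    have h1 : ((nn (s • o))⁻¹ * s) • o = o := by
      rw [mul_smul, inv_smul_eq_iff, hnn]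
    have h2 := hhu _ h1
    have h3 : ((nn (s • o))⁻¹ * s) • e ≠ o := hne_o _ h1 e heo
    refine ⟨((nn (s • o))⁻¹ * s) • e, s • o, h3, ?_⟩
    intro x
    simp only [h3, if_false]
    rw [← h2, mul_smul, smul_inv_smul]
    rfl
  · rintro ⟨a, b, ha, hσ⟩
    have : σ = ((nn b * hh a : H) : Equiv.Perm α) := by
      ext x
      rw [hσ x]
      simp only [ha, if_false]
      rfl
    rw [this]
    exact (nn b * hh a).2

end Cfsg.Agent.S0683
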