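import Cfsg.Statements.S0691
import Mathlib
import Cfsg.Agent.Lib.Lead.RegMat
-- import your own Cfsg.Agent.* helpers here

set_option autoImplicit false
open Cfsg

namespace Cfsg.Agent.S0691

/-- An exceptional sharply doubly transitive group of degree 5^2: the listed matrices generate a subgroup of GL(2,5) of order 24 acting regularly on the non-zero vectors. -/
theorem result (A : Matrix.GeneralLinearGroup (Fin 2) (ZMod 5)) (B : Matrix.GeneralLinearGroup (Fin 2) (ZMod 5)) (C : Matrix.GeneralLinearGroup (Fin 2) (ZMod 5)) (hA : (A : Matrix (Fin 2) (Fin 2) (ZMod 5)) = !![2, 0; 0, -2]) (hB : (B : Matrix (Fin 2) (Fin 2) (ZMod 5)) = !![0, -1; 1, 0]) (hC : (C : Matrix (Fin 2) (Fin 2) (ZMod 5)) = !![1, 2; 1, -2]) : Nat.card (Subgroup.closure ({A, B, C} : Set (Matrix.GeneralLinearGroup (Fin 2) (ZMod 5)))) = 24 ∧ ∀ v w : Fin 2 → ZMod 5, v ≠ 0 → w ≠ 0 → ∃! h : Subgroup.closure ({A, B, C} : Set (Matrix.GeneralLinearGroup (Fin 2)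 (ZMod 5))), Matrix.mulVec ((h : Matrix.GeneralLinearGroup (Fin 2) (ZMod 5)) : Matrix (Fin 2) (Fin 2) (ZMod 5)) v = w := by
  haveI : Fact (Nat.Prime 5) := ⟨by norm_num⟩
  have key := Lib.Lead.regmat_nat (p := 5)
    ({A, B, C} : Set (Matrix.GeneralLinearGroup (Fin 2) (ZMod 5)))
    [(2, 0, 0, 3), (0, 4, 1, 0), (1, 2, 1, 3)] [(3, 0, 0, 2), (0, 1, 4, 0), (3, 3, 4, 1)]
    Lib.Lead.nfL5 ?_ ?_ Lib.Lead.nf5_hinv Lib.Lead.nf5_h1 Lib.Lead.nf5_hgen Lib.Lead.nf5_hginv
    Lib.Lead.nf5_hsemi Lib.Lead.nf5_hchk Lib.Lead.nf5_htr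
  · exact key
  · intro g hg
    simp only [Set.mem_insert_iff, Set.mem_singleton_iff] at hg
    rcases hg with rfl | rfl | rfl
    · exact ⟨(2, 0, 0, 3), by decide, hA.trans (by decide)⟩
    · exact ⟨(0, 4, 1, 0), by decide, hB.trans (by decide)⟩
    · exact ⟨(1, 2, 1, 3), by decide, hC.trans (by decide)⟩
  · intro t ht
    simp only [List.mem_cons, List.not_mem_nil, or_false] at ht
    rcases ht with rfl | rfl | rfl
    · exact ⟨A, by simp, hA.trans (by decide)⟩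
    · exact ⟨B, by simp, hB.trans (by decide)⟩
    · exact ⟨C, by simp, hC.trans (by decide)⟩

end Cfsg.Agent.S0691
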