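import Cfsg.Statements.S0692
import Mathlib
import Cfsg.Agent.Lib.Lead.RegMat
-- import your own Cfsg.Agent.* helpers here

set_option autoImplicit false
open Cfsg

namespace Cfsg.Agent.S0692

/-- An exceptional sharply doubly transitive group of degree 11^2: the listed matrices generate a subgroup of GL(2,11) of order 120 acting regularly on the non-zero vectors. -/
theorem result (A : Matrix.GeneralLinearGroup (Fin 2) (ZMod 11)) (B : Matrix.GeneralLinearGroup (Fin 2) (ZMod 11)) (hA : (A : Matrix (Fin 2) (Fin 2) (ZMod 11)) = !![0, -1; 1, 0]) (hB : (B : Matrix (Fin 2) (Fin 2) (ZMod 11)) = !![2, 4; 1, -3]) : Nat.card (Subgroup.closure ({A, B} : Set (Matrix.GeneralLinearGroup (Fin 2) (ZMod 11)))) = 120 ∧ ∀ v w : Fin 2 → ZMod 11, v ≠ 0 → w ≠ 0 → ∃! h : Subgroup.closure ({A, B} : Set (Matrix.GeneralLinearGroup (Fin 2) (ZMod 11))), Matrix.mulVec ((h : Matrix.GeneralLinearGroup (Fin 2) (ZMod 11)) : Matrix (Fin 2) (Fin 2) (ZMod 11)) v = w := by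
  haveI : Fact (Nat.Prime 11) := ⟨by norm_num⟩
  have key := Lib.Lead.regmat_nat (p := 11)
    ({A, B} : Set (Matrix.GeneralLinearGroup (Fin 2) (ZMod 11)))
    [(0, 10, 1, 0), (2, 4, 1, 8)] [(0, 1, 10, 0), (8, 7, 10, 2)]
    Lib.Lead.nfL11 ?_ ?_ Lib.Lead.nf11_hinv Lib.Lead.nf11_h1 Lib.Lead.nf11_hgen
    Lib.Lead.nf11_hginv Lib.Lead.nf11_hsemi Lib.Lead.nf11_hchk Lib.Lead.nf11_htr
  · exact key
  · intro g hg
    simp only [Set.mem_insert_iff, Set.mem_singleton_iff] at hg
    rcases hg with rfl | rfl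
    · exact ⟨(0, 10, 1, 0), by decide, hA.trans (by decide)⟩
    · exact ⟨(2, 4, 1, 8), by decide, hB.trans (by decide)⟩
  · intro t ht
    simp only [List.mem_cons, List.not_mem_nil, or_false] at ht
    rcases ht with rfl | rfl
    · exact ⟨A, by simp, hA.trans (by decide)⟩
    · exact ⟨B, by simp, hB.trans (by decide)⟩

end Cfsg.Agent.S0692
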