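import Cfsg.Statements.S0693
import Mathlib
import Cfsg.Agent.Lib.Lead.RegMat59
-- import your own Cfsg.Agent.* helpers here

set_option autoImplicit false
open Cfsg

namespace Cfsg.Agent.S0693

/-- An exceptional sharply doubly transitive group of degree 59^2: the listed matrices generate a subgroup of GL(2,59) of order 3480 acting regularly on the non-zero vectors. -/
theorem result (A : Matrix.GeneralLinearGroup (Fin 2) (ZMod 59)) (B : Matrix.GeneralLinearGroup (Fin 2) (ZMod 59)) (C : Matrix.GeneralLinearGroup (Fin 2) (ZMod 59)) (hA : (A : Matrix (Fin 2) (Fin 2) (ZMod 59)) = !![0, -1; 1, 0]) (hB : (B : Matrix (Fin 2) (Fin 2) (ZMod 59)) = !![9, 15; -10, -10]) (hC : (C : Matrix (Fin 2) (Fin 2) (ZMod 59)) = !![4, 0; 0, 4]) : Nat.card (Subgroup.closure ({A, B, C} : Set (Matrix.GeneralLinearGroup (Fin 2) (ZMod 59)))) = 3480 ∧ ∀ v w : Fin 2 → ZMod 59, v ≠ 0 → w ≠ 0 → ∃! h : Subgroup.closure ({A, B, C} : Set (Matrix.GeneralLinearGroup (Fin 2) (ZMod 59))),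 Matrix.mulVec ((h : Matrix.GeneralLinearGroup (Fin 2) (ZMod 59)) : Matrix (Fin 2) (Fin 2) (ZMod 59)) v = w := by
  haveI : Fact (Nat.Prime 59) := ⟨by norm_num⟩
  have key := Lib.Lead.regmat_scalar (p := 59)
    ({A, B, C} : Set (Matrix.GeneralLinearGroup (Fin 2) (ZMod 59)))
    ({A, B} : Set (Matrix.GeneralLinearGroup (Fin 2) (ZMod 59))) C 4 29 ?_
    [(0, 58, 1, 0), (9, 15, 49, 49)] [(0, 1, 58, 0), (49, 44, 10, 9)] Lib.Lead.nfL59
    ?_ ?_ Lib.Lead.nf59_hinv Lib.Lead.nf59_h1 Lib.Lead.nf59_hgen Lib.Lead.nf59_hginv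
    Lib.Lead.nf59_hchk ?_ (by norm_num) (by decide) (by decide) Lib.Lead.nf59_hnd
    Lib.Lead.nf59_hlt (by rw [Lib.Lead.nf59_len]; decide) (by rw [Lib.Lead.nf59_len]; norm_num)
    Lib.Lead.nf59_hsemi
  · exact key
  · ext x
    simp only [Set.mem_insert_iff, Set.mem_singleton_iff, Set.mem_union]
    tauto
  · intro g hg
    simp only [Set.mem_insert_iff, Set.mem_singleton_iff] at hg
    rcases hg with rfl | rfl
    · exact ⟨(0, 58, 1, 0), by decide, hA.trans (by decide)⟩
    · exact ⟨(9, 15, 49, 49), by decide, hB.trans (by decide)⟩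
  · intro t ht
    simp only [List.mem_cons, List.not_mem_nil, or_false] at ht
    rcases ht with rfl | rfl
    · exact ⟨A, by simp, hA.trans (by decide)⟩
    · exact ⟨B, by simp, hB.trans (by decide)⟩
  · exact hC.trans (by decide)

end Cfsg.Agent.S0693
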