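import Cfsg.Statements.S0694
import Mathlib
set_option autoImplicit false
open Cfsg

namespace Cfsg.Agent.S0694


theorem dvd_of_val (d m : ℕ) (hd : d ≠ 0) (hm : m ≠ 0)
    (h : ∀ t : ℕ, t.Prime → padicValNat t d ≤ padicValNat t m) : d ∣ m := by
  rw [← Nat.factorization_le_iff_dvd hd hm]
  intro t
  by_cases ht : t.Prime
  · rw [Nat.factorization_def _ ht, Nat.factorization_def _ ht]; exact h t ht
  · rw [Nat.factorization_eq_zero_of_not_prime _ ht]; exact Nat.zero_le _

theorem val_le_of_dvd (t d m : ℕ) [Fact t.Prime] (hm : m ≠ 0) (h : d ∣ m) :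
    padicValNat t d ≤ padicValNat t m :=
  (padicValNat_dvd_iff_le hm).mp (dvd_trans pow_padicValNat_dvd h)

theorem zmod_iff (t x : ℕ) (hx : 1 ≤ x) : t ∣ x - 1 ↔ ((x : ℕ) : ZMod t) = 1 := by
  rw [← Nat.modEq_iff_dvd' hx, ← ZMod.natCast_eq_natCast_iff, Nat.cast_one, eq_comm]

theorem geom (u s : ℕ) (hu : 1 ≤ u) : (u - 1) * ∑ j ∈ Finset.range s, u ^ j = u ^ s - 1 := by
  have h1 : 1 ≤ u ^ s := Nat.one_le_pow _ _ hu
  zify [hu, h1]
  exact mul_geom_sum (u : ℤ) s

theorem valA (q i t : ℕ) [Fact t.Prime] (hq : 2 ≤ q) (ht : Odd t) (htq : t ∣ q - 1)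
    (hi : i ≠ 0) : padicValNat t (q ^ i - 1) = padicValNat t (q - 1) + padicValNat t i := by
  have hx : ¬ t ∣ q := by
    intro hdvd
    have h1 : t ∣ q - 1 + 1 := by rwa [show q - 1 + 1 = q by omega]
    have h2 : t ∣ 1 := (Nat.dvd_add_right htq).mp h1
    exact (Fact.out : t.Prime).one_lt.ne' (Nat.dvd_one.mp h2)
  have h := padicValNat.pow_sub_pow (p := t) ht (x := q) (y := 1) (by omega) htq hx hi
  rwa [one_pow] at h

theorem oddB (q i : ℕ) (hq : 2 ≤ q) (h2q : 2 ∣ q - 1) (hodd : Odd i) :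
    ¬ 2 * (q - 1) ∣ q ^ i - 1 := by
  intro hdvd
  obtain ⟨k, hk⟩ := hodd
  obtain ⟨c, hc⟩ := h2q
  have hq' : q = 2 * c + 1 := by omega
  have h2 : q ^ 2 ≡ 1 [MOD 2 * (q - 1)] := by
    have h1 : 1 ≤ q ^ 2 := Nat.one_le_pow _ _ (by omega)
    rw [Nat.ModEq.comm, Nat.modEq_iff_dvd' h1]
    refine ⟨c + 1, ?_⟩
    rw [hc, hq']
    have h3 : (2 * c + 1) ^ 2 = 2 * (2 * c) * (c + 1) + 1 := by ring
    rw [h3, Nat.add_sub_cancel]
  have h3 : q ^ i ≡ q [MOD 2 * (q - 1)] := by
    rw [hk, pow_succ, pow_mul]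
    simpa using (h2.pow k).mul_right q
  have h1i : 1 ≤ q ^ i := Nat.one_le_pow _ _ (by omega)
  have h4 : 1 ≡ q ^ i [MOD 2 * (q - 1)] := (Nat.modEq_iff_dvd' h1i).mpr hdvd
  have h5 : 1 ≡ q [MOD 2 * (q - 1)] := h4.trans h3
  have h6 : 2 * (q - 1) ∣ q - 1 := (Nat.modEq_iff_dvd' (by omega)).mp h5
  have h7 := Nat.le_of_dvd (by omega) h6
  omega

theorem keyW (q n i : ℕ) (hq : 2 ≤ q) (hn : n ≠ 0) (hi : i ≠ 0)
    (hA : ∀ r : ℕ, r.Prime → r ∣ n → r ∣ q - 1) :
    n * (q - 1) ∣ q ^ i - 1 ↔
      (∀ t : ℕ, t.Prime → t ∣ n → t ≠ 2 → padicValNat t n ≤ padicValNat t i) ∧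
      (2 ∣ n → Even i ∧ padicValNat 2 n + 1 ≤ padicValNat 2 (q + 1) + padicValNat 2 i) := by
  have hq1 : q - 1 ≠ 0 := by omega
  have hqi : q ^ i - 1 ≠ 0 := by
    have h1 : 1 < q ^ i := Nat.one_lt_pow hi (by omega)
    omega
  have hbase : q - 1 ∣ q ^ i - 1 := by
    have h1 := Nat.sub_dvd_pow_sub_pow q 1 i
    rwa [one_pow] at h1
  constructor
  · intro hdvd
    constructor
    · intro t ht htn ht2
      haveI := Fact.mk ht
      have h1 := val_le_of_dvd t _ _ hqi hdvd
      rw [padicValNat.mul hn hq1, valA q i t hq (ht.odd_of_ne_two ht2) (hA t ht htn) hi] at h1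
      omega
    · intro h2n
      have h2q : 2 ∣ q - 1 := hA 2 Nat.prime_two h2n
      have hx : ¬ 2 ∣ q := by omega
      have hev : Even i := by
        by_contra hodd
        rw [Nat.not_even_iff_odd] at hodd
        apply oddB q i hq h2q hodd
        exact dvd_trans (mul_dvd_mul_right h2n (q - 1)) hdvd
      refine ⟨hev, ?_⟩
      have h1 := val_le_of_dvd 2 _ _ hqi hdvd
      rw [padicValNat.mul hn hq1] at h1
      have h3 := padicValNat.pow_two_sub_one (x := q) (n := i) (by omega) hx hi hev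
      omega
  · rintro ⟨hodd, heven⟩
    apply dvd_of_val _ _ (mul_ne_zero hn hq1) hqi
    intro t ht
    haveI := Fact.mk ht
    rw [padicValNat.mul hn hq1]
    by_cases htn : t ∣ n
    · by_cases ht2 : t = 2
      · subst ht2
        obtain ⟨hev, hle⟩ := heven htn
        have h2q : 2 ∣ q - 1 := hA 2 Nat.prime_two htn
        have hx : ¬ 2 ∣ q := by omega
        have h3 := padicValNat.pow_two_sub_one (x := q) (n := i) (by omega) hx hi hev
        omega
      · rw [valA q i t hq (ht.odd_of_ne_two ht2) (hA t ht htn) hi]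
        have h1 := hodd t ht htn ht2
        omega
    · rw [padicValNat.eq_zero_of_not_dvd htn, zero_add]
      exact val_le_of_dvd t _ _ hqi hbase
theorem result (q n : ℕ) (hq : IsPrimePow q) (hn : 1 < n) : ((∀ r : ℕ, r.Prime → r ∣ n → r ∣ q - 1) ∧ (4 ∣ n → 4 ∣ q - 1)) ↔ (q ^ n ≡ 1 [MOD n * (q - 1)] ∧ ∀ i : ℕ, 0 < i → i < n → ¬ q ^ i ≡ 1 [MOD n * (q - 1)]) := by

  classical
  have hq2 : 2 ≤ q := hq.two_le
  have hn0 : n ≠ 0 := by omega
  have hpow1 : ∀ i, 1 ≤ q ^ i := fun i => Nat.one_le_pow _ _ (by omega)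
  have hmod : ∀ i, q ^ i ≡ 1 [MOD n * (q - 1)] ↔ n * (q - 1) ∣ q ^ i - 1 := by
    intro i
    rw [Nat.ModEq.comm, Nat.modEq_iff_dvd' (hpow1 i)]
  simp only [hmod]
  constructor
  · rintro ⟨hA, hB⟩
    constructor
    · rw [keyW q n n hq2 hn0 hn0 hA]
      refine ⟨fun t ht htn ht2 => le_rfl, fun h2n => ⟨even_iff_two_dvd.mpr h2n, ?_⟩⟩
      have h2q : 2 ∣ q - 1 := hA 2 Nat.prime_two h2n
      have h1 : 1 ≤ padicValNat 2 (q + 1) := one_le_padicValNat_of_dvd (by omega) (by omega)
      omega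
    · intro i hi0 hin hdvd
      have hi : i ≠ 0 := by omega
      rw [keyW q n i hq2 hn0 hi hA] at hdvd
      obtain ⟨hodd, heven⟩ := hdvd
      have hni : n ∣ i := by
        apply dvd_of_val n i hn0 hi
        intro t ht
        haveI := Fact.mk ht
        by_cases htn : t ∣ n
        · by_cases ht2 : t = 2
          · subst ht2
            obtain ⟨hev, hle⟩ := heven htn
            by_cases h4 : 4 ∣ n
            · have h4q := hB h4
              have h1 : padicValNat 2 (q + 1) ≤ 1 := by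
                by_contra hcon
                push Not at hcon
                have h5 : 2 ^ 2 ∣ q + 1 := (padicValNat_dvd_iff_le (by omega)).mpr hcon
                omega
              omega
            · have h1 : padicValNat 2 n ≤ 1 := by
                by_contra hcon
                push Not at hcon
                have h5 : 2 ^ 2 ∣ n := (padicValNat_dvd_iff_le hn0).mpr hcon
                exact h4 (by simpa using h5)
              have h2 : 1 ≤ padicValNat 2 i :=
                one_le_padicValNat_of_dvd hi (even_iff_two_dvd.mp hev)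
              omega
          · exact hodd t ht htn ht2
        · rw [padicValNat.eq_zero_of_not_dvd htn]; exact Nat.zero_le _
      have h6 := Nat.le_of_dvd (by omega) hni
      omega
  · rintro ⟨hD, hmin⟩
    have hA : ∀ r : ℕ, r.Prime → r ∣ n → r ∣ q - 1 := by
      by_contra hcon
      push Not at hcon
      obtain ⟨r₀, hr₀p, hr₀n, hr₀q⟩ := hcon
      obtain ⟨s, ⟨hsp, hsn, hsq⟩, hsmax⟩ : ∃ s, (s.Prime ∧ s ∣ n ∧ ¬ s ∣ q - 1) ∧
          ∀ t, (t.Prime ∧ t ∣ n ∧ ¬ t ∣ q - 1) → t ≤ s := by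
        have h1 := Nat.findGreatest_spec (P := fun s => s.Prime ∧ s ∣ n ∧ ¬ s ∣ q - 1)
          (m := r₀) (n := n) (Nat.le_of_dvd (by omega) hr₀n) ⟨hr₀p, hr₀n, hr₀q⟩
        refine ⟨Nat.findGreatest (fun s => s.Prime ∧ s ∣ n ∧ ¬ s ∣ q - 1) n, h1, ?_⟩
        intro t ht
        exact Nat.le_findGreatest (Nat.le_of_dvd (by omega) ht.2.1) ht
      haveI := Fact.mk hsp
      obtain ⟨e, n', hsn', hn'⟩ := Nat.exists_eq_pow_mul_and_not_dvd hn0 s hsp.ne_one
      have he : e ≠ 0 := by
        rintro rfl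
        rw [pow_zero, one_mul] at hn'
        exact hsn' (hn' ▸ hsn)
      obtain ⟨b, rfl⟩ : ∃ b, e = b + 1 := ⟨e - 1, by omega⟩
      obtain ⟨m, hm⟩ : ∃ m, m = s ^ b * n' := ⟨_, rfl⟩
      have hnm : n = s * m := by rw [hn', hm, pow_succ]; ring
      have hn'0 : n' ≠ 0 := by
        rintro rfl
        rw [mul_zero] at hn'
        exact hn0 hn'
      have hm0 : 0 < m := by
        rw [hm]
        exact Nat.mul_pos (Nat.pow_pos hsp.pos) (Nat.pos_of_ne_zero hn'0)
      have hmn : m < n := by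
        rw [hnm]
        have := hsp.two_le
        nlinarith
      apply hmin m hm0 hmn
      obtain ⟨u, hu⟩ : ∃ u, u = q ^ m := ⟨_, rfl⟩
      rw [← hu]
      have hu1 : 1 ≤ u := by rw [hu]; exact hpow1 m
      have hus : u ^ s = q ^ n := by rw [hu, ← pow_mul, hnm, mul_comm]
      obtain ⟨Φ, hΦ⟩ : ∃ Φ, Φ = ∑ j ∈ Finset.range s, u ^ j := ⟨_, rfl⟩
      have hgeom : (u - 1) * Φ = q ^ n - 1 := by rw [hΦ, geom u s hu1, hus]
      have hi : s ^ (b + 1) ∣ u - 1 := by
        obtain ⟨Q₀, hQ₀⟩ : ∃ Q₀, Q₀ = q ^ n' := ⟨_, rfl⟩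
        have huQ : u = Q₀ ^ s ^ b := by rw [hu, hQ₀, ← pow_mul, hm, mul_comm]
        have hqnQ : q ^ n = Q₀ ^ s ^ (b + 1) := by rw [hQ₀, ← pow_mul, hn', mul_comm]
        have hsdvd : s ∣ q ^ n - 1 := dvd_trans (dvd_trans hsn (dvd_mul_right n (q - 1))) hD
        have hz : ((Q₀ : ℕ) : ZMod s) = 1 := by
          have h1 := (zmod_iff s (q ^ n) (hpow1 n)).mp hsdvd
          rw [hqnQ, Nat.cast_pow, ZMod.pow_card_pow] at h1
          exact h1
        have hsQ : (s : ℤ) ∣ (Q₀ : ℤ) - 1 := by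
          rw [← ZMod.intCast_zmod_eq_zero_iff_dvd]
          push_cast
          rw [hz, sub_self]
        have h2 := dvd_sub_pow_of_dvd_sub hsQ b
        rw [one_pow] at h2
        rw [← Int.natCast_dvd_natCast, Nat.cast_sub hu1, huQ]
        push_cast
        exact h2
      have hcop : Nat.Coprime ((q - 1) * n') Φ := by
        apply Nat.coprime_of_dvd
        intro t ht htd htΦ
        haveI := Fact.mk ht
        have htn1 : t ∣ q ^ n - 1 := by rw [← hgeom]; exact dvd_mul_of_dvd_right htΦ _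
        have hus1 : ((u : ℕ) : ZMod t) ^ s = 1 := by
          have h1 := (zmod_iff t (q ^ n) (hpow1 n)).mp htn1
          rw [← hus, Nat.cast_pow] at h1
          exact h1
        have hu_one : ((u : ℕ) : ZMod t) = 1 := by
          by_cases htq : t ∣ q - 1
          · have h1 := (zmod_iff t q (by omega)).mp htq
            rw [hu, Nat.cast_pow, h1, one_pow]
          · have htn' : t ∣ n' := by
              rcases (Nat.Prime.dvd_mul ht).mp htd with h | h
              · exact absurd h htq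
              · exact h
            have htn : t ∣ n := by rw [hn']; exact dvd_mul_of_dvd_right htn' _
            have hts : t ≤ s := hsmax t ⟨ht, htn, htq⟩
            have hts' : t ≠ s := by rintro rfl; exact hsn' htn'
            have hlt : t < s := lt_of_le_of_ne hts hts'
            have hune : ((u : ℕ) : ZMod t) ≠ 0 := by
              intro h0
              rw [h0, zero_pow hsp.ne_zero] at hus1
              exact zero_ne_one hus1
            have ho1 : orderOf ((u : ℕ) : ZMod t) ∣ s := orderOf_dvd_of_pow_eq_one hus1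
            have ho2 : orderOf ((u : ℕ) : ZMod t) ∣ t - 1 := ZMod.orderOf_dvd_card_sub_one hune
            rcases (Nat.dvd_prime hsp).mp ho1 with h | h
            · exact orderOf_eq_one_iff.mp h
            · exfalso
              rw [h] at ho2
              have h7 := Nat.le_of_dvd (by have := ht.two_le; omega) ho2
              omega
        have hΦz : ((Φ : ℕ) : ZMod t) = (s : ZMod t) := by
          rw [hΦ]; push_cast; rw [hu_one]; simp
        have hts : t ∣ s := by
          rw [← ZMod.natCast_eq_zero_iff, ← hΦz, ZMod.natCast_eq_zero_iff]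
          exact htΦ
        have hts' : t = s := (Nat.prime_dvd_prime_iff_eq ht hsp).mp hts
        rw [hts'] at htd
        rcases (Nat.Prime.dvd_mul hsp).mp htd with h | h
        · exact hsq h
        · exact hsn' h
      have hii : (q - 1) * n' ∣ u - 1 := by
        apply Nat.Coprime.dvd_of_dvd_mul_right hcop
        rw [hgeom]
        refine dvd_trans ?_ hD
        rw [hn']; exact ⟨s ^ (b + 1), by ring⟩
      have hcop2 : Nat.Coprime (s ^ (b + 1)) ((q - 1) * n') := by
        apply Nat.Coprime.pow_left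
        rw [Nat.Prime.coprime_iff_not_dvd hsp]
        intro h
        rcases (Nat.Prime.dvd_mul hsp).mp h with h | h
        · exact hsq h
        · exact hsn' h
      have hfinal := Nat.Coprime.mul_dvd_of_dvd_of_dvd hcop2 hi hii
      have hN : n * (q - 1) = s ^ (b + 1) * ((q - 1) * n') := by rw [hn']; ring
      rw [hN]; exact hfinal
    refine ⟨hA, ?_⟩
    intro h4
    by_contra h4q
    have h2n : 2 ∣ n := dvd_trans (by norm_num) h4
    have h2q : 2 ∣ q - 1 := hA 2 Nat.prime_two h2n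
    obtain ⟨m, hm⟩ := h2n
    have hm0 : m ≠ 0 := by omega
    have hmn : m < n := by omega
    apply hmin m (by omega) hmn
    rw [keyW q n m hq2 hn0 hm0 hA]
    constructor
    · intro t ht htn ht2
      haveI := Fact.mk ht
      rw [hm, padicValNat.mul (by norm_num) hm0]
      have h1 : padicValNat t 2 = 0 := padicValNat.eq_zero_of_not_dvd
        (fun h => ht2 ((Nat.prime_dvd_prime_iff_eq ht Nat.prime_two).mp h))
      omega
    · intro _
      have hmev : Even m := by
        rw [even_iff_two_dvd]; omega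
      refine ⟨hmev, ?_⟩
      rw [hm, padicValNat.mul (by norm_num) hm0, padicValNat.self (by norm_num)]
      have h2 : 2 ≤ padicValNat 2 (q + 1) := by
        apply (padicValNat_dvd_iff_le (by omega)).mp
        show 2 ^ 2 ∣ q + 1
        omega
      omega

end Cfsg.Agent.S0694
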