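import Cfsg.Statements.S0695
import Mathlib
-- import your own Cfsg.Agent.* helpers here

set_option autoImplicit false
open Cfsg

namespace Cfsg.Agent.S0695

/-- A regular normal subgroup of a doubly primitive group of finite degree at least 2 is an elementary abelian 2-group (and the degree is a power of 2), unless the degree is 3. -/
theorem result {G : Type*} [Group G] {X : Type*} [Fintype X] [MulAction G X] (hX : 2 ≤ Fintype.card X) (h2 : MulAction.IsMultiplyPreprimitive G X 2) (N : Subgroup G) [N.Normal] (htrans : MulAction.IsPretransitive N X) (hreg : ∀ x : X, MulAction.stabilizer N x = ⊥) : Fintype.card X = 3 ∨ (IsMulCommutative N ∧ (∀ n ∈ N, n ^ 2 = 1) ∧ ∃ m : ℕ, Fintype.card X = 2 ^ m) := by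
  classical
  obtain ⟨a⟩ : Nonempty X := Fintype.card_pos_iff.1 (by omega)
  have hinj : ∀ n₁ ∈ N, ∀ n₂ ∈ N, n₁ • a = n₂ • a → n₁ = n₂ := by
    intro n₁ h₁ n₂ h₂ h
    have hmem : (⟨n₂⁻¹ * n₁, N.mul_mem (N.inv_mem h₂) h₁⟩ : N) ∈ MulAction.stabilizer N a := by
      rw [MulAction.mem_stabilizer_iff]
      show (n₂⁻¹ * n₁) • a = a
      rw [mul_smul, h, inv_smul_smul]
    rw [hreg a, Subgroup.mem_bot] at hmem
    have h3 : n₂⁻¹ * n₁ = 1 := congrArg Subtype.val hmem
    exact (inv_mul_eq_one.1 h3).symm
  have hcardN : Nat.card N = Fintype.card X := by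
    have := MulAction.index_stabilizer_of_transitive N a
    rw [hreg a, Subgroup.index_bot] at this
    exact this.trans Nat.card_eq_fintype_card
  by_cases hexp : ∀ n ∈ N, n ^ 2 = 1
  · right
    refine ⟨?_, hexp, ?_⟩
    · refine ⟨⟨fun x y => ?_⟩⟩
      apply Subtype.ext
      show (x : G) * y = y * x
      have hx := hexp x x.2
      have hy := hexp y y.2
      have hxy := hexp (x * y) (N.mul_mem x.2 y.2)
      have hxi : (x : G)⁻¹ = x := by
        apply inv_eq_of_mul_eq_one_right; rw [← pow_two]; exact hx
      have hyi : (y : G)⁻¹ = y := by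
        apply inv_eq_of_mul_eq_one_right; rw [← pow_two]; exact hy
      have hxyi : ((x : G) * y)⁻¹ = x * y := by
        apply inv_eq_of_mul_eq_one_right; rw [← pow_two]; exact hxy
      rw [← hxyi, mul_inv_rev, hxi, hyi]
    · haveI : Finite N := Nat.finite_of_card_ne_zero (by rw [hcardN]; omega)
      have hpg : IsPGroup 2 N := by
        intro g
        refine ⟨1, ?_⟩
        apply Subtype.ext
        rw [pow_one]
        exact hexp g g.2
      obtain ⟨m, hm⟩ := IsPGroup.iff_card.1 hpg
      exact ⟨m, by rw [← hcardN, hm]⟩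
  · left
    push Not at hexp
    obtain ⟨n, hn, hn2⟩ := hexp
    haveI : MulAction.IsMultiplyPretransitive G X 2 :=
      MulAction.IsMultiplyPreprimitive.isMultiplyPretransitive G X 2
    haveI : MulAction.IsPretransitive G X := MulAction.isPretransitive_of_is_two_pretransitive
    have hprim : MulAction.IsPreprimitive (MulAction.stabilizer G a)
        (SubMulAction.ofStabilizer G a) :=
      (MulAction.is_one_preprimitive_iff _ _).1
        ((MulAction.isMultiplyPreprimitive_succ_iff_ofStabilizer G X le_rfl (a := a)).1 h2)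
    have hn1 : n ≠ 1 := by
      intro e; rw [e] at hn2; exact hn2 (one_pow 2)
    have hna : n • a ≠ a := fun h => hn1 (hinj n hn 1 N.one_mem (by rw [h, one_smul]))
    have hnia : n⁻¹ • a ≠ a := fun h => hn1 (by
      have := hinj n⁻¹ (N.inv_mem hn) 1 N.one_mem (by rw [h, one_smul])
      exact inv_eq_one.1 this)
    have hnn : n • a ≠ n⁻¹ • a := fun h => hn2 (by
      have := hinj n hn n⁻¹ (N.inv_mem hn) h
      calc n ^ 2 = n * n := pow_two n
        _ = n * n⁻¹ := by rw [← this]
        _ = 1 := mul_inv_cancel n)
    let B : Set (SubMulAction.ofStabilizer G a) := {y | (y : X) = n • a ∨ (y : X) = n⁻¹ • a}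
    have hB : MulAction.IsBlock (MulAction.stabilizer G a) B := by
      rw [MulAction.isBlock_iff_smul_eq_of_mem]
      intro h y hy hhy
      have hn' : (h : G) * n * (h : G)⁻¹ ∈ N := ‹N.Normal›.conj_mem n hn h
      have hha : (h : G) • a = a := h.2
      have hhia : (h : G)⁻¹ • a = a := by rw [inv_smul_eq_iff, hha]
      have e1 : ∀ k : G, (h : G) • (k • a) = ((h : G) * k * (h : G)⁻¹) • a := by
        intro k; rw [mul_smul, mul_smul, hhia]
      have hinv : (h : G) * n⁻¹ * (h : G)⁻¹ = ((h : G) * n * (h : G)⁻¹)⁻¹ := by group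
      have hcase : (h : G) * n * (h : G)⁻¹ = n ∨ (h : G) * n * (h : G)⁻¹ = n⁻¹ := by
        have hhy' : ((h • y : SubMulAction.ofStabilizer G a) : X) = n • a ∨
            ((h • y : SubMulAction.ofStabilizer G a) : X) = n⁻¹ • a := hhy
        have hval : ((h • y : SubMulAction.ofStabilizer G a) : X) = (h : G) • (y : X) := rfl
        rw [hval] at hhy'
        rcases hy with hy | hy
        · rw [hy, e1] at hhy'
          rcases hhy' with h3 | h3
          · left; exact hinj _ hn' _ hn h3
          · right; exact hinj _ hn' _ (N.inv_mem hn) h3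
        · rw [hy, e1] at hhy'
          have hn'' : (h : G) * n⁻¹ * (h : G)⁻¹ ∈ N :=
            ‹N.Normal›.conj_mem n⁻¹ (N.inv_mem hn) h
          rcases hhy' with h3 | h3
          · right
            have := hinj _ hn'' _ hn h3
            rw [hinv] at this
            exact inv_eq_iff_eq_inv.1 this
          · left
            have := hinj _ hn'' _ (N.inv_mem hn) h3
            rw [hinv] at this
            exact inv_injective this
      ext z
      rw [Set.mem_smul_set_iff_inv_smul_mem]
      show ((h⁻¹ • z : SubMulAction.ofStabilizer G a) : X) = n • a ∨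
        ((h⁻¹ • z : SubMulAction.ofStabilizer G a) : X) = n⁻¹ • a ↔
          (z : X) = n • a ∨ (z : X) = n⁻¹ • a
      have hval : ((h⁻¹ • z : SubMulAction.ofStabilizer G a) : X) = (h : G)⁻¹ • (z : X) := rfl
      rw [hval, inv_smul_eq_iff, inv_smul_eq_iff, e1, e1, hinv]
      rcases hcase with hc | hc
      · rw [hc]
      · rw [hc, inv_inv]; exact Or.comm
    rcases hprim.isTrivialBlock_of_isBlock hB with hs | hu
    · exfalso
      apply hnn
      have h1 : (⟨n • a, hna⟩ : SubMulAction.ofStabilizer G a) ∈ B := Or.inl rfl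
      have h2' : (⟨n⁻¹ • a, hnia⟩ : SubMulAction.ofStabilizer G a) ∈ B := Or.inr rfl
      exact congrArg Subtype.val (hs h1 h2')
    · have hsub : (Finset.univ : Finset X) ⊆ {a, n • a, n⁻¹ • a} := by
        intro x _
        by_cases hxa : x = a
        · simp [hxa]
        · have : (⟨x, hxa⟩ : SubMulAction.ofStabilizer G a) ∈ B := by rw [hu]; trivial
          rcases this with h3 | h3
          · have h3' : x = n • a := h3
            simp [h3']
          · have h3' : x = n⁻¹ • a := h3
            simp [h3']
      have hle := Finset.card_le_card hsub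
      have h3 : ({a, n • a, n⁻¹ • a} : Finset X).card = 3 := by
        rw [Finset.card_insert_of_notMem, Finset.card_pair hnn]
        simp only [Finset.mem_insert, Finset.mem_singleton, not_or]
        exact ⟨fun h => hna h.symm, fun h => hnia h.symm⟩
      rw [h3, Finset.card_univ] at hle
      have hge : 3 ≤ Fintype.card X := by
        rw [← h3, ← Finset.card_univ]; exact Finset.card_le_card (Finset.subset_univ _)
      omega

end Cfsg.Agent.S0695
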