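import Cfsg.Statements.S0696
import Mathlib
import Cfsg.Agent.S0695
-- import your own Cfsg.Agent.* helpers here

set_option autoImplicit false
open Cfsg

namespace Cfsg.Agent.S0696

/-- A triply primitive group of degree at least 3 having a regular normal subgroup has degree 3 or 4. -/
theorem result {G : Type*} [Group G] {X : Type*} [Fintype X] [MulAction G X] (hX : 3 ≤ Fintype.card X) (h3 : MulAction.IsMultiplyPreprimitive G X 3) (N : Subgroup G) [N.Normal] (htrans : MulAction.IsPretransitive N X) (hreg : ∀ x : X, MulAction.stabilizer N x = ⊥) : Fintype.card X = 3 ∨ Fintype.card X = 4 := by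
  classical
  have h2 : MulAction.IsMultiplyPreprimitive G X 2 :=
    MulAction.isMultiplyPreprimitive_of_le G X h3 (by norm_num)
      (by rw [ENat.card_eq_coe_fintype_card]; exact_mod_cast hX)
  rcases Cfsg.Agent.S0695.result (by omega) h2 N htrans hreg with h | ⟨-, hexp, m, hm⟩
  · left; exact h
  right
  obtain ⟨a⟩ : Nonempty X := Fintype.card_pos_iff.1 (by omega)
  have hinj : ∀ n₁ ∈ N, ∀ n₂ ∈ N, n₁ • a = n₂ • a → n₁ = n₂ := by
    intro n₁ h₁ n₂ h₂ h
    have hmem : (⟨n₂⁻¹ * n₁, N.mul_mem (N.inv_mem h₂) h₁⟩ : N) ∈ MulAction.stabilizer N a := by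
      rw [MulAction.mem_stabilizer_iff]
      show (n₂⁻¹ * n₁) • a = a
      rw [mul_smul, h, inv_smul_smul]
    rw [hreg a, Subgroup.mem_bot] at hmem
    have h3 : n₂⁻¹ * n₁ = 1 := congrArg Subtype.val hmem
    exact (inv_mul_eq_one.1 h3).symm
  obtain ⟨x, hxa⟩ : ∃ x : X, x ≠ a := by
    by_contra hcon
    push Not at hcon
    have hsub : (Finset.univ : Finset X) ⊆ {a} := fun y _ => by simp [hcon y]
    have := Finset.card_le_card hsub
    rw [Finset.card_univ, Finset.card_singleton] at this
    omega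
  obtain ⟨x', hx'a, hx'x⟩ : ∃ x' : X, x' ≠ a ∧ x' ≠ x := by
    by_contra hcon
    push Not at hcon
    have hsub : (Finset.univ : Finset X) ⊆ {a, x} := fun y _ => by
      by_cases hy : y = a
      · simp [hy]
      · simp [hcon y hy]
    have := Finset.card_le_card hsub
    rw [Finset.card_univ, Finset.card_pair hxa.symm] at this
    omega
  obtain ⟨⟨n₁, hn₁⟩, hn₁a⟩ := htrans.exists_smul_eq a x
  obtain ⟨⟨n, hn⟩, hna⟩ := htrans.exists_smul_eq a x'
  have hn₁a' : n₁ • a = x := hn₁a
  have hna' : n • a = x' := hna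
  have hn₁sq : n₁ * n₁ = 1 := by rw [← pow_two]; exact hexp n₁ hn₁
  have hs : ({a, x} : Set X).encard + 1 = (3 : ℕ) := by
    rw [Set.encard_pair hxa.symm]; norm_num
  have hprim := MulAction.IsMultiplyPreprimitive.isPreprimitive_ofFixingSubgroup G 3 hs
  let B : Set (SubMulAction.ofFixingSubgroup G ({a, x} : Set X)) :=
    {y | (y : X) = n • a ∨ (y : X) = (n * n₁) • a}
  have hB : MulAction.IsBlock (fixingSubgroup G ({a, x} : Set X)) B := by
    rw [MulAction.isBlock_iff_smul_eq_of_mem]
    intro h y hy hhy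
    have hha : (h : G) • a = a := (mem_fixingSubgroup_iff G).1 h.2 a (by simp)
    have hhx : (h : G) • x = x := (mem_fixingSubgroup_iff G).1 h.2 x (by simp)
    have hhia : (h : G)⁻¹ • a = a := by rw [inv_smul_eq_iff, hha]
    have e1 : ∀ k : G, (h : G) • (k • a) = ((h : G) * k * (h : G)⁻¹) • a := by
      intro k; rw [mul_smul, mul_smul, hhia]
    have hn' : (h : G) * n * (h : G)⁻¹ ∈ N := ‹N.Normal›.conj_mem n hn h
    have hn₁' : (h : G) * n₁ * (h : G)⁻¹ = n₁ := by
      apply hinj _ (‹N.Normal›.conj_mem n₁ hn₁ h) _ hn₁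
      rw [← e1, hn₁a', hhx]
    have hprod : (h : G) * (n * n₁) * (h : G)⁻¹ = ((h : G) * n * (h : G)⁻¹) * n₁ := by
      calc (h : G) * (n * n₁) * (h : G)⁻¹
          = ((h : G) * n * (h : G)⁻¹) * ((h : G) * n₁ * (h : G)⁻¹) := by group
        _ = _ := by rw [hn₁']
    have hcase : (h : G) * n * (h : G)⁻¹ = n ∨ (h : G) * n * (h : G)⁻¹ = n * n₁ := by
      have hhy' : ((h • y : SubMulAction.ofFixingSubgroup G ({a, x} : Set X)) : X) = n • a ∨
          ((h • y : SubMulAction.ofFixingSubgroup G ({a, x} : Set X)) : X) = (n * n₁) • a := hhy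
      have hval : ((h • y : SubMulAction.ofFixingSubgroup G ({a, x} : Set X)) : X)
          = (h : G) • (y : X) := rfl
      rw [hval] at hhy'
      rcases hy with hy | hy
      · rw [hy, e1] at hhy'
        rcases hhy' with h4 | h4
        · left; exact hinj _ hn' _ hn h4
        · right; exact hinj _ hn' _ (N.mul_mem hn hn₁) h4
      · rw [hy, e1, hprod] at hhy'
        rcases hhy' with h4 | h4
        · right
          have := hinj _ (N.mul_mem hn' hn₁) _ hn h4
          calc (h : G) * n * (h : G)⁻¹ = ((h : G) * n * (h : G)⁻¹) * n₁ * n₁ := by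
                rw [mul_assoc _ n₁ n₁, hn₁sq, mul_one]
            _ = n * n₁ := by rw [this]
        · left
          have := hinj _ (N.mul_mem hn' hn₁) _ (N.mul_mem hn hn₁) h4
          exact mul_right_cancel this
    ext z
    rw [Set.mem_smul_set_iff_inv_smul_mem]
    show ((h⁻¹ • z : SubMulAction.ofFixingSubgroup G ({a, x} : Set X)) : X) = n • a ∨
      ((h⁻¹ • z : SubMulAction.ofFixingSubgroup G ({a, x} : Set X)) : X) = (n * n₁) • a ↔
        (z : X) = n • a ∨ (z : X) = (n * n₁) • a
    have hval : ((h⁻¹ • z : SubMulAction.ofFixingSubgroup G ({a, x} : Set X)) : X)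
        = (h : G)⁻¹ • (z : X) := rfl
    rw [hval, inv_smul_eq_iff, inv_smul_eq_iff, e1, e1, hprod]
    rcases hcase with hc | hc
    · rw [hc]
    · rw [hc, mul_assoc n n₁ n₁, hn₁sq, mul_one]; exact Or.comm
  have hna_ne_a : n • a ≠ a := by rw [hna']; exact hx'a
  have hna_ne_x : n • a ≠ x := by rw [hna']; exact hx'x
  have hnn₁a_ne_a : (n * n₁) • a ≠ a := by
    intro h
    have h5 := hinj _ (N.mul_mem hn hn₁) 1 N.one_mem (by rw [h, one_smul])
    apply hx'x
    rw [← hna', ← hn₁a']
    congr 1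
    calc n = n * n₁ * n₁ := by rw [mul_assoc, hn₁sq, mul_one]
      _ = n₁ := by rw [h5, one_mul]
  have hnn₁a_ne_x : (n * n₁) • a ≠ x := by
    intro h
    rw [← hn₁a'] at h
    have h5 := hinj _ (N.mul_mem hn hn₁) _ hn₁ h
    apply hx'a
    rw [← hna']
    have hn1 : n = 1 := by
      have h6 : n * n₁ = 1 * n₁ := by rw [one_mul]; exact h5
      exact mul_right_cancel h6
    rw [hn1, one_smul]
  have hne : n • a ≠ (n * n₁) • a := by
    intro h
    have h5 := hinj _ hn _ (N.mul_mem hn hn₁) h
    apply hxa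
    rw [← hn₁a']
    have h7 : n₁ = 1 := by
      have h6 : n * 1 = n * n₁ := by rw [mul_one]; exact h5
      exact (mul_left_cancel h6).symm
    rw [h7, one_smul]
  have mem1 : n • a ∈ SubMulAction.ofFixingSubgroup G ({a, x} : Set X) := by
    rw [SubMulAction.mem_ofFixingSubgroup_iff]
    simp only [Set.mem_insert_iff, Set.mem_singleton_iff, not_or]
    exact ⟨hna_ne_a, hna_ne_x⟩
  have mem2 : (n * n₁) • a ∈ SubMulAction.ofFixingSubgroup G ({a, x} : Set X) := by
    rw [SubMulAction.mem_ofFixingSubgroup_iff]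
    simp only [Set.mem_insert_iff, Set.mem_singleton_iff, not_or]
    exact ⟨hnn₁a_ne_a, hnn₁a_ne_x⟩
  rcases hprim.isTrivialBlock_of_isBlock hB with hsub | hu
  · exfalso
    apply hne
    have h1 : (⟨n • a, mem1⟩ : SubMulAction.ofFixingSubgroup G ({a, x} : Set X)) ∈ B :=
      Or.inl rfl
    have h2' : (⟨(n * n₁) • a, mem2⟩ : SubMulAction.ofFixingSubgroup G ({a, x} : Set X)) ∈ B :=
      Or.inr rfl
    exact congrArg Subtype.val (hsub h1 h2')
  · have hsub : (Finset.univ : Finset X) ⊆ {a, x, n • a, (n * n₁) • a} := by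
      intro y _
      by_cases hya : y = a
      · simp [hya]
      by_cases hyx : y = x
      · simp [hyx]
      have hy : y ∈ SubMulAction.ofFixingSubgroup G ({a, x} : Set X) := by
        rw [SubMulAction.mem_ofFixingSubgroup_iff]
        simp only [Set.mem_insert_iff, Set.mem_singleton_iff, not_or]
        exact ⟨hya, hyx⟩
      have : (⟨y, hy⟩ : SubMulAction.ofFixingSubgroup G ({a, x} : Set X)) ∈ B := by
        rw [hu]; trivial
      rcases this with h4 | h4
      · have h4' : y = n • a := h4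
        simp [h4']
      · have h4' : y = (n * n₁) • a := h4
        simp [h4']
    have hle := Finset.card_le_card hsub
    have hcard4 : ({a, x, n • a, (n * n₁) • a} : Finset X).card ≤ 4 := Finset.card_le_four
    rw [Finset.card_univ] at hle
    rw [hm] at hle hX ⊢
    rcases m with _ | _ | _ | m
    · norm_num at hX
    · norm_num at hX
    · norm_num
    · exfalso
      have h8 : 2 ^ (m + 3) = 8 * 2 ^ m := by ring
      have := Nat.one_le_two_pow (n := m)
      omega

end Cfsg.Agent.S0696
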