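import Mathlib
import Cfsg.Statements.S0701

set_option autoImplicit false
open Cfsg

namespace Cfsg.Agent.S0701

theorem result {α : Type*} (G : Subgroup (Equiv.Perm α)) [MulAction.IsPretransitive G α] : (∀ c ∈ Subgroup.centralizer (G : Set (Equiv.Perm α)), ∀ a : α, c a = a → c = 1) ∧ (MulAction.IsPretransitive (Subgroup.centralizer (G : Set (Equiv.Perm α))) α ↔ ∀ a : α, MulAction.stabilizer G a = ⊥) := by
  have htrans : ∀ a b : α, ∃ g ∈ G, g a = b := by
    intro a b
    obtain ⟨g, hg⟩ := MulAction.exists_smul_eq G a b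
    exact ⟨g.1, g.2, hg⟩
  have hcomm : ∀ c ∈ Subgroup.centralizer (G : Set (Equiv.Perm α)), ∀ g ∈ G, ∀ x, c (g x) = g (c x) := by
    intro c hc g hg x
    have := Subgroup.mem_centralizer_iff.mp hc g hg
    have h2 := congrArg (fun f : Equiv.Perm α => f x) this
    simpa using h2.symm
  refine ⟨?_, ?_, ?_⟩
  · intro c hc a hca
    ext b
    obtain ⟨g, hg, rfl⟩ := htrans a b
    rw [hcomm c hc g hg, hca]; rfl
  · intro hC a
    rw [eq_bot_iff]
    intro g hg
    rw [Subgroup.mem_bot]
    have hga : (g : Equiv.Perm α) a = a := hg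
    apply Subtype.ext
    ext b
    obtain ⟨c, hc⟩ := MulAction.exists_smul_eq (Subgroup.centralizer (G : Set (Equiv.Perm α))) a b
    have hcb : (c : Equiv.Perm α) a = b := hc
    rw [← hcb, ← hcomm c.1 c.2 g.1 g.2, hga]; rfl
  · intro hreg
    constructor
    intro a b
    have hinj : ∀ x : α, Function.Injective (fun g : G => (g : Equiv.Perm α) x) := by
      intro x g h hgh
      have : h⁻¹ * g ∈ MulAction.stabilizer G x := by
        rw [MulAction.mem_stabilizer_iff]
        show ((h⁻¹ * g : G) : Equiv.Perm α) x = x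
        simp only [Subgroup.coe_mul, Subgroup.coe_inv, Equiv.Perm.mul_apply]
        rw [show (g : Equiv.Perm α) x = (h : Equiv.Perm α) x from hgh]
        simp
      rw [hreg x, Subgroup.mem_bot] at this
      exact (inv_mul_eq_one.mp this).symm
    have hsurj : ∀ x : α, Function.Surjective (fun g : G => (g : Equiv.Perm α) x) := by
      intro x y
      obtain ⟨g, hg, hgy⟩ := htrans x y
      exact ⟨⟨g, hg⟩, hgy⟩
    let ea : G ≃ α := Equiv.ofBijective _ ⟨hinj a, hsurj a⟩
    let eb : G ≃ α := Equiv.ofBijective _ ⟨hinj b, hsurj b⟩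
    let c : Equiv.Perm α := ea.symm.trans eb
    have hc_apply : ∀ g : G, c ((g : Equiv.Perm α) a) = (g : Equiv.Perm α) b := by
      intro g
      show eb (ea.symm ((g : Equiv.Perm α) a)) = _
      have : ea.symm ((g : Equiv.Perm α) a) = g := ea.symm_apply_apply g
      rw [this]; rfl
    have hc : c ∈ Subgroup.centralizer (G : Set (Equiv.Perm α)) := by
      rw [Subgroup.mem_centralizer_iff]
      intro h hh
      ext x
      obtain ⟨g, hg, rfl⟩ := htrans a x
      simp only [Equiv.Perm.mul_apply]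
      have e1 := hc_apply ⟨g, hg⟩
      have e2 := hc_apply (⟨h, hh⟩ * ⟨g, hg⟩)
      simp only [Subgroup.coe_mul, Equiv.Perm.mul_apply] at e1 e2
      rw [e1, e2]
    refine ⟨⟨c, hc⟩, ?_⟩
    show c a = b
    have := hc_apply 1
    simpa using this

end Cfsg.Agent.S0701
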