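import Cfsg.Statements.S0702
import Mathlib
import Cfsg.Agent.Lib.Lead.BaerSuzuki
-- import your own Cfsg.Agent.* helpers here

set_option autoImplicit false
open Cfsg

namespace Cfsg.Agent.S0702

/-- For a transitive permutation group `G` on a finite set, the centraliser of `G` in the symmetric group is isomorphic to `N_G(G_ω)/G_ω`, and its orbit of `ω` is the set of fixed points of `G_ω`. -/
theorem result {α : Type*} [Finite α] (G : Subgroup (Equiv.Perm α)) [MulAction.IsPretransitive G α] (a : α) : Nonempty (Subgroup.centralizer (G : Set (Equiv.Perm α)) ≃* Subgroup.normalizer ((MulAction.stabilizer G a : Subgroup G) : Set G) ⧸ (MulAction.stabilizer G a).subgroupOf (Subgroup.normalizer ((MulAction.stabilizer G a : Subgroup G) : Set G))) ∧ MulAction.orbit (Subgroup.centralizer (G : Set (Equiv.Perm α))) a = MulAction.fixedPoints (MulAction.stabilizer G a) α := by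
  classical
  have hcomm : ∀ c ∈ Subgroup.centralizer (G : Set (Equiv.Perm α)), ∀ (g : G) (y : α),
      c (g • y) = g • c y := by
    intro c hc g y
    have h1 := Subgroup.mem_centralizer_iff.1 hc (g : Equiv.Perm α) g.2
    have h2 := congrArg (fun σ : Equiv.Perm α => σ y) h1
    exact h2.symm
  have huniq : ∀ c ∈ Subgroup.centralizer (G : Set (Equiv.Perm α)),
      ∀ c' ∈ Subgroup.centralizer (G : Set (Equiv.Perm α)), c a = c' a → c = c' := by
    intro c hc c' hc' h
    ext y
    obtain ⟨g, rfl⟩ := MulAction.exists_smul_eq G a y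
    rw [hcomm c hc, hcomm c' hc', h]
  have hex : ∀ x : α, (∀ h ∈ MulAction.stabilizer G a, h • x = x) →
      ∃ c ∈ Subgroup.centralizer (G : Set (Equiv.Perm α)), c a = x := by
    intro x hx
    let f : α → α := fun y => (Classical.choose (MulAction.exists_smul_eq G a y)) • x
    have hf : ∀ g : G, f (g • a) = g • x := by
      intro g
      have hspec := Classical.choose_spec (MulAction.exists_smul_eq G a (g • a))
      have hmem : g⁻¹ * Classical.choose (MulAction.exists_smul_eq G a (g • a)) ∈
          MulAction.stabilizer G a := by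
        rw [MulAction.mem_stabilizer_iff, mul_smul, hspec, inv_smul_smul]
      have h3 := hx _ hmem
      rw [mul_smul] at h3
      exact inv_smul_eq_iff.1 h3
    have hfcomm : ∀ (h : G) (y : α), f (h • y) = h • f y := by
      intro h y
      obtain ⟨g, rfl⟩ := MulAction.exists_smul_eq G a y
      rw [← mul_smul, hf, hf, mul_smul]
    have hsurj : Function.Surjective f := by
      intro y
      obtain ⟨g, hg⟩ := MulAction.exists_smul_eq G x y
      exact ⟨g • a, by rw [hf, hg]⟩
    have hbij : Function.Bijective f := ⟨Finite.injective_iff_surjective.2 hsurj, hsurj⟩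
    refine ⟨Equiv.ofBijective f hbij, ?_, ?_⟩
    · apply Subgroup.mem_centralizer_iff.2
      intro h hh
      ext y
      show h (f y) = f (h y)
      exact (hfcomm ⟨h, hh⟩ y).symm
    · show f a = x
      have := hf 1
      rwa [one_smul, one_smul] at this
  have hfixN : ∀ n : Subgroup.normalizer ((MulAction.stabilizer G a : Subgroup G) : Set G),
      ∀ h ∈ MulAction.stabilizer G a, h • ((n : G)⁻¹ • a) = (n : G)⁻¹ • a := by
    intro n h hh
    have h1 : (n : G) * h * (n : G)⁻¹ ∈ MulAction.stabilizer G a :=
      (Subgroup.mem_normalizer_iff.1 n.2 h).1 hh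
    have h2 := MulAction.mem_stabilizer_iff.1 h1
    rw [mul_smul, mul_smul] at h2
    exact eq_inv_smul_iff.2 h2
  let ψf : Subgroup.normalizer ((MulAction.stabilizer G a : Subgroup G) : Set G) →
      Subgroup.centralizer (G : Set (Equiv.Perm α)) := fun n =>
    ⟨Classical.choose (hex ((n : G)⁻¹ • a) (hfixN n)),
      (Classical.choose_spec (hex _ (hfixN n))).1⟩
  have hψ : ∀ n : Subgroup.normalizer ((MulAction.stabilizer G a : Subgroup G) : Set G),
      (ψf n : Equiv.Perm α) a = (n : G)⁻¹ • a :=
    fun n => (Classical.choose_spec (hex _ (hfixN n))).2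
  let ψ : Subgroup.normalizer ((MulAction.stabilizer G a : Subgroup G) : Set G) →*
      Subgroup.centralizer (G : Set (Equiv.Perm α)) :=
    { toFun := ψf
      map_one' := by
        apply Subtype.ext
        apply huniq _ (ψf 1).2 _ (Subgroup.one_mem _)
        rw [hψ]; simp
      map_mul' := by
        intro n m
        apply Subtype.ext
        apply huniq _ (ψf (n * m)).2 _ (Subgroup.mul_mem _ (ψf n).2 (ψf m).2)
        rw [hψ]
        show _ = (ψf n : Equiv.Perm α) ((ψf m : Equiv.Perm α) a)
        rw [hψ m, hcomm _ (ψf n).2, hψ n, ← mul_smul]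
        simp [mul_inv_rev] }
  have hψ' : ∀ n, ((ψ n : Subgroup.centralizer (G : Set (Equiv.Perm α))) : Equiv.Perm α) a
      = (n : G)⁻¹ • a := hψ
  have hker : ψ.ker = (MulAction.stabilizer G a).subgroupOf
      (Subgroup.normalizer ((MulAction.stabilizer G a : Subgroup G) : Set G)) := by
    ext n
    rw [MonoidHom.mem_ker, Subgroup.mem_subgroupOf]
    constructor
    · intro h
      have h1 := hψ' n
      rw [h] at h1
      have h2 : (n : G)⁻¹ ∈ MulAction.stabilizer G a :=
        MulAction.mem_stabilizer_iff.2 h1.symm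
      exact (Subgroup.inv_mem_iff _).1 h2
    · intro h
      apply Subtype.ext
      apply huniq _ (ψ n).2 _ (Subgroup.one_mem _)
      rw [hψ']
      exact MulAction.mem_stabilizer_iff.1 (Subgroup.inv_mem _ h)
  have hsurj : Function.Surjective ψ := by
    rintro ⟨c, hc⟩
    obtain ⟨g, hg⟩ := MulAction.exists_smul_eq G a (c a)
    have hn : g⁻¹ ∈ Subgroup.normalizer ((MulAction.stabilizer G a : Subgroup G) : Set G) := by
      apply Lib.Lead.mem_normalizer_of_conj_le
      intro h hh
      rw [MulAction.mem_stabilizer_iff, mul_smul, mul_smul, inv_inv, hg, ← hcomm c hc,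
        MulAction.mem_stabilizer_iff.1 hh, ← hg, inv_smul_smul]
    refine ⟨⟨g⁻¹, hn⟩, ?_⟩
    apply Subtype.ext
    apply huniq _ (ψ ⟨g⁻¹, hn⟩).2 _ hc
    rw [hψ']
    show (g⁻¹)⁻¹ • a = c a
    rw [inv_inv, hg]
  constructor
  · exact ⟨(QuotientGroup.quotientKerEquivOfSurjective ψ hsurj).symm.trans
      (QuotientGroup.quotientMulEquivOfEq hker)⟩
  · ext x
    constructor
    · rintro ⟨c, rfl⟩
      intro h
      show (h : G) • (c : Equiv.Perm α) a = (c : Equiv.Perm α) a
      rw [← hcomm _ c.2, MulAction.mem_stabilizer_iff.1 h.2]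
    · intro hx
      obtain ⟨c, hc, hca⟩ := hex x (fun h hh => hx ⟨h, hh⟩)
      exact ⟨⟨c, hc⟩, hca⟩

end Cfsg.Agent.S0702
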