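import Cfsg.Statements.S0703
import Mathlib
import Cfsg.Agent.Lib.Helper1.Regular
import Cfsg.Agent.Lib.Helper1.Abel

set_option autoImplicit false
open Cfsg

namespace Cfsg.Agent.S0703

/-- An abelian transitive minimal normal subgroup `M` of a permutation group on a finite set is self-centralising in the symmetric group, regular, elementary abelian, and is the unique minimal normal subgroup. -/
theorem result {α : Type*} [Finite α] (G : Subgroup (Equiv.Perm α)) (M : Subgroup G) [M.Normal] (hM : M ≠ ⊥) (hmin : ∀ L : Subgroup G, L.Normal → L ≤ M → L = ⊥ ∨ L = M) (hab : IsMulCommutative M) (htrans : MulAction.IsPretransitive M α) : Subgroup.centralizer ((M.map G.subtype : Subgroup (Equiv.Perm α)) : Set (Equiv.Perm α)) = M.map G.subtype ∧ (∀ a : α, MulAction.stabilizer M a = ⊥) ∧ (∃ p : ℕ, p.Prime ∧ ∀ m ∈ M, m ^ p = 1) ∧ ∀ L : Subgroup G, L.Normal → L ≠ ⊥ → (∀ L' : Subgroup G, L'.Normal → L' ≤ L → L' = ⊥ ∨ L' = L) → L = M := by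
  classical
  have hMt := Cfsg.Agent.Lib.Helper1.permTrans_map_of_isPretransitive G M htrans
  have hcomm : ∀ a ∈ M, ∀ b ∈ M, a * b = b * a := Cfsg.Agent.Lib.Helper1.comm_of_isMulCommutative hab
  have hle : M.map G.subtype ≤ Subgroup.centralizer ((M.map G.subtype : Subgroup (Equiv.Perm α)) :
      Set (Equiv.Perm α)) := by
    rintro _ ⟨m, hm, rfl⟩
    rw [Subgroup.mem_centralizer_iff]
    rintro _ ⟨m', hm', rfl⟩
    have := congrArg (fun g : G => (g : Equiv.Perm α)) (hcomm m' hm' m hm)
    simpa using this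
  have hcent := Cfsg.Agent.Lib.Helper1.centralizer_eq_of_le_of_trans hMt hMt hle
  refine ⟨hcent, ?_, ?_, ?_⟩
  · intro a
    rw [Subgroup.eq_bot_iff_forall]
    intro m hm
    have hfix : ((m : G) : Equiv.Perm α) a = a := hm
    have h1 := Cfsg.Agent.Lib.Helper1.eq_one_of_mem_centralizer_of_fixed hMt
      (hle (Subgroup.mem_map_of_mem G.subtype m.2)) hfix
    apply Subtype.ext
    apply Subtype.ext
    exact h1
  · have hfin : Finite M := inferInstance
    have hcard : Nat.card M ≠ 1 := fun h => hM (Subgroup.eq_bot_of_card_eq _ h)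
    obtain ⟨p, hp, hpd⟩ := Nat.exists_prime_and_dvd hcard
    have : Fact p.Prime := ⟨hp⟩
    obtain ⟨x, hx⟩ := exists_prime_orderOf_dvd_card' p hpd
    refine ⟨p, hp, ?_⟩
    let L : Subgroup G :=
      { carrier := {g | g ∈ M ∧ g ^ p = 1}
        mul_mem' := by
          rintro a b ⟨ha, ha'⟩ ⟨hb, hb'⟩
          refine ⟨M.mul_mem ha hb, ?_⟩
          have hc : Commute a b := hcomm a ha b hb
          rw [hc.mul_pow, ha', hb', one_mul]
        one_mem' := ⟨M.one_mem, one_pow p⟩
        inv_mem' := by
          rintro a ⟨ha, ha'⟩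
          exact ⟨M.inv_mem ha, by rw [inv_pow, ha', inv_one]⟩ }
    have hLn : L.Normal := by
      constructor
      rintro n ⟨hn, hn'⟩ g
      refine ⟨Subgroup.Normal.conj_mem inferInstance n hn g, ?_⟩
      rw [conj_pow, hn', mul_one, mul_inv_cancel]
    have hLM : L ≤ M := fun g hg => hg.1
    have hLb : L ≠ ⊥ := by
      intro hbot
      have hxL : (x : G) ∈ L := by
        refine ⟨x.2, ?_⟩
        have h1 : x ^ p = 1 := by rw [← hx]; exact pow_orderOf_eq_one x
        have := congrArg Subtype.val h1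
        simpa using this
      rw [hbot, Subgroup.mem_bot] at hxL
      have hx1 : x = 1 := Subtype.ext hxL
      rw [hx1, orderOf_one] at hx
      exact hp.one_lt.ne hx
    rcases hmin L hLn hLM with h1 | h1
    · exact absurd h1 hLb
    · intro m hm
      rw [← h1] at hm
      exact hm.2
  · intro L hLn hLb hLmin
    by_contra hne
    have hinf := Cfsg.Agent.Lib.Helper1.inf_eq_bot_of_minimal L M hLmin hmin hLb hne
    have h1 := Cfsg.Agent.Lib.Helper1.map_le_centralizer_of_inf_eq_bot G L M hinf
    rw [hcent] at h1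
    have hLM : L ≤ M := by
      intro l hl
      exact Cfsg.Agent.Lib.Helper1.mem_of_coe_mem_map G M l (h1 (Subgroup.mem_map_of_mem G.subtype hl))
    apply hLb
    rw [← hinf]
    exact (inf_eq_left.mpr hLM).symm

end Cfsg.Agent.S0703
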