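import Cfsg.Statements.S0704
import Mathlib
import Cfsg.Agent.Lib.Helper1.Regular
import Cfsg.Agent.Lib.Helper1.Abel

set_option autoImplicit false
open Cfsg

namespace Cfsg.Agent.S0704

/-- Two distinct transitive minimal normal subgroups `M`, `N` of a permutation group are regular, non-abelian, isomorphic, each other's centraliser in the symmetric group, and the only minimal normal subgroups. -/
theorem result {α : Type*} (G : Subgroup (Equiv.Perm α)) (M N : Subgroup G) [M.Normal] [N.Normal] (hM : M ≠ ⊥) (hN : N ≠ ⊥) (hMmin : ∀ L : Subgroup G, L.Normal → L ≤ M → L = ⊥ ∨ L = M) (hNmin : ∀ L : Subgroup G, L.Normal → L ≤ N → L = ⊥ ∨ L = N) (hMN : M ≠ N) (hMt : MulAction.IsPretransitive M α) (hNt : MulAction.IsPretransitive N α) : (∀ a : α, MulAction.stabilizer M a = ⊥) ∧ (∀ a : α, MulAction.stabilizer N a = ⊥) ∧ ¬ IsMulCommutative M ∧ Nonempty (M ≃* N) ∧ Subgroup.centralizer ((M.map G.subtype : Subgroup (Equiv.Perm α)) : Set (Equiv.Perm α)) = N.map G.subtype ∧ Subgroup.centralizer ((N.map G.subtype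 : Subgroup (Equiv.Perm α)) : Set (Equiv.Perm α)) = M.map G.subtype ∧ ∀ L : Subgroup G, L.Normal → L ≠ ⊥ → (∀ L' : Subgroup G, L'.Normal → L' ≤ L → L' = ⊥ ∨ L' = L) → L = M ∨ L = N := by
  classical
  have hMt' := Cfsg.Agent.Lib.Helper1.permTrans_map_of_isPretransitive G M hMt
  have hNt' := Cfsg.Agent.Lib.Helper1.permTrans_map_of_isPretransitive G N hNt
  have hinf : M ⊓ N = ⊥ := Cfsg.Agent.Lib.Helper1.inf_eq_bot_of_minimal M N hMmin hNmin hM hMN
  have hinf' : N ⊓ M = ⊥ := by rw [inf_comm]; exact hinf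
  have hNM := Cfsg.Agent.Lib.Helper1.map_le_centralizer_of_inf_eq_bot G N M hinf'
  have hMN' := Cfsg.Agent.Lib.Helper1.map_le_centralizer_of_inf_eq_bot G M N hinf
  have hcM := Cfsg.Agent.Lib.Helper1.centralizer_eq_of_le_of_trans hMt' hNt' hNM
  have hcN := Cfsg.Agent.Lib.Helper1.centralizer_eq_of_le_of_trans hNt' hMt' hMN'
  refine ⟨?_, ?_, ?_, ?_, hcM, hcN, ?_⟩
  · intro a
    rw [Subgroup.eq_bot_iff_forall]
    intro m hm
    have hfix : ((m : G) : Equiv.Perm α) a = a := hm
    have h1 := Cfsg.Agent.Lib.Helper1.eq_one_of_mem_centralizer_of_fixed hNt'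
      (hMN' (Subgroup.mem_map_of_mem G.subtype m.2)) hfix
    apply Subtype.ext
    apply Subtype.ext
    exact h1
  · intro a
    rw [Subgroup.eq_bot_iff_forall]
    intro m hm
    have hfix : ((m : G) : Equiv.Perm α) a = a := hm
    have h1 := Cfsg.Agent.Lib.Helper1.eq_one_of_mem_centralizer_of_fixed hMt'
      (hNM (Subgroup.mem_map_of_mem G.subtype m.2)) hfix
    apply Subtype.ext
    apply Subtype.ext
    exact h1
  · intro hab
    have hcomm : ∀ a ∈ M, ∀ b ∈ M, a * b = b * a :=
      Cfsg.Agent.Lib.Helper1.comm_of_isMulCommutative hab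
    have hle : M.map G.subtype ≤ Subgroup.centralizer
        ((M.map G.subtype : Subgroup (Equiv.Perm α)) : Set (Equiv.Perm α)) := by
      rintro _ ⟨m, hm, rfl⟩
      rw [Subgroup.mem_centralizer_iff]
      rintro _ ⟨m', hm', rfl⟩
      have := congrArg (fun g : G => (g : Equiv.Perm α)) (hcomm m' hm' m hm)
      simpa using this
    rw [hcM] at hle
    have hMN2 : M ≤ N := by
      intro m hm
      exact Cfsg.Agent.Lib.Helper1.mem_of_coe_mem_map G N m
        (hle (Subgroup.mem_map_of_mem G.subtype hm))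
    apply hM
    rw [← hinf]
    exact (inf_eq_left.mpr hMN2).symm
  · have hne : Nonempty α := by
      by_contra hemp
      rw [not_nonempty_iff] at hemp
      apply hM
      rw [Subgroup.eq_bot_iff_forall]
      intro m _
      apply Subtype.ext
      ext b
      exact hemp.elim b
    obtain ⟨e⟩ := Cfsg.Agent.Lib.Helper1.nonempty_mulEquiv_of_trans_of_le_centralizer hMt' hNt' hNM
    exact ⟨((M.equivMapOfInjective G.subtype G.subtype_injective).trans e).trans
      (N.equivMapOfInjective G.subtype G.subtype_injective).symm⟩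
  · intro L hLn hLb hLmin
    by_cases hLM : L = M
    · exact Or.inl hLM
    · right
      have hinfL := Cfsg.Agent.Lib.Helper1.inf_eq_bot_of_minimal L M hLmin hMmin hLb hLM
      have h1 := Cfsg.Agent.Lib.Helper1.map_le_centralizer_of_inf_eq_bot G L M hinfL
      rw [hcM] at h1
      have hLN : L ≤ N := by
        intro l hl
        exact Cfsg.Agent.Lib.Helper1.mem_of_coe_mem_map G N l
          (h1 (Subgroup.mem_map_of_mem G.subtype hl))
      rcases hNmin L hLn hLN with h2 | h2
      · exact absurd h2 hLb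
      · exact h2

end Cfsg.Agent.S0704
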