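import Cfsg.Statements.S0705
import Mathlib
import Cfsg.Agent.Lib.Lead.MultTrans
-- import your own Cfsg.Agent.* helpers here

set_option autoImplicit false
open scoped Pointwise
open Cfsg

namespace Cfsg.Agent.S0705

/-- A generously `k`-transitive permutation group (every `(k+1)`-subset has its full symmetric group induced by the setwise stabiliser) of degree greater than `k` is `k`-transitive, and for a `k`-subset the setwise and pointwise stabilisers have the same orbits outside it. -/
theorem result {α : Type*} [Fintype α] [DecidableEq α] (G : Subgroup (Equiv.Perm α)) {k : ℕ} (hk : k < Fintype.card α) (hgen : ∀ s : Finset α, s.card = k + 1 → ∀ σ : Equiv.Perm ↥s, ∃ g ∈ G, ∀ x : ↥s, g (x : α) = σ x) : MulAction.IsMultiplyPretransitive G α k ∧ ∀ s : Finset α, s.card = k → ∀ a b : α, a ∉ s → b ∉ s → (∃ g ∈ G, g • s = s ∧ g a = b) → ∃ g ∈ G, (∀ x ∈ s, g x = x) ∧ g a = b := by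
  classical
  have hgen' : ∀ s : Finset α, s.card = k + 1 → ∀ τ : Equiv.Perm α, (∀ x ∈ s, τ x ∈ s) →
      ∃ g ∈ G, ∀ x ∈ s, g x = τ x := by
    intro s hs τ hτ
    obtain ⟨g, hg, hgs⟩ := hgen s hs (τ.subtypePermOfFintype (p := fun x => x ∈ s) hτ)
    refine ⟨g, hg, fun x hx => ?_⟩
    rw [hgs ⟨x, hx⟩]
    rfl
  refine ⟨?_, ?_⟩
  · apply Lib.Lead.generous_multi k (↥G) α (by rw [Nat.card_eq_fintype_card]; exact hk)
    intro s hs τ hτ
    obtain ⟨g, hg, hgs⟩ := hgen' s hs τ hτ
    exact ⟨⟨g, hg⟩, hgs⟩
  · rintro s hs a b ha hb ⟨g, hg, hgs, hgab⟩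
    by_cases hab : a = b
    · exact ⟨1, G.one_mem, fun x _ => rfl, by simpa using hab⟩
    · have hgs' : ∀ x ∈ s, g x ∈ s := by
        intro x hx
        have : g • x ∈ g • s := Finset.smul_mem_smul_finset hx
        rw [hgs] at this
        exact this
      have hgs'' : ∀ x ∈ s, g⁻¹ x ∈ s := by
        intro x hx
        rw [← hgs] at hx
        obtain ⟨y, hy, rfl⟩ := Finset.mem_smul_finset.1 hx
        simpa using hy
      have hgb : g⁻¹ b = a := by rw [← hgab]; simp
      obtain ⟨g', hg', hg's⟩ := hgen' (insert b s)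
        (by rw [Finset.card_insert_of_notMem hb, hs]) (Equiv.swap a b * g⁻¹) (by
        intro x hx
        rcases Finset.mem_insert.1 hx with rfl | hx
        · rw [Equiv.Perm.coe_mul, Function.comp_apply, hgb, Equiv.swap_apply_left]
          exact Finset.mem_insert_self _ _
        · have h1 := hgs'' x hx
          have : Equiv.swap a b (g⁻¹ x) = g⁻¹ x :=
            Equiv.swap_apply_of_ne_of_ne (fun h => ha (h ▸ h1)) (fun h => hb (h ▸ h1))
          simp only [Equiv.Perm.coe_mul, Function.comp_apply, this]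
          exact Finset.mem_insert_of_mem h1)
      refine ⟨g' * g, G.mul_mem hg' hg, ?_, ?_⟩
      · intro x hx
        have h1 := hgs' x hx
        rw [Equiv.Perm.coe_mul, Function.comp_apply, hg's _ (Finset.mem_insert_of_mem h1)]
        show Equiv.swap a b (g.symm (g x)) = x
        rw [Equiv.symm_apply_apply]
        exact Equiv.swap_apply_of_ne_of_ne (fun h => ha (h ▸ hx)) (fun h => hb (h ▸ hx))
      · rw [Equiv.Perm.coe_mul, Function.comp_apply, hgab, hg's _ (Finset.mem_insert_self _ _),
          Equiv.Perm.coe_mul, Function.comp_apply, hgb, Equiv.swap_apply_left]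

end Cfsg.Agent.S0705
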