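import Cfsg.Statements.S0707
import Mathlib
-- import your own Cfsg.Agent.* helpers here

set_option autoImplicit false
open Cfsg

namespace Cfsg.Agent.S0707

/-- In a primitive permutation group, distinct points have distinct stabilisers unless the group is regular of prime degree. -/
theorem result {α : Type*} (G : Subgroup (Equiv.Perm α)) [MulAction.IsPreprimitive G α] (h : ¬ (Nat.card α).Prime ∨ ∃ a : α, MulAction.stabilizer G a ≠ ⊥) {a b : α} (hab : a ≠ b) : MulAction.stabilizer G a ≠ MulAction.stabilizer G b := by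
  intro hst
  haveI : Nontrivial α := ⟨⟨a, b, hab⟩⟩
  have hco : IsCoatom (MulAction.stabilizer G a) :=
    MulAction.IsPreprimitive.isCoatom_stabilizer_of_isPreprimitive _ a
  obtain ⟨g, hg⟩ := MulAction.exists_smul_eq G a b
  have hgS : g ∉ MulAction.stabilizer G a := fun hh => hab (by
    rw [← hg]; exact (MulAction.mem_stabilizer_iff.1 hh).symm)
  have hst' : MulAction.stabilizer G a = MulAction.stabilizer G (g • a) := by
    rw [hg]; exact hst
  have hgN : g ∈ Subgroup.normalizer ((MulAction.stabilizer G a : Subgroup G) : Set G) := by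
    rw [Subgroup.mem_normalizer_iff]
    intro x
    constructor
    · intro hx
      rw [hst', MulAction.mem_stabilizer_iff, mul_smul, mul_smul, inv_smul_smul,
        MulAction.mem_stabilizer_iff.1 hx]
    · intro hx
      rw [hst', MulAction.mem_stabilizer_iff, mul_smul, mul_smul, inv_smul_smul] at hx
      exact MulAction.mem_stabilizer_iff.2 (smul_left_cancel g hx)
  have hN : Subgroup.normalizer ((MulAction.stabilizer G a : Subgroup G) : Set G) = ⊤ :=
    hco.2 _ (lt_of_le_of_ne Subgroup.le_normalizer (fun e => hgS (e ▸ hgN)))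
  have hnorm : (MulAction.stabilizer G a).Normal := Subgroup.normalizer_eq_top_iff.1 hN
  have hfix : ∀ x ∈ MulAction.stabilizer G a, ∀ c : α, x • c = c := by
    intro x hx c
    obtain ⟨k, rfl⟩ := MulAction.exists_smul_eq G a c
    have h1 : k⁻¹ * x * k ∈ MulAction.stabilizer G a := by
      have := hnorm.conj_mem x hx k⁻¹
      simpa using this
    have h2 := MulAction.mem_stabilizer_iff.1 h1
    rw [mul_smul, mul_smul] at h2
    calc x • k • a = k • (k⁻¹ • x • k • a) := by rw [smul_inv_smul]
      _ = k • a := by rw [h2]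
  have hbot : MulAction.stabilizer G a = ⊥ := by
    rw [eq_bot_iff]
    intro x hx
    rw [Subgroup.mem_bot]
    apply Subtype.ext
    apply Equiv.ext
    intro c
    exact hfix x hx c
  have hco' : IsCoatom (⊥ : Subgroup G) := hbot ▸ hco
  have hg1 : g ≠ 1 := fun e => hgS (e ▸ one_mem _)
  have hz : ∀ x : G, x ≠ 1 → Subgroup.zpowers x = ⊤ := fun x hx =>
    hco'.2 _ (bot_lt_iff_ne_bot.2 (Subgroup.zpowers_ne_bot.2 hx))
  have hcard : Nat.card α = orderOf g := by
    rw [← MulAction.index_stabilizer_of_transitive G a, hbot, Subgroup.index_bot,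
      ← Nat.card_zpowers g, hz g hg1, Subgroup.card_top]
  have key : ∀ m : ℕ, g ^ m ≠ 1 → ∃ k : ℤ, (orderOf g : ℤ) ∣ m * k - 1 := by
    intro m hm
    have hmem : g ∈ Subgroup.zpowers (g ^ m) := by rw [hz _ hm]; exact Subgroup.mem_top _
    obtain ⟨k, hk⟩ := Subgroup.mem_zpowers_iff.1 hmem
    refine ⟨k, ?_⟩
    rw [orderOf_dvd_iff_zpow_eq_one, zpow_sub, zpow_one, zpow_mul, zpow_natCast, hk, mul_inv_cancel]
  have hn0 : orderOf g ≠ 0 := by
    intro h0
    have h2 : g ^ 2 ≠ 1 := by
      intro h2
      have := orderOf_dvd_of_pow_eq_one h2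
      rw [h0] at this
      omega
    obtain ⟨k, hk⟩ := key 2 h2
    rw [h0] at hk
    have := zero_dvd_iff.1 hk
    push_cast at this
    omega
  have hn1 : orderOf g ≠ 1 := fun h1 => hg1 (orderOf_eq_one_iff.1 h1)
  have hprime : (orderOf g).Prime := by
    have hp := Nat.minFac_prime hn1
    have hpd := Nat.minFac_dvd (orderOf g)
    by_cases hgp : g ^ (orderOf g).minFac = 1
    · have := orderOf_dvd_of_pow_eq_one hgp
      have he : orderOf g = (orderOf g).minFac := Nat.dvd_antisymm this hpd
      rw [he]; exact hp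
    · exfalso
      obtain ⟨k, hk⟩ := key _ hgp
      have h3 : ((orderOf g).minFac : ℤ) ∣ (orderOf g).minFac * k - 1 :=
        dvd_trans (Int.natCast_dvd_natCast.2 hpd) hk
      have h4 : ((orderOf g).minFac : ℤ) ∣ 1 := by
        have := dvd_sub (dvd_mul_right ((orderOf g).minFac : ℤ) k) h3
        simpa using this
      have h5 := Int.natCast_dvd_natCast.1 (by simpa using h4 : (((orderOf g).minFac : ℕ) : ℤ) ∣ ((1 : ℕ) : ℤ))
      exact hp.one_lt.ne' (Nat.dvd_one.1 h5)
  rcases h with h | ⟨c, hc⟩
  · exact h (hcard ▸ hprime)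
  · obtain ⟨k, rfl⟩ := MulAction.exists_smul_eq G a c
    apply hc
    rw [MulAction.stabilizer_smul_eq_stabilizer_map_conj, hbot, Subgroup.map_bot]

end Cfsg.Agent.S0707
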