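import Mathlib
import Cfsg.Statements.S0710

set_option autoImplicit false
open Cfsg

namespace Cfsg.Agent.S0710

/-- No transitive permutation group on 13 points has order `13 * 12 * 11 * 10 * 9 * 8`. -/
theorem result {α : Type*} [Fintype α] [DecidableEq α] (hα : Fintype.card α = 13) (G : Subgroup (Equiv.Perm α)) [MulAction.IsPretransitive G α] : Nat.card G ≠ 13 * 12 * 11 * 10 * 9 * 8 := by
  intro hG
  have : Fact (Nat.Prime 13) := ⟨by norm_num⟩
  obtain ⟨P⟩ : Nonempty (Sylow 13 G) := inferInstance
  have hP13 : Nat.card P = 13 := by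
    obtain ⟨k, hk⟩ := (IsPGroup.iff_card.mp P.isPGroup')
    have h1 : 13 ∣ Nat.card P := P.dvd_card_of_dvd_card (by rw [hG]; norm_num)
    have h2 : Nat.card P ∣ Nat.card G := Subgroup.card_subgroup_dvd_card _
    rw [hk] at h1 h2 ⊢
    rw [hG] at h2
    have hk1 : k ≠ 0 := by
      rintro rfl
      norm_num at h1
    have hk2 : k < 2 := by
      by_contra hk2
      push Not at hk2
      have : 13 ^ 2 ∣ 13 * 12 * 11 * 10 * 9 * 8 := (pow_dvd_pow 13 hk2).trans h2
      norm_num at this
    interval_cases k
    · exact absurd rfl hk1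
    · norm_num
  have hcyc : IsCyclic (P : Subgroup G) := isCyclic_of_prime_card hP13
  obtain ⟨s, hs⟩ := exists_prime_orderOf_dvd_card' (G := (P : Subgroup G)) 13 (by rw [hP13])
  have hsG : orderOf (s : G) = 13 := by rw [Subgroup.orderOf_coe]; exact hs
  have hσ : orderOf ((s : G) : Equiv.Perm α) = 13 := by rw [Subgroup.orderOf_coe]; exact hsG
  have hσc : ((s : G) : Equiv.Perm α).IsCycle :=
    Equiv.Perm.isCycle_of_prime_order' (by rw [hσ]; norm_num) (by rw [hσ, hα]; norm_num)
  have hmove : ∀ x : α, ((s : G) : Equiv.Perm α) x ≠ x := by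
    have hc : ((s : G) : Equiv.Perm α).support.card = 13 := by rw [← hσc.orderOf]; exact hσ
    have hu : ((s : G) : Equiv.Perm α).support = Finset.univ :=
      Finset.eq_univ_of_card _ (by rw [hc, hα])
    intro x
    rw [← Equiv.Perm.mem_support, hu]
    exact Finset.mem_univ x
  -- semiregularity of the centralizer
  have hsemi : ∀ c ∈ Subgroup.centralizer ((P : Subgroup G) : Set G), ∀ x : α,
      (c : Equiv.Perm α) x = x → c = 1 := by
    intro c hc x hx
    have h1 : (s : G) * c = c * (s : G) := Subgroup.mem_centralizer_iff.mp hc (s : G) s.2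
    have h2 : Commute ((s : G) : Equiv.Perm α) (c : Equiv.Perm α) := by
      have := congrArg (Subtype.val) h1
      exact this
    apply Subtype.ext
    apply Equiv.ext
    intro y
    obtain ⟨i, hi⟩ := hσc.exists_pow_eq (hmove x) (hmove y)
    have h3 := (h2.pow_left i).eq
    have h4 := congrArg (fun f : Equiv.Perm α => f x) h3
    simp only [Equiv.Perm.mul_apply] at h4
    rw [hx, hi] at h4
    show (c : Equiv.Perm α) y = y
    exact h4.symm
  have hne : Nonempty α := by
    rw [← Fintype.card_pos_iff, hα]; norm_num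
  obtain ⟨x₀⟩ := hne
  have hCle : Nat.card (Subgroup.centralizer ((P : Subgroup G) : Set G)) ≤ 13 := by
    have hinj : Function.Injective
        (fun c : Subgroup.centralizer ((P : Subgroup G) : Set G) => ((c : G) : Equiv.Perm α) x₀) := by
      intro c c' h
      have h5 : ((c⁻¹ * c' : Subgroup.centralizer ((P : Subgroup G) : Set G)) : G) = 1 := by
        apply hsemi _ (c⁻¹ * c').2 x₀
        show (((c : G) : Equiv.Perm α)⁻¹ * ((c' : G) : Equiv.Perm α)) x₀ = x₀
        rw [Equiv.Perm.mul_apply, ← (show ((c : G) : Equiv.Perm α) x₀ = ((c' : G) : Equiv.Perm α) x₀ from h)]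
        simp
      have h6 : c⁻¹ * c' = 1 := Subtype.ext h5
      exact inv_mul_eq_one.mp h6
    have h := Nat.card_le_card_of_injective _ hinj
    have hα' : Nat.card α = 13 := by rw [Nat.card_eq_fintype_card, hα]
    rw [hα'] at h
    exact h
  have hCge : 13 ≤ Nat.card (Subgroup.centralizer ((P : Subgroup G) : Set G)) := by
    have h := Subgroup.card_le_of_le (P : Subgroup G).le_centralizer
    rw [hP13] at h
    exact h
  have hC13 : Nat.card (Subgroup.centralizer ((P : Subgroup G) : Set G)) = 13 := le_antisymm hCle hCge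
  have key := Subgroup.card_dvd_of_injective _
    (QuotientGroup.kerLift_injective (P : Subgroup G).normalizerMonoidHom)
  rw [Subgroup.normalizerMonoidHom_ker, ← Subgroup.index, ← Subgroup.relIndex,
    IsCyclic.card_mulAut, hP13, Nat.totient_prime (by norm_num)] at key
  have hCN : Subgroup.centralizer ((P : Subgroup G) : Set G) ≤
      Subgroup.normalizer ((P : Subgroup G) : Set G) := Subgroup.centralizer_le_normalizer _
  have h7 := Subgroup.relIndex_mul_index hCN
  have h8 := Subgroup.index_mul_card (Subgroup.centralizer ((P : Subgroup G) : Set G))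
  rw [hC13, hG] at h8
  have h9 : Nat.card (Sylow 13 G) = (Subgroup.normalizer ((P : Subgroup G) : Set G)).index :=
    Sylow.card_eq_index_normalizer P
  have h10 := card_sylow_modEq_one 13 G
  rw [h9] at h10
  have h11 : (Subgroup.normalizer ((P : Subgroup G) : Set G)).index % 13 = 1 := h10
  have hr : (Subgroup.centralizer ((P : Subgroup G) : Set G)).relIndex
      (Subgroup.normalizer ((P : Subgroup G) : Set G)) ≤ 12 := Nat.le_of_dvd (by norm_num) key
  generalize (Subgroup.centralizer ((P : Subgroup G) : Set G)).relIndex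
      (Subgroup.normalizer ((P : Subgroup G) : Set G)) = r at key h7 hr
  generalize (Subgroup.normalizer ((P : Subgroup G) : Set G)).index = m at h7 h11
  generalize (Subgroup.centralizer ((P : Subgroup G) : Set G)).index = c at h7 h8
  subst h7
  interval_cases r <;> omega

end Cfsg.Agent.S0710
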