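import Cfsg.Statements.S0712
import Mathlib
import Cfsg.Agent.Lib.Lead.JordanMT
-- import your own Cfsg.Agent.* helpers here

set_option autoImplicit false
open Cfsg

namespace Cfsg.Agent.S0712

/-- Jordan: a primitive group in which the pointwise stabiliser of a set `s` is doubly transitive on the complement of `s` (which has at least 2 points) is `(|s| + 2)`-transitive. -/
theorem result {α : Type*} [Fintype α] [DecidableEq α] (G : Subgroup (Equiv.Perm α)) (hG : MulAction.IsPreprimitive G α) (s : Set α) {m : ℕ} (hsm : s.ncard = m) (hm : m + 2 ≤ Fintype.card α) (h2 : MulAction.IsMultiplyPretransitive (fixingSubgroup G s) (SubMulAction.ofFixingSubgroup G s) 2) : MulAction.IsMultiplyPretransitive G α (m + 2) := by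
  classical
  rcases Nat.eq_zero_or_pos m with hm0 | hmpos
  · subst hm0
    have hs : s = ∅ := (Set.ncard_eq_zero (Set.toFinite s)).1 hsm
    subst hs
    exact MulAction.IsPretransitive.of_embedding
      (f := SubMulAction.ofFixingSubgroup_equivariantMap G (∅ : Set α))
      SubMulAction.ofFixingSubgroupEmpty_equivariantMap_bijective.surjective
  · obtain ⟨n, rfl⟩ : ∃ n, m = n + 1 := ⟨m - 1, by omega⟩
    have := Lib.Lead.jordan_multiply_transitive hG hsm
      (by rw [Nat.card_eq_fintype_card]; omega) h2
    exact this

end Cfsg.Agent.S0712
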