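import Mathlib
import Cfsg.Statements.S0726

set_option autoImplicit false
open Cfsg

namespace Cfsg.Agent.S0726

/-- The left and right regular permutation representations of a group are each other's centralisers in the symmetric group: the centraliser of the left regular image is the right regular image, and a transitive subgroup centralising the left regular image is the whole right regular image. -/
theorem result {G : Type*} [Group G] : Subgroup.centralizer ((MulAction.toPermHom G G).range : Set (Equiv.Perm G)) = (MulAction.toPermHom Gᵐᵒᵖ G).range ∧ ∀ H : Subgroup (Equiv.Perm G), H ≤ Subgroup.centralizer ((MulAction.toPermHom G G).range : Set (Equiv.Perm G)) → MulAction.IsPretransitive H G → H = (MulAction.toPermHom Gᵐᵒᵖ G).range := by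
  have L : ∀ (g x : G), MulAction.toPermHom G G g x = g * x := fun g x => rfl
  have R : ∀ (g : Gᵐᵒᵖ) (x : G), MulAction.toPermHom Gᵐᵒᵖ G g x = x * g.unop := fun g x => rfl
  have key : ∀ σ : Equiv.Perm G,
      σ ∈ Subgroup.centralizer ((MulAction.toPermHom G G).range : Set (Equiv.Perm G)) →
      σ = MulAction.toPermHom Gᵐᵒᵖ G (MulOpposite.op (σ 1)) := by
    intro σ hσ
    rw [Subgroup.mem_centralizer_iff] at hσ
    ext x
    have h1 := hσ (MulAction.toPermHom G G x) ⟨x, rfl⟩
    have h2 := congrArg (fun τ : Equiv.Perm G => τ 1) h1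
    simp only [Equiv.Perm.mul_apply, L, mul_one] at h2
    rw [R]; exact h2.symm
  have part1 : Subgroup.centralizer ((MulAction.toPermHom G G).range : Set (Equiv.Perm G)) =
      (MulAction.toPermHom Gᵐᵒᵖ G).range := by
    apply le_antisymm
    · intro σ hσ; exact ⟨_, (key σ hσ).symm⟩
    · rintro _ ⟨g, rfl⟩
      rw [Subgroup.mem_centralizer_iff]
      rintro _ ⟨h, rfl⟩
      ext x
      simp only [Equiv.Perm.mul_apply, L, R, mul_assoc]
  refine ⟨part1, fun H hH htr => ?_⟩
  apply le_antisymm
  · rw [← part1]; exact hH
  · rintro _ ⟨g, rfl⟩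
    obtain ⟨h, hh⟩ := MulAction.exists_smul_eq H (1 : G) g.unop
    have e := key (h : Equiv.Perm G) (hH h.2)
    have h1 : (h : Equiv.Perm G) 1 = g.unop := hh
    rw [h1, MulOpposite.op_unop] at e
    rw [← e]; exact h.2

end Cfsg.Agent.S0726
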