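import Cfsg.Statements.S0733
import Mathlib
-- import your own Cfsg.Agent.* helpers here

set_option autoImplicit false
open Cfsg

namespace Cfsg.Agent.S0733

/-- A permutation group of affine type — generated by the translations of a finite vector space `V` over `ZMod p` together with a group `G₀` of linear automorphisms — is primitive on `V` if and only if `G₀` is irreducible on `V`. -/
theorem result {p : ℕ} [Fact p.Prime] {V : Type*} [AddCommGroup V] [Module (ZMod p) V] [Finite V] [Nontrivial V] (G₀ : Subgroup (V ≃ₗ[ZMod p] V)) (G : Subgroup (Equiv.Perm V)) (hG : ∀ σ : Equiv.Perm V, σ ∈ G ↔ ∃ g ∈ G₀, ∃ b : V, ∀ x : V, σ x = (g : V ≃ₗ[ZMod p] V) x + b) : MulAction.IsPreprimitive G V ↔ ∀ W : Submodule (ZMod p) V, (∀ g ∈ G₀, ∀ v ∈ W, (g : V ≃ₗ[ZMod p] V) v ∈ W) → W = ⊥ ∨ W = ⊤ := by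
  classical
  haveI : NeZero p := ⟨(Fact.out : p.Prime).ne_zero⟩
  have htr : ∀ b : V, ∃ σ : G, ∀ x : V, σ • x = x + b := by
    intro b
    refine ⟨⟨Equiv.addRight b, (hG _).2 ⟨1, G₀.one_mem, b, fun x => ?_⟩⟩, fun x => rfl⟩
    simp
  have hlin : ∀ g ∈ G₀, ∃ σ : G, ∀ x : V, σ • x = (g : V ≃ₗ[ZMod p] V) x := by
    intro g hg
    refine ⟨⟨(g : V ≃ₗ[ZMod p] V).toEquiv, (hG _).2 ⟨g, hg, 0, fun x => ?_⟩⟩, fun x => rfl⟩
    simp
  constructor
  · intro hprim W hW
    have hInv : ∀ σ : G, (∃ x ∈ (W : Set V), σ • x ∈ (W : Set V)) →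
        ∀ y ∈ (W : Set V), σ • y ∈ (W : Set V) := by
      rintro ⟨σ, hσ⟩ ⟨x, hx, hσx⟩ y hy
      obtain ⟨g, hg, b, hgb⟩ := (hG σ).1 hσ
      have e1 : (⟨σ, hσ⟩ : G) • x = g x + b := hgb x
      have e2 : (⟨σ, hσ⟩ : G) • y = g y + b := hgb y
      rw [e1] at hσx
      rw [e2]
      have hb : b ∈ W := by
        have := W.sub_mem hσx (hW g hg x hx)
        simpa using this
      exact W.add_mem (hW g hg y hy) hb
    have hblock : MulAction.IsBlock G (W : Set V) := by
      rw [MulAction.isBlock_iff_smul_eq_of_mem]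
      intro σ x hx hσx
      ext y
      rw [Set.mem_smul_set_iff_inv_smul_mem]
      constructor
      · intro hy
        have := hInv σ ⟨x, hx, hσx⟩ _ hy
        rwa [smul_inv_smul] at this
      · intro hy
        exact hInv σ⁻¹ ⟨σ • x, hσx, by rw [inv_smul_smul]; exact hx⟩ y hy
    rcases hprim.isTrivialBlock_of_isBlock hblock with hs | hu
    · left
      rw [Submodule.eq_bot_iff]
      intro x hx
      exact hs hx W.zero_mem
    · right
      rw [Submodule.eq_top_iff']
      intro x
      have : x ∈ (W : Set V) := by rw [hu]; trivial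
      exact this
  · intro hirr
    haveI : MulAction.IsPretransitive G V := by
      refine ⟨fun x y => ?_⟩
      obtain ⟨σ, hσ⟩ := htr (y - x)
      exact ⟨σ, by rw [hσ]; abel⟩
    apply MulAction.IsPreprimitive.of_isTrivialBlock_base (0 : V)
    intro B h0 hB
    have hadd : ∀ u v : V, u ∈ B → v ∈ B → u + v ∈ B := by
      intro u v hu hv
      obtain ⟨σ, hσ⟩ := htr v
      open Pointwise in
      have hσB : σ • B = B := hB.smul_eq_of_mem h0 (by rw [hσ, zero_add]; exact hv)
      rw [← hσB, ← hσ u]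
      exact Set.smul_mem_smul_set hu
    have hnsmul : ∀ (n : ℕ) (u : V), u ∈ B → n • u ∈ B := by
      intro n u hu
      induction n with
      | zero => rw [zero_nsmul]; exact h0
      | succ n ih => rw [succ_nsmul]; exact hadd _ _ ih hu
    let W : Submodule (ZMod p) V :=
      { carrier := B
        add_mem' := fun {u v} hu hv => hadd u v hu hv
        zero_mem' := h0
        smul_mem' := fun c u hu => by
          have hcu : c • u = c.val • u := by
            conv_lhs => rw [← ZMod.natCast_zmod_val c]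
            exact Nat.cast_smul_eq_nsmul (ZMod p) c.val u
          show c • u ∈ B
          rw [hcu]
          exact hnsmul _ u hu }
    have hWinv : ∀ g ∈ G₀, ∀ v ∈ W, (g : V ≃ₗ[ZMod p] V) v ∈ W := by
      intro g hg v hv
      obtain ⟨σ, hσ⟩ := hlin g hg
      open Pointwise in
      have hσB : σ • B = B := hB.smul_eq_of_mem h0 (by rw [hσ, map_zero]; exact h0)
      show (g : V ≃ₗ[ZMod p] V) v ∈ B
      rw [← hσB, ← hσ v]
      exact Set.smul_mem_smul_set hv
    rcases hirr W hWinv with hW | hW
    · left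
      intro x hx y hy
      have hx' : x ∈ W := hx
      have hy' : y ∈ W := hy
      rw [hW, Submodule.mem_bot] at hx' hy'
      rw [hx', hy']
    · right
      rw [Set.eq_univ_iff_forall]
      intro x
      have : x ∈ W := by rw [hW]; trivial
      exact this

end Cfsg.Agent.S0733
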