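import Cfsg.Statements.S0734
import Mathlib
-- import your own Cfsg.Agent.* helpers here

set_option autoImplicit false
open Cfsg

namespace Cfsg.Agent.S0734

/-- Higman's criterion for primitivity: a transitive action on a finite set is primitive if and only if every non-trivial orbital graph (edges = images of a fixed pair of distinct points) is connected. -/
theorem result {G : Type*} [Group G] {Ω : Type*} [Finite Ω] [MulAction G Ω] [MulAction.IsPretransitive G Ω] [Nontrivial Ω] : MulAction.IsPreprimitive G Ω ↔ ∀ a b : Ω, a ≠ b → (SimpleGraph.fromRel fun x y : Ω => ∃ g : G, g • a = x ∧ g • b = y).Connected := by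
  classical
  constructor
  · intro hprim a b hab
    set Γ : SimpleGraph Ω :=
      SimpleGraph.fromRel fun x y : Ω => ∃ g : G, g • a = x ∧ g • b = y with hΓ
    have adj_smul : ∀ (g : G) (u v : Ω), Γ.Adj u v → Γ.Adj (g • u) (g • v) := by
      intro g u v huv
      rw [hΓ, SimpleGraph.fromRel_adj] at huv ⊢
      refine ⟨fun h => huv.1 (smul_left_cancel g h), ?_⟩
      rcases huv.2 with ⟨k, hk1, hk2⟩ | ⟨k, hk1, hk2⟩
      · left; exact ⟨g * k, by rw [mul_smul, hk1], by rw [mul_smul, hk2]⟩
      · right; exact ⟨g * k, by rw [mul_smul, hk1], by rw [mul_smul, hk2]⟩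
    have reach_smul : ∀ (g : G) (u v : Ω), Γ.Reachable u v → Γ.Reachable (g • u) (g • v) := by
      intro g u v huv
      rw [SimpleGraph.reachable_iff_reflTransGen] at huv ⊢
      exact Relation.ReflTransGen.lift (fun x => g • x) (fun x y hxy => adj_smul g x y hxy) u v huv
    have hblock : MulAction.IsBlock G {x | Γ.Reachable a x} := by
      rw [MulAction.isBlock_iff_smul_eq_of_mem]
      intro g x hx hgx
      have h1 : Γ.Reachable a (g • a) := hgx.trans (reach_smul g a x hx).symm
      ext y
      rw [Set.mem_smul_set_iff_inv_smul_mem]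
      constructor
      · intro hy
        have := reach_smul g _ _ hy
        rw [smul_inv_smul] at this
        exact h1.trans this
      · intro hy
        have h2 : Γ.Reachable (g • a) y := h1.symm.trans hy
        have := reach_smul g⁻¹ _ _ h2
        rw [inv_smul_smul] at this
        exact this
    have hab' : Γ.Adj a b := by
      rw [hΓ, SimpleGraph.fromRel_adj]
      exact ⟨hab, Or.inl ⟨1, one_smul _ _, one_smul _ _⟩⟩
    rcases hprim.isTrivialBlock_of_isBlock hblock with hs | hu
    · exfalso
      exact hab (hs (SimpleGraph.Reachable.refl a) hab'.reachable)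
    · rw [SimpleGraph.connected_iff_exists_forall_reachable]
      refine ⟨a, fun w => ?_⟩
      have : w ∈ {x | Γ.Reachable a x} := by rw [hu]; trivial
      exact this
  · intro hconn
    refine { toIsPretransitive := inferInstance, isTrivialBlock_of_isBlock := ?_ }
    intro B hB
    by_contra hcon
    unfold MulAction.IsTrivialBlock at hcon
    push Not at hcon
    obtain ⟨⟨a, ha, b, hb, hab⟩, hnu⟩ := hcon
    apply hnu
    have hc := hconn a b hab
    have step : ∀ x y : Ω, x ∈ B →
        (SimpleGraph.fromRel fun x y : Ω => ∃ g : G, g • a = x ∧ g • b = y).Adj x y → y ∈ B := by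
      intro x y hx hxy
      rw [SimpleGraph.fromRel_adj] at hxy
      rcases hxy.2 with ⟨g, hg1, hg2⟩ | ⟨g, hg1, hg2⟩
      · open Pointwise in
        have hgB : g • B = B := hB.smul_eq_of_mem ha (by rw [hg1]; exact hx)
        rw [← hgB, ← hg2]; exact Set.smul_mem_smul_set hb
      · open Pointwise in
        have hgB : g • B = B := hB.smul_eq_of_mem hb (by rw [hg2]; exact hx)
        rw [← hgB, ← hg1]; exact Set.smul_mem_smul_set ha
    rw [Set.eq_univ_iff_forall]
    intro x
    have hr := hc.preconnected a x
    rw [SimpleGraph.reachable_iff_reflTransGen] at hr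
    induction hr with
    | refl => exact ha
    | tail _ hadj ih => exact step _ _ ih hadj

end Cfsg.Agent.S0734
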