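import Cfsg.Statements.S0735
import Mathlib
-- import your own Cfsg.Agent.* helpers here

set_option autoImplicit false
open Cfsg

namespace Cfsg.Agent.S0735

/-- A 2-homogeneous permutation group (transitive on 2-subsets) of even order is doubly transitive; a non-trivial 2-homogeneous group is primitive. -/
theorem result {α : Type*} [Fintype α] [DecidableEq α] (G : Subgroup (Equiv.Perm α)) (h2 : MulAction.IsPretransitive G (Set.powersetCard α 2)) (hα : 3 ≤ Fintype.card α) : (Even (Nat.card G) → MulAction.IsMultiplyPretransitive G α 2) ∧ (G ≠ ⊥ → MulAction.IsPreprimitive G α) := by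
  classical
  have key : ∀ a b c d : α, a ≠ b → c ≠ d →
      ∃ g : G, (g • a = c ∧ g • b = d) ∨ (g • a = d ∧ g • b = c) := by
    intro a b c d hab hcd
    obtain ⟨g, hg⟩ := h2.exists_smul_eq
      (⟨{a, b}, Finset.card_pair hab⟩ : Set.powersetCard α 2) ⟨{c, d}, Finset.card_pair hcd⟩
    refine ⟨g, ?_⟩
    open Pointwise in
    have hg' : g • ({a, b} : Finset α) = {c, d} := by
      have := congrArg (fun s : Set.powersetCard α 2 => (s : Finset α)) hg
      exact this
    have ha : g • a ∈ ({c, d} : Finset α) := by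
      rw [← hg']; exact Finset.smul_mem_smul_finset (by simp)
    have hb : g • b ∈ ({c, d} : Finset α) := by
      rw [← hg']; exact Finset.smul_mem_smul_finset (by simp)
    have hne : g • a ≠ g • b := fun h => hab (smul_left_cancel g h)
    simp only [Finset.mem_insert, Finset.mem_singleton] at ha hb
    rcases ha with ha | ha <;> rcases hb with hb | hb
    · exact absurd (ha.trans hb.symm) hne
    · left; exact ⟨ha, hb⟩
    · right; exact ⟨ha, hb⟩
    · exact absurd (ha.trans hb.symm) hne
  constructor
  · intro heven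
    haveI : Fact (Nat.Prime 2) := ⟨Nat.prime_two⟩
    obtain ⟨t, ht⟩ := exists_prime_orderOf_dvd_card' (G := G) 2 heven.two_dvd
    have ht1 : t ≠ 1 := by
      intro e; rw [e, orderOf_one] at ht; omega
    have ht2 : t * t = 1 := by rw [← pow_two, ← ht]; exact pow_orderOf_eq_one t
    obtain ⟨a, ha⟩ : ∃ a : α, t • a ≠ a := by
      by_contra hcon
      push Not at hcon
      apply ht1
      apply Subtype.ext
      ext x
      exact hcon x
    have hswap : t • (t • a) = a := by rw [← mul_smul, ht2, one_smul]
    have ord : ∀ c d : α, c ≠ d → ∃ g : G, g • a = c ∧ g • (t • a) = d := by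
      intro c d hcd
      obtain ⟨g, hg | hg⟩ := key a (t • a) c d (Ne.symm ha) hcd
      · exact ⟨g, hg⟩
      · exact ⟨g * t, by rw [mul_smul]; exact hg.2, by rw [mul_smul, hswap]; exact hg.1⟩
    refine ⟨fun x y => ?_⟩
    obtain ⟨g₁, h1, h1'⟩ := ord (x 0) (x 1) (fun h => by simpa using x.injective h)
    obtain ⟨g₂, h2, h2'⟩ := ord (y 0) (y 1) (fun h => by simpa using y.injective h)
    refine ⟨g₂ * g₁⁻¹, ?_⟩
    ext i
    fin_cases i
    · show (g₂ * g₁⁻¹) • x 0 = y 0
      rw [← h1, mul_smul, inv_smul_smul, h2]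
    · show (g₂ * g₁⁻¹) • x 1 = y 1
      rw [← h1', mul_smul, inv_smul_smul, h2']
  · intro _
    haveI : MulAction.IsPretransitive G α := by
      refine ⟨fun a b => ?_⟩
      by_cases hab : a = b
      · exact ⟨1, by rw [one_smul, hab]⟩
      obtain ⟨c, hc⟩ : ∃ c : α, c ≠ a ∧ c ≠ b := by
        by_contra hcon
        push Not at hcon
        have hsub : (Finset.univ : Finset α) ⊆ {a, b} := fun x _ => by
          by_cases hx : x = a
          · simp [hx]
          · simp [hcon x hx]
        have := Finset.card_le_card hsub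
        rw [Finset.card_univ, Finset.card_pair hab] at this
        omega
      obtain ⟨g, hg | hg⟩ := key a c b c (Ne.symm hc.1) (Ne.symm hc.2)
      · exact ⟨g, hg.1⟩
      · exact ⟨g * g, by rw [mul_smul, hg.1, hg.2]⟩
    refine ⟨fun {B} hB => ?_⟩
    by_contra hcon
    unfold MulAction.IsTrivialBlock at hcon
    push Not at hcon
    obtain ⟨hns, hnu⟩ := hcon
    obtain ⟨a, ha, b, hb, hab⟩ := hns
    obtain ⟨c, hc⟩ := (Set.ne_univ_iff_exists_notMem B).1 hnu
    have hac : a ≠ c := fun h => hc (h ▸ ha)
    obtain ⟨g, hg | hg⟩ := key a b a c hab hac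
    · open Pointwise in
      have hgB : g • B = B := hB.smul_eq_of_mem ha (by rw [hg.1]; exact ha)
      apply hc
      rw [← hgB, ← hg.2]
      exact Set.smul_mem_smul_set hb
    · open Pointwise in
      have hgB : g • B = B := hB.smul_eq_of_mem hb (by rw [hg.2]; exact ha)
      apply hc
      rw [← hgB, ← hg.1]
      exact Set.smul_mem_smul_set ha

end Cfsg.Agent.S0735
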