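import Cfsg.Statements.S0738
import Mathlib
import Cfsg.Agent.Lib.Lead.FreeConj
-- import your own Cfsg.Agent.* helpers here

set_option autoImplicit false
open Cfsg

namespace Cfsg.Agent.S0738

/-- Let a finite Zassenhaus group of degree `n + 1` have two-point stabilisers of order `d` with `2d ≥ n - 1`. Then a normal subgroup of a point stabiliser acting regularly on the remaining points is elementary abelian, and the degree is a prime power plus one. -/
theorem result {G Ω : Type*} [Group G] [Finite G] [MulAction G Ω] [Fintype Ω] (hZ : Cfsg.IsZassenhausGroup G Ω) {a b : Ω} (hab : a ≠ b) (hd : Fintype.card Ω - 2 ≤ 2 * Nat.card ↥(MulAction.stabilizer G a ⊓ MulAction.stabilizer G b)) (F : Subgroup G) (hFle : F ≤ MulAction.stabilizer G a) (hFn : (F.subgroupOf (MulAction.stabilizer G a)).Normal) (hreg : ∀ y z : Ω, y ≠ a → z ≠ a → ∃! u : F, (u : G) • y = z) : IsMulCommutative F ∧ ∃ p f : ℕ, p.Prime ∧ (∀ u ∈ F, u ^ p = 1) ∧ Fintype.card Ω = p ^ f + 1 := by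
  classical
  obtain ⟨hfaith, h2, h3, hex, hreg'⟩ := hZ
  have hFa : ∀ u ∈ F, u • a = a := fun u hu => hFle hu
  -- card F
  have hFcard : Nat.card F = Fintype.card Ω - 1 := by
    have hbij : Function.Bijective (fun u : F => (⟨(u : G) • b, by
        intro h
        have h1 : (u : G) • b = (u : G) • a := by rw [hFa u u.2]; exact h
        exact hab (smul_left_cancel _ h1).symm⟩ : {z : Ω // z ≠ a})) := by
      constructor
      · intro u v huv
        have huv' : (u : G) • b = (v : G) • b := congrArg Subtype.val huv
        obtain ⟨w, -, hw⟩ := hreg b ((v : G) • b) (Ne.symm hab) (by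
          intro h
          have h1 : (v : G) • b = (v : G) • a := by rw [hFa v v.2]; exact h
          exact hab (smul_left_cancel _ h1).symm)
        rw [hw u huv', hw v rfl]
      · rintro ⟨z, hz⟩
        obtain ⟨u, hu, -⟩ := hreg b z (Ne.symm hab) hz
        exact ⟨u, Subtype.ext hu⟩
    rw [Nat.card_eq_of_bijective _ hbij, Nat.card_eq_fintype_card, Fintype.card_subtype_compl,
      Fintype.card_subtype_eq]
  by_cases hF : F = ⊥
  · have hall : ∀ u ∈ F, u = 1 := fun u hu => by
      rw [hF] at hu; exact Subgroup.mem_bot.1 hu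
    refine ⟨⟨⟨fun x y => ?_⟩⟩, 2, 0, Nat.prime_two, ?_, ?_⟩
    · have hx : x = 1 := Subtype.ext (hall x.1 x.2)
      rw [hx, one_mul, mul_one]
    · intro u hu
      rw [hall u hu, one_pow]
    · have h1 : Nat.card F = 1 := by rw [hF]; exact Subgroup.card_bot
      have h4 : 2 ≤ Fintype.card Ω := by
        rw [← Finset.card_univ]
        calc 2 = ({a, b} : Finset Ω).card := (Finset.card_pair hab).symm
          _ ≤ _ := Finset.card_le_card (Finset.subset_univ _)
      rw [pow_zero]
      omega
  · obtain ⟨p, hp, hexp, hcomm⟩ := Lib.Lead.free2_elementary F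
      (MulAction.stabilizer G a ⊓ MulAction.stabilizer G b)
      (by
        intro h hh u hu
        have h1 := hFn.conj_mem ⟨u, hFle hu⟩ (Subgroup.mem_subgroupOf.2 hu) ⟨h, hh.1⟩
        exact Subgroup.mem_subgroupOf.1 h1)
      (by
        intro h hh u hu hu1 hconj
        have hha : h • a = a := hh.1
        have hhb : h • b = b := hh.2
        have hub : u • b ≠ b := by
          intro hfix
          obtain ⟨w, -, hw⟩ := hreg b b (Ne.symm hab) (Ne.symm hab)
          have e1 := hw ⟨u, hu⟩ hfix
          have e2 := hw 1 (one_smul _ b)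
          apply hu1
          have := e1.trans e2.symm
          exact congrArg Subtype.val this
        have hua : u • b ≠ a := by
          intro h1
          have h4 : u • b = u • a := by rw [hFa u hu]; exact h1
          exact hab (smul_left_cancel _ h4).symm
        have hfix3 : h • (u • b) = u • b := by
          have e : h * u = u * h := by
            calc h * u = (h * u * h⁻¹) * h := by group
              _ = u * h := by rw [hconj]
          rw [← mul_smul, e, mul_smul, hhb]
        exact h3 h a b (u • b) hab (Ne.symm hub) (Ne.symm hua) hha hhb hfix3)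
      (by rw [hFcard]; omega) hF
    refine ⟨⟨⟨fun x y => Subtype.ext (hcomm x.1 x.2 y.1 y.2)⟩⟩, ?_⟩
    have hpg : IsPGroup p F := by
      intro x
      exact ⟨1, by rw [pow_one]; exact Subtype.ext (by simpa using hexp x x.2)⟩
    haveI := Fact.mk hp
    obtain ⟨f, hf⟩ := IsPGroup.iff_card.1 hpg
    refine ⟨p, f, hp, hexp, ?_⟩
    have h4 : 2 ≤ Fintype.card Ω := by
      rw [← Finset.card_univ]
      calc 2 = ({a, b} : Finset Ω).card := (Finset.card_pair hab).symm
        _ ≤ _ := Finset.card_le_card (Finset.subset_univ _)
    rw [← hf, hFcard]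
    omega

end Cfsg.Agent.S0738
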