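import Cfsg.Statements.S0744
import Mathlib
import Cfsg.Agent.Lib.Lead.MultTrans
-- import your own Cfsg.Agent.* helpers here

set_option autoImplicit false
open Cfsg

namespace Cfsg.Agent.S0744

/-- If for some `k > 1` the pointwise stabilisers of all `(k-1)`-subsets have the same order `> 1` and those of all `k`-subsets have the same order, then the group is `(k-1)`-transitive. -/
theorem result {α : Type*} [Fintype α] [DecidableEq α] (G : Subgroup (Equiv.Perm α)) {k : ℕ} (hk : 1 < k) (hkn : k ≤ Fintype.card α) (l m : ℕ) (hl : 1 < l) (hkm1 : ∀ s : Finset α, s.card = k - 1 → Nat.card (fixingSubgroup G (s : Set α)) = l) (hkm : ∀ s : Finset α, s.card = k → Nat.card (fixingSubgroup G (s : Set α)) = m) : MulAction.IsMultiplyPretransitive G α (k - 1) := by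
  classical
  obtain ⟨j, rfl⟩ : ∃ j, k = j + 1 := ⟨k - 1, by omega⟩
  simp only [Nat.add_sub_cancel] at hkm1 ⊢
  have hlm : l ≠ m := by
    intro hlm
    obtain ⟨s, -, hs⟩ := Finset.exists_subset_card_eq (s := (Finset.univ : Finset α)) (n := j)
      (by rw [Finset.card_univ]; omega)
    have hH := hkm1 s hs
    have hbot : fixingSubgroup G (s : Set α) = ⊥ := by
      rw [eq_bot_iff]
      intro g hg
      rw [Subgroup.mem_bot]
      apply Subtype.ext
      ext z
      show (g : Equiv.Perm α) z = z
      by_cases hz : z ∈ s
      · exact (mem_fixingSubgroup_iff G).1 hg z hz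
      · have hle : fixingSubgroup G ((insert z s : Finset α) : Set α)
            ≤ fixingSubgroup G (s : Set α) := by
          intro g hg
          rw [mem_fixingSubgroup_iff] at hg ⊢
          intro y hy
          exact hg y (by simp [Finset.mem_coe.1 hy])
        have heq : fixingSubgroup G ((insert z s : Finset α) : Set α)
            = fixingSubgroup G (s : Set α) := by
          apply Subgroup.eq_of_le_of_card_ge hle
          rw [hH, hkm _ (by rw [Finset.card_insert_of_notMem hz, hs]), hlm]
        have : g ∈ fixingSubgroup G ((insert z s : Finset α) : Set α) := heq ▸ hg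
        exact (mem_fixingSubgroup_iff G).1 this z (by simp)
    rw [hbot, Subgroup.card_bot] at hH
    omega
  exact Lib.Lead.const_stab_multi j (by omega) (↥G) α
    (by rw [Nat.card_eq_fintype_card]; exact hkn) l m hlm hkm1 hkm

end Cfsg.Agent.S0744
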