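import Cfsg.Statements.S0751
import Mathlib
import Cfsg.Statements.S0751
import Cfsg.Agent.S0755

set_option autoImplicit false
open Cfsg
open scoped commutatorElement

namespace Cfsg.Agent.S0751

open Cfsg.Agent.S0755

theorem realize51 {F V : Type*} [Field F] [AddCommGroup V] [Module F V] [FiniteDimensional F V]
    (σ : F →+* F) (hσ2 : ∀ a : F, σ (σ a) = a)
    (B : V →ₛₗ[σ] V →ₗ[F] F) (hB : B.Nondegenerate) {k : ℕ} (y : Fin k → V) (hy : LinearIndependent F y) :
    Function.Surjective (LinearMap.pi (fun i => B (y i)) : V →ₗ[F] (Fin k → F)) := by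
  classical
  rw [← LinearMap.dualMap_injective_iff, ← LinearMap.ker_eq_bot, LinearMap.ker_eq_bot']
  intro φ hφ
  have h1 : ∀ w, φ (fun i => B (y i) w) = 0 := fun w => by
    have h0 := LinearMap.congr_fun hφ w
    have h0' : φ ((LinearMap.pi fun i => B (y i)) w) = 0 := by
      simpa [LinearMap.dualMap_apply] using h0
    exact h0'
  have h2 : ∀ w, B (∑ i, σ (φ (fun j => if i = j then 1 else 0)) • y i) w = 0 := by
    intro w
    simp only [map_sum, LinearMap.map_smulₛₗ, LinearMap.sum_apply, LinearMap.smul_apply, hσ2, smul_eq_mul]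
    have h1' := h1 w
    rw [LinearMap.pi_apply_eq_sum_univ φ (fun i => B (y i) w)] at h1'
    simpa [mul_comm] using h1'
  have h3 := hB.1 _ h2
  have h4 := Fintype.linearIndependent_iff.mp hy _ h3
  have h5 : ∀ i, φ (fun j => if i = j then 1 else 0) = 0 := by
    intro i
    have := congrArg σ (h4 i)
    rwa [hσ2, map_zero] at this
  refine LinearMap.ext (fun w => ?_)
  rw [LinearMap.pi_apply_eq_sum_univ φ w]
  simp [h5]

theorem mem_ker51 {F V : Type*} [Field F] [AddCommGroup V] [Module F V]
    (σ : F →+* F) (B : V →ₛₗ[σ] V →ₗ[F] F) {k : ℕ} (y : Fin k → V) (w : V) :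
    w ∈ LinearMap.ker (LinearMap.pi (fun i => B (y i)) : V →ₗ[F] (Fin k → F)) ↔ ∀ i, B (y i) w = 0 := by
  rw [LinearMap.mem_ker]
  constructor
  · intro h i; exact congrFun h i
  · intro h; funext i; exact h i

theorem finrank_ker51 {F V : Type*} [Field F] [AddCommGroup V] [Module F V] [FiniteDimensional F V]
    (σ : F →+* F) (hσ2 : ∀ a : F, σ (σ a) = a)
    (B : V →ₛₗ[σ] V →ₗ[F] F) (hB : B.Nondegenerate) {k : ℕ} (y : Fin k → V) (hy : LinearIndependent F y) :
    Module.finrank F (LinearMap.ker (LinearMap.pi (fun i => B (y i)) : V →ₗ[F] (Fin k → F))) + k = Module.finrank F V := by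
  have h1 := LinearMap.finrank_range_add_finrank_ker (LinearMap.pi (fun i => B (y i)) : V →ₗ[F] (Fin k → F))
  rw [LinearMap.range_eq_top.mpr (realize51 σ hσ2 B hB y hy), finrank_top, Module.finrank_fin_fun] at h1
  omega

theorem escape51 {F V : Type*} [Field F] [AddCommGroup V] [Module F V] [FiniteDimensional F V]
    (σ : F →+* F) (hσ2 : ∀ a : F, σ (σ a) = a)
    (B : V →ₛₗ[σ] V →ₗ[F] F) (hB : B.Nondegenerate) {k : ℕ} (x y : Fin k → V)
    (hx : LinearIndependent F x) (hy : LinearIndependent F y)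
    (hG : ∀ i j, B (x i) (x j) = B (y i) (y j))
    (u : V) (hu : ∀ j, B (x j) u = 0) (hux : u ∉ Submodule.span F (Set.range x)) :
    ∃ v', (∀ j, B (y j) v' = 0) ∧ v' ∉ Submodule.span F (Set.range y) := by
  by_contra hcon
  push Not at hcon
  set Tx : (Fin k → F) →ₗ[F] V := Fintype.linearCombination F x with hTx
  set Ty : (Fin k → F) →ₗ[F] V := Fintype.linearCombination F y with hTy
  have hTxi : Function.Injective Tx := hx.fintypeLinearCombination_injective
  have hTyi : Function.Injective Ty := hy.fintypeLinearCombination_injective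
  have hrx : LinearMap.range Tx = Submodule.span F (Set.range x) := Fintype.range_linearCombination F x
  have hry : LinearMap.range Ty = Submodule.span F (Set.range y) := Fintype.range_linearCombination F y
  set Ox := LinearMap.ker (LinearMap.pi (fun i => B (x i)) : V →ₗ[F] (Fin k → F)) with hOx
  set Oy := LinearMap.ker (LinearMap.pi (fun i => B (y i)) : V →ₗ[F] (Fin k → F)) with hOy
  set K := Oy.comap Ty with hKdef
  have hK : K = Ox.comap Tx := by
    ext c
    rw [hKdef, Submodule.mem_comap, Submodule.mem_comap, hOx, hOy, mem_ker51, mem_ker51]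
    simp only [hTx, hTy, Fintype.linearCombination_apply, map_sum, map_smul, smul_eq_mul, hG]
  have hOyle : Oy ≤ LinearMap.range Ty := by
    intro w hw
    rw [hry]
    exact hcon w ((mem_ker51 σ B y w).mp hw)
  have hmapy : K.map Ty = Oy := Submodule.map_comap_eq_of_le hOyle
  have hfK : Module.finrank F K = Module.finrank F Oy := by
    rw [← hmapy]; exact (Submodule.equivMapOfInjective Ty hTyi K).finrank_eq
  have hmapx : K.map Tx ≤ Ox := by rw [hK]; exact Submodule.map_comap_le _ _
  have hfx : Module.finrank F (K.map Tx) = Module.finrank F Ox := by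
    rw [← (Submodule.equivMapOfInjective Tx hTxi K).finrank_eq, hfK]
    have e1 : Module.finrank F Ox + k = Module.finrank F V := finrank_ker51 σ hσ2 B hB x hx
    have e2 : Module.finrank F Oy + k = Module.finrank F V := finrank_ker51 σ hσ2 B hB y hy
    omega
  have heq : K.map Tx = Ox := Submodule.eq_of_le_of_finrank_eq hmapx hfx
  have huO : u ∈ Ox := (mem_ker51 σ B x u).mpr hu
  rw [← heq] at huO
  obtain ⟨c, _, rfl⟩ := huO
  exact hux (by rw [← hrx]; exact ⟨c, rfl⟩)

theorem dorth51 {F V : Type*} [Field F] [AddCommGroup V] [Module F V] [FiniteDimensional F V]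
    (σ : F →+* F) (hσ2 : ∀ a : F, σ (σ a) = a)
    (B : V →ₛₗ[σ] V →ₗ[F] F) (hS : B.IsSymm) (hB : B.Nondegenerate) {k : ℕ} (x : Fin k → V)
    (hx : LinearIndependent F x) (u : V) (hux : u ∉ Submodule.span F (Set.range x)) :
    ∃ z, (∀ j, B (x j) z = 0) ∧ B z u ≠ 0 := by
  by_contra hcon
  push Not at hcon
  set O := LinearMap.ker (LinearMap.pi (fun i => B (x i)) : V →ₗ[F] (Fin k → F)) with hO
  have e1 : Module.finrank F O + k = Module.finrank F V := finrank_ker51 σ hσ2 B hB x hx
  let bO := Module.finBasis F O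
  have hz : LinearIndependent F (fun i => (bO i : V)) := bO.linearIndependent.map' O.subtype (Submodule.ker_subtype O)
  set O' := LinearMap.ker (LinearMap.pi (fun i => B (bO i : V)) : V →ₗ[F] (Fin (Module.finrank F O) → F)) with hO'
  have e2 : Module.finrank F O' + Module.finrank F O = Module.finrank F V := finrank_ker51 σ hσ2 B hB _ hz
  have hle : Submodule.span F (Set.range x) ≤ O' := by
    rw [Submodule.span_le]
    rintro _ ⟨j, rfl⟩
    rw [SetLike.mem_coe, hO', mem_ker51]
    intro l
    have h1 := (mem_ker51 σ B x (bO l : V)).mp (bO l).2 j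
    rw [← LinearMap.isSymm_def.mp hS, h1, map_zero]
  have hfr : Module.finrank F (Submodule.span F (Set.range x)) = Module.finrank F O' := by
    rw [finrank_span_eq_card hx, Fintype.card_fin]; omega
  have heq := Submodule.eq_of_le_of_finrank_eq hle hfr
  apply hux
  rw [heq, hO', mem_ker51]
  intro l
  exact hcon (bO l : V) ((mem_ker51 σ B x (bO l : V)).mp (bO l).2)

theorem tr_ne51 {F : Type*} [Field F] (σ : F →+* F) (hσ : σ ≠ RingHom.id F) : ∃ t : F, t + σ t ≠ 0 := by
  by_cases h2 : (2 : F) = 0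
  · obtain ⟨t, ht⟩ : ∃ t, σ t ≠ t := by
      by_contra hcon; push Not at hcon
      exact hσ (RingHom.ext hcon)
    refine ⟨t, fun h => ht ?_⟩
    have h3 : σ t = - t := by linear_combination h
    have h4 : -t = t := by linear_combination (-t) * h2
    rw [h3, h4]
  · refine ⟨1, ?_⟩
    rw [map_one, one_add_one_eq_two]; exact h2

theorem polar51 {F V : Type*} [Field F] [AddCommGroup V] [Module F V]
    (σ : F →+* F) (hσ : σ ≠ RingHom.id F)
    (B : V →ₛₗ[σ] V →ₗ[F] F) (hS : B.IsSymm) (z u : V) (hzu : B z u ≠ 0) :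
    ∃ c d : F, B (c • z + d • u) (c • z + d • u) ≠ 0 := by
  by_cases h1 : B z z = 0
  · by_cases h2 : B u u = 0
    · obtain ⟨t, ht⟩ := tr_ne51 σ hσ
      refine ⟨1, t / B z u, ?_⟩
      have h3 : B u z = σ (B z u) := (LinearMap.isSymm_def.mp hS z u).symm
      simp only [map_add, LinearMap.add_apply, LinearMap.map_smulₛₗ, LinearMap.smul_apply, map_smul, smul_eq_mul, h1, h2, h3, map_one, one_mul, mul_zero, add_zero, zero_add]
      have h4 : σ (t / B z u) * σ (B z u) + t / B z u * B z u = σ t + t := by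
        rw [← map_mul, div_mul_cancel₀ _ hzu]
      rw [h4, add_comm]; exact ht
    · exact ⟨0, 1, by simpa using h2⟩
  · exact ⟨1, 0, by simpa using h1⟩

theorem unit51 {F V : Type*} [Field F] [Finite F] [AddCommGroup V] [Module F V] [FiniteDimensional F V]
    (σ : F →+* F) (hσ : σ ≠ RingHom.id F) (hσ2 : ∀ a : F, σ (σ a) = a)
    (B : V →ₛₗ[σ] V →ₗ[F] F) (hS : B.IsSymm) (hB : B.Nondegenerate) {k : ℕ} (x : Fin k → V)
    (hx : LinearIndependent F x) (u : V) (hu : ∀ j, B (x j) u = 0) (hux : u ∉ Submodule.span F (Set.range x)) :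
    ∃ u₁, (∀ j, B (x j) u₁ = 0) ∧ B u₁ u₁ = 1 ∧ u₁ ∉ Submodule.span F (Set.range x) := by
  obtain ⟨z, hz, hzu⟩ := dorth51 σ hσ2 B hS hB x hx u hux
  obtain ⟨c, d, hw⟩ := polar51 σ hσ B hS z u hzu
  set w := c • z + d • u with hwdef
  have hwx : ∀ j, B (x j) w = 0 := by
    intro j
    rw [hwdef, map_add, map_smul, map_smul, hz j, hu j]; simp
  have hfix : σ (B w w) = B w w := LinearMap.isSymm_def.mp hS w w
  obtain ⟨μ, hμ⟩ := norm_surj55 σ hσ hσ2 (B w w)⁻¹ (by rw [map_inv₀, hfix])
  have h1 : B (μ • w) (μ • w) = 1 := by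
    simp only [LinearMap.map_smulₛₗ, LinearMap.smul_apply, map_smul, smul_eq_mul]
    rw [← mul_assoc, mul_comm μ, hμ, inv_mul_cancel₀ hw]
  have h2 : ∀ j, B (x j) (μ • w) = 0 := by
    intro j; rw [map_smul, hwx j, smul_zero]
  refine ⟨μ • w, h2, h1, ?_⟩
  intro hmem
  obtain ⟨a, ha⟩ := (Submodule.mem_span_range_iff_exists_fun F).mp hmem
  have h3 : B (μ • w) (μ • w) = 0 := by
    have h3' : B (∑ i, a i • x i) (μ • w) = 0 := by
      rw [map_sum, LinearMap.sum_apply]
      apply Finset.sum_eq_zero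
      intro i _
      rw [LinearMap.map_smulₛₗ₂, h2 i, smul_zero]
    rwa [ha] at h3'
  rw [h1] at h3
  exact one_ne_zero h3

theorem ext_step51 {F V : Type*} [Field F] [Finite F] [AddCommGroup V] [Module F V] [FiniteDimensional F V]
    (σ : F →+* F) (hσ : σ ≠ RingHom.id F) (hσ2 : ∀ a : F, σ (σ a) = a)
    (B : V →ₛₗ[σ] V →ₗ[F] F) (hS : B.IsSymm) (hB : B.Nondegenerate) {k : ℕ} (x y : Fin k → V)
    (hk : k < Module.finrank F V)
    (hx : LinearIndependent F x) (hy : LinearIndependent F y)
    (hG : ∀ i j, B (x i) (x j) = B (y i) (y j)) :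
    ∃ v v', v ∉ Submodule.span F (Set.range x) ∧ v' ∉ Submodule.span F (Set.range y) ∧
      (∀ i, B (x i) v = B (y i) v') ∧ B v v = B v' v' := by
  by_cases hc : ∃ u, (∀ j, B (x j) u = 0) ∧ u ∉ Submodule.span F (Set.range x)
  · obtain ⟨u, hu, hux⟩ := hc
    obtain ⟨u', hu', hu'y⟩ := escape51 σ hσ2 B hB x y hx hy hG u hu hux
    obtain ⟨v, hv1, hv2, hv3⟩ := unit51 σ hσ hσ2 B hS hB x hx u hu hux
    obtain ⟨v', hv1', hv2', hv3'⟩ := unit51 σ hσ hσ2 B hS hB y hy u' hu' hu'y
    exact ⟨v, v', hv3, hv3', fun i => by rw [hv1 i, hv1' i], by rw [hv2, hv2']⟩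
  · push Not at hc
    have hlt : Submodule.span F (Set.range x) ≠ ⊤ := by
      intro h
      have h3 := finrank_span_eq_card hx
      rw [h, finrank_top] at h3
      simp at h3; omega
    obtain ⟨v, hv⟩ : ∃ v, v ∉ Submodule.span F (Set.range x) := by
      by_contra hcon; push Not at hcon
      exact hlt (eq_top_iff.mpr (fun z _ => hcon z))
    obtain ⟨w0, hw0⟩ := realize51 σ hσ2 B hB y hy (fun i => B (x i) v)
    have hw0' : ∀ i, B (y i) w0 = B (x i) v := fun i => congrFun hw0 i
    have hw0y : w0 ∉ Submodule.span F (Set.range y) := by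
      intro hw
      obtain ⟨c, hc'⟩ := (Submodule.mem_span_range_iff_exists_fun F).mp hw
      apply hv
      have h4 : v = (v - ∑ i, c i • x i) + ∑ i, c i • x i := by abel
      rw [h4]
      refine Submodule.add_mem _ (hc _ ?_) (Submodule.sum_mem _ (fun i _ => Submodule.smul_mem _ _ (Submodule.subset_span ⟨i, rfl⟩)))
      intro j
      rw [map_sub, ← hw0' j, ← hc']
      simp only [map_sum, map_smul, hG]
      simp
    obtain ⟨w, hw, hwβ⟩ := dorth51 σ hσ2 B hS hB y hy w0 hw0y
    have hwy : w ∈ Submodule.span F (Set.range y) := by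
      by_contra hwn
      obtain ⟨u, hu, hux⟩ := escape51 σ hσ2 B hB y x hy hx (fun i j => (hG i j).symm) w hw hwn
      exact hux (hc u hu)
    have hww : B w w = 0 := by
      obtain ⟨a, ha⟩ := (Submodule.mem_span_range_iff_exists_fun F).mp hwy
      have h3' : B (∑ i, a i • y i) w = 0 := by
        rw [map_sum, LinearMap.sum_apply]
        apply Finset.sum_eq_zero
        intro i _
        rw [LinearMap.map_smulₛₗ₂, hw i, smul_zero]
      rwa [ha] at h3'
    obtain ⟨t, ht⟩ := tr_ne51 σ hσ
    set β := B w w0 with hβ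
    set δ := B v v - B w0 w0 with hδ
    have hδfix : σ δ = δ := by
      rw [hδ, map_sub, LinearMap.isSymm_def.mp hS v v, LinearMap.isSymm_def.mp hS w0 w0]
    set zz := δ * t / (t + σ t) with hzz
    have hzz2 : zz + σ zz = δ := by
      rw [hzz, map_div₀, map_mul, map_add, hσ2, hδfix, add_comm (σ t) t, ← add_div, ← mul_add, mul_div_assoc, div_self ht, mul_one]
    set lam := σ (zz / β) with hlam
    have hlam1 : σ lam * β = zz := by
      rw [hlam, hσ2, div_mul_cancel₀ _ hwβ]
    have hlam2 : lam * σ β = σ zz := by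
      rw [← hlam1, map_mul, hσ2]
    have hw0w : B w0 w = σ β := (LinearMap.isSymm_def.mp hS w w0).symm
    refine ⟨v, w0 + lam • w, hv, ?_, ?_, ?_⟩
    · intro hmem
      apply hw0y
      have h5 : w0 = (w0 + lam • w) - lam • w := by abel
      rw [h5]
      exact Submodule.sub_mem _ hmem (Submodule.smul_mem _ _ hwy)
    · intro i
      rw [map_add, map_smul, hw i, smul_zero, add_zero, hw0' i]
    · simp only [map_add, LinearMap.add_apply, LinearMap.map_smulₛₗ, LinearMap.smul_apply, map_smul, smul_eq_mul, hww, hw0w, mul_zero, add_zero]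
      rw [← hβ, hlam1, hlam2]
      have h6 : B w0 w0 + zz + σ zz = B w0 w0 + (zz + σ zz) := by ring
      rw [h6, hzz2, hδ]; ring

theorem witt_fam51 {F V : Type*} [Field F] [Finite F] [AddCommGroup V] [Module F V] [FiniteDimensional F V]
    (σ : F →+* F) (hσ : σ ≠ RingHom.id F) (hσ2 : ∀ a : F, σ (σ a) = a)
    (B : V →ₛₗ[σ] V →ₗ[F] F) (hS : B.IsSymm) (hB : B.Nondegenerate) :
    ∀ (d k : ℕ) (x y : Fin k → V), k + d = Module.finrank F V → LinearIndependent F x → LinearIndependent F y →
      (∀ i j, B (x i) (x j) = B (y i) (y j)) →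
      ∃ g : V ≃ₗ[F] V, (∀ u v, B (g u) (g v) = B u v) ∧ ∀ i, g (x i) = y i := by
  intro d
  induction d with
  | zero =>
    intro k x y hk hx hy hG
    have hspx : Submodule.span F (Set.range x) = ⊤ := hx.span_eq_top_of_card_eq_finrank' (by simpa using hk)
    have hspy : Submodule.span F (Set.range y) = ⊤ := hy.span_eq_top_of_card_eq_finrank' (by simpa using hk)
    let bx := Module.Basis.mk hx (by rw [hspx])
    let by' := Module.Basis.mk hy (by rw [hspy])
    have hbx : ∀ i, bx i = x i := fun i => by simp [bx]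
    have hby : ∀ i, by' i = y i := fun i => by simp [by']
    have hgx : ∀ i, (bx.equiv by' (Equiv.refl _)) (x i) = y i := by
      intro i
      rw [← hbx, Module.Basis.equiv_apply, ← hby]; rfl
    refine ⟨bx.equiv by' (Equiv.refl _), ?_, hgx⟩
    intro u v
    obtain ⟨a, rfl⟩ := (Submodule.mem_span_range_iff_exists_fun F).mp (show u ∈ Submodule.span F (Set.range x) by rw [hspx]; trivial)
    obtain ⟨b, rfl⟩ := (Submodule.mem_span_range_iff_exists_fun F).mp (show v ∈ Submodule.span F (Set.range x) by rw [hspx]; trivial)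
    simp only [map_sum, map_smul, LinearMap.map_smulₛₗ, LinearMap.sum_apply, LinearMap.smul_apply, hgx, hG]
  | succ d ih =>
    intro k x y hk hx hy hG
    obtain ⟨v, v', hvx, hvy, hvv, hnn⟩ := ext_step51 σ hσ hσ2 B hS hB x y (by omega) hx hy hG
    have hx' : LinearIndependent F (Fin.cons v x : Fin (k+1) → V) := linearIndependent_finCons.mpr ⟨hx, hvx⟩
    have hy' : LinearIndependent F (Fin.cons v' y : Fin (k+1) → V) := linearIndependent_finCons.mpr ⟨hy, hvy⟩
    obtain ⟨g, hg, hgx⟩ := ih (k+1) (Fin.cons v x) (Fin.cons v' y) (by omega) hx' hy' (by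
      intro i j
      refine Fin.cases ?_ (fun i => ?_) i <;> refine Fin.cases ?_ (fun j => ?_) j
      · simpa using hnn
      · simp only [Fin.cons_zero, Fin.cons_succ]
        rw [← LinearMap.isSymm_def.mp hS (x j) v, ← LinearMap.isSymm_def.mp hS (y j) v', hvv j]
      · simpa using hvv i
      · simpa using hG i j)
    refine ⟨g, hg, fun i => ?_⟩
    have h5 := hgx i.succ
    simpa using h5

/-- Witt's Lemma for Hermitian forms. Let σ be a non-identity involutive automorphism of a finite field F and B a non-degenerate σ-sesquilinear form on a finite-dimensional F-space V which is conjugate-symmetric (σ (B x y) = B y x). Then every linear equivalence between subspaces X, Y of V preserving B extends to a B-preserving linear automorphism of V. -/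
theorem result {F V : Type*} [Field F] [Finite F] [AddCommGroup V] [Module F V] [FiniteDimensional F V] (σ : F →+* F) (hσ : σ ≠ RingHom.id F) (hσ2 : ∀ a : F, σ (σ a) = a) (B : V →ₛₗ[σ] V →ₗ[F] F) (hS : B.IsSymm) (hB : B.Nondegenerate) (X Y : Submodule F V) (φ : X ≃ₗ[F] Y) (hφ : ∀ x x' : X, B (φ x : V) (φ x' : V) = B (x : V) (x' : V)) : ∃ g : V ≃ₗ[F] V, (∀ u v : V, B (g u) (g v) = B u v) ∧ ∀ x : X, g (x : V) = (φ x : V) := by
  let bX := Module.finBasis F X
  have hk : Module.finrank F X ≤ Module.finrank F V := Submodule.finrank_le X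
  have hx : LinearIndependent F (fun i => (bX i : V)) := bX.linearIndependent.map' X.subtype (Submodule.ker_subtype X)
  have hy : LinearIndependent F (fun i => (φ (bX i) : V)) := by
    have h6 := bX.linearIndependent.map' (Y.subtype ∘ₗ φ.toLinearMap) (by
      rw [LinearMap.ker_comp]; simp)
    exact h6
  obtain ⟨g, hg, hgx⟩ := witt_fam51 σ hσ hσ2 B hS hB (Module.finrank F V - Module.finrank F X) _ _ _ (by omega) hx hy (fun i j => (hφ _ _).symm)
  refine ⟨g, hg, fun x => ?_⟩
  have h7 : g.toLinearMap ∘ₗ X.subtype = Y.subtype ∘ₗ φ.toLinearMap := by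
    apply bX.ext
    intro i
    simpa using hgx i
  exact LinearMap.congr_fun h7 x

end Cfsg.Agent.S0751
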