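import Cfsg.Statements.S0752
import Mathlib
import Cfsg.Statements.S0752

set_option autoImplicit false
open Cfsg
open scoped commutatorElement

namespace Cfsg.Agent.S0752

open Module

universe u

/-- symplectic family -/
def AltFam52 {F V : Type*} [Field F] [AddCommGroup V] [Module F V] (B : LinearMap.BilinForm F V)
    {m : ℕ} (e f : Fin m → V) : Prop :=
  (∀ i j, B (e i) (f j) = if i = j then 1 else 0) ∧ (∀ i j, B (e i) (e j) = 0) ∧
    (∀ i j, B (f i) (f j) = 0)

theorem alt_swap52 {F V : Type*} [Field F] [AddCommGroup V] [Module F V]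
    (B : LinearMap.BilinForm F V) (hA : B.IsAlt) (x y : V) : B y x = - B x y := by
  have h := hA (x + y)
  simp only [map_add, LinearMap.add_apply, hA x, hA y, zero_add, add_zero] at h
  exact eq_neg_of_add_eq_zero_left h

/-- the complement of a hyperbolic pair -/
def perp52 {F V : Type*} [Field F] [AddCommGroup V] [Module F V] (B : LinearMap.BilinForm F V)
    (e f : V) : Submodule F V :=
  LinearMap.ker ((B e).prod (B f))

theorem mem_perp52 {F V : Type*} [Field F] [AddCommGroup V] [Module F V]
    (B : LinearMap.BilinForm F V) (e f x : V) : x ∈ perp52 B e f ↔ B e x = 0 ∧ B f x = 0 := by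
  unfold perp52
  constructor
  · intro h
    exact ⟨congrArg Prod.fst (LinearMap.mem_ker.mp h), congrArg Prod.snd (LinearMap.mem_ker.mp h)⟩
  · rintro ⟨h1, h2⟩
    exact LinearMap.mem_ker.mpr (Prod.ext h1 h2)

theorem finrank_perp52 {F V : Type*} [Field F] [AddCommGroup V] [Module F V]
    [FiniteDimensional F V] (B : LinearMap.BilinForm F V) (hA : B.IsAlt) (e f : V)
    (hef : B e f = 1) : finrank F (perp52 B e f) + 2 = finrank F V := by
  have h1 := LinearMap.finrank_range_add_finrank_ker ((B e).prod (B f))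
  have hfe : B f e = -1 := by rw [alt_swap52 B hA e f, hef]
  have hsurj : LinearMap.range ((B e).prod (B f)) = ⊤ := by
    rw [LinearMap.range_eq_top]
    rintro ⟨a, b⟩
    refine ⟨a • f + (-b) • e, Prod.ext ?_ ?_⟩
    · show B e (a • f + (-b) • e) = a
      simp [hef, hA e]
    · show B f (a • f + (-b) • e) = b
      simp [hfe, hA f]
  rw [hsurj, finrank_top, Module.finrank_prod, Module.finrank_self] at h1
  unfold perp52
  omega

theorem ker_perp52 {F V : Type*} [Field F] [AddCommGroup V] [Module F V]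
    (B : LinearMap.BilinForm F V) (hA : B.IsAlt) (e f : V) (hef : B e f = 1) :
    Submodule.map (perp52 B e f).subtype (LinearMap.ker (B.restrict (perp52 B e f))) =
      LinearMap.ker B := by
  have hfe : B f e = -1 := by rw [alt_swap52 B hA e f, hef]
  ext y
  rw [Submodule.mem_map]
  constructor
  · rintro ⟨x, hx, rfl⟩
    rw [LinearMap.mem_ker] at hx ⊢
    obtain ⟨hxe, hxf⟩ := (mem_perp52 B e f x).mp x.2
    ext v
    have hmem : v + (-(B e v)) • f + (B f v) • e ∈ perp52 B e f := by
      rw [mem_perp52]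
      constructor
      · simp [hef, hA e]
      · simp [hfe, hA f]
    have h1 : B (x : V) (v + (-(B e v)) • f + (B f v) • e) = 0 := by
      have := congrArg (fun φ => φ ⟨_, hmem⟩) hx
      exact this
    have h2 : B (x : V) e = 0 := by rw [alt_swap52 B hA e x, hxe, neg_zero]
    have h3 : B (x : V) f = 0 := by rw [alt_swap52 B hA f x, hxf, neg_zero]
    simp only [map_add, map_smul, h2, h3, smul_eq_mul, mul_zero, add_zero] at h1
    simpa using h1
  · intro hy
    rw [LinearMap.mem_ker] at hy
    have hmem : y ∈ perp52 B e f := by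
      rw [mem_perp52]
      constructor
      · rw [alt_swap52 B hA y e, hy]; simp
      · rw [alt_swap52 B hA y f, hy]; simp
    refine ⟨⟨y, hmem⟩, ?_, rfl⟩
    rw [LinearMap.mem_ker]
    ext w
    show B y (w : V) = 0
    rw [hy]; simp

theorem altFam_cons52 {F V : Type*} [Field F] [AddCommGroup V] [Module F V]
    (B : LinearMap.BilinForm F V) (hA : B.IsAlt) (e₀ f₀ : V) (hef : B e₀ f₀ = 1) {k : ℕ}
    (e' f' : Fin k → perp52 B e₀ f₀)
    (h : AltFam52 (B.restrict (perp52 B e₀ f₀)) e' f') :
    AltFam52 B (Fin.cons e₀ (fun i => (e' i : V)) : Fin (k + 1) → V)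
      (Fin.cons f₀ (fun i => (f' i : V)) : Fin (k + 1) → V) := by
  obtain ⟨h1, h2, h3⟩ := h
  have hm := fun (x : perp52 B e₀ f₀) => (mem_perp52 B e₀ f₀ x).mp x.2
  refine ⟨?_, ?_, ?_⟩
  · intro i j
    refine Fin.cases ?_ (fun i' => ?_) i <;> refine Fin.cases ?_ (fun j' => ?_) j
    · simp [hef]
    · simp only [Fin.cons_zero, Fin.cons_succ]
      rw [(hm (f' j')).1, if_neg (Fin.succ_ne_zero j').symm]
    · simp only [Fin.cons_zero, Fin.cons_succ]
      rw [alt_swap52 B hA f₀, (hm (e' i')).2, if_neg (Fin.succ_ne_zero i'), neg_zero]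
    · simp only [Fin.cons_succ, Fin.succ_inj]; exact h1 i' j'
  · intro i j
    refine Fin.cases ?_ (fun i' => ?_) i <;> refine Fin.cases ?_ (fun j' => ?_) j
    · simp [hA e₀]
    · simp only [Fin.cons_zero, Fin.cons_succ]; exact (hm (e' j')).1
    · simp only [Fin.cons_zero, Fin.cons_succ]
      rw [alt_swap52 B hA e₀, (hm (e' i')).1, neg_zero]
    · simp only [Fin.cons_succ]; exact h2 i' j'
  · intro i j
    refine Fin.cases ?_ (fun i' => ?_) i <;> refine Fin.cases ?_ (fun j' => ?_) j
    · simp [hA f₀]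
    · simp only [Fin.cons_zero, Fin.cons_succ]; exact (hm (f' j')).2
    · simp only [Fin.cons_zero, Fin.cons_succ]
      rw [alt_swap52 B hA f₀, (hm (f' i')).2, neg_zero]
    · simp only [Fin.cons_succ]; exact h3 i' j'

theorem main52 {F : Type*} [Field F] (d : ℕ) :
    ∀ (V : Type u) [AddCommGroup V] [Module F V] [FiniteDimensional F V]
      (B : LinearMap.BilinForm F V), finrank F V = d → B.IsAlt →
      ∃ (m : ℕ) (e f : Fin m → V), AltFam52 B e f ∧
        finrank F V = 2 * m + finrank F (LinearMap.ker B) := by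
  induction d using Nat.strong_induction_on with
  | _ d ih =>
    intro V _ _ _ B hV hA
    by_cases hzero : ∀ x y, B x y = 0
    · refine ⟨0, Fin.elim0, Fin.elim0, ⟨fun i => i.elim0, fun i => i.elim0, fun i => i.elim0⟩, ?_⟩
      have : LinearMap.ker B = ⊤ := by
        rw [eq_top_iff]
        intro x _
        rw [LinearMap.mem_ker]
        ext y
        exact hzero x y
      rw [this, finrank_top]; simp
    · push Not at hzero
      obtain ⟨e₀, f₁, hne⟩ := hzero
      obtain ⟨f₀, hef⟩ : ∃ f₀, B e₀ f₀ = 1 :=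
        ⟨(B e₀ f₁)⁻¹ • f₁, by rw [map_smul, smul_eq_mul, inv_mul_cancel₀ hne]⟩
      have hfr := finrank_perp52 B hA e₀ f₀ hef
      obtain ⟨m', e', f', hfam, hdim⟩ := ih (finrank F (perp52 B e₀ f₀)) (by omega)
        (perp52 B e₀ f₀) (B.restrict (perp52 B e₀ f₀)) rfl (fun x => hA x)
      have hker := ker_perp52 B hA e₀ f₀ hef
      have hk2 := Submodule.finrank_map_subtype_eq (perp52 B e₀ f₀)
        (LinearMap.ker (B.restrict (perp52 B e₀ f₀)))
      rw [hker] at hk2
      refine ⟨m' + 1, _, _, altFam_cons52 B hA e₀ f₀ hef e' f' hfam, ?_⟩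
      omega

/-- Classification of alternating forms: for an alternating bilinear form B on a finite-dimensional space over any field there is a basis indexed by (Fin m ⊕ Fin m) ⊕ Fin k such that B (e_i, f_j) = δ_ij, the e's are pairwise orthogonal, the f's are pairwise orthogonal, and the last k basis vectors are orthogonal to everything (they span the radical). -/
theorem result {F V : Type*} [Field F] [AddCommGroup V] [Module F V] [FiniteDimensional F V] (B : LinearMap.BilinForm F V) (hA : B.IsAlt) : ∃ (m k : ℕ) (b : Module.Basis ((Fin m ⊕ Fin m) ⊕ Fin k) F V), (∀ i j : Fin m, B (b (Sum.inl (Sum.inl i))) (b (Sum.inl (Sum.inr j))) = if i = j then 1 else 0) ∧ (∀ i j : Fin m, B (b (Sum.inl (Sum.inl i))) (b (Sum.inl (Sum.inl j))) = 0) ∧ (∀ i j : Fin m, B (b (Sum.inl (Sum.inr i))) (b (Sum.inl (Sum.inr j))) = 0) ∧ (∀ (j : Fin k) (v : V), B (b (Sum.inr j)) v = 0) := by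
  classical
  obtain ⟨m, e, f, ⟨h1, h2, h3⟩, hdim⟩ := main52 (finrank F V) V B rfl hA
  obtain ⟨k, hk⟩ : ∃ k, k = finrank F (LinearMap.ker B) := ⟨_, rfl⟩
  rw [← hk] at hdim
  have r : Basis (Fin k) F (LinearMap.ker B) := by
    rw [hk]; exact Module.finBasis F (LinearMap.ker B)
  have hr : ∀ (j : Fin k) (v : V), B ((r j : LinearMap.ker B) : V) v = 0 := by
    intro j v
    have := LinearMap.mem_ker.mp (r j).2
    rw [this]; simp
  have hrli : LinearIndependent F (fun j => ((r j : LinearMap.ker B) : V)) :=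
    LinearIndependent.map' r.linearIndependent (LinearMap.ker B).subtype (Submodule.ker_subtype _)
  have hli : LinearIndependent F
      (Sum.elim (Sum.elim e f) (fun j => ((r j : LinearMap.ker B) : V)) :
        (Fin m ⊕ Fin m) ⊕ Fin k → V) := by
    rw [Fintype.linearIndependent_iff]
    intro g hg
    simp only [Fintype.sum_sum_type, Sum.elim_inl, Sum.elim_inr] at hg
    have ha : ∀ j, g (Sum.inl (Sum.inl j)) = 0 := by
      intro j
      have h5 : B (∑ x, g (Sum.inl (Sum.inl x)) • e x + ∑ x, g (Sum.inl (Sum.inr x)) • f x +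
          ∑ x, g (Sum.inr x) • ((r x : LinearMap.ker B) : V)) (f j) = 0 := by
        rw [hg]; simp
      simp only [map_add, map_sum, map_smul, LinearMap.add_apply, LinearMap.sum_apply,
        LinearMap.smul_apply, h1, h3, hr, smul_eq_mul, mul_zero, Finset.sum_const_zero, add_zero,
        mul_ite, mul_one, Finset.sum_ite_eq', Finset.mem_univ, if_true] at h5
      exact h5
    have hb : ∀ j, g (Sum.inl (Sum.inr j)) = 0 := by
      intro j
      have h5 : B (∑ x, g (Sum.inl (Sum.inl x)) • e x + ∑ x, g (Sum.inl (Sum.inr x)) • f x +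
          ∑ x, g (Sum.inr x) • ((r x : LinearMap.ker B) : V)) (e j) = 0 := by
        rw [hg]; simp
      simp only [map_add, map_sum, map_smul, LinearMap.add_apply, LinearMap.sum_apply,
        LinearMap.smul_apply, h2, alt_swap52 B hA (e j) (f _), h1, hr, smul_eq_mul, mul_zero,
        Finset.sum_const_zero, add_zero, zero_add, mul_neg, mul_ite, mul_one,
        Finset.sum_neg_distrib, Finset.sum_ite_eq, Finset.mem_univ, if_true, neg_eq_zero] at h5
      exact h5
    have hc : ∀ j, g (Sum.inr j) = 0 := by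
      simp only [ha, hb, zero_smul, Finset.sum_const_zero, zero_add] at hg
      exact Fintype.linearIndependent_iff.mp hrli (fun j => g (Sum.inr j)) hg
    rintro ((i | i) | j)
    · exact ha i
    · exact hb i
    · exact hc j
  have hsp := hli.span_eq_top_of_card_eq_finrank' (by simp [hdim]; ring)
  refine ⟨m, k, Basis.mk hli (by rw [hsp]), ?_⟩
  simp only [Basis.coe_mk, Sum.elim_inl, Sum.elim_inr]
  exact ⟨h1, h2, h3, hr⟩

end Cfsg.Agent.S0752
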