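import Mathlib
import Cfsg.Statements.S0753

set_option autoImplicit false
open Cfsg

namespace Cfsg.Agent.S0753

/-- If σ is a ring endomorphism of the field F other than the identity and B is a σ-sesquilinear conjugate-symmetric form with B v v = 0 for every v, then B = 0. -/
theorem result {F V : Type*} [Field F] [AddCommGroup V] [Module F V] (σ : F →+* F) (hσ : σ ≠ RingHom.id F) (B : V →ₛₗ[σ] V →ₗ[F] F) (hS : B.IsSymm) (h0 : ∀ v : V, B v v = 0) : B = 0 := by
  have hs : ∀ x y, σ (B x y) = B y x := hS.eq
  have skew : ∀ x y, B y x = - B x y := by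
    intro x y
    have h := h0 (x + y)
    simp only [map_add, LinearMap.add_apply, h0, zero_add, add_zero] at h
    linear_combination h
  apply LinearMap.ext; intro x; apply LinearMap.ext; intro y
  simp only [LinearMap.zero_apply]
  by_contra hne
  apply hσ
  ext c
  simp only [RingHom.id_apply]
  have h1 : B (c • x) y = σ c * B x y := by
    rw [map_smulₛₗ]; simp
  have h2 := hs (c • x) y
  rw [skew (c • x) y, h1, map_mul, hs x y, skew x y] at h2
  have h3 : (σ (σ c) - σ c) * B x y = 0 := by linear_combination -h2
  have h4 : σ (σ c) = σ c := by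
    rcases mul_eq_zero.mp h3 with h | h
    · exact sub_eq_zero.mp h
    · exact absurd h hne
  exact σ.injective h4

end Cfsg.Agent.S0753
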