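import Mathlib
import Cfsg.Statements.S0754

set_option autoImplicit false
open Cfsg

namespace Cfsg.Agent.S0754

theorem result {F : Type*} [Field F] [Fintype F] {q : ℕ} (hF : Fintype.card F = q ^ 2) (μ : F) (hμ : μ ≠ 0) (hμq : μ ^ q = μ) : Nat.card {x : F // x ^ (q + 1) = μ} = q + 1 := by
  classical
  have hq2 : 2 ≤ q := by
    have h1 : 1 < Fintype.card F := Fintype.one_lt_card
    rw [hF] at h1
    by_contra hlt
    interval_cases q <;> simp at h1
  set T : Finset F := Finset.univ.filter (fun y => y ≠ 0 ∧ y ^ q = y) with hT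
  set fib : F → Finset F := fun y => Finset.univ.filter (fun x => x ^ (q + 1) = y) with hfib
  have hfib_le : ∀ y, (fib y).card ≤ q + 1 := by
    intro y
    calc (fib y).card ≤ (Polynomial.nthRoots (q + 1) y).toFinset.card := by
          apply Finset.card_le_card
          intro x hx
          rw [Multiset.mem_toFinset, Polynomial.mem_nthRoots (Nat.succ_pos q)]
          simpa [hfib] using hx
      _ ≤ Multiset.card (Polynomial.nthRoots (q + 1) y) := Multiset.toFinset_card_le _
      _ ≤ q + 1 := Polynomial.card_nthRoots _ _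
  have hT_le : T.card ≤ q - 1 := by
    calc T.card ≤ (Polynomial.nthRoots (q - 1) (1 : F)).toFinset.card := by
          apply Finset.card_le_card
          intro y hy
          rw [Multiset.mem_toFinset, Polynomial.mem_nthRoots (by omega)]
          simp only [hT, Finset.mem_filter, Finset.mem_univ, true_and] at hy
          obtain ⟨hy0, hyq⟩ := hy
          have h : y ^ (q - 1) * y = 1 * y := by
            rw [← pow_succ, one_mul]
            have : q - 1 + 1 = q := by omega
            rw [this, hyq]
          exact mul_right_cancel₀ hy0 h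
      _ ≤ Multiset.card (Polynomial.nthRoots (q - 1) (1 : F)) := Multiset.toFinset_card_le _
      _ ≤ q - 1 := Polynomial.card_nthRoots _ _
  have hmaps : ∀ x ∈ Finset.univ.filter (fun x : F => x ≠ 0), x ^ (q + 1) ∈ T := by
    intro x hx
    simp only [Finset.mem_filter, Finset.mem_univ, true_and] at hx
    simp only [hT, Finset.mem_filter, Finset.mem_univ, true_and]
    refine ⟨pow_ne_zero _ hx, ?_⟩
    have hxq : x ^ (q ^ 2) = x := by rw [← hF]; exact FiniteField.pow_card x
    calc (x ^ (q + 1)) ^ q = x ^ (q ^ 2) * x ^ q := by ring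
      _ = x ^ (q + 1) := by rw [hxq]; ring
  have hsum := Finset.card_eq_sum_card_fiberwise hmaps
  have hcard0 : (Finset.univ.filter (fun x : F => x ≠ 0)).card = q ^ 2 - 1 := by
    rw [Finset.filter_ne', Finset.card_erase_of_mem (Finset.mem_univ _), Finset.card_univ, hF]
  have hfib_eq : ∀ y ∈ T, ((Finset.univ.filter (fun x : F => x ≠ 0)).filter
      (fun x => x ^ (q + 1) = y)) = fib y := by
    intro y hy
    simp only [hT, Finset.mem_filter, Finset.mem_univ, true_and] at hy
    ext x
    simp only [hfib, Finset.mem_filter, Finset.mem_univ, true_and]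
    constructor
    · exact fun h => h.2
    · intro h
      refine ⟨?_, h⟩
      rintro rfl
      rw [zero_pow (Nat.succ_ne_zero q)] at h
      exact hy.1 h.symm
  rw [Finset.sum_congr rfl (fun y hy => by rw [hfib_eq y hy]), hcard0] at hsum
  have hμT : μ ∈ T := by simp [hT, hμ, hμq]
  have hfinal : (fib μ).card = q + 1 := by
    by_contra hne
    have hlt : (fib μ).card < q + 1 := lt_of_le_of_ne (hfib_le μ) hne
    have hs : ∑ y ∈ T, (fib y).card < ∑ y ∈ T, (q + 1) :=
      Finset.sum_lt_sum (fun y _ => hfib_le y) ⟨μ, hμT, hlt⟩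
    rw [Finset.sum_const, smul_eq_mul] at hs
    have h3 : T.card * (q + 1) ≤ (q - 1) * (q + 1) := Nat.mul_le_mul_right _ hT_le
    have h4 : (q - 1) * (q + 1) + 1 = q ^ 2 := by
      obtain ⟨k, rfl⟩ : ∃ k, q = k + 1 := ⟨q - 1, by omega⟩
      simp only [Nat.add_sub_cancel]; ring
    omega
  rw [Nat.card_eq_fintype_card, Fintype.card_subtype]
  exact hfinal

end Cfsg.Agent.S0754
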