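import Mathlib
import Cfsg.Statements.S0757

set_option autoImplicit false
open Cfsg

namespace Cfsg.Agent.S0757

theorem toMatrix'_wss {F : Type*} [Field F] [Invertible (2 : F)] {ι : Type*} [Fintype ι]
    [DecidableEq ι] (w : ι → F) :
    QuadraticForm.toMatrix' (QuadraticMap.weightedSumSquares F w) = Matrix.diagonal w := by
  ext i j
  unfold QuadraticForm.toMatrix'
  rw [LinearMap.toMatrix₂'_apply, QuadraticMap.associated_apply]
  simp only [QuadraticMap.weightedSumSquares_apply, Pi.add_apply, smul_eq_mul, Pi.single_apply]
  by_cases hij : i = j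
  · subst hij
    simp only [Matrix.diagonal_apply_eq]
    have h1 : ∀ k : ι, w k * (((if k = i then (1:F) else 0) + (if k = i then (1:F) else 0)) *
        ((if k = i then (1:F) else 0) + (if k = i then (1:F) else 0))) = if k = i then 4 * w k else 0 := by
      intro k; split_ifs <;> ring
    have h2 : ∀ k : ι, w k * ((if k = i then (1:F) else 0) * (if k = i then (1:F) else 0)) =
        if k = i then w k else 0 := by
      intro k; split_ifs <;> ring
    simp only [h1, h2, Finset.sum_ite_eq', Finset.mem_univ, if_true]
    change ⅟(2:F) * (4 * w i - w i - w i) = w i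
    rw [invOf_mul_eq_iff_eq_mul_left]; ring
  · simp only [Matrix.diagonal_apply_ne _ hij]
    have h1 : ∀ k : ι, w k * (((if k = i then (1:F) else 0) + (if k = j then (1:F) else 0)) *
        ((if k = i then (1:F) else 0) + (if k = j then (1:F) else 0))) =
        (if k = i then w k else 0) + (if k = j then w k else 0) := by
      intro k
      by_cases hki : k = i
      · subst hki
        simp [hij]
      · by_cases hkj : k = j
        · subst hkj; simp [hki]
        · simp [hki, hkj]
    have h2 : ∀ (a : ι) (k : ι), w k * ((if k = a then (1:F) else 0) * (if k = a then (1:F) else 0)) =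
        if k = a then w k else 0 := by
      intro a k; split_ifs <;> ring
    simp only [h1, h2, Finset.sum_add_distrib, Finset.sum_ite_eq', Finset.mem_univ, if_true]
    rw [show w i + w j - w i - w j = 0 by ring, smul_zero]

theorem result {F : Type*} [Field F] (h2 : (2 : F) ≠ 0) (n : ℕ) (α : F) (hα : ¬ IsSquare α) : ¬ (QuadraticMap.weightedSumSquares F (fun _ : Fin (n + 1) => (1 : F))).Equivalent (QuadraticMap.weightedSumSquares F (fun i : Fin (n + 1) => if i = Fin.last n then α else (1 : F))) := by
  classical
  let _i2 : Invertible (2 : F) := invertibleOfNonzero h2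
  rintro ⟨e⟩
  have hcomp : (QuadraticMap.weightedSumSquares F (fun _ : Fin (n + 1) => (1 : F))) =
      (QuadraticMap.weightedSumSquares F (fun i : Fin (n + 1) => if i = Fin.last n then α else (1 : F))).comp
        (e.toLinearEquiv : (Fin (n + 1) → F) →ₗ[F] (Fin (n + 1) → F)) := by
    ext x
    rw [QuadraticMap.comp_apply]
    exact (e.map_app x).symm
  have hd := QuadraticForm.discr'_comp
    (Q := (QuadraticMap.weightedSumSquares F (fun i : Fin (n + 1) => if i = Fin.last n then α else (1 : F))))
    (e.toLinearEquiv : (Fin (n + 1) → F) →ₗ[F] (Fin (n + 1) → F))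
  rw [← hcomp] at hd
  have h1 : QuadraticForm.discr' (QuadraticMap.weightedSumSquares F (fun _ : Fin (n + 1) => (1 : F))) = 1 := by
    unfold QuadraticForm.discr'
    rw [toMatrix'_wss, Matrix.det_diagonal]; simp
  have h2' : QuadraticForm.discr' (QuadraticMap.weightedSumSquares F
      (fun i : Fin (n + 1) => if i = Fin.last n then α else (1 : F))) = α := by
    unfold QuadraticForm.discr'
    rw [toMatrix'_wss, Matrix.det_diagonal]
    simp
  rw [h1, h2'] at hd
  apply hα
  set d := (LinearMap.toMatrix' (e.toLinearEquiv : (Fin (n + 1) → F) →ₗ[F] (Fin (n + 1) → F))).det with hdd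
  have hd0 : d ≠ 0 := by
    intro h; rw [h] at hd; simp at hd
  refine ⟨d⁻¹, ?_⟩
  field_simp
  linear_combination -hd

end Cfsg.Agent.S0757
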