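import Mathlib
import Cfsg.Statements.S0758

set_option autoImplicit false
open Cfsg

namespace Cfsg.Agent.S0758

theorem result {F : Type*} [Field F] [Fintype F] (h2 : (2 : F) ≠ 0) (α : F) (hα : ¬ IsSquare α) : ((∃ x y : F, (x ≠ 0 ∨ y ≠ 0) ∧ x ^ 2 + y ^ 2 = 0) ↔ Fintype.card F % 4 = 1) ∧ ((∃ x y : F, (x ≠ 0 ∨ y ≠ 0) ∧ x ^ 2 + α * y ^ 2 = 0) ↔ Fintype.card F % 4 = 3) := by
  classical
  have hchar : ringChar F ≠ 2 := by
    intro h
    apply h2
    have := ringChar.Nat.cast_ringChar (R := F)
    rw [h] at this; exact_mod_cast this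
  have hodd : Fintype.card F % 2 = 1 := FiniteField.odd_card_of_char_ne_two hchar
  have hsq := FiniteField.isSquare_neg_one_iff (F := F)
  have hα0 : α ≠ 0 := by rintro rfl; exact hα ⟨0, by simp⟩
  have key1 : ∀ β : F, (∃ x y : F, (x ≠ 0 ∨ y ≠ 0) ∧ x ^ 2 + β * y ^ 2 = 0) ↔ IsSquare (-β) := by
    intro β
    constructor
    · rintro ⟨x, y, hxy, h⟩
      have hy : y ≠ 0 := by
        rintro rfl
        simp at h
        simp [h] at hxy
      refine ⟨x / y, ?_⟩
      field_simp
      linear_combination -h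
    · rintro ⟨s, hs⟩
      refine ⟨s, 1, Or.inr one_ne_zero, ?_⟩
      linear_combination -hs
  constructor
  · have := key1 1
    simp only [one_mul] at this
    rw [this, hsq]; omega
  · rw [key1 α]
    have h1 : quadraticChar F α = -1 := (quadraticChar_neg_one_iff_not_isSquare).mpr hα
    have h2' : IsSquare (-α) ↔ quadraticChar F (-α) = 1 :=
      (quadraticChar_one_iff_isSquare (neg_ne_zero.mpr hα0)).symm
    have h3 : quadraticChar F (-α) = quadraticChar F (-1) * quadraticChar F α := by
      rw [← map_mul]; congr 1; ring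
    rw [h2', h3, h1]
    have h5 : quadraticChar F (-1) = -1 ↔ ¬ IsSquare (-1 : F) := quadraticChar_neg_one_iff_not_isSquare
    constructor
    · intro h
      have h6 : quadraticChar F (-1) = -1 := by linarith
      have h7 := h5.mp h6
      rw [hsq] at h7
      omega
    · intro h
      have h7 : ¬ IsSquare (-1 : F) := by rw [hsq]; omega
      rw [h5.mpr h7]; norm_num

end Cfsg.Agent.S0758
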