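import Mathlib
import Cfsg.Statements.S0761

set_option autoImplicit false
open Cfsg

namespace Cfsg.Agent.S0761

theorem result {F V : Type*} [Field F] [AddCommGroup V] [Module F V] [FiniteDimensional F V] (B : LinearMap.BilinForm F V) (hB : B.Nondegenerate) (hform : B.IsAlt ∨ (B.IsSymm ∧ (2 : F) ≠ 0)) (x : V) (Z : Submodule F V) (hxZ : x ∉ Z) (hx : B x x = 0) (hxz : ∀ z ∈ Z, B x z = 0) (hZ : ∀ z ∈ Z, ∀ z' ∈ Z, B z z' = 0) : ∃ y : V, B y y = 0 ∧ B x y = 1 ∧ ∀ z ∈ Z, B z y = 0 := by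
  obtain ⟨f, hfx, hfZ⟩ := Submodule.exists_le_ker_of_notMem hxZ
  set y₀ : V := (B.flip.toDual hB.flip).symm ((f x)⁻¹ • f) with hy₀
  have hrep : ∀ v, B v y₀ = (f x)⁻¹ * f v := by
    intro v
    have := LinearMap.BilinForm.apply_toDual_symm_apply (B := B.flip) (hB := hB.flip)
      ((f x)⁻¹ • f) v
    exact this
  have hxy : B x y₀ = 1 := by rw [hrep]; exact inv_mul_cancel₀ hfx
  have hzy : ∀ z ∈ Z, B z y₀ = 0 := by
    intro z hz
    rw [hrep]
    have : f z = 0 := hfZ hz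
    rw [this, mul_zero]
  rcases hform with halt | ⟨hsymm, h2⟩
  · exact ⟨y₀, halt y₀, hxy, hzy⟩
  · have hsy : ∀ a b, B a b = B b a := fun a b => hsymm.eq a b
    refine ⟨y₀ + (-(B y₀ y₀) / 2) • x, ?_, ?_, ?_⟩
    · simp only [map_add, map_smul, LinearMap.add_apply, LinearMap.smul_apply, smul_eq_mul, hx,
        hxy, hsy y₀ x]
      field_simp; ring
    · simp only [map_add, map_smul, smul_eq_mul, hx, hxy]; ring
    · intro z hz
      simp only [map_add, map_smul, smul_eq_mul, hzy z hz, hsy z x, hxz z hz]; ring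

end Cfsg.Agent.S0761
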