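import Mathlib
import Cfsg.Statements.S0762

set_option autoImplicit false
open Cfsg

namespace Cfsg.Agent.S0762

theorem result {F V : Type*} [Field F] [Finite F] [CharP F 2] [AddCommGroup V] [Module F V] [FiniteDimensional F V] (Q : QuadraticForm F V) (h3 : 3 ≤ Module.finrank F V) : ∃ v : V, v ≠ 0 ∧ Q v = 0 := by
  have h2 : (2 : F) = 0 := CharTwo.two_eq_zero
  obtain ⟨e, he⟩ := Module.finrank_pos_iff_exists_ne_zero.mp (by omega : 0 < Module.finrank F V)
  by_cases hQe : Q e = 0
  · exact ⟨e, he, hQe⟩
  let f : V →ₗ[F] F := QuadraticMap.polarBilin Q e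
  have hker : 2 ≤ Module.finrank F (LinearMap.ker f) := by
    have h1 := LinearMap.finrank_range_add_finrank_ker f
    have h2 : Module.finrank F (LinearMap.range f) ≤ 1 := by
      have := Submodule.finrank_le (LinearMap.range f)
      simpa using this
    omega
  have hnle : ¬ (LinearMap.ker f ≤ Submodule.span F {e}) := by
    intro hle
    have h1 := Submodule.finrank_mono hle
    have h2 : Module.finrank F (Submodule.span F {e}) ≤ 1 := by
      rw [finrank_span_singleton he]
    omega
  obtain ⟨w, hwker, hwspan⟩ := SetLike.not_le_iff_exists.mp hnle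
  have hpol : QuadraticMap.polar Q e w = 0 := by
    have : f w = 0 := hwker
    simpa [f] using this
  obtain ⟨a, ha⟩ := FiniteField.isSquare_of_char_two (ringChar.eq F 2) (Q w / Q e)
  refine ⟨a • e + w, ?_, ?_⟩
  · intro h0
    apply hwspan
    have : w = (-a) • e := by
      rw [neg_smul]; exact eq_neg_of_add_eq_zero_right h0
    rw [this]
    exact Submodule.smul_mem _ _ (Submodule.mem_span_singleton_self e)
  · rw [QuadraticMap.map_add Q (a • e) w, QuadraticMap.map_smul, QuadraticMap.polar_smul_left, hpol, ← ha]
    simp only [smul_eq_mul, mul_zero, add_zero]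
    rw [div_mul_cancel₀ _ hQe]
    rw [← two_mul, h2, zero_mul]

end Cfsg.Agent.S0762
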