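import Cfsg.Statements.S0763
import Mathlib
import Cfsg.Statements.S0763
import Cfsg.Agent.S2618
import Cfsg.Agent.S2616

set_option autoImplicit false
open Cfsg
open scoped commutatorElement

namespace Cfsg.Agent.S0763

open Module
open Cfsg.Agent.S2618

/-- Binary quadratic forms in characteristic two over a finite field: if Q is a quadratic form on a 2-dimensional space whose polar form is non-degenerate, then either there are vectors v, w with Q v = Q w = 0 and polar value 1 (Q is xy in these coordinates), or there are v, w and μ with Q v = 1, Q w = μ, polar value 1 and x² + x + μ without roots in F (Q is x² + xy + μy²). -/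
theorem result {F V : Type*} [Field F] [Finite F] [CharP F 2] [AddCommGroup V] [Module F V] (Q : QuadraticForm F V) (h2 : Module.finrank F V = 2) (hQ : (QuadraticMap.polarBilin Q).Nondegenerate) : (∃ v w : V, LinearIndependent F ![v, w] ∧ Q v = 0 ∧ Q w = 0 ∧ QuadraticMap.polar Q v w = 1) ∨ (∃ (v w : V) (μ : F), LinearIndependent F ![v, w] ∧ (∀ x : F, x ^ 2 + x + μ ≠ 0) ∧ Q v = 1 ∧ Q w = μ ∧ QuadraticMap.polar Q v w = 1) := by
  haveI : FiniteDimensional F V := Module.finite_of_finrank_pos (by omega)
  rcases Cfsg.Agent.S2616.main16 0 V Q (by omega) hQ with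
    ⟨e, f, hH⟩ | ⟨e, f, x, y, ζ, hH, h1, -, h3, h4, h5⟩
  · left
    obtain ⟨hH1, hH2, hH3⟩ := hH
    refine ⟨e 0, f 0, ?_, (hH1 0).1, (hH1 0).2, by rw [hH2 0 0]; simp⟩
    rw [LinearIndependent.pair_iff]
    intro c d hcd
    have hef : QuadraticMap.polar ⇑Q (e 0) (f 0) = 1 := by rw [hH2 0 0]; simp
    have h6 : QuadraticMap.polar ⇑Q (c • e 0 + d • f 0) (f 0) = c := by
      rw [QuadraticMap.polar_add_left, QuadraticMap.polar_smul_left, QuadraticMap.polar_smul_left,
        hef, (hH3 0 0).2]
      simp
    have h7 : QuadraticMap.polar ⇑Q (c • e 0 + d • f 0) (e 0) = d := by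
      rw [QuadraticMap.polar_add_left, QuadraticMap.polar_smul_left, QuadraticMap.polar_smul_left,
        QuadraticMap.polar_comm (⇑Q) (f 0) (e 0), hef, (hH3 0 0).1]
      simp
    rw [hcd] at h6 h7
    have h8 : ∀ z : V, QuadraticMap.polar ⇑Q (0 : V) z = 0 := by
      intro z; simp [QuadraticMap.polar]
    rw [h8] at h6 h7
    exact ⟨h6.symm, h7.symm⟩
  · right
    refine ⟨x, y, ζ, ?_, h1, h3, h5, h4⟩
    rw [LinearIndependent.pair_iff]
    intro c d hcd
    have h6 : Q (c • x + d • y) = c ^ 2 + c * d + ζ * d ^ 2 := by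
      rw [QuadraticMap.map_add (⇑Q) (c • x) (d • y), QuadraticMap.map_smul,
        QuadraticMap.map_smul, QuadraticMap.polar_smul_left, QuadraticMap.polar_smul_right,
        h3, h4, h5]
      simp only [smul_eq_mul]
      ring
    rw [hcd, QuadraticMap.map_zero] at h6
    have hd : d = 0 := by
      by_contra hd
      apply h1 (c / d)
      field_simp
      linear_combination -h6
    subst hd
    refine ⟨?_, rfl⟩
    have : c ^ 2 = 0 := by linear_combination -h6
    exact pow_eq_zero_iff (two_ne_zero) |>.mp this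

end Cfsg.Agent.S0763
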