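import Mathlib
import Cfsg.Statements.S0767
import Cfsg.Agent.Lib.Helper1.Symp

set_option autoImplicit false
open Cfsg
open Matrix Cfsg.Agent.Lib.Helper1

namespace Cfsg.Agent.S0767

theorem result {F : Type*} [Field F] (m : ℕ) (v : Fin m ⊕ Fin m → F) : (∀ c d : F, Cfsg.sympTransvection m v c * Cfsg.sympTransvection m v d = Cfsg.sympTransvection m v (c + d)) ∧ ∀ (A : Matrix (Fin m ⊕ Fin m) (Fin m ⊕ Fin m) F) (a : F), A ∈ Matrix.symplecticGroup (Fin m) F → A.mulVec v = a • v → ∀ c : F, ∃ d : F, A * Cfsg.sympTransvection m v c * A⁻¹ = Cfsg.sympTransvection m v d := by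
  refine ⟨fun c d => sympTransvection_mul m v c d, ?_⟩
  intro A a hA hAv c
  refine ⟨c * (a * a), ?_⟩
  have hdet : IsUnit A.det := SymplecticGroup.symplectic_det hA
  have hw : (Matrix.J (Fin m) F *ᵥ v) ᵥ* A⁻¹ = a • (Matrix.J (Fin m) F *ᵥ v) := by
    rw [SymplecticGroup.inv_eq_symplectic_inv A hA, ← Matrix.vecMul_vecMul, ← Matrix.vecMul_vecMul,
      Matrix.vecMul_neg, J_mulVec_vecMul_J, Matrix.vecMul_transpose, Matrix.mulVec_neg, hAv,
      Matrix.neg_vecMul, Matrix.smul_vecMul, ← Matrix.mulVec_transpose, Matrix.J_transpose,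
      Matrix.neg_mulVec]
    simp
  unfold sympTransvection
  rw [mul_add, mul_one, add_mul, Matrix.mul_nonsing_inv A hdet, Matrix.mul_smul, Matrix.smul_mul,
    Matrix.mul_vecMulVec, Matrix.vecMulVec_mul, hAv, hw, Matrix.smul_vecMulVec,
    Matrix.vecMulVec_smul, smul_smul, smul_smul, mul_assoc]

end Cfsg.Agent.S0767
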