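import Cfsg.Statements.S0769
import Mathlib
-- import your own Cfsg.Agent.* helpers here

set_option autoImplicit false
open Cfsg

namespace Cfsg.Agent.S0769

/-- Order of the Borel subgroup of GL_n(q): the invertible lower-triangular n × n matrices over a field with q elements number q^(n(n-1)/2) (q-1)^n (unitriangular part times the diagonal torus). -/
theorem result {F : Type*} [Field F] [Fintype F] {q : ℕ} (hF : Fintype.card F = q) (n : ℕ) : Nat.card {g : Matrix.GeneralLinearGroup (Fin n) F // ∀ i j : Fin n, i < j → (g : Matrix (Fin n) (Fin n) F) i j = 0} = q ^ (n * (n - 1) / 2) * (q - 1) ^ n := by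
  classical
  let T : Fin n → Fin n → Type _ := fun i j => {x : F // (i < j → x = 0) ∧ (i = j → x ≠ 0)}
  have hdiag : ∀ M : Matrix (Fin n) (Fin n) F, (∀ i j : Fin n, i < j → M i j = 0) →
      M.det = ∏ i, M i i := by
    intro M hM
    exact Matrix.det_of_isLowerTriangular M (fun i j hij => hM i j hij)
  let e : {g : Matrix.GeneralLinearGroup (Fin n) F //
      ∀ i j : Fin n, i < j → (g : Matrix (Fin n) (Fin n) F) i j = 0} ≃ (∀ i j, T i j) :=
    { toFun := fun g i j => ⟨(g.1 : Matrix (Fin n) (Fin n) F) i j, fun hij => g.2 i j hij,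
        fun hij => by
          subst hij
          have hd := hdiag _ g.2
          have hne : (g.1 : Matrix (Fin n) (Fin n) F).det ≠ 0 :=
            ((Matrix.isUnit_iff_isUnit_det _).1 (g.1.isUnit)).ne_zero
          rw [hd] at hne
          exact (Finset.prod_ne_zero_iff.1 hne) i (Finset.mem_univ i)⟩
      invFun := fun f => ⟨Matrix.GeneralLinearGroup.mkOfDetNeZero
          (Matrix.of fun i j => (f i j).1) (by
            rw [hdiag (Matrix.of fun i j => (f i j).1) (fun i j hij => (f i j).2.1 hij)]
            exact Finset.prod_ne_zero_iff.2 (fun i _ => (f i i).2.2 rfl)),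
          fun i j hij => (f i j).2.1 hij⟩
      left_inv := fun g => Subtype.ext (Units.ext (by ext i j; rfl))
      right_inv := fun f => by funext i j; exact Subtype.ext rfl }
  have hT : ∀ i j, Nat.card (T i j) = (if j < i then q else 1) * (if j = i then q - 1 else 1) := by
    intro i j
    rcases lt_trichotomy i j with h | h | h
    · have h1 : ¬ j < i := not_lt.2 h.le
      have h2 : j ≠ i := h.ne'
      rw [if_neg h1, if_neg h2, one_mul]
      haveI : Unique (T i j) :=
        { default := ⟨0, fun _ => rfl, fun hh => absurd hh h.ne⟩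
          uniq := fun x => Subtype.ext (x.2.1 h) }
      exact Nat.card_unique
    · subst h
      rw [if_neg (lt_irrefl _), if_pos rfl, one_mul]
      have e1 : T i i ≃ Fˣ :=
        (Equiv.subtypeEquivRight (fun x => by simp)).trans unitsEquivNeZero.symm
      rw [Nat.card_congr e1, Nat.card_eq_fintype_card, Fintype.card_units, hF]
    · rw [if_pos h, if_neg h.ne, mul_one]
      have e1 : T i j ≃ F :=
        Equiv.subtypeUnivEquiv (fun x => ⟨fun hh => absurd hh (not_lt.2 h.le), fun hh => absurd hh h.ne'⟩)
      rw [Nat.card_congr e1, Nat.card_eq_fintype_card, hF]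
  have hrow : ∀ i : Fin n, Nat.card (∀ j, T i j) = q ^ (i : ℕ) * (q - 1) := by
    intro i
    rw [Nat.card_pi]
    simp_rw [hT]
    rw [Finset.prod_mul_distrib, Finset.prod_ite_eq' Finset.univ i (fun _ => q - 1),
      if_pos (Finset.mem_univ i)]
    congr 1
    rw [Finset.prod_ite, Finset.prod_const_one, mul_one, Finset.prod_const]
    congr 1
    have hfi : (Finset.univ.filter (fun j : Fin n => j < i)) = Finset.Iio i := by ext x; simp
    rw [hfi, Fin.card_Iio]
  rw [Nat.card_congr e, Nat.card_pi]
  simp_rw [hrow]
  rw [Finset.prod_mul_distrib, Finset.prod_pow_eq_pow_sum, Finset.prod_const, Finset.card_univ,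
    Fintype.card_fin, Fin.sum_univ_eq_sum_range (fun i => i) n, Finset.sum_range_id]

end Cfsg.Agent.S0769
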