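import Cfsg.Statements.S0770
import Mathlib
import Cfsg.Statements.S0770

set_option autoImplicit false
open Cfsg
open scoped commutatorElement

namespace Cfsg.Agent.S0770

theorem mem_torus70 {F : Type*} [Field F] (n : ℕ) (h : Matrix.GeneralLinearGroup (Fin n) F) :
    h ∈ ((Units.map (Matrix.diagonalRingHom (Fin n) F).toMonoidHom).range : Subgroup (Matrix.GeneralLinearGroup (Fin n) F)) ↔ ∀ i j : Fin n, i ≠ j → (h : Matrix (Fin n) (Fin n) F) i j = 0 := by
  constructor
  · rintro ⟨d, rfl⟩ i j hij
    simp [Matrix.diagonal_apply_ne _ hij]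
  · intro hd
    have hdiag : (h : Matrix (Fin n) (Fin n) F) = Matrix.diagonal (fun i => (h : Matrix (Fin n) (Fin n) F) i i) := by
      ext i j
      by_cases hij : i = j
      · subst hij; simp
      · rw [Matrix.diagonal_apply_ne _ hij]; exact hd i j hij
    have hdet : (h : Matrix (Fin n) (Fin n) F).det ≠ 0 := by
      have := (Matrix.isUnit_iff_isUnit_det _).mp h.isUnit
      exact this.ne_zero
    rw [hdiag, Matrix.det_diagonal] at hdet
    have hne : ∀ i, (h : Matrix (Fin n) (Fin n) F) i i ≠ 0 := fun i => by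
      intro h0; exact hdet (Finset.prod_eq_zero (Finset.mem_univ i) h0)
    have hu : IsUnit (fun i => (h : Matrix (Fin n) (Fin n) F) i i) := by
      rw [Pi.isUnit_iff]; exact fun i => IsUnit.mk0 _ (hne i)
    refine ⟨hu.unit, ?_⟩
    apply Units.ext
    refine Eq.trans ?_ hdiag.symm
    simp

/-- For a field with at least 3 elements, an invertible matrix normalises the subgroup of invertible diagonal matrices of GL_n if and only if it is monomial (exactly one non-zero entry in each row). -/
theorem result {F : Type*} [Field F] (hF : ∃ a : F, a ≠ 0 ∧ a ≠ 1) (n : ℕ) (g : Matrix.GeneralLinearGroup (Fin n) F) : g ∈ Subgroup.normalizer ((Units.map (Matrix.diagonalRingHom (Fin n) F).toMonoidHom).range : Subgroup (Matrix.GeneralLinearGroup (Fin n) F)) ↔ ∀ i : Fin n, ∃! j : Fin n, (g : Matrix (Fin n) (Fin n) F) i j ≠ 0 := by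
  obtain ⟨a, ha0, ha1⟩ := hF
  rw [Subgroup.mem_normalizer_iff]
  have hgi : (g : Matrix (Fin n) (Fin n) F) * ((g⁻¹ : Matrix.GeneralLinearGroup (Fin n) F) : Matrix (Fin n) (Fin n) F) = 1 := by
    rw [← Units.val_mul, mul_inv_cancel]; rfl
  have hig : ((g⁻¹ : Matrix.GeneralLinearGroup (Fin n) F) : Matrix (Fin n) (Fin n) F) * (g : Matrix (Fin n) (Fin n) F) = 1 := by
    rw [← Units.val_mul, inv_mul_cancel]; rfl
  have hconj : ∀ h : Matrix.GeneralLinearGroup (Fin n) F,
      ((g * h * g⁻¹ : Matrix.GeneralLinearGroup (Fin n) F) : Matrix (Fin n) (Fin n) F) * (g : Matrix (Fin n) (Fin n) F)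
        = (g : Matrix (Fin n) (Fin n) F) * (h : Matrix (Fin n) (Fin n) F) := by
    intro h
    rw [← Units.val_mul, ← Units.val_mul]
    congr 1
    group
  constructor
  · intro hN i
    -- existence
    have hex : ∃ j, (g : Matrix (Fin n) (Fin n) F) i j ≠ 0 := by
      by_contra hcon
      push Not at hcon
      have h1 := congrFun (congrFun hgi i) i
      rw [Matrix.mul_apply] at h1
      simp [hcon] at h1
    obtain ⟨j, hj⟩ := hex
    refine ⟨j, hj, ?_⟩
    intro j' hj'
    by_contra hne
    -- t = diag with a at j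
    have hu : IsUnit (fun l : Fin n => if l = j then a else (1 : F)) := by
      rw [Pi.isUnit_iff]; intro l
      by_cases hl : l = j
      · simp [hl, ha0]
      · simp [hl]
    set t : Matrix.GeneralLinearGroup (Fin n) F := Units.map (Matrix.diagonalRingHom (Fin n) F).toMonoidHom hu.unit with ht
    have htT : t ∈ ((Units.map (Matrix.diagonalRingHom (Fin n) F).toMonoidHom).range : Subgroup (Matrix.GeneralLinearGroup (Fin n) F)) := ⟨_, rfl⟩
    have htv : (t : Matrix (Fin n) (Fin n) F) = Matrix.diagonal (fun l : Fin n => if l = j then a else (1 : F)) := by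
      rw [ht]; simp
    have hD := (mem_torus70 n _).mp ((hN t).mp htT)
    have hc := hconj t
    have e1 := congrFun (congrFun hc i) j
    have e2 := congrFun (congrFun hc i) j'
    rw [Matrix.mul_apply, htv, Matrix.mul_diagonal] at e1 e2
    rw [Finset.sum_eq_single i (fun k _ hk => by rw [hD i k (Ne.symm hk), zero_mul]) (fun h => absurd (Finset.mem_univ i) h)] at e1 e2
    simp only [if_true] at e1
    rw [if_neg hne] at e2
    rw [mul_one] at e2
    have h1 : ((g * t * g⁻¹ : Matrix.GeneralLinearGroup (Fin n) F) : Matrix (Fin n) (Fin n) F) i i = 1 := by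
      have e3 : ((g * t * g⁻¹ : Matrix.GeneralLinearGroup (Fin n) F) : Matrix (Fin n) (Fin n) F) i i * (g : Matrix (Fin n) (Fin n) F) i j' = 1 * (g : Matrix (Fin n) (Fin n) F) i j' := by rw [one_mul]; exact e2
      exact mul_right_cancel₀ hj' e3
    rw [h1, one_mul] at e1
    have h2 : a = 1 := by
      have e4 : (g : Matrix (Fin n) (Fin n) F) i j * 1 = (g : Matrix (Fin n) (Fin n) F) i j * a := by rw [mul_one]; exact e1
      exact (mul_left_cancel₀ hj e4).symm
    exact ha1 h2
  · intro hmono
    choose σ hσ hσu using hmono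
    have hσ' : ∀ i l, l ≠ σ i → (g : Matrix (Fin n) (Fin n) F) i l = 0 := by
      intro i l hl
      by_contra h0
      exact hl (hσu i l h0)
    have hsurj : Function.Surjective σ := by
      intro j
      by_contra hcon
      push Not at hcon
      have h1 := congrFun (congrFun hig j) j
      rw [Matrix.mul_apply] at h1
      have : ∀ k, (g : Matrix (Fin n) (Fin n) F) k j = 0 := fun k => hσ' k j (fun h => hcon k h.symm)
      simp [this] at h1
    intro h
    rw [mem_torus70, mem_torus70]
    have hc := hconj h
    constructor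
    · intro hd
      -- g h = d' g
      have hgh : (g : Matrix (Fin n) (Fin n) F) * (h : Matrix (Fin n) (Fin n) F)
          = Matrix.diagonal (fun i => (h : Matrix (Fin n) (Fin n) F) (σ i) (σ i)) * (g : Matrix (Fin n) (Fin n) F) := by
        ext i l
        rw [Matrix.mul_apply, Matrix.diagonal_mul]
        rw [Finset.sum_eq_single l (fun k _ hk => by rw [hd k l hk, mul_zero]) (fun h => absurd (Finset.mem_univ l) h)]
        by_cases hl : l = σ i
        · rw [hl]; ring
        · rw [hσ' i l hl]; ring
      rw [hgh] at hc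
      have hD : ((g * h * g⁻¹ : Matrix.GeneralLinearGroup (Fin n) F) : Matrix (Fin n) (Fin n) F) = Matrix.diagonal (fun i => (h : Matrix (Fin n) (Fin n) F) (σ i) (σ i)) := by
        have := congrArg (fun M => M * ((g⁻¹ : Matrix.GeneralLinearGroup (Fin n) F) : Matrix (Fin n) (Fin n) F)) hc
        simp only [Matrix.mul_assoc, hgi, Matrix.mul_one] at this
        exact this
      intro i j hij
      rw [hD, Matrix.diagonal_apply_ne _ hij]
    · intro hD k l hkl
      obtain ⟨i, rfl⟩ := hsurj k
      have e1 := congrFun (congrFun hc i) l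
      rw [Matrix.mul_apply, Matrix.mul_apply] at e1
      rw [Finset.sum_eq_single i (fun k _ hk => by rw [hD i k (Ne.symm hk), zero_mul]) (fun h => absurd (Finset.mem_univ i) h)] at e1
      rw [Finset.sum_eq_single (σ i) (fun k _ hk => by rw [hσ' i k hk, zero_mul]) (fun h => absurd (Finset.mem_univ _) h)] at e1
      rw [hσ' i l (Ne.symm hkl), mul_zero] at e1
      rcases mul_eq_zero.mp e1.symm with h0 | h0
      · exact absurd h0 (hσ i)
      · exact h0

end Cfsg.Agent.S0770
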