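import Cfsg.Statements.S0771
import Mathlib
import Cfsg.Statements.S0771

set_option autoImplicit false
open Cfsg
open scoped commutatorElement

namespace Cfsg.Agent.S0771

open Cfsg Matrix

noncomputable def e71 (n k : ℕ) (hk : k ≤ n) : Fin k ⊕ Fin (n - k) ≃ Fin n :=
  finSumFinEquiv.trans (finCongr (by omega))

theorem e_inl71 (n k : ℕ) (hk : k ≤ n) (i : Fin k) : ((e71 n k hk (Sum.inl i) : Fin n) : ℕ) = i := by
  simp [e71]

theorem e_inr71 (n k : ℕ) (hk : k ≤ n) (j : Fin (n - k)) : ((e71 n k hk (Sum.inr j) : Fin n) : ℕ) = k + j := by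
  simp [e71]

theorem mem_S71 (n k : ℕ) (hk : k ≤ n) {F : Type*} [Field F] (v : Fin n → F) :
    (∀ i : Fin n, k ≤ (i : ℕ) → v i = 0) ↔ (v ∘ e71 n k hk) ∘ Sum.inr = 0 := by
  constructor
  · intro h; funext j; exact h _ (by rw [e_inr71]; omega)
  · intro h i hi
    have h1 : i = e71 n k hk (Sum.inr ⟨i - k, by omega⟩) := by
      apply Fin.ext; rw [e_inr71]; simp; omega
    rw [h1]; exact congrFun h _

theorem mem_P71 {F : Type*} [Field F] (n k : ℕ) (hk : k ≤ n) (g : GL (Fin n) F) :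
    g ∈ Cfsg.stabilizing (Cfsg.glToMat (Fin n) F) {v : Fin n → F | ∀ i : Fin n, k ≤ (i : ℕ) → v i = 0} ↔
      ((g : Matrix (Fin n) (Fin n) F).submatrix (e71 n k hk) (e71 n k hk)).toBlocks₂₁ = 0 := by
  have hmv : ∀ v : Fin n → F, ((g : Matrix _ _ F) *ᵥ v) ∘ (e71 n k hk) = ((g : Matrix (Fin n) (Fin n) F).submatrix (e71 n k hk) (e71 n k hk)) *ᵥ (v ∘ (e71 n k hk)) := by
    intro v
    rw [Matrix.submatrix_mulVec_equiv]
    congr 2; funext i; simp
  constructor
  · intro hg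
    ext i j
    have h1 : ∀ i : Fin n, k ≤ (i : ℕ) → ((g : Matrix _ _ F) *ᵥ (Pi.single (e71 n k hk (Sum.inl j)) 1)) i = 0 :=
      (hg (Pi.single (e71 n k hk (Sum.inl j)) 1)).mp (by
        show ∀ i : Fin n, k ≤ (i:ℕ) → _ = 0
        intro i hi
        rw [Pi.single_apply, if_neg]
        intro h; rw [h, e_inl71] at hi; omega)
    have h3 := h1 (e71 n k hk (Sum.inr i)) (by rw [e_inr71]; omega)
    rw [Matrix.mulVec_single_one] at h3
    exact h3
  · intro hC v
    show (∀ i : Fin n, k ≤ (i:ℕ) → v i = 0) ↔ (∀ i : Fin n, k ≤ (i:ℕ) → ((g : Matrix _ _ F) *ᵥ v) i = 0)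
    rw [mem_S71 n k hk, mem_S71 n k hk, hmv]
    have hM : ((g : Matrix (Fin n) (Fin n) F).submatrix (e71 n k hk) (e71 n k hk)) = fromBlocks ((g : Matrix (Fin n) (Fin n) F).submatrix (e71 n k hk) (e71 n k hk)).toBlocks₁₁ ((g : Matrix (Fin n) (Fin n) F).submatrix (e71 n k hk) (e71 n k hk)).toBlocks₁₂ 0 ((g : Matrix (Fin n) (Fin n) F).submatrix (e71 n k hk) (e71 n k hk)).toBlocks₂₂ := by
      conv_lhs => rw [← Matrix.fromBlocks_toBlocks ((g : Matrix (Fin n) (Fin n) F).submatrix (e71 n k hk) (e71 n k hk))]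
      rw [hC]
    have hdet : ((g : Matrix (Fin n) (Fin n) F).submatrix (e71 n k hk) (e71 n k hk)).toBlocks₂₂.det ≠ 0 := by
      have h1 : ((g : Matrix (Fin n) (Fin n) F).submatrix (e71 n k hk) (e71 n k hk)).det ≠ 0 := by
        rw [Matrix.det_submatrix_equiv_self]
        exact ((Matrix.isUnit_iff_isUnit_det _).mp g.isUnit).ne_zero
      rw [hM, Matrix.det_fromBlocks_zero₂₁] at h1
      exact right_ne_zero_of_mul h1
    rw [hM, Matrix.fromBlocks_mulVec]
    simp only [Sum.elim_comp_inr, Matrix.zero_mulVec, zero_add]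
    constructor
    · intro h; rw [h, Matrix.mulVec_zero]
    · intro h
      exact Matrix.eq_zero_of_mulVec_eq_zero hdet h

theorem dets71 {F : Type*} [Field F] (n k : ℕ) (hk : k ≤ n) (g : GL (Fin n) F)
    (hC : ((g : Matrix (Fin n) (Fin n) F).submatrix (e71 n k hk) (e71 n k hk)).toBlocks₂₁ = 0) :
    ((g : Matrix (Fin n) (Fin n) F).submatrix (e71 n k hk) (e71 n k hk)).toBlocks₁₁.det ≠ 0 ∧
    ((g : Matrix (Fin n) (Fin n) F).submatrix (e71 n k hk) (e71 n k hk)).toBlocks₂₂.det ≠ 0 := by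
  have hM : ((g : Matrix (Fin n) (Fin n) F).submatrix (e71 n k hk) (e71 n k hk)) = fromBlocks ((g : Matrix (Fin n) (Fin n) F).submatrix (e71 n k hk) (e71 n k hk)).toBlocks₁₁ ((g : Matrix (Fin n) (Fin n) F).submatrix (e71 n k hk) (e71 n k hk)).toBlocks₁₂ 0 ((g : Matrix (Fin n) (Fin n) F).submatrix (e71 n k hk) (e71 n k hk)).toBlocks₂₂ := by
    conv_lhs => rw [← Matrix.fromBlocks_toBlocks ((g : Matrix (Fin n) (Fin n) F).submatrix (e71 n k hk) (e71 n k hk))]
    rw [hC]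
  have h1 : ((g : Matrix (Fin n) (Fin n) F).submatrix (e71 n k hk) (e71 n k hk)).det ≠ 0 := by
    rw [Matrix.det_submatrix_equiv_self]
    exact ((Matrix.isUnit_iff_isUnit_det _).mp g.isUnit).ne_zero
  rw [hM, Matrix.det_fromBlocks_zero₂₁] at h1
  exact ⟨left_ne_zero_of_mul h1, right_ne_zero_of_mul h1⟩

/-- Maximal parabolic of GL_n(q): the stabiliser of the coordinate subspace spanned by the first k basis vectors has order q^(k(n-k)) · |GL_k(q)| · |GL_(n-k)(q)| (unipotent radical of order q^(k(n-k)) and Levi complement GL_k × GL_(n-k)). -/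
theorem result {F : Type*} [Field F] [Fintype F] {q : ℕ} (hF : Fintype.card F = q) (n k : ℕ) (hk : k ≤ n) : Nat.card ↥(Cfsg.stabilizing (Cfsg.glToMat (Fin n) F) {v : Fin n → F | ∀ i : Fin n, k ≤ (i : ℕ) → v i = 0}) = q ^ (k * (n - k)) * (∏ i : Fin k, (q ^ k - q ^ (i : ℕ))) * ∏ i : Fin (n - k), (q ^ (n - k) - q ^ (i : ℕ)) := by
  classical
  let Φ : ↥(Cfsg.stabilizing (Cfsg.glToMat (Fin n) F) {v : Fin n → F | ∀ i : Fin n, k ≤ (i : ℕ) → v i = 0}) →
      GL (Fin k) F × GL (Fin (n - k)) F × Matrix (Fin k) (Fin (n - k)) F := fun g =>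
    (Matrix.GeneralLinearGroup.mkOfDetNeZero _ (dets71 n k hk g.1 ((mem_P71 n k hk g.1).mp g.2)).1,
     Matrix.GeneralLinearGroup.mkOfDetNeZero _ (dets71 n k hk g.1 ((mem_P71 n k hk g.1).mp g.2)).2,
     ((g.1 : Matrix (Fin n) (Fin n) F).submatrix (e71 n k hk) (e71 n k hk)).toBlocks₁₂)
  have hbij : Function.Bijective Φ := by
    constructor
    · rintro ⟨g, hg⟩ ⟨g', hg'⟩ h
      have hC := (mem_P71 n k hk g).mp hg
      have hC' := (mem_P71 n k hk g').mp hg'
      have h1 := congrArg (fun x => (x.1 : Matrix (Fin k) (Fin k) F)) h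
      have h2 := congrArg (fun x => (x.2.1 : Matrix (Fin (n - k)) (Fin (n - k)) F)) h
      have h3 := congrArg (fun x => x.2.2) h
      have hA : ((g : Matrix (Fin n) (Fin n) F).submatrix (e71 n k hk) (e71 n k hk)).toBlocks₁₁ = ((g' : Matrix (Fin n) (Fin n) F).submatrix (e71 n k hk) (e71 n k hk)).toBlocks₁₁ := h1
      have hD : ((g : Matrix (Fin n) (Fin n) F).submatrix (e71 n k hk) (e71 n k hk)).toBlocks₂₂ = ((g' : Matrix (Fin n) (Fin n) F).submatrix (e71 n k hk) (e71 n k hk)).toBlocks₂₂ := h2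
      have hB : ((g : Matrix (Fin n) (Fin n) F).submatrix (e71 n k hk) (e71 n k hk)).toBlocks₁₂ = ((g' : Matrix (Fin n) (Fin n) F).submatrix (e71 n k hk) (e71 n k hk)).toBlocks₁₂ := h3
      have hsub : (g : Matrix (Fin n) (Fin n) F).submatrix (e71 n k hk) (e71 n k hk) = (g' : Matrix (Fin n) (Fin n) F).submatrix (e71 n k hk) (e71 n k hk) := by
        rw [← Matrix.fromBlocks_toBlocks ((g : Matrix (Fin n) (Fin n) F).submatrix (e71 n k hk) (e71 n k hk)),
          ← Matrix.fromBlocks_toBlocks ((g' : Matrix (Fin n) (Fin n) F).submatrix (e71 n k hk) (e71 n k hk)), hA, hB, hC, hC', hD]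
      apply Subtype.ext
      apply Units.ext
      have h4 := congrArg (fun M : Matrix _ _ F => M.submatrix (e71 n k hk).symm (e71 n k hk).symm) hsub
      simpa using h4
    · rintro ⟨A, D, B⟩
      have hdet : ((fromBlocks (A : Matrix (Fin k) (Fin k) F) B 0 (D : Matrix (Fin (n - k)) (Fin (n - k)) F)).submatrix (e71 n k hk).symm (e71 n k hk).symm).det ≠ 0 := by
        rw [Matrix.det_submatrix_equiv_self, Matrix.det_fromBlocks_zero₂₁]
        exact mul_ne_zero ((Matrix.isUnit_iff_isUnit_det _).mp A.isUnit).ne_zero ((Matrix.isUnit_iff_isUnit_det _).mp D.isUnit).ne_zero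
      have hsub : ((Matrix.GeneralLinearGroup.mkOfDetNeZero _ hdet : GL (Fin n) F) : Matrix (Fin n) (Fin n) F).submatrix (e71 n k hk) (e71 n k hk) = fromBlocks (A : Matrix (Fin k) (Fin k) F) B 0 (D : Matrix (Fin (n - k)) (Fin (n - k)) F) := by
        show ((fromBlocks (A : Matrix (Fin k) (Fin k) F) B 0 (D : Matrix (Fin (n - k)) (Fin (n - k)) F)).submatrix (e71 n k hk).symm (e71 n k hk).symm).submatrix (e71 n k hk) (e71 n k hk) = _
        simp
      have hmem : (Matrix.GeneralLinearGroup.mkOfDetNeZero _ hdet : GL (Fin n) F) ∈ Cfsg.stabilizing (Cfsg.glToMat (Fin n) F) {v : Fin n → F | ∀ i : Fin n, k ≤ (i : ℕ) → v i = 0} := by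
        rw [mem_P71 n k hk, hsub, Matrix.toBlocks_fromBlocks₂₁]
      refine ⟨⟨_, hmem⟩, ?_⟩
      refine Prod.ext ?_ (Prod.ext ?_ ?_)
      · apply Units.ext
        show (((Matrix.GeneralLinearGroup.mkOfDetNeZero _ hdet : GL (Fin n) F) : Matrix (Fin n) (Fin n) F).submatrix (e71 n k hk) (e71 n k hk)).toBlocks₁₁ = _
        rw [hsub, Matrix.toBlocks_fromBlocks₁₁]
      · apply Units.ext
        show (((Matrix.GeneralLinearGroup.mkOfDetNeZero _ hdet : GL (Fin n) F) : Matrix (Fin n) (Fin n) F).submatrix (e71 n k hk) (e71 n k hk)).toBlocks₂₂ = _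
        rw [hsub, Matrix.toBlocks_fromBlocks₂₂]
      · show (((Matrix.GeneralLinearGroup.mkOfDetNeZero _ hdet : GL (Fin n) F) : Matrix (Fin n) (Fin n) F).submatrix (e71 n k hk) (e71 n k hk)).toBlocks₁₂ = _
        rw [hsub, Matrix.toBlocks_fromBlocks₁₂]
  rw [Nat.card_eq_of_bijective Φ hbij, Nat.card_prod, Nat.card_prod, Matrix.card_GL_field, Matrix.card_GL_field, hF]
  have hmat : Nat.card (Matrix (Fin k) (Fin (n - k)) F) = q ^ (k * (n - k)) := by
    show Nat.card (Fin k → Fin (n - k) → F) = _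
    rw [Nat.card_eq_fintype_card, Fintype.card_fun, Fintype.card_fun, hF, Fintype.card_fin, Fintype.card_fin, ← pow_mul, mul_comm]
  rw [hmat]; ring

end Cfsg.Agent.S0771
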