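import Cfsg.Statements.S0773
import Mathlib
import Cfsg.Statements.S0773
import Cfsg.Agent.S0771

set_option autoImplicit false
open Cfsg
open scoped commutatorElement

namespace Cfsg.Agent.S0773

open Cfsg Matrix
open Cfsg.Agent.S0771

theorem mem_P73 {F : Type*} [Field F] (n k : ℕ) (hk : k ≤ n) (g : GL (Fin n) F) :
    g ∈ Cfsg.stabilizing (Cfsg.glToMat (Fin n) F) {v : Fin n → F | ∀ i : Fin n, k ≤ (i : ℕ) → v i = 0} ↔
      ∀ i j : Fin n, k ≤ (i : ℕ) → (j : ℕ) < k → (g : Matrix (Fin n) (Fin n) F) i j = 0 := by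
  rw [mem_P71 n k hk]
  constructor
  · intro h i j hi hj
    have hi' : i = e71 n k hk (Sum.inr ⟨i - k, by omega⟩) := by apply Fin.ext; rw [e_inr71]; simp; omega
    have hj' : j = e71 n k hk (Sum.inl ⟨j, hj⟩) := by apply Fin.ext; rw [e_inl71]
    rw [hi', hj']
    exact congrFun (congrFun h ⟨i - k, by omega⟩) ⟨j, hj⟩
  · intro h
    ext i j
    exact h _ _ (by rw [e_inr71]; omega) (by rw [e_inl71]; exact j.2)

noncomputable def tau73 (F : Type*) [Field F] (n : ℕ) (g : GL (Fin n) F) : GL (Fin n) F :=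
  Matrix.GeneralLinearGroup.mkOfDetNeZero (((g⁻¹ : GL (Fin n) F) : Matrix (Fin n) (Fin n) F)ᵀ.submatrix (Fin.revPerm : Equiv.Perm (Fin n)) (Fin.revPerm : Equiv.Perm (Fin n))) (by
    rw [Matrix.det_submatrix_equiv_self, Matrix.det_transpose]
    exact ((Matrix.isUnit_iff_isUnit_det _).mp (g⁻¹).isUnit).ne_zero)

theorem tau_val73 {F : Type*} [Field F] (n : ℕ) (g : GL (Fin n) F) :
    ((tau73 F n g : GL (Fin n) F) : Matrix (Fin n) (Fin n) F) = ((g⁻¹ : GL (Fin n) F) : Matrix (Fin n) (Fin n) F)ᵀ.submatrix (Fin.revPerm : Equiv.Perm (Fin n)) (Fin.revPerm : Equiv.Perm (Fin n)) := rfl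

theorem tau_apply73 {F : Type*} [Field F] (n : ℕ) (g : GL (Fin n) F) (i j : Fin n) :
    ((tau73 F n g : GL (Fin n) F) : Matrix (Fin n) (Fin n) F) i j = ((g⁻¹ : GL (Fin n) F) : Matrix (Fin n) (Fin n) F) (Fin.rev j) (Fin.rev i) := rfl

theorem tau_mul73 {F : Type*} [Field F] (n : ℕ) (g h : GL (Fin n) F) :
    tau73 F n (g * h) = tau73 F n g * tau73 F n h := by
  apply Units.ext
  rw [Units.val_mul, tau_val73, tau_val73, tau_val73, _root_.mul_inv_rev, Units.val_mul, Matrix.transpose_mul,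
    Matrix.submatrix_mul_equiv]

theorem tau_one73 {F : Type*} [Field F] (n : ℕ) : tau73 F n 1 = 1 := by
  apply Units.ext
  rw [tau_val73, inv_one, Units.val_one, Matrix.transpose_one, Matrix.submatrix_one_equiv]

theorem tau_tau73 {F : Type*} [Field F] (n : ℕ) (g : GL (Fin n) F) : tau73 F n (tau73 F n g) = g := by
  have h1 : (tau73 F n g)⁻¹ = tau73 F n g⁻¹ := by
    apply inv_eq_of_mul_eq_one_right
    rw [← tau_mul73, mul_inv_cancel, tau_one73]
  apply Units.ext
  rw [tau_val73, h1, tau_val73, inv_inv]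
  ext i j
  simp [Matrix.submatrix_apply, Matrix.transpose_apply]

theorem tau_mem73 {F : Type*} [Field F] (n k : ℕ) (hk : k ≤ n) (g : GL (Fin n) F)
    (hg : g ∈ Cfsg.stabilizing (Cfsg.glToMat (Fin n) F) {v : Fin n → F | ∀ i : Fin n, k ≤ (i : ℕ) → v i = 0}) :
    tau73 F n g ∈ Cfsg.stabilizing (Cfsg.glToMat (Fin n) F) {v : Fin n → F | ∀ i : Fin n, n - k ≤ (i : ℕ) → v i = 0} := by
  rw [mem_P73 n (n - k) (Nat.sub_le n k)]
  intro i j hi hj
  rw [tau_apply73]
  apply (mem_P73 n k hk g⁻¹).mp (inv_mem hg) (Fin.rev j) (Fin.rev i)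
  · rw [Fin.val_rev]; omega
  · rw [Fin.val_rev]; have := i.2; omega

/-- the coordinate subspace -/
def subS73 (F : Type*) [Field F] (n j : ℕ) : Submodule F (Fin n → F) where
  carrier := {v | ∀ i : Fin n, j ≤ (i : ℕ) → v i = 0}
  add_mem' := by
    intro a b ha hb i hi
    rw [Pi.add_apply, ha i hi, hb i hi, add_zero]
  zero_mem' := fun i _ => rfl
  smul_mem' := by
    intro c a ha i hi
    rw [Pi.smul_apply, ha i hi, smul_zero]

theorem finrank_S73 (F : Type*) [Field F] (n j : ℕ) (hj : j ≤ n) : Module.finrank F (subS73 F n j) = j := by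
  have hker : subS73 F n j = LinearMap.ker (LinearMap.pi (fun i : Fin (n - j) => LinearMap.proj (⟨j + i, by omega⟩ : Fin n)) : (Fin n → F) →ₗ[F] (Fin (n - j) → F)) := by
    ext v
    rw [LinearMap.mem_ker]
    constructor
    · intro hv
      funext i
      exact hv _ (by simp)
    · intro hv i hi
      have h1 := congrFun hv ⟨i - j, by omega⟩
      have h2 : (⟨j + (i - j), by omega⟩ : Fin n) = i := by apply Fin.ext; simp; omega
      simp only [LinearMap.pi_apply, LinearMap.proj_apply, Pi.zero_apply] at h1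
      rw [h2] at h1
      exact h1
  have hsurj : Function.Surjective (LinearMap.pi (fun i : Fin (n - j) => LinearMap.proj (⟨j + i, by omega⟩ : Fin n)) : (Fin n → F) →ₗ[F] (Fin (n - j) → F)) := by
    intro c
    refine ⟨fun i => if h : j ≤ (i : ℕ) then c ⟨i - j, by omega⟩ else 0, ?_⟩
    funext i
    simp
  have h1 := LinearMap.finrank_range_add_finrank_ker (LinearMap.pi (fun i : Fin (n - j) => LinearMap.proj (⟨j + i, by omega⟩ : Fin n)) : (Fin n → F) →ₗ[F] (Fin (n - j) → F))
  rw [LinearMap.range_eq_top.mpr hsurj, finrank_top, Module.finrank_fin_fun, Module.finrank_fin_fun, ← hker] at h1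
  omega

theorem basis_mem73 {F : Type*} [Field F] {n : ℕ} (W : Submodule F (Fin n → F)) (v : Fin n → F)
    (h : ∀ a, v a ≠ 0 → (Pi.single a (1 : F) : Fin n → F) ∈ W) : v ∈ W := by
  classical
  rw [pi_eq_sum_univ' v]
  apply Submodule.sum_mem
  intro a _
  by_cases ha : v a = 0
  · rw [ha, zero_smul]; exact W.zero_mem
  · exact W.smul_mem _ (h a ha)

theorem inv73 {F : Type*} [Field F] (n j : ℕ) (hj : j ≤ n) (W : Submodule F (Fin n → F))
    (hW : ∀ h ∈ Cfsg.stabilizing (Cfsg.glToMat (Fin n) F) {v : Fin n → F | ∀ i : Fin n, j ≤ (i : ℕ) → v i = 0},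
      ∀ w ∈ W, (h : Matrix (Fin n) (Fin n) F) *ᵥ w ∈ W) :
    W = ⊥ ∨ W = subS73 F n j ∨ W = ⊤ := by
  classical
  -- spreading
  have spread : ∀ w ∈ W, ∀ a b : Fin n, w b ≠ 0 → a ≠ b → ((a : ℕ) < j ∨ j ≤ (b : ℕ)) → (Pi.single a (1 : F) : Fin n → F) ∈ W := by
    intro w hw a b hwb hab hcond
    have hdet : (Matrix.transvection a b (1 : F)).det ≠ 0 := by
      rw [Matrix.det_transvection_of_ne _ _ hab]; exact one_ne_zero
    have hmem : Matrix.GeneralLinearGroup.mkOfDetNeZero _ hdet ∈ Cfsg.stabilizing (Cfsg.glToMat (Fin n) F) {v : Fin n → F | ∀ i : Fin n, j ≤ (i : ℕ) → v i = 0} := by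
      rw [mem_P73 n j hj]
      intro i l hi hl
      show (Matrix.transvection a b (1 : F)) i l = 0
      have hil : i ≠ l := by intro h; rw [h] at hi; omega
      rw [Matrix.transvection, Matrix.add_apply, Matrix.one_apply_ne hil, zero_add, Matrix.single_apply]
      rw [if_neg]
      rintro ⟨rfl, rfl⟩
      omega
    have h1 := hW _ hmem w hw
    have h2 : ((Matrix.GeneralLinearGroup.mkOfDetNeZero _ hdet : GL (Fin n) F) : Matrix (Fin n) (Fin n) F) *ᵥ w = w + (w b) • (Pi.single a (1 : F) : Fin n → F) := by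
      show (Matrix.transvection a b (1 : F)) *ᵥ w = _
      rw [Matrix.transvection, Matrix.add_mulVec, Matrix.one_mulVec, Matrix.single_mulVec_eq, one_mul]
    rw [h2] at h1
    have h3 : (w b) • (Pi.single a (1 : F) : Fin n → F) ∈ W := by
      have := W.sub_mem h1 hw
      simpa using this
    have h4 := W.smul_mem (w b)⁻¹ h3
    rwa [smul_smul, inv_mul_cancel₀ hwb, one_smul] at h4
  have self : ∀ w ∈ W, ∀ b : Fin n, w b ≠ 0 → (∀ a, a ≠ b → w a ≠ 0 → (Pi.single a (1 : F) : Fin n → F) ∈ W) → (Pi.single b (1 : F) : Fin n → F) ∈ W := by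
    intro w hw b hwb hrest
    have h1 : Function.update w b 0 ∈ W := by
      apply basis_mem73
      intro a ha
      by_cases hab : a = b
      · rw [hab, Function.update_self] at ha; exact absurd rfl ha
      · rw [Function.update_of_ne hab] at ha
        exact hrest a hab ha
    have h2 : (w b) • (Pi.single b (1 : F) : Fin n → F) = w - Function.update w b 0 := by
      funext i
      by_cases hib : i = b
      · rw [hib]; simp
      · simp [Function.update_of_ne hib, Pi.single_apply, hib]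
    have h3 : (w b) • (Pi.single b (1 : F) : Fin n → F) ∈ W := by rw [h2]; exact W.sub_mem hw h1
    have h4 := W.smul_mem (w b)⁻¹ h3
    rwa [smul_smul, inv_mul_cancel₀ hwb, one_smul] at h4
  by_cases hc : ∃ w ∈ W, ∃ b : Fin n, j ≤ (b : ℕ) ∧ w b ≠ 0
  · right; right
    obtain ⟨w, hw, b, hb, hwb⟩ := hc
    have hall : ∀ a, a ≠ b → (Pi.single a (1 : F) : Fin n → F) ∈ W := fun a hab => spread w hw a b hwb hab (Or.inr hb)
    have hb' : (Pi.single b (1 : F) : Fin n → F) ∈ W := self w hw b hwb (fun a hab _ => hall a hab)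
    rw [eq_top_iff]
    intro v _
    apply basis_mem73
    intro a _
    by_cases hab : a = b
    · rw [hab]; exact hb'
    · exact hall a hab
  · push Not at hc
    by_cases hbot : W = ⊥
    · left; exact hbot
    · right; left
      obtain ⟨w, hw, hw0⟩ := Submodule.exists_mem_ne_zero_of_ne_bot hbot
      obtain ⟨b, hwb⟩ : ∃ b, w b ≠ 0 := by
        by_contra hcon; push Not at hcon
        exact hw0 (funext hcon)
      have hbj : (b : ℕ) < j := by
        by_contra hbj
        exact hwb (hc w hw b (by omega))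
      have hall : ∀ a : Fin n, (a : ℕ) < j → a ≠ b → (Pi.single a (1 : F) : Fin n → F) ∈ W := fun a ha hab => spread w hw a b hwb hab (Or.inl ha)
      have hb' : (Pi.single b (1 : F) : Fin n → F) ∈ W := self w hw b hwb (fun a hab hwa => hall a (by
        by_contra haj
        exact hwa (hc w hw a (by omega))) hab)
      apply le_antisymm
      · intro v hv i hi
        exact hc v hv i hi
      · intro v hv
        apply basis_mem73
        intro a hva
        have haj : (a : ℕ) < j := by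
          by_contra haj
          exact hva (hv a (by omega))
        by_cases hab : a = b
        · rw [hab]; exact hb'
        · exact hall a haj hab

/-- The stabilisers in GL_n(F), F finite, of the coordinate subspaces of dimensions k and n − k are isomorphic groups, but when 2k ≠ n (and 0 < k < n) no element of GL_n conjugates one onto the other. -/
theorem result {F : Type*} [Field F] [Finite F] (n k : ℕ) (hk0 : 0 < k) (hkn : k < n) (h2 : 2 * k ≠ n) : Nonempty (↥(Cfsg.stabilizing (Cfsg.glToMat (Fin n) F) {v : Fin n → F | ∀ i : Fin n, k ≤ (i : ℕ) → v i = 0}) ≃* ↥(Cfsg.stabilizing (Cfsg.glToMat (Fin n) F) {v : Fin n → F | ∀ i : Fin n, n - k ≤ (i : ℕ) → v i = 0})) ∧ ∀ g : Matrix.GeneralLinearGroup (Fin n) F, (Cfsg.stabilizing (Cfsg.glToMat (Fin n) F) {v : Fin n → F | ∀ i : Fin n, k ≤ (i : ℕ) → v i = 0}).map (MulAut.conj g).toMonoidHom ≠ Cfsg.stabilizing (Cfsg.glToMat (Fin n) F) {v : Fin n → F | ∀ i : Fin n, n - k ≤ (i : ℕ) → v i = 0} := by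
  classical
  have hk : k ≤ n := hkn.le
  refine ⟨⟨{ toFun := fun g => ⟨tau73 F n g.1, tau_mem73 n k hk g.1 g.2⟩
             invFun := fun h => ⟨tau73 F n h.1, by
               have h1 := tau_mem73 n (n - k) (Nat.sub_le n k) h.1 h.2
               rwa [Nat.sub_sub_self hk] at h1⟩
             left_inv := fun g => Subtype.ext (tau_tau73 n g.1)
             right_inv := fun h => Subtype.ext (tau_tau73 n h.1)
             map_mul' := fun g h => Subtype.ext (tau_mul73 n g.1 h.1) }⟩, ?_⟩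
  intro g hcon
  -- W = g S_k
  set W : Submodule F (Fin n → F) := Submodule.map (Matrix.mulVecLin (g : Matrix (Fin n) (Fin n) F)) (subS73 F n k) with hWdef
  have hinj : Function.Injective (Matrix.mulVecLin (g : Matrix (Fin n) (Fin n) F)) := by
    rw [← LinearMap.ker_eq_bot, LinearMap.ker_eq_bot']
    intro u hu
    have h1 : (g : Matrix (Fin n) (Fin n) F) *ᵥ u = 0 := hu
    have h3 := congrArg (fun w => ((g⁻¹ : GL (Fin n) F) : Matrix (Fin n) (Fin n) F) *ᵥ w) h1
    simp only [Matrix.mulVec_mulVec, Matrix.mulVec_zero] at h3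
    rw [← Units.val_mul, inv_mul_cancel] at h3
    simpa using h3
  have hWd : Module.finrank F W = k := by
    rw [hWdef, ← (Submodule.equivMapOfInjective _ hinj (subS73 F n k)).finrank_eq, finrank_S73 F n k hk]
  have hWinv : ∀ h ∈ Cfsg.stabilizing (Cfsg.glToMat (Fin n) F) {v : Fin n → F | ∀ i : Fin n, n - k ≤ (i : ℕ) → v i = 0},
      ∀ w ∈ W, (h : Matrix (Fin n) (Fin n) F) *ᵥ w ∈ W := by
    intro h hh w hw
    rw [← hcon] at hh
    obtain ⟨p, hp, rfl⟩ := hh
    obtain ⟨s, hs, rfl⟩ := hw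
    refine ⟨(p : Matrix (Fin n) (Fin n) F) *ᵥ s, ?_, ?_⟩
    · exact (hp s).mp hs
    · show (g : Matrix (Fin n) (Fin n) F) *ᵥ ((p : Matrix (Fin n) (Fin n) F) *ᵥ s) = ((g * p * g⁻¹ : GL (Fin n) F) : Matrix (Fin n) (Fin n) F) *ᵥ ((g : Matrix (Fin n) (Fin n) F) *ᵥ s)
      rw [Matrix.mulVec_mulVec, Matrix.mulVec_mulVec, ← Units.val_mul, ← Units.val_mul]
      congr 2
      group
  rcases inv73 n (n - k) (Nat.sub_le n k) W hWinv with h | h | h
  · rw [h, finrank_bot] at hWd; omega
  · rw [h, finrank_S73 F n (n - k) (Nat.sub_le n k)] at hWd; omega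
  · rw [h, finrank_top, Module.finrank_fin_fun] at hWd; omega

end Cfsg.Agent.S0773
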