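import Cfsg.Statements.S0776
import Mathlib
import Cfsg.Statements.S0776
import Cfsg.Agent.S0752
import Cfsg.Agent.S0245
import Cfsg.Agent.S0828
import Cfsg.Agent.Lib.Helper1.Symp

set_option autoImplicit false
open Cfsg
open scoped commutatorElement

namespace Cfsg.Agent.S0776

open Cfsg.Agent.Lib.Helper1 Matrix Module
open Cfsg.Agent.S0828 Cfsg.Agent.S0245 Cfsg.Agent.S0752

def sh76 {F : Type*} [Field F] {a b : ℕ} (M : Matrix (Fin a ⊕ Fin a) (Fin b ⊕ Fin b) F) :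
    Matrix (Fin b ⊕ Fin b) (Fin a ⊕ Fin a) F :=
  -(Matrix.J (Fin b) F) * Mᵀ * Matrix.J (Fin a) F

theorem JJ76 {F : Type*} [Field F] (a : ℕ) {γ : Type*} (Z : Matrix (Fin a ⊕ Fin a) γ F) :
    Matrix.J (Fin a) F * (Matrix.J (Fin a) F * Z) = -Z := by
  rw [← Matrix.mul_assoc, Matrix.J_squared, Matrix.neg_mul, Matrix.one_mul]

theorem sh_mul76 {F : Type*} [Field F] {a b c : ℕ} (M : Matrix (Fin a ⊕ Fin a) (Fin b ⊕ Fin b) F)
    (N : Matrix (Fin b ⊕ Fin b) (Fin c ⊕ Fin c) F) : sh76 (M * N) = sh76 N * sh76 M := by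
  unfold sh76
  rw [Matrix.transpose_mul]
  simp only [Matrix.neg_mul, Matrix.mul_neg, neg_neg, Matrix.mul_assoc, JJ76]

theorem sh_sh76 {F : Type*} [Field F] {a b : ℕ} (M : Matrix (Fin a ⊕ Fin a) (Fin b ⊕ Fin b) F) :
    sh76 (sh76 M) = M := by
  unfold sh76
  simp only [Matrix.transpose_mul, Matrix.transpose_neg, Matrix.J_transpose, Matrix.transpose_transpose,
    Matrix.neg_mul, Matrix.mul_neg, neg_neg, Matrix.mul_assoc, JJ76]
  rw [Matrix.J_squared, Matrix.mul_neg, Matrix.mul_one, neg_neg]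

theorem sh_add76 {F : Type*} [Field F] {a b : ℕ} (M N : Matrix (Fin a ⊕ Fin a) (Fin b ⊕ Fin b) F) :
    sh76 (M + N) = sh76 M + sh76 N := by
  unfold sh76
  rw [Matrix.transpose_add, Matrix.mul_add, Matrix.add_mul]

theorem sp_iff76 {F : Type*} [Field F] {k : ℕ} (A : Matrix (Fin k ⊕ Fin k) (Fin k ⊕ Fin k) F) :
    A ∈ Matrix.symplecticGroup (Fin k) F ↔ sh76 A * A = 1 := by
  rw [SymplecticGroup.mem_iff']
  unfold sh76
  constructor
  · intro h
    rw [Matrix.mul_assoc, Matrix.mul_assoc, ← Matrix.mul_assoc Aᵀ, h, Matrix.neg_mul, Matrix.J_squared, neg_neg]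
  · intro h
    have h1 := congrArg (fun Z => Matrix.J (Fin k) F * Z) h
    simp only [Matrix.neg_mul, Matrix.mul_neg, Matrix.mul_assoc, JJ76, neg_neg, Matrix.mul_one] at h1
    rw [Matrix.mul_assoc]; exact h1

theorem gram76 {F : Type*} [Field F] {m : ℕ} {α β : Type*} (D : Matrix (Fin m ⊕ Fin m) α F)
    (D' : Matrix (Fin m ⊕ Fin m) β F) (a : α) (b : β) :
    (Dᵀ * Matrix.J (Fin m) F * D') a b = sympForm m F (fun c => D c a) (fun c => D' c b) := by
  rw [Matrix.mul_assoc, Matrix.mul_apply]; rfl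

def sB76 {F : Type*} [Field F] (m : ℕ) : LinearMap.BilinForm F (Fin m ⊕ Fin m → F) :=
  LinearMap.mk₂ F (sympForm m F) (sympForm_add_left m) (fun c u v => sympForm_smul_left m c u v)
    (sympForm_add_right m) (fun c u v => sympForm_smul_right m c u v)

theorem exists_XY76 {F : Type*} [Field F] (m k : ℕ) (hk : k ≤ m)
    (W : Submodule F (Fin m ⊕ Fin m → F)) (hWk : finrank F W = 2 * k)
    (hW : ∀ u ∈ W, (∀ v ∈ W, sympForm m F u v = 0) → u = 0) :
    ∃ (X : Matrix (Fin m ⊕ Fin m) (Fin k ⊕ Fin k) F) (Y : Matrix (Fin m ⊕ Fin m) (Fin (m - k) ⊕ Fin (m - k)) F),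
      sh76 X * X = 1 ∧ sh76 Y * Y = 1 ∧ sh76 X * Y = 0 ∧ sh76 Y * X = 0 ∧
      X * sh76 X + Y * sh76 Y = 1 ∧ ∀ v, v ∈ W ↔ ∃ c, v = X *ᵥ c := by
  classical
  obtain ⟨B, hBdef⟩ : ∃ B, B = sB76 (F := F) m := ⟨_, rfl⟩
  have hBs : ∀ x y, B x y = sympForm m F x y := fun x y => by rw [hBdef]; rfl
  have hA : B.IsAlt := fun x => by rw [hBs]; exact sympForm_self m x
  -- W part
  obtain ⟨k', e, f, ⟨h1, h2, h3⟩, hdim⟩ := main52 (finrank F W) W (B.restrict W) rfl (fun x => hA (x : Fin m ⊕ Fin m → F))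
  have hkerW : LinearMap.ker (B.restrict W) = ⊥ := by
    rw [Submodule.eq_bot_iff]
    intro x hx
    apply Subtype.ext
    apply hW x.1 x.2
    intro v hv
    have h4 : (B.restrict W) x ⟨v, hv⟩ = 0 := by rw [LinearMap.mem_ker.mp hx]; rfl
    rw [← hBs]; exact h4
  rw [hkerW, finrank_bot, add_zero, hWk] at hdim
  obtain rfl : k' = k := by omega
  have h1' : ∀ i j, sympForm m F (e i : Fin m ⊕ Fin m → F) (f j : Fin m ⊕ Fin m → F) = if i = j then 1 else 0 :=
    fun i j => (hBs _ _).symm.trans (h1 i j)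
  have h2' : ∀ i j, sympForm m F (e i : Fin m ⊕ Fin m → F) (e j : Fin m ⊕ Fin m → F) = 0 :=
    fun i j => (hBs _ _).symm.trans (h2 i j)
  have h3' : ∀ i j, sympForm m F (f i : Fin m ⊕ Fin m → F) (f j : Fin m ⊕ Fin m → F) = 0 :=
    fun i j => (hBs _ _).symm.trans (h3 i j)
  obtain ⟨p, hp⟩ : ∃ p : (Fin k' → Fin m ⊕ Fin m → F) × (Fin k' → Fin m ⊕ Fin m → F),
      p = (fun i => (e i : Fin m ⊕ Fin m → F), fun i => (f i : Fin m ⊕ Fin m → F)) := ⟨_, rfl⟩
  have hfr : IsFr45 m k' p := by rw [hp]; exact ⟨h1', h2', h3'⟩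
  have hp1 : ∀ i, p.1 i = (e i : Fin m ⊕ Fin m → F) := fun i => by rw [hp]
  have hp2 : ∀ i, p.2 i = (f i : Fin m ⊕ Fin m → F) := fun i => by rw [hp]
  have hsurj : Function.Surjective (L45 m k' p) := fun ab => ⟨sec45 m k' p ab.1 ab.2, L_sec45 m k' p hfr ab.1 ab.2⟩
  have hfV : finrank F (Fin m ⊕ Fin m → F) = m + m := by
    rw [Module.finrank_fintype_fun_eq_card, Fintype.card_sum, Fintype.card_fin]
  have hfU : finrank F (LinearMap.ker (L45 m k' p)) = 2 * (m - k') := by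
    have h5 := LinearMap.finrank_range_add_finrank_ker (L45 m k' p)
    rw [LinearMap.range_eq_top.mpr hsurj, finrank_top, hfV, Module.finrank_prod, Module.finrank_fin_fun] at h5
    omega
  have hUp : ∀ x : LinearMap.ker (L45 m k' p), Pu45 m k' p (x : Fin m ⊕ Fin m → F) := fun x =>
    (L_zero45 m k' p _).mp (LinearMap.mem_ker.mp x.2)
  have hkerU : LinearMap.ker (B.restrict (LinearMap.ker (L45 m k' p))) = ⊥ := by
    rw [Submodule.eq_bot_iff]
    intro x hx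
    apply Subtype.ext
    by_contra hx0
    obtain ⟨z, hz⟩ := nondeg28 m (x : Fin m ⊕ Fin m → F) hx0
    apply hz
    have hmem' : z - sec45 m k' p (L45 m k' p z).1 (L45 m k' p z).2 ∈ LinearMap.ker (L45 m k' p) := by
      rw [LinearMap.mem_ker, map_sub, L_sec45 m k' p hfr]; exact sub_self _
    have h4 : (B.restrict (LinearMap.ker (L45 m k' p))) x ⟨_, hmem'⟩ = 0 := by
      rw [LinearMap.mem_ker.mp hx]; rfl
    have h5 : sympForm m F (x : Fin m ⊕ Fin m → F) (z - sec45 m k' p (L45 m k' p z).1 (L45 m k' p z).2) = 0 :=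
      (hBs _ _).symm.trans h4
    rw [sympForm_sub_right, sec_orth45 m k' p _ (hUp x), sub_zero] at h5
    exact h5
  obtain ⟨k'', e', f', ⟨g1, g2, g3⟩, hdim'⟩ := main52 (finrank F (LinearMap.ker (L45 m k' p))) (LinearMap.ker (L45 m k' p))
    (B.restrict (LinearMap.ker (L45 m k' p))) rfl (fun x => hA (x : Fin m ⊕ Fin m → F))
  rw [hkerU, finrank_bot, add_zero, hfU] at hdim'
  obtain rfl : k'' = m - k' := by omega
  have g1' : ∀ i j, sympForm m F (e' i : Fin m ⊕ Fin m → F) (f' j : Fin m ⊕ Fin m → F) = if i = j then 1 else 0 :=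
    fun i j => (hBs _ _).symm.trans (g1 i j)
  have g2' : ∀ i j, sympForm m F (e' i : Fin m ⊕ Fin m → F) (e' j : Fin m ⊕ Fin m → F) = 0 :=
    fun i j => (hBs _ _).symm.trans (g2 i j)
  have g3' : ∀ i j, sympForm m F (f' i : Fin m ⊕ Fin m → F) (f' j : Fin m ⊕ Fin m → F) = 0 :=
    fun i j => (hBs _ _).symm.trans (g3 i j)
  obtain ⟨X, hX⟩ : ∃ X : Matrix (Fin m ⊕ Fin m) (Fin k' ⊕ Fin k') F,
      X = Matrix.of (fun a c => Sum.elim (fun i => (f i : Fin m ⊕ Fin m → F) a) (fun i => (e i : Fin m ⊕ Fin m → F) a) c) :=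
    ⟨_, rfl⟩
  obtain ⟨Y, hY⟩ : ∃ Y : Matrix (Fin m ⊕ Fin m) (Fin (m - k') ⊕ Fin (m - k')) F,
      Y = Matrix.of (fun a c => Sum.elim (fun i => (f' i : Fin m ⊕ Fin m → F) a) (fun i => (e' i : Fin m ⊕ Fin m → F) a) c) :=
    ⟨_, rfl⟩
  have hXl : ∀ i, (fun a => X a (Sum.inl i)) = (f i : Fin m ⊕ Fin m → F) := fun i => by rw [hX]; rfl
  have hXr : ∀ i, (fun a => X a (Sum.inr i)) = (e i : Fin m ⊕ Fin m → F) := fun i => by rw [hX]; rfl
  have hYl : ∀ i, (fun a => Y a (Sum.inl i)) = (f' i : Fin m ⊕ Fin m → F) := fun i => by rw [hY]; rfl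
  have hYr : ∀ i, (fun a => Y a (Sum.inr i)) = (e' i : Fin m ⊕ Fin m → F) := fun i => by rw [hY]; rfl
  have hPe : ∀ (u : LinearMap.ker (L45 m k' p)) (i : Fin k'), sympForm m F (e i : Fin m ⊕ Fin m → F) (u : Fin m ⊕ Fin m → F) = 0 := by
    intro u i
    have h6 := (hUp u).1 i
    rw [hp1] at h6; exact h6
  have hPf : ∀ (u : LinearMap.ker (L45 m k' p)) (i : Fin k'), sympForm m F (f i : Fin m ⊕ Fin m → F) (u : Fin m ⊕ Fin m → F) = 0 := by
    intro u i
    have h6 := (hUp u).2 i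
    rw [hp2] at h6; exact h6
  have hXX' : Xᵀ * Matrix.J (Fin m) F * X = Matrix.J (Fin k') F := by
    ext a b
    rw [gram76]
    rcases a with i | i <;> rcases b with j | j
    · rw [hXl, hXl]; exact (h3' i j).trans (by simp [Matrix.J])
    · rw [hXl, hXr, sympForm_swap]
      refine (congrArg Neg.neg (h1' j i)).trans ?_
      simp [Matrix.J, Matrix.one_apply, eq_comm]
    · rw [hXr, hXl]; exact (h1' i j).trans (by simp [Matrix.J, Matrix.one_apply])
    · rw [hXr, hXr]; exact (h2' i j).trans (by simp [Matrix.J])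
  have hYY' : Yᵀ * Matrix.J (Fin m) F * Y = Matrix.J (Fin (m - k')) F := by
    ext a b
    rw [gram76]
    rcases a with i | i <;> rcases b with j | j
    · rw [hYl, hYl]; exact (g3' i j).trans (by simp [Matrix.J])
    · rw [hYl, hYr, sympForm_swap]
      refine (congrArg Neg.neg (g1' j i)).trans ?_
      simp [Matrix.J, Matrix.one_apply, eq_comm]
    · rw [hYr, hYl]; exact (g1' i j).trans (by simp [Matrix.J, Matrix.one_apply])
    · rw [hYr, hYr]; exact (g2' i j).trans (by simp [Matrix.J])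
  have hXY' : Xᵀ * Matrix.J (Fin m) F * Y = 0 := by
    ext a b
    rw [gram76]
    rcases a with i | i <;> rcases b with j | j
    · rw [hXl, hYl]; exact hPf (f' j) i
    · rw [hXl, hYr]; exact hPf (e' j) i
    · rw [hXr, hYl]; exact hPe (f' j) i
    · rw [hXr, hYr]; exact hPe (e' j) i
  have hYX' : Yᵀ * Matrix.J (Fin m) F * X = 0 := by
    ext a b
    rw [gram76, sympForm_swap]
    rcases a with i | i <;> rcases b with j | j
    · rw [hXl, hYl, hPf (f' i) j]; simp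
    · rw [hXr, hYl, hPe (f' i) j]; simp
    · rw [hXl, hYr, hPf (e' i) j]; simp
    · rw [hXr, hYr, hPe (e' i) j]; simp
  have hXX : sh76 X * X = 1 := by
    unfold sh76
    rw [Matrix.mul_assoc, Matrix.mul_assoc, ← Matrix.mul_assoc Xᵀ, hXX', Matrix.neg_mul, Matrix.J_squared, neg_neg]
  have hYY : sh76 Y * Y = 1 := by
    unfold sh76
    rw [Matrix.mul_assoc, Matrix.mul_assoc, ← Matrix.mul_assoc Yᵀ, hYY', Matrix.neg_mul, Matrix.J_squared, neg_neg]
  have hXY : sh76 X * Y = 0 := by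
    unfold sh76
    rw [Matrix.mul_assoc, Matrix.mul_assoc, ← Matrix.mul_assoc Xᵀ, hXY', Matrix.mul_zero]
  have hYX : sh76 Y * X = 0 := by
    unfold sh76
    rw [Matrix.mul_assoc, Matrix.mul_assoc, ← Matrix.mul_assoc Yᵀ, hYX', Matrix.mul_zero]
  refine ⟨X, Y, hXX, hYY, hXY, hYX, ?_, ?_⟩
  · have hP : Matrix.fromRows (sh76 X) (sh76 Y) * Matrix.fromCols X Y = 1 := by
      rw [Matrix.fromRows_mul_fromCols, hXX, hYY, hXY, hYX, Matrix.fromBlocks_one]
    have e0 : Fin m ⊕ Fin m ≃ (Fin k' ⊕ Fin k') ⊕ (Fin (m - k') ⊕ Fin (m - k')) :=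
      Fintype.equivOfCardEq (by simp only [Fintype.card_sum, Fintype.card_fin]; omega)
    have h5 := (Matrix.fromCols_mul_fromRows_eq_one_comm e0 X Y (sh76 X) (sh76 Y)).mpr hP
    rwa [Matrix.fromCols_mul_fromRows] at h5
  · have hinj : Function.Injective (Matrix.mulVecLin X) := by
      intro c c' h
      have h' : sh76 X *ᵥ (X *ᵥ c) = sh76 X *ᵥ (X *ᵥ c') := by rw [show X *ᵥ c = X *ᵥ c' from h]
      rwa [Matrix.mulVec_mulVec, Matrix.mulVec_mulVec, hXX, Matrix.one_mulVec, Matrix.one_mulVec] at h'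
    have hle : LinearMap.range (Matrix.mulVecLin X) ≤ W := by
      rintro _ ⟨c, rfl⟩
      show X *ᵥ c ∈ W
      have h7 : X *ᵥ c = ∑ a, c a • (fun b => X b a) := by
        funext b; simp [Matrix.mulVec, dotProduct, mul_comm]
      rw [h7]
      apply Submodule.sum_mem
      intro a _
      apply Submodule.smul_mem
      rcases a with i | i
      · rw [hXl]; exact (f i).2
      · rw [hXr]; exact (e i).2
    have hfr' : finrank F (LinearMap.range (Matrix.mulVecLin X)) = finrank F W := by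
      rw [LinearMap.finrank_range_of_inj hinj, Module.finrank_fintype_fun_eq_card, Fintype.card_sum, Fintype.card_fin,
        hWk]; omega
    have hRW := Submodule.eq_of_le_of_finrank_eq hle hfr'
    intro v
    rw [← hRW]
    constructor
    · rintro ⟨c, rfl⟩; exact ⟨c, rfl⟩
    · rintro ⟨c, rfl⟩; exact ⟨c, rfl⟩

theorem absorb76 {F : Type*} [Field F] {α β γ : Type*} [Fintype α] [Fintype β] [DecidableEq β]
    (P : Matrix β α F) (Q : Matrix α β F) (h : P * Q = 1) (M : Matrix β γ F) : P * (Q * M) = M := by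
  rw [← Matrix.mul_assoc, h, Matrix.one_mul]

theorem kill76 {F : Type*} [Field F] {α β β' γ : Type*} [Fintype α] [Fintype β']
    (P : Matrix β α F) (Q : Matrix α β' F) (h : P * Q = 0) (M : Matrix β' γ F) : P * (Q * M) = 0 := by
  rw [← Matrix.mul_assoc, h, Matrix.zero_mul]

/-- If W ≤ F^(2m) is a 2k-dimensional subspace on which the symplectic form is non-degenerate, then the stabiliser of W in Sp_2m(F) is isomorphic to Sp_2k(F) × Sp_(2m−2k)(F). -/
theorem result {F : Type*} [Field F] (m k : ℕ) (hk : k ≤ m) (W : Submodule F (Fin m ⊕ Fin m → F)) (hWk : Module.finrank F W = 2 * k) (hW : ∀ u ∈ W, (∀ v ∈ W, Cfsg.sympForm m F u v = 0) → u = 0) : Nonempty (↥(Cfsg.stabilizing (Cfsg.spToMat m F) (W : Set (Fin m ⊕ Fin m → F))) ≃* Matrix.symplecticGroup (Fin k) F × Matrix.symplecticGroup (Fin (m - k)) F) := by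
  classical
  obtain ⟨X, Y, hXX, hYY, hXY, hYX, hE, hWX⟩ := exists_XY76 m k hk W hWk hW
  have a1 : ∀ M : Matrix (Fin k ⊕ Fin k) (Fin m ⊕ Fin m) F, sh76 X * (X * M) = M := absorb76 _ _ hXX
  have a2 : ∀ M : Matrix (Fin (m - k) ⊕ Fin (m - k)) (Fin m ⊕ Fin m) F, sh76 X * (Y * M) = 0 := kill76 _ _ hXY
  have a3 : ∀ M : Matrix (Fin k ⊕ Fin k) (Fin m ⊕ Fin m) F, sh76 Y * (X * M) = 0 := kill76 _ _ hYX
  have a4 : ∀ M : Matrix (Fin (m - k) ⊕ Fin (m - k)) (Fin m ⊕ Fin m) F, sh76 Y * (Y * M) = M := absorb76 _ _ hYY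
  let Φ : Matrix (Fin k ⊕ Fin k) (Fin k ⊕ Fin k) F × Matrix (Fin (m - k) ⊕ Fin (m - k)) (Fin (m - k) ⊕ Fin (m - k)) F →*
      Matrix (Fin m ⊕ Fin m) (Fin m ⊕ Fin m) F :=
    { toFun := fun p => X * p.1 * sh76 X + Y * p.2 * sh76 Y
      map_one' := by
        show X * 1 * sh76 X + Y * 1 * sh76 Y = 1
        rw [Matrix.mul_one, Matrix.mul_one]; exact hE
      map_mul' := fun p p' => by
        show X * (p.1 * p'.1) * sh76 X + Y * (p.2 * p'.2) * sh76 Y =
          (X * p.1 * sh76 X + Y * p.2 * sh76 Y) * (X * p'.1 * sh76 X + Y * p'.2 * sh76 Y)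
        simp only [Matrix.add_mul, Matrix.mul_add, Matrix.mul_assoc, a1, a2, a3, a4, Matrix.mul_zero, add_zero,
          zero_add] }
  have hΦ : ∀ p, Φ p = X * p.1 * sh76 X + Y * p.2 * sh76 Y := fun p => rfl
  have hΦX : ∀ p, Φ p * X = X * p.1 := by
    intro p
    rw [hΦ, Matrix.add_mul, Matrix.mul_assoc (X * p.1), hXX, Matrix.mul_one, Matrix.mul_assoc (Y * p.2), hYX,
      Matrix.mul_zero, add_zero]
  have hΦY : ∀ p, Φ p * Y = Y * p.2 := by
    intro p
    rw [hΦ, Matrix.add_mul, Matrix.mul_assoc (X * p.1), hXY, Matrix.mul_zero, Matrix.mul_assoc (Y * p.2), hYY,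
      Matrix.mul_one, zero_add]
  have hΦ2 : ∀ p, sh76 X * Φ p * X = p.1 := by
    intro p
    rw [Matrix.mul_assoc, hΦX, ← Matrix.mul_assoc, hXX, Matrix.one_mul]
  have hΦ2' : ∀ p, sh76 Y * Φ p * Y = p.2 := by
    intro p
    rw [Matrix.mul_assoc, hΦY, ← Matrix.mul_assoc, hYY, Matrix.one_mul]
  have hΦ4 : ∀ p : Matrix (Fin k ⊕ Fin k) (Fin k ⊕ Fin k) F × Matrix (Fin (m - k) ⊕ Fin (m - k)) (Fin (m - k) ⊕ Fin (m - k)) F,
      sh76 (Φ p) = Φ (sh76 p.1, sh76 p.2) := by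
    intro p
    rw [hΦ, hΦ, sh_add76, sh_mul76, sh_mul76, sh_mul76, sh_mul76, sh_sh76, sh_sh76, Matrix.mul_assoc, Matrix.mul_assoc]
  let f₀ : Matrix.symplecticGroup (Fin k) F × Matrix.symplecticGroup (Fin (m - k)) F →*
      Matrix (Fin m ⊕ Fin m) (Fin m ⊕ Fin m) F :=
    Φ.comp ((Matrix.symplecticGroup (Fin k) F).subtype.prodMap (Matrix.symplecticGroup (Fin (m - k)) F).subtype)
  have hf₀ : ∀ x : Matrix.symplecticGroup (Fin k) F × Matrix.symplecticGroup (Fin (m - k)) F,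
      f₀ x = Φ ((x.1.1 : Matrix (Fin k ⊕ Fin k) (Fin k ⊕ Fin k) F),
        (x.2.1 : Matrix (Fin (m - k) ⊕ Fin (m - k)) (Fin (m - k) ⊕ Fin (m - k)) F)) := fun x => rfl
  have hSp : ∀ x, f₀ x ∈ Matrix.symplecticGroup (Fin m) F := by
    intro x
    rw [sp_iff76, hf₀, hΦ4, ← map_mul]
    have ha := (sp_iff76 _).mp x.1.2
    have hb := (sp_iff76 _).mp x.2.2
    rw [Prod.mk_mul_mk, ha, hb]
    exact map_one Φ
  have hSt : ∀ (x : Matrix.symplecticGroup (Fin k) F × Matrix.symplecticGroup (Fin (m - k)) F)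
      (v : Fin m ⊕ Fin m → F), v ∈ W → f₀ x *ᵥ v ∈ W := by
    intro x v hv
    obtain ⟨c, rfl⟩ := (hWX v).mp hv
    rw [Matrix.mulVec_mulVec, hf₀, hΦX, ← Matrix.mulVec_mulVec]
    exact (hWX _).mpr ⟨_, rfl⟩
  let f₁ : Matrix.symplecticGroup (Fin k) F × Matrix.symplecticGroup (Fin (m - k)) F →*
      Matrix.symplecticGroup (Fin m) F := f₀.codRestrict (Matrix.symplecticGroup (Fin m) F) hSp
  have hStab : ∀ x, f₁ x ∈ stabilizing (spToMat m F) (W : Set (Fin m ⊕ Fin m → F)) := by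
    intro x v
    show v ∈ W ↔ f₀ x *ᵥ v ∈ W
    constructor
    · exact hSt x v
    · intro h
      have h3 := hSt x⁻¹ _ h
      rw [Matrix.mulVec_mulVec, ← map_mul, inv_mul_cancel, map_one, Matrix.one_mulVec] at h3
      exact h3
  let f₂ : Matrix.symplecticGroup (Fin k) F × Matrix.symplecticGroup (Fin (m - k)) F →*
      ↥(stabilizing (spToMat m F) (W : Set (Fin m ⊕ Fin m → F))) :=
    f₁.codRestrict _ hStab
  have hf₂ : ∀ x, ((f₂ x).1.1 : Matrix (Fin m ⊕ Fin m) (Fin m ⊕ Fin m) F) =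
      Φ ((x.1.1 : Matrix (Fin k ⊕ Fin k) (Fin k ⊕ Fin k) F),
        (x.2.1 : Matrix (Fin (m - k) ⊕ Fin (m - k)) (Fin (m - k) ⊕ Fin (m - k)) F)) := fun x => rfl
  have hinj : Function.Injective f₂ := by
    intro x y hxy
    have h3 : Φ ((x.1.1 : Matrix (Fin k ⊕ Fin k) (Fin k ⊕ Fin k) F),
          (x.2.1 : Matrix (Fin (m - k) ⊕ Fin (m - k)) (Fin (m - k) ⊕ Fin (m - k)) F)) =
        Φ ((y.1.1 : Matrix (Fin k ⊕ Fin k) (Fin k ⊕ Fin k) F),
          (y.2.1 : Matrix (Fin (m - k) ⊕ Fin (m - k)) (Fin (m - k) ⊕ Fin (m - k)) F)) := by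
      rw [← hf₂, ← hf₂, hxy]
    have hA := hΦ2 ((x.1.1 : Matrix (Fin k ⊕ Fin k) (Fin k ⊕ Fin k) F),
          (x.2.1 : Matrix (Fin (m - k) ⊕ Fin (m - k)) (Fin (m - k) ⊕ Fin (m - k)) F))
    have hB := hΦ2' ((x.1.1 : Matrix (Fin k ⊕ Fin k) (Fin k ⊕ Fin k) F),
          (x.2.1 : Matrix (Fin (m - k) ⊕ Fin (m - k)) (Fin (m - k) ⊕ Fin (m - k)) F))
    rw [h3, hΦ2] at hA
    rw [h3, hΦ2'] at hB
    exact Prod.ext (Subtype.ext hA.symm) (Subtype.ext hB.symm)
  have hsurj : Function.Surjective f₂ := by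
    intro g
    obtain ⟨G, hG⟩ : ∃ G : Matrix (Fin m ⊕ Fin m) (Fin m ⊕ Fin m) F, G = (g.1.1 : Matrix (Fin m ⊕ Fin m) (Fin m ⊕ Fin m) F) :=
      ⟨_, rfl⟩
    have hGU' : sh76 G * G = 1 := by rw [hG]; exact (sp_iff76 _).mp g.1.2
    have hGG' : G * sh76 G = 1 := mul_eq_one_comm.mp hGU'
    have hst : ∀ v, v ∈ W ↔ G *ᵥ v ∈ W := by
      rw [hG]; exact g.2
    have hcol : ∀ j, ∃ c : Fin k ⊕ Fin k → F, G *ᵥ (X *ᵥ Pi.single j 1) = X *ᵥ c := fun j =>
      (hWX _).mp ((hst _).mp ((hWX _).mpr ⟨_, rfl⟩))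
    choose c hc using hcol
    have hGX : G * X = X * Matrix.of (fun a j => c j a) := by
      ext a j
      have h3 := congrFun (hc j) a
      rw [Matrix.mulVec_mulVec, Matrix.mulVec_single_one] at h3
      rw [Matrix.mul_apply]
      exact h3
    have hcol' : ∀ j, ∃ c : Fin k ⊕ Fin k → F, sh76 G *ᵥ (X *ᵥ Pi.single j 1) = X *ᵥ c := fun j =>
      (hWX _).mp ((hst _).mpr (by
        rw [Matrix.mulVec_mulVec, hGG', Matrix.one_mulVec]; exact (hWX _).mpr ⟨_, rfl⟩))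
    choose c' hc' using hcol'
    have hGX' : sh76 G * X = X * Matrix.of (fun a j => c' j a) := by
      ext a j
      have h3 := congrFun (hc' j) a
      rw [Matrix.mulVec_mulVec, Matrix.mulVec_single_one] at h3
      rw [Matrix.mul_apply]
      exact h3
    have ha : sh76 Y * G * X = 0 := by
      rw [Matrix.mul_assoc, hGX, ← Matrix.mul_assoc, hYX, Matrix.zero_mul]
    have hXG : sh76 X * G = sh76 (Matrix.of (fun a j => c' j a) : Matrix (Fin k ⊕ Fin k) (Fin k ⊕ Fin k) F) * sh76 X := by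
      calc sh76 X * G = sh76 X * sh76 (sh76 G) := by rw [sh_sh76]
        _ = sh76 (sh76 G * X) := (sh_mul76 _ _).symm
        _ = sh76 (X * Matrix.of (fun a j => c' j a)) := by rw [hGX']
        _ = sh76 (Matrix.of (fun a j => c' j a) : Matrix (Fin k ⊕ Fin k) (Fin k ⊕ Fin k) F) * sh76 X := sh_mul76 _ _
    have hb : sh76 X * G * Y = 0 := by
      rw [hXG, Matrix.mul_assoc, hXY, Matrix.mul_zero]
    obtain ⟨A, hA⟩ : ∃ A, A = sh76 X * G * X := ⟨_, rfl⟩
    obtain ⟨Bm, hBm⟩ : ∃ Bm, Bm = sh76 Y * G * Y := ⟨_, rfl⟩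
    have hΦG : Φ (A, Bm) = G := by
      symm
      calc G = 1 * G * 1 := by rw [Matrix.one_mul, Matrix.mul_one]
        _ = (X * sh76 X + Y * sh76 Y) * G * (X * sh76 X + Y * sh76 Y) := by rw [hE]
        _ = X * (sh76 X * G * X) * sh76 X + X * (sh76 X * G * Y) * sh76 Y +
            Y * (sh76 Y * G * X) * sh76 X + Y * (sh76 Y * G * Y) * sh76 Y := by
          simp only [Matrix.add_mul, Matrix.mul_add, Matrix.mul_assoc]; abel
        _ = Φ (A, Bm) := by
          rw [ha, hb, hΦ, hA, hBm]; simp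
    have hcsA : sh76 A = sh76 X * sh76 G * X := by
      rw [hA, sh_mul76, sh_mul76, sh_sh76, Matrix.mul_assoc]
    have hcsB : sh76 Bm = sh76 Y * sh76 G * Y := by
      rw [hBm, sh_mul76, sh_mul76, sh_sh76, Matrix.mul_assoc]
    have ha' : sh76 Y * (G * X) = 0 := by rw [← Matrix.mul_assoc]; exact ha
    have hb' : sh76 X * (G * Y) = 0 := by rw [← Matrix.mul_assoc]; exact hb
    have hA1 : sh76 A * A = 1 := by
      have hXcX : X * sh76 X = 1 - Y * sh76 Y := eq_sub_of_add_eq hE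
      calc sh76 A * A = sh76 X * (sh76 G * ((X * sh76 X) * (G * X))) := by
            rw [hcsA, hA]; simp only [Matrix.mul_assoc]
        _ = sh76 X * (sh76 G * ((1 - Y * sh76 Y) * (G * X))) := by rw [hXcX]
        _ = sh76 X * (sh76 G * (G * X)) - sh76 X * (sh76 G * (Y * (sh76 Y * (G * X)))) := by
            simp only [Matrix.sub_mul, Matrix.mul_sub, Matrix.one_mul, Matrix.mul_assoc]
        _ = 1 := by
            rw [← Matrix.mul_assoc (sh76 G), hGU', Matrix.one_mul, hXX, ha', Matrix.mul_zero, Matrix.mul_zero,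
              Matrix.mul_zero, sub_zero]
    have hB1 : sh76 Bm * Bm = 1 := by
      have hYcY : Y * sh76 Y = 1 - X * sh76 X := eq_sub_of_add_eq' hE
      calc sh76 Bm * Bm = sh76 Y * (sh76 G * ((Y * sh76 Y) * (G * Y))) := by
            rw [hcsB, hBm]; simp only [Matrix.mul_assoc]
        _ = sh76 Y * (sh76 G * ((1 - X * sh76 X) * (G * Y))) := by rw [hYcY]
        _ = sh76 Y * (sh76 G * (G * Y)) - sh76 Y * (sh76 G * (X * (sh76 X * (G * Y)))) := by
            simp only [Matrix.sub_mul, Matrix.mul_sub, Matrix.one_mul, Matrix.mul_assoc]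
        _ = 1 := by
            rw [← Matrix.mul_assoc (sh76 G), hGU', Matrix.one_mul, hYY, hb', Matrix.mul_zero, Matrix.mul_zero,
              Matrix.mul_zero, sub_zero]
    refine ⟨(⟨A, (sp_iff76 _).mpr hA1⟩, ⟨Bm, (sp_iff76 _).mpr hB1⟩), ?_⟩
    apply Subtype.ext; apply Subtype.ext
    rw [hf₂]
    exact hΦG.trans hG
  exact ⟨(MulEquiv.ofBijective f₂ ⟨hinj, hsurj⟩).symm⟩

end Cfsg.Agent.S0776
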