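import Cfsg.Statements.S0778
import Mathlib
import Cfsg.Statements.S0778

set_option autoImplicit false
open Cfsg
open scoped commutatorElement

namespace Cfsg.Agent.S0778

open Cfsg Matrix

theorem sp_mem78 {F : Type*} [Field F] (m : ℕ) (A D : Matrix (Fin m) (Fin m) F) (h1 : A * Dᵀ = 1) :
    Matrix.fromBlocks A 0 0 D ∈ Matrix.symplecticGroup (Fin m) F := by
  have h2 : D * Aᵀ = 1 := by
    have := congrArg Matrix.transpose h1
    rw [Matrix.transpose_mul, Matrix.transpose_transpose, Matrix.transpose_one] at this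
    exact this
  rw [SymplecticGroup.mem_iff, Matrix.J, Matrix.fromBlocks_transpose, Matrix.fromBlocks_multiply, Matrix.fromBlocks_multiply]
  simp [h1, h2]

noncomputable def psi78 {F : Type*} [Field F] (m : ℕ) : Matrix.GeneralLinearGroup (Fin m) F →* Matrix.symplecticGroup (Fin m) F :=
  MonoidHom.mk' (fun A => ⟨Matrix.fromBlocks (A : Matrix (Fin m) (Fin m) F) 0 0 ((A⁻¹ : Matrix.GeneralLinearGroup (Fin m) F) : Matrix (Fin m) (Fin m) F)ᵀ, by
      apply sp_mem78
      rw [Matrix.transpose_transpose, ← Units.val_mul, mul_inv_cancel]; rfl⟩) (by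
    intro A B
    apply Subtype.ext
    simp [Matrix.fromBlocks_multiply, _root_.mul_inv_rev, Matrix.transpose_mul])

theorem psi_val78 {F : Type*} [Field F] (m : ℕ) (A : Matrix.GeneralLinearGroup (Fin m) F) :
    ((psi78 m A : Matrix.symplecticGroup (Fin m) F) : Matrix (Fin m ⊕ Fin m) (Fin m ⊕ Fin m) F) = Matrix.fromBlocks (A : Matrix (Fin m) (Fin m) F) 0 0 ((A⁻¹ : Matrix.GeneralLinearGroup (Fin m) F) : Matrix (Fin m) (Fin m) F)ᵀ := rfl

theorem psi_inj78 {F : Type*} [Field F] (m : ℕ) : Function.Injective (psi78 (F := F) m) := by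
  intro A B hAB
  have h := congrArg (fun x : Matrix.symplecticGroup (Fin m) F => (x : Matrix (Fin m ⊕ Fin m) (Fin m ⊕ Fin m) F)) hAB
  simp only [psi_val78] at h
  apply Units.ext
  exact (Matrix.fromBlocks_inj.mp h).1

/-- The elements of Sp_2m(F) stabilising both W = ⟨e_1..e_m⟩ and U = ⟨f_1..f_m⟩ form a subgroup isomorphic to GL_m(F) (block-diagonal matrices diag(X, X^(−ᵀ)) up to the sign convention of J), for m ≥ 1 or m = 0 alike. -/
theorem result {F : Type*} [Field F] (m : ℕ) : Nonempty (↥(Cfsg.stabilizing (Cfsg.spToMat m F) {v : Fin m ⊕ Fin m → F | ∀ i : Fin m, v (Sum.inr i) = 0} ⊓ Cfsg.stabilizing (Cfsg.spToMat m F) {v : Fin m ⊕ Fin m → F | ∀ i : Fin m, v (Sum.inl i) = 0}) ≃* Matrix.GeneralLinearGroup (Fin m) F) := by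
  have hrange : (psi78 (F := F) m).range = Cfsg.stabilizing (Cfsg.spToMat m F) {v : Fin m ⊕ Fin m → F | ∀ i : Fin m, v (Sum.inr i) = 0} ⊓ Cfsg.stabilizing (Cfsg.spToMat m F) {v : Fin m ⊕ Fin m → F | ∀ i : Fin m, v (Sum.inl i) = 0} := by
    ext M
    constructor
    · rintro ⟨A, rfl⟩
      have h1 : (A : Matrix (Fin m) (Fin m) F) * ((A⁻¹ : Matrix.GeneralLinearGroup (Fin m) F) : Matrix (Fin m) (Fin m) F) = 1 := by
        rw [← Units.val_mul, mul_inv_cancel]; rfl
      have h2 : ((A⁻¹ : Matrix.GeneralLinearGroup (Fin m) F) : Matrix (Fin m) (Fin m) F) * (A : Matrix (Fin m) (Fin m) F) = 1 := by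
        rw [← Units.val_mul, inv_mul_cancel]; rfl
      have h3 : (A : Matrix (Fin m) (Fin m) F)ᵀ * ((A⁻¹ : Matrix.GeneralLinearGroup (Fin m) F) : Matrix (Fin m) (Fin m) F)ᵀ = 1 := by
        rw [← Matrix.transpose_mul, h2, Matrix.transpose_one]
      refine ⟨?_, ?_⟩
      · intro v
        show (∀ i : Fin m, v (Sum.inr i) = 0) ↔ (∀ i : Fin m, (((psi78 m A : Matrix.symplecticGroup (Fin m) F) : Matrix (Fin m ⊕ Fin m) (Fin m ⊕ Fin m) F) *ᵥ v) (Sum.inr i) = 0)
        rw [psi_val78]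
        simp only [Matrix.fromBlocks_mulVec, Sum.elim_inr, Matrix.zero_mulVec, zero_add]
        constructor
        · intro hv i
          have : v ∘ Sum.inr = 0 := funext hv
          rw [this, Matrix.mulVec_zero]; rfl
        · intro hv i
          have h0 : ((A⁻¹ : Matrix.GeneralLinearGroup (Fin m) F) : Matrix (Fin m) (Fin m) F)ᵀ *ᵥ (v ∘ Sum.inr) = 0 := funext hv
          have := congrArg (fun w => (A : Matrix (Fin m) (Fin m) F)ᵀ *ᵥ w) h0
          simp only [Matrix.mulVec_mulVec, h3, Matrix.one_mulVec, Matrix.mulVec_zero] at this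
          exact congrFun this i
      · intro v
        show (∀ i : Fin m, v (Sum.inl i) = 0) ↔ (∀ i : Fin m, (((psi78 m A : Matrix.symplecticGroup (Fin m) F) : Matrix (Fin m ⊕ Fin m) (Fin m ⊕ Fin m) F) *ᵥ v) (Sum.inl i) = 0)
        rw [psi_val78]
        simp only [Matrix.fromBlocks_mulVec, Sum.elim_inl, Matrix.zero_mulVec, add_zero]
        constructor
        · intro hv i
          have : v ∘ Sum.inl = 0 := funext hv
          rw [this, Matrix.mulVec_zero]; rfl
        · intro hv i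
          have h0 : (A : Matrix (Fin m) (Fin m) F) *ᵥ (v ∘ Sum.inl) = 0 := funext hv
          have := congrArg (fun w => ((A⁻¹ : Matrix.GeneralLinearGroup (Fin m) F) : Matrix (Fin m) (Fin m) F) *ᵥ w) h0
          simp only [Matrix.mulVec_mulVec, h2, Matrix.one_mulVec, Matrix.mulVec_zero] at this
          exact congrFun this i
    · rintro ⟨hS1, hS2⟩
      have hS1' : ∀ v : Fin m ⊕ Fin m → F, (∀ i : Fin m, v (Sum.inr i) = 0) ↔ (∀ i : Fin m, ((M : Matrix (Fin m ⊕ Fin m) (Fin m ⊕ Fin m) F) *ᵥ v) (Sum.inr i) = 0) := hS1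
      have hS2' : ∀ v : Fin m ⊕ Fin m → F, (∀ i : Fin m, v (Sum.inl i) = 0) ↔ (∀ i : Fin m, ((M : Matrix (Fin m ⊕ Fin m) (Fin m ⊕ Fin m) F) *ᵥ v) (Sum.inl i) = 0) := hS2
      -- blocks
      have hC : (M : Matrix (Fin m ⊕ Fin m) (Fin m ⊕ Fin m) F).toBlocks₂₁ = 0 := by
        ext i j
        have := (hS1' (Pi.single (Sum.inl j) 1)).mp (by intro i; simp) i
        rw [Matrix.mulVec_single_one] at this
        exact this
      have hB : (M : Matrix (Fin m ⊕ Fin m) (Fin m ⊕ Fin m) F).toBlocks₁₂ = 0 := by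
        ext i j
        have := (hS2' (Pi.single (Sum.inr j) 1)).mp (by intro i; simp) i
        rw [Matrix.mulVec_single_one] at this
        exact this
      have hM : (M : Matrix (Fin m ⊕ Fin m) (Fin m ⊕ Fin m) F) = Matrix.fromBlocks (M : Matrix (Fin m ⊕ Fin m) (Fin m ⊕ Fin m) F).toBlocks₁₁ 0 0 (M : Matrix (Fin m ⊕ Fin m) (Fin m ⊕ Fin m) F).toBlocks₂₂ := by
        conv_lhs => rw [← Matrix.fromBlocks_toBlocks (M : Matrix (Fin m ⊕ Fin m) (Fin m ⊕ Fin m) F)]
        rw [hC, hB]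
      have hsp := (SymplecticGroup.mem_iff).mp M.2
      rw [hM, Matrix.J, Matrix.fromBlocks_transpose, Matrix.fromBlocks_multiply, Matrix.fromBlocks_multiply] at hsp
      have hAD : (M : Matrix (Fin m ⊕ Fin m) (Fin m ⊕ Fin m) F).toBlocks₁₁ * ((M : Matrix (Fin m ⊕ Fin m) (Fin m ⊕ Fin m) F).toBlocks₂₂)ᵀ = 1 := by
        have := (Matrix.fromBlocks_inj.mp hsp).2.1
        simp at this
        exact this
      have hDA : ((M : Matrix (Fin m ⊕ Fin m) (Fin m ⊕ Fin m) F).toBlocks₂₂)ᵀ * (M : Matrix (Fin m ⊕ Fin m) (Fin m ⊕ Fin m) F).toBlocks₁₁ = 1 := mul_eq_one_comm.mp hAD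
      refine ⟨⟨_, _, hAD, hDA⟩, ?_⟩
      apply Subtype.ext
      rw [psi_val78]
      refine Eq.trans ?_ hM.symm
      simp
  exact ⟨((MonoidHom.ofInjective (psi_inj78 (F := F) m)).trans (MulEquiv.subgroupCongr hrange)).symm⟩

end Cfsg.Agent.S0778
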