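import Mathlib
import Cfsg.Statements.S0779

set_option autoImplicit false
open Cfsg
open Matrix

namespace Cfsg.Agent.S0779

theorem herm_add_left {F : Type*} [Field F] (n q : ℕ) (x x' y : Fin n → F) :
    hermForm n F q (x + x') y = hermForm n F q x y + hermForm n F q x' y := by
  unfold hermForm; simp only [Pi.add_apply, add_mul, Finset.sum_add_distrib]

theorem herm_smul_left {F : Type*} [Field F] (n q : ℕ) (a : F) (x y : Fin n → F) :
    hermForm n F q (a • x) y = a * hermForm n F q x y := by
  unfold hermForm; simp only [Pi.smul_apply, smul_eq_mul, Finset.mul_sum, mul_assoc]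

theorem herm_add_right {F : Type*} [Field F] (n q : ℕ)
    (hadd : ∀ a b : F, (a + b) ^ q = a ^ q + b ^ q) (x y y' : Fin n → F) :
    hermForm n F q x (y + y') = hermForm n F q x y + hermForm n F q x y' := by
  unfold hermForm; simp only [Pi.add_apply, hadd, mul_add, Finset.sum_add_distrib]

theorem herm_smul_right {F : Type*} [Field F] (n q : ℕ) (a : F) (x y : Fin n → F) :
    hermForm n F q x (a • y) = a ^ q * hermForm n F q x y := by
  unfold hermForm; simp only [Pi.smul_apply, smul_eq_mul, mul_pow, Finset.mul_sum]
  apply Finset.sum_congr rfl; intro i _; ring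

theorem herm_pow {F : Type*} [Field F] (n q : ℕ) (hq0 : q ≠ 0)
    (hadd : ∀ a b : F, (a + b) ^ q = a ^ q + b ^ q) (hqq : ∀ a : F, (a ^ q) ^ q = a)
    (x y : Fin n → F) : (hermForm n F q x y) ^ q = hermForm n F q y x := by
  unfold hermForm
  let φ : F →+ F := { toFun := fun a => a ^ q, map_zero' := zero_pow hq0, map_add' := hadd }
  have h : (∑ i, x i * y i ^ q) ^ q = ∑ i, (x i * y i ^ q) ^ q := map_sum φ _ _
  rw [h]; apply Finset.sum_congr rfl; intro i _; rw [mul_pow, hqq, mul_comm]

theorem T_mulVec {F : Type*} [Field F] (n q : ℕ) (v : Fin n → F) (c : F) (x : Fin n → F) :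
    (unitaryTransvection n q v c) *ᵥ x = x + (c * hermForm n F q x v) • v := by
  unfold unitaryTransvection
  rw [Matrix.add_mulVec, Matrix.one_mulVec, Matrix.smul_mulVec, Matrix.vecMulVec_mulVec,
    op_smul_eq_smul, smul_smul]
  congr 3
  unfold hermForm dotProduct; apply Finset.sum_congr rfl; intro i _; ring

theorem result {F : Type*} [Field F] [Fintype F] {q : ℕ} (hF : Fintype.card F = q ^ 2) (n : ℕ) (v : Fin n → F) (hv : v ≠ 0) (hv0 : Cfsg.hermForm n F q v v = 0) (c : F) : (∀ x y : Fin n → F, Cfsg.hermForm n F q ((Cfsg.unitaryTransvection n q v c).mulVec x) ((Cfsg.unitaryTransvection n q v c).mulVec y) = Cfsg.hermForm n F q x y) ↔ (c = 0 ∨ c ^ (q - 1) = -1) := by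
  classical
  obtain ⟨p, hp⟩ := CharP.exists F
  obtain ⟨m, hpp, hm⟩ := FiniteField.card F p
  have : Fact p.Prime := ⟨hpp⟩
  have hq0 : q ≠ 0 := by
    rintro rfl
    have : 0 < Fintype.card F := Fintype.card_pos
    rw [hF] at this; simp at this
  obtain ⟨k, -, hk⟩ : ∃ k ≤ (m : ℕ), q = p ^ k := by
    apply (Nat.dvd_prime_pow hpp).mp
    rw [← hm, hF]; exact Dvd.intro_left (q ^ 1) (by ring)
  have hadd : ∀ a b : F, (a + b) ^ q = a ^ q + b ^ q := by
    intro a b; rw [hk]; exact add_pow_char_pow a b p k
  have hqq : ∀ a : F, (a ^ q) ^ q = a := by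
    intro a
    rw [← pow_mul, ← sq, ← hF]; exact FiniteField.pow_card a
  have key : ∀ x y : Fin n → F, hermForm n F q ((unitaryTransvection n q v c) *ᵥ x)
      ((unitaryTransvection n q v c) *ᵥ y)
      = hermForm n F q x y + (c ^ q + c) * hermForm n F q x v * hermForm n F q v y := by
    intro x y
    simp only [T_mulVec, herm_add_left, herm_add_right n q hadd, herm_smul_left, herm_smul_right,
      hv0, mul_pow, herm_pow n q hq0 hadd hqq]
    ring
  constructor
  · intro h
    obtain ⟨i, hi⟩ := Function.ne_iff.mp hv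
    have hi' : v i ≠ 0 := hi
    have h1 := h (Pi.single i 1) (Pi.single i 1)
    rw [key] at h1
    have e1 : hermForm n F q (Pi.single i 1) v = v i ^ q := by
      unfold hermForm
      rw [Finset.sum_eq_single i]
      · simp
      · intro j _ hji; simp [hji]
      · intro h; exact absurd (Finset.mem_univ i) h
    have e2 : hermForm n F q v (Pi.single i 1) = v i := by
      unfold hermForm
      rw [Finset.sum_eq_single i]
      · simp
      · intro j _ hji; simp [hji, hq0]
      · intro h; exact absurd (Finset.mem_univ i) h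
    rw [e1, e2] at h1
    have h2 : (c ^ q + c) * v i ^ q * v i = 0 := by linear_combination h1
    have h3 : c ^ q + c = 0 := by
      rcases mul_eq_zero.mp h2 with h | h
      · rcases mul_eq_zero.mp h with h | h
        · exact h
        · exact absurd (pow_eq_zero_iff hq0 |>.mp h) hi'
      · exact absurd h hi'
    have h4 : c * (c ^ (q - 1) + 1) = 0 := by
      have : c ^ q = c ^ (q - 1) * c := by
        rw [← pow_succ]; congr 1; omega
      rw [this] at h3; linear_combination h3
    rcases mul_eq_zero.mp h4 with h | h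
    · left; exact h
    · right; linear_combination h
  · intro h x y
    rw [key]
    have h3 : c ^ q + c = 0 := by
      rcases h with h | h
      · rw [h, zero_pow hq0, add_zero]
      · have : c ^ q = c ^ (q - 1) * c := by
          rw [← pow_succ]; congr 1; omega
        rw [this, h]; ring
    rw [h3]; ring

end Cfsg.Agent.S0779
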