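import Cfsg.Statements.S0783
import Mathlib
import Cfsg.Statements.S0783
import Cfsg.Agent.S0277
import Cfsg.Agent.S0278
import Cfsg.Agent.S0279
import Cfsg.Agent.Lib.Lead.HermCount

set_option autoImplicit false
open Cfsg
open scoped commutatorElement

namespace Cfsg.Agent.S0783

open Matrix Module
open Cfsg.Agent.Lib.Lead Cfsg.Agent.S0277 Cfsg.Agent.S0278 Cfsg.Agent.S0279

theorem ker_eq_range83 {G : Type*} [CommGroup G] [Finite G] [IsCyclic G] (m k : ℕ) (h : m * k = Nat.card G) :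
    (powMonoidHom m : G →* G).ker = (powMonoidHom k : G →* G).range := by
  have hN : 0 < Nat.card G := Nat.card_pos
  have hm : 0 < m := Nat.pos_of_ne_zero (by rintro rfl; rw [zero_mul] at h; omega)
  have hk : 0 < k := Nat.pos_of_ne_zero (by rintro rfl; rw [mul_zero] at h; omega)
  have hle : (powMonoidHom k : G →* G).range ≤ (powMonoidHom m : G →* G).ker := by
    rintro _ ⟨y, rfl⟩
    rw [MonoidHom.mem_ker, powMonoidHom_apply, powMonoidHom_apply, ← pow_mul, mul_comm, h]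
    exact pow_card_eq_one'
  have hcard : Nat.card (powMonoidHom k : G →* G).range = Nat.card (powMonoidHom m : G →* G).ker := by
    rw [IsCyclic.card_powMonoidHom_range, IsCyclic.card_powMonoidHom_ker, ← h,
      Nat.gcd_eq_right (Dvd.intro_left _ rfl), Nat.gcd_eq_right (Dvd.intro _ rfl)]
    exact Nat.mul_div_cancel _ hk
  exact (Subgroup.eq_of_le_of_card_ge hle hcard.ge).symm

theorem scal_gu83 {F : Type*} [Field F] [Fintype F] {q : ℕ} (hF : Fintype.card F = q ^ 2) (n : ℕ) (u : Fˣ)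
    (hu : u ^ (q + 1) = 1) :
    ∃ s : GU n F q, (s.1 : Matrix (Fin n) (Fin n) F) = Matrix.diagonal (fun _ => (u : F)) := by
  have h2 := herm_two_le hF
  have hunit : IsUnit (Matrix.diagonal (fun _ : Fin n => (u : F))) := by
    rw [Matrix.isUnit_iff_isUnit_det, Matrix.det_diagonal, Finset.prod_const]
    exact (u.isUnit).pow _
  refine ⟨⟨hunit.unit, (gu_mem77 hF n hunit.unit).mpr (by
    rw [IsUnit.unit_spec]
    exact diag_on79 n q (by omega) _ (fun i => by rw [← pow_succ', ← Units.val_pow_eq_pow_val, hu, Units.val_one]))⟩, ?_⟩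
  exact IsUnit.unit_spec hunit

theorem scal_central83 {F : Type*} [Field F] (n q : ℕ) (s : GU n F q) (c : F)
    (hs : (s.1 : Matrix (Fin n) (Fin n) F) = Matrix.diagonal (fun _ => c)) :
    s ∈ Subgroup.center (GU n F q) := by
  rw [Subgroup.mem_center_iff]
  intro g
  apply Subtype.ext; apply Units.ext
  show (g.1 : Matrix (Fin n) (Fin n) F) * (s.1 : Matrix (Fin n) (Fin n) F) =
    (s.1 : Matrix (Fin n) (Fin n) F) * (g.1 : Matrix (Fin n) (Fin n) F)
  rw [hs]
  ext i j
  rw [Matrix.mul_diagonal, Matrix.diagonal_mul, mul_comm]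

theorem scal_det83 {F : Type*} [Field F] (n q : ℕ) (s : GU n F q) (u : Fˣ)
    (hs : (s.1 : Matrix (Fin n) (Fin n) F) = Matrix.diagonal (fun _ => (u : F))) :
    dGU78 n q s = u ^ n := by
  apply Units.ext
  show (s.1 : Matrix (Fin n) (Fin n) F).det = ((u ^ n : Fˣ) : F)
  rw [hs, Matrix.det_diagonal, Finset.prod_const, Finset.card_univ, Fintype.card_fin, Units.val_pow_eq_pow_val]

theorem center_gu83 {F : Type*} [Field F] [Fintype F] {q : ℕ} (hF : Fintype.card F = q ^ 2) (n : ℕ) (hn : 1 ≤ n)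
    (z : GU n F q) (hz : z ∈ Subgroup.center (GU n F q)) :
    ∃ l : F, (z.1 : Matrix (Fin n) (Fin n) F) = Matrix.diagonal (fun _ => l) ∧ l * l ^ q = 1 := by
  classical
  have hzc : ∀ s : Matrix.SpecialLinearGroup (Fin n) F, s ∈ SU n F q →
      (z.1 : Matrix (Fin n) (Fin n) F) * s.1 = s.1 * (z.1 : Matrix (Fin n) (Fin n) F) := by
    intro s hs
    have h1 := Subgroup.mem_center_iff.mp hz ⟨Matrix.SpecialLinearGroup.toGL s, hs⟩
    exact (congrArg (fun t : GU n F q => (t.1 : Matrix (Fin n) (Fin n) F)) h1).symm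
  have hsc := scalar_of_comm79 hF n _ hzc ⟨0, hn⟩
  set l : F := (z.1 : Matrix (Fin n) (Fin n) F) ⟨0, hn⟩ ⟨0, hn⟩ with hl
  refine ⟨l, hsc, ?_⟩
  have hON := (gu_mem77 hF n z.1).mp z.2 ⟨0, hn⟩ ⟨0, hn⟩
  rw [if_pos rfl] at hON
  have h5 : ∑ a, (z.1 : Matrix (Fin n) (Fin n) F) a ⟨0, hn⟩ * ((z.1 : Matrix (Fin n) (Fin n) F) a ⟨0, hn⟩) ^ q = 1 := hON
  rw [hsc] at h5
  rw [Finset.sum_eq_single (⟨0, hn⟩ : Fin n) (fun a _ ha => by rw [Matrix.diagonal_apply_ne _ ha, zero_mul])
        (fun h => absurd (Finset.mem_univ _) h), Matrix.diagonal_apply_eq] at h5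
  exact h5

/-- PGU_n(q)/PSU_n(q) is cyclic of order (n, q+1): for n ≥ 2 and |F| = q² there is a surjective homomorphism from GU_n(q) onto the cyclic group of order gcd(n, q + 1) whose kernel is generated by the determinant-one elements together with the centre. -/
theorem result {F : Type*} [Field F] [Fintype F] {q : ℕ} (hF : Fintype.card F = q ^ 2) (n : ℕ) (hn : 2 ≤ n) : ∃ φ : ↥(Cfsg.GU n F q) →* Multiplicative (ZMod (Nat.gcd n (q + 1))), Function.Surjective φ ∧ φ.ker = (Matrix.GeneralLinearGroup.det : Matrix.GeneralLinearGroup (Fin n) F →* Fˣ).ker.subgroupOf (Cfsg.GU n F q) ⊔ Subgroup.center ↥(Cfsg.GU n F q) := by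
  classical
  have h2 := herm_two_le hF
  obtain ⟨g, hg⟩ : ∃ g, g = Nat.gcd n (q + 1) := ⟨_, rfl⟩
  rw [← hg]
  have hg0 : 0 < g := by rw [hg]; exact Nat.gcd_pos_of_pos_left _ (by omega)
  obtain ⟨m, hm⟩ : g ∣ q + 1 := by rw [hg]; exact Nat.gcd_dvd_right n (q + 1)
  obtain ⟨n', hn'⟩ : g ∣ n := by rw [hg]; exact Nat.gcd_dvd_left n (q + 1)
  have hN : Nat.card Fˣ = (q - 1) * (q + 1) := herm_card_units hF
  have hKcard : Nat.card (powMonoidHom g : Fˣ →* Fˣ).ker = g := by
    rw [IsCyclic.card_powMonoidHom_ker, hN]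
    exact Nat.gcd_eq_right ((Dvd.intro _ hm.symm).trans (Dvd.intro_left _ rfl))
  obtain ⟨e⟩ : Nonempty ((powMonoidHom g : Fˣ →* Fˣ).ker ≃* Multiplicative (ZMod g)) := by
    have : ∀ k, Nat.card (powMonoidHom g : Fˣ →* Fˣ).ker = k →
        Nonempty ((powMonoidHom g : Fˣ →* Fˣ).ker ≃* Multiplicative (ZMod k)) := by
      rintro k rfl
      exact ⟨(zmodCyclicMulEquiv inferInstance).symm⟩
    exact this g hKcard
  have hφ₀ : ∀ A : GU n F q, (powMonoidHom m : Fˣ →* Fˣ) (dGU78 n q A) ∈ (powMonoidHom g : Fˣ →* Fˣ).ker := by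
    intro A
    rw [MonoidHom.mem_ker, powMonoidHom_apply, powMonoidHom_apply, ← pow_mul, mul_comm, ← hm]
    exact det_pow78 hF n A.1 A.2
  let φ₁ : GU n F q →* (powMonoidHom g : Fˣ →* Fˣ).ker :=
    ((powMonoidHom m : Fˣ →* Fˣ).comp (dGU78 n q)).codRestrict _ hφ₀
  have hφ₁ : ∀ A, ((φ₁ A : Fˣ)) = (dGU78 n q A) ^ m := fun A => rfl
  refine ⟨e.toMonoidHom.comp φ₁, ?_, ?_⟩
  · apply e.surjective.comp
    rintro ⟨x, hx⟩
    rw [MonoidHom.mem_ker, powMonoidHom_apply] at hx
    have hkr := ker_eq_range83 (G := Fˣ) g ((q - 1) * m) (by rw [hN, hm]; ring)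
    have hx' : x ∈ (powMonoidHom ((q - 1) * m) : Fˣ →* Fˣ).range := by
      rw [← hkr, MonoidHom.mem_ker, powMonoidHom_apply]; exact hx
    obtain ⟨y, hy⟩ := hx'
    rw [powMonoidHom_apply] at hy
    obtain ⟨A, hA⟩ := det_surj78 hF n (by omega) (y ^ (q - 1)) (by
      rw [← pow_mul, ← hN]; exact pow_card_eq_one')
    refine ⟨A, ?_⟩
    apply Subtype.ext
    rw [hφ₁, hA, ← pow_mul]; exact hy
  · have hker : ∀ A : GU n F q, A ∈ (e.toMonoidHom.comp φ₁).ker ↔ (dGU78 n q A) ^ m = 1 := by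
      intro A
      rw [MonoidHom.mem_ker, MonoidHom.comp_apply]
      show e (φ₁ A) = 1 ↔ _
      rw [MulEquiv.map_eq_one_iff, ← hφ₁, OneMemClass.coe_eq_one]
    apply le_antisymm
    · intro A hA
      rw [hker] at hA
      have hkr := ker_eq_range83 (G := Fˣ) m ((q - 1) * g) (by rw [hN, hm]; ring)
      have hd : dGU78 n q A ∈ (powMonoidHom ((q - 1) * g) : Fˣ →* Fˣ).range := by
        rw [← hkr, MonoidHom.mem_ker, powMonoidHom_apply]; exact hA
      obtain ⟨y, hy⟩ := hd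
      rw [powMonoidHom_apply, pow_mul] at hy
      obtain ⟨w, hw⟩ : ∃ w, w = y ^ (q - 1) := ⟨_, rfl⟩
      rw [← hw] at hy
      have hw1 : w ^ (q + 1) = 1 := by rw [hw, ← pow_mul, ← hN]; exact pow_card_eq_one'
      have hbez : (g : ℤ) = n * Nat.gcdA n (q + 1) + ((q + 1 : ℕ) : ℤ) * Nat.gcdB n (q + 1) := by
        rw [hg]; exact Nat.gcd_eq_gcd_ab n (q + 1)
      obtain ⟨l, hl⟩ : ∃ l, l = w ^ (Nat.gcdA n (q + 1)) := ⟨_, rfl⟩
      have hl1 : l ^ (q + 1) = 1 := by
        rw [hl, ← zpow_natCast, ← _root_.zpow_mul, mul_comm, _root_.zpow_mul, zpow_natCast, hw1, _root_.one_zpow]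
      have hln : l ^ n = dGU78 n q A := by
        rw [← hy, hl, ← zpow_natCast (w ^ _) n, ← _root_.zpow_mul, ← zpow_natCast w g, hbez, _root_.zpow_add, mul_comm (n : ℤ),
          _root_.zpow_mul w ((q + 1 : ℕ) : ℤ), zpow_natCast, hw1, _root_.one_zpow, mul_one]
      obtain ⟨s, hs⟩ := scal_gu83 hF n l hl1
      have hsc : s ∈ Subgroup.center (GU n F q) := scal_central83 n q s _ hs
      have hsd : dGU78 n q s = l ^ n := scal_det83 n q s l hs
      have hAs : A * s⁻¹ ∈ (Matrix.GeneralLinearGroup.det : Matrix.GeneralLinearGroup (Fin n) F →* Fˣ).ker.subgroupOf (Cfsg.GU n F q) := by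
        rw [Subgroup.mem_subgroupOf, MonoidHom.mem_ker]
        show dGU78 n q (A * s⁻¹) = 1
        rw [map_mul, map_inv, hsd, hln, mul_inv_cancel]
      have hAeq : A = (A * s⁻¹) * s := by group
      rw [hAeq]
      exact Subgroup.mul_mem_sup hAs hsc
    · apply sup_le
      · intro A hA
        rw [Subgroup.mem_subgroupOf, MonoidHom.mem_ker] at hA
        rw [hker]
        have h1 : dGU78 n q A = 1 := hA
        rw [h1, one_pow]
      · intro A hA
        rw [hker]
        obtain ⟨l, hl, hnorm⟩ := center_gu83 hF n (by omega) A hA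
        apply Units.ext
        rw [Units.val_pow_eq_pow_val, Units.val_one]
        have hdet : ((dGU78 n q A : Fˣ) : F) = l ^ n := by
          show (A.1 : Matrix (Fin n) (Fin n) F).det = l ^ n
          rw [hl, Matrix.det_diagonal, Finset.prod_const, Finset.card_univ, Fintype.card_fin]
        rw [hdet, ← pow_mul]
        have hnm : n * m = (q + 1) * n' := by
          calc n * m = g * n' * m := by rw [← hn']
            _ = g * m * n' := by ring
            _ = (q + 1) * n' := by rw [← hm]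
        rw [hnm, pow_mul, pow_succ', hnorm, one_pow]

end Cfsg.Agent.S0783
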