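import Mathlib
import Cfsg.Statements.S0784
import Cfsg.Agent.Lib.Helper1.Quad

set_option autoImplicit false
open Cfsg
open Matrix Cfsg.Agent.Lib.Helper1

namespace Cfsg.Agent.S0784

theorem result {F : Type*} [Field F] {n : ℕ} (Q : QuadraticForm F (Fin n → F)) (v : Fin n → F) (hv : Q v ≠ 0) : (∀ x, Q ((Cfsg.reflectionMatrix ⇑Q v).mulVec x) = Q x) ∧ (Cfsg.reflectionMatrix ⇑Q v).mulVec v = -v ∧ (∀ x, QuadraticMap.polar ⇑Q v x = 0 → (Cfsg.reflectionMatrix ⇑Q v).mulVec x = x) ∧ (Cfsg.reflectionMatrix ⇑Q v).det = -1 := by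
  have h2 : QuadraticMap.polar (⇑Q) v v = 2 * Q v := by
    rw [QuadraticMap.polar_self]; simp [two_mul]
  refine ⟨?_, ?_, ?_, ?_⟩
  · intro x
    rw [reflectionMatrix_mulVec, sub_eq_add_neg, ← neg_smul, QuadraticMap.map_add Q,
      QuadraticMap.map_smul, QuadraticMap.polar_smul_right, QuadraticMap.polar_comm (⇑Q) x v]
    simp only [smul_eq_mul]
    field_simp
    ring
  · rw [reflectionMatrix_mulVec, h2]
    have h : (Q v)⁻¹ * (2 * Q v) = 2 := by field_simp
    rw [h, two_smul]; abel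
  · intro x hx
    rw [reflectionMatrix_mulVec, hx, mul_zero, zero_smul, sub_zero]
  · unfold reflectionMatrix
    rw [sub_eq_add_neg, ← neg_smul, ← Matrix.smul_vecMulVec, Matrix.vecMulVec_eq (ι := Unit),
      Matrix.det_one_add_replicateCol_mul_replicateRow, dotProduct_smul, polarVec_dot, h2]
    simp only [smul_eq_mul]
    field_simp
    ring

end Cfsg.Agent.S0784
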