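import Mathlib
import Cfsg.Statements.S0785
import Cfsg.Agent.S0784

set_option autoImplicit false
open Cfsg
open Matrix

namespace Cfsg.Agent.S0785

theorem result {F : Type*} [Field F] {n : ℕ} (Q : QuadraticForm F (Fin n → F)) (hQ : (QuadraticMap.polarBilin Q).Nondegenerate) : (∀ g : ↥(Cfsg.isometryGroup F ⇑Q), ((g : Matrix.GeneralLinearGroup (Fin n) F) : Matrix (Fin n) (Fin n) F).det = 1 ∨ ((g : Matrix.GeneralLinearGroup (Fin n) F) : Matrix (Fin n) (Fin n) F).det = -1) ∧ ((∃ v, Q v ≠ 0) → ∃ g : ↥(Cfsg.isometryGroup F ⇑Q), ((g : Matrix.GeneralLinearGroup (Fin n) F) : Matrix (Fin n) (Fin n) F).det = -1) := by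
  constructor
  · rintro ⟨g, hg⟩
    have hg' : ∀ u : Fin n → F, Q ((g : Matrix (Fin n) (Fin n) F) *ᵥ u) = Q u := fun u => hg u u
    set A : Matrix (Fin n) (Fin n) F := (g : Matrix (Fin n) (Fin n) F) with hA
    have hcomp : (QuadraticMap.polarBilin Q).compl₁₂ (Matrix.toLin' A) (Matrix.toLin' A)
        = QuadraticMap.polarBilin Q := by
      refine LinearMap.ext fun x => LinearMap.ext fun y => ?_
      simp only [LinearMap.compl₁₂_apply, QuadraticMap.polarBilin_apply_apply, Matrix.toLin'_apply,
        QuadraticMap.polar]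
      rw [← Matrix.mulVec_add, hg', hg', hg']
    have hM := congrArg (LinearMap.toMatrix₂' F) hcomp
    rw [LinearMap.toMatrix₂'_compl₁₂, LinearMap.toMatrix'_toLin'] at hM
    have hdet := congrArg Matrix.det hM
    rw [Matrix.det_mul, Matrix.det_mul, Matrix.det_transpose] at hdet
    have hM0 : (LinearMap.toMatrix₂' F (QuadraticMap.polarBilin Q)).det ≠ 0 :=
      Matrix.nondegenerate_iff_det_ne_zero.mp hQ.toMatrix₂'
    have h1 : A.det * A.det = 1 := by
      have h : (A.det * A.det - 1) * (LinearMap.toMatrix₂' F (QuadraticMap.polarBilin Q)).det = 0 := by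
        linear_combination hdet
      rcases mul_eq_zero.mp h with h | h
      · linear_combination h
      · exact absurd h hM0
    have h2 : (A.det - 1) * (A.det + 1) = 0 := by linear_combination h1
    rcases mul_eq_zero.mp h2 with h | h
    · left; linear_combination h
    · right; linear_combination h
  · rintro ⟨v, hv⟩
    obtain ⟨h1, -, -, h4⟩ := Cfsg.Agent.S0784.result Q v hv
    have hdet : (reflectionMatrix (⇑Q) v).det ≠ 0 := by rw [h4]; simp
    refine ⟨⟨Matrix.GeneralLinearGroup.mkOfDetNeZero _ hdet, ?_⟩, ?_⟩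
    · intro u _
      exact h1 u
    · exact h4

end Cfsg.Agent.S0785
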