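import Mathlib
import Cfsg.Statements.S0793
import Cfsg.Agent.Lib.Helper1.Quad

set_option autoImplicit false
open Cfsg
open Matrix Cfsg.Agent.Lib.Helper1

namespace Cfsg.Agent.S0793

theorem result {F : Type*} [Field F] {n : ℕ} (Q : QuadraticForm F (Fin n → F)) (u v : Fin n → F) (hu : Q u = 0) (hv : Q v = 0) (huv : QuadraticMap.polar ⇑Q u v = 0) : (∀ c x, Q ((Cfsg.siegelMatrix ⇑Q u v c).mulVec x) = Q x) ∧ (∀ c, (Cfsg.siegelMatrix ⇑Q u v c).mulVec u = u ∧ (Cfsg.siegelMatrix ⇑Q u v c).mulVec v = v) ∧ ∀ c d, Cfsg.siegelMatrix ⇑Q u v c * Cfsg.siegelMatrix ⇑Q u v d = Cfsg.siegelMatrix ⇑Q u v (c + d) := by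
  have huu : QuadraticMap.polar (⇑Q) u u = 0 := by rw [QuadraticMap.polar_self, hu]; simp
  have hvv : QuadraticMap.polar (⇑Q) v v = 0 := by rw [QuadraticMap.polar_self, hv]; simp
  have hvu : QuadraticMap.polar (⇑Q) v u = 0 := by rw [QuadraticMap.polar_comm, huv]
  refine ⟨?_, ?_, ?_⟩
  · intro c x
    rw [siegelMatrix_mulVec, QuadraticMap.map_add Q, sub_eq_add_neg, ← neg_smul,
      QuadraticMap.map_add Q, QuadraticMap.map_smul, QuadraticMap.map_smul, hu, hv,
      QuadraticMap.polar_add_right, QuadraticMap.polar_smul_right, QuadraticMap.polar_smul_right,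
      QuadraticMap.polar_smul_left, QuadraticMap.polar_smul_right, hvu,
      QuadraticMap.polar_comm (⇑Q) x v, QuadraticMap.polar_comm (⇑Q) x u]
    simp only [smul_eq_mul]; ring
  · intro c
    constructor
    · rw [siegelMatrix_mulVec, huu, hvu]; simp
    · rw [siegelMatrix_mulVec, huv, hvv]; simp
  · intro c d
    unfold siegelMatrix
    set N := Matrix.vecMulVec v (polarVec (⇑Q) u) - Matrix.vecMulVec u (polarVec (⇑Q) v) with hN
    have hNN : N * N = 0 := by
      rw [hN, Matrix.sub_mul, Matrix.mul_sub, Matrix.mul_sub, Matrix.vecMulVec_mul_vecMulVec,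
        Matrix.vecMulVec_mul_vecMulVec, Matrix.vecMulVec_mul_vecMulVec,
        Matrix.vecMulVec_mul_vecMulVec, polarVec_dot, polarVec_dot, polarVec_dot, polarVec_dot,
        huv, huu, hvv, hvu]
      simp
    rw [add_mul, mul_add, mul_add, one_mul, mul_one, one_mul, Matrix.smul_mul, Matrix.mul_smul,
      hNN, smul_zero, smul_zero, add_zero, add_smul, add_assoc, add_comm (d • _) (c • _)]

end Cfsg.Agent.S0793
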