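import Cfsg.Statements.S0800
import Mathlib
-- import your own Cfsg.Agent.* helpers here

set_option autoImplicit false
open Cfsg

namespace Cfsg.Agent.S0800

/-- Tori of SL_2(q): if g ∈ SL_2(q) has order coprime to the characteristic p, then the order of g divides q − 1 or q + 1. -/
theorem result {F : Type*} [Field F] [Fintype F] {q : ℕ} (hF : Fintype.card F = q) (p : ℕ) [Fact p.Prime] [CharP F p] (g : Matrix.SpecialLinearGroup (Fin 2) F) (hg : Nat.Coprime (orderOf g) p) : orderOf g ∣ q - 1 ∨ orderOf g ∣ q + 1 := by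
  classical
  have CH : ∀ B : Matrix (Fin 2) (Fin 2) F,
      B * B = (B 0 0 + B 1 1) • B - B.det • (1 : Matrix (Fin 2) (Fin 2) F) := by
    intro B
    ext i j
    fin_cases i <;> fin_cases j <;>
      simp [Matrix.mul_apply, Fin.sum_univ_two, Matrix.det_fin_two] <;> ring
  obtain ⟨k, hpk, hqk⟩ := FiniteField.card F p
  rw [hF] at hqk
  have hq1 : 1 ≤ q := by rw [← hF]; exact Fintype.card_pos
  set A : Matrix (Fin 2) (Fin 2) F := (g : Matrix (Fin 2) (Fin 2) F) with hA
  have hdetA : A.det = 1 := g.det_coe
  set t : F := A 0 0 + A 1 1 with ht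
  have hAA : A * A = t • A - 1 := by rw [CH A, hdetA, one_smul]
  set H : Matrix (Fin 2) (Fin 2) F := A ^ q with hH
  have hcomm : Commute H A := (Commute.refl A).pow_left q
  have htq : t ^ q = t := by rw [← hF]; exact FiniteField.pow_card t
  have hHH : H * H = t • H - 1 := by
    have h1 : H * H = (A * A) ^ q := by
      rw [hH, ← pow_two, ← pow_mul, mul_comm, pow_mul, pow_two]
    rw [h1, hAA, hqk, sub_pow_char_pow_of_commute p _ (Commute.one_right _), one_pow, smul_pow,
      ← hqk, htq]
  have htrH : H 0 0 + H 1 1 = t := by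
    have := FiniteField.trace_pow_card A
    rw [Matrix.trace_fin_two, Matrix.trace_fin_two, hF] at this
    rw [this]; exact htq
  set M : Matrix (Fin 2) (Fin 2) F := H - A with hM
  have hMM : M * M = - (M.det • (1 : Matrix (Fin 2) (Fin 2) F)) := by
    have h0 : M 0 0 + M 1 1 = 0 := by
      have e : M 0 0 + M 1 1 = (H 0 0 + H 1 1) - (A 0 0 + A 1 1) := by
        simp only [hM, Matrix.sub_apply]; ring
      rw [e, htrH, ← ht, sub_self]
    rw [CH M, h0, zero_smul, zero_sub]
  by_cases hd : M.det = 0
  · left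
    have hMM0 : M * M = 0 := by rw [hMM, hd, zero_smul, neg_zero]
    have hp2 : 2 ≤ p := (Fact.out : p.Prime).two_le
    have hMp : M ^ p = 0 := by
      have : p = 2 + (p - 2) := by omega
      rw [this, pow_add, pow_two, hMM0, zero_mul]
    rw [hM, sub_pow_char_of_commute p hcomm, sub_eq_zero] at hMp
    have hgp : g ^ (q * p) = g ^ p := by
      apply Subtype.ext
      rw [Matrix.SpecialLinearGroup.coe_pow, Matrix.SpecialLinearGroup.coe_pow, pow_mul]
      exact hMp
    have hgp' : g ^ ((q - 1) * p) = 1 := by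
      have e : q * p = (q - 1) * p + p := by
        obtain ⟨m, rfl⟩ : ∃ m, q = m + 1 := ⟨q - 1, by omega⟩
        simp [Nat.succ_mul]
      rw [e, pow_add] at hgp
      exact mul_eq_right.1 hgp
    exact Nat.Coprime.dvd_of_dvd_mul_right hg (orderOf_dvd_of_pow_eq_one hgp')
  · right
    have hprod : M * (H - (t • (1 : Matrix (Fin 2) (Fin 2) F) - A)) = 0 := by
      have e : M * (H - (t • (1 : Matrix (Fin 2) (Fin 2) F) - A))
          = H * H - t • H + (H * A - A * H) + t • A - A * A := by
        simp only [hM, sub_mul, mul_sub, Matrix.mul_smul, Matrix.mul_one]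
        abel
      rw [e, hHH, hAA, hcomm.eq]; abel
    have hu : IsUnit M.det := isUnit_iff_ne_zero.2 hd
    have hX : H - (t • (1 : Matrix (Fin 2) (Fin 2) F) - A) = 0 := by
      have := congrArg (fun X => M⁻¹ * X) hprod
      simp only [← mul_assoc, Matrix.nonsing_inv_mul M hu, one_mul, mul_zero] at this
      exact this
    have hHe : H = t • (1 : Matrix (Fin 2) (Fin 2) F) - A := sub_eq_zero.1 hX
    have hAH : A * H = 1 := by
      rw [hHe, mul_sub, Matrix.mul_smul, Matrix.mul_one, hAA]; abel
    have hgq : g ^ (q + 1) = 1 := by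
      apply Subtype.ext
      rw [Matrix.SpecialLinearGroup.coe_pow, pow_succ']
      exact hAH
    exact orderOf_dvd_of_pow_eq_one hgq

end Cfsg.Agent.S0800
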