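import Cfsg.Statements.S0829
import Mathlib
import Cfsg.Statements.S0829
import Cfsg.Agent.S0755
import Cfsg.Agent.S0285
import Cfsg.Agent.S0828
import Cfsg.Agent.S0277
import Cfsg.Agent.Lib.Lead.HermCount

set_option autoImplicit false
open Cfsg
open scoped commutatorElement

namespace Cfsg.Agent.S0829

open Matrix Module
open Cfsg.Agent.Lib.Lead Cfsg.Agent.S0277 Cfsg.Agent.S0828

theorem cnt_abs29 {F : Type*} [Field F] [Fintype F] {q : ℕ} (hF : Fintype.card F = q ^ 2)
    {U : Type*} [AddCommGroup U] [Module F U] [FiniteDimensional F U]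
    (B : U →ₛₗ[sig77 hF] U →ₗ[F] F) (hS : B.IsSymm) (hB : B.Nondegenerate) (d : ℕ) (hd : finrank F U = d) (c : F) :
    Nat.card {w : U // B w w = c} = Nat.card {x : Fin d → F // hermForm d F q x x = c} := by
  subst hd
  obtain ⟨b, hb⟩ := Cfsg.Agent.S0755.result (sig77 hF) (sig_ne77 hF) (fun a => herm_pow_sq hF a) B hS hB
  have key : ∀ w : U, B w w = hermForm (finrank F U) F q (b.equivFun w) (b.equivFun w) := by
    intro w
    conv_lhs => rw [← b.sum_repr w]
    simp only [map_sum, LinearMap.sum_apply, LinearMap.map_smulₛₗ, LinearMap.smul_apply, map_smul, hb, smul_eq_mul,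
      mul_ite, mul_one, mul_zero, Finset.sum_ite_eq, Finset.sum_ite_eq', Finset.mem_univ, if_true]
    unfold hermForm
    apply Finset.sum_congr rfl; intro i _
    show b.repr w i * (b.repr w i) ^ q = b.equivFun w i * (b.equivFun w i) ^ q
    rw [Basis.equivFun_apply]
  exact Nat.card_congr (Equiv.subtypeEquiv b.equivFun.toEquiv (fun w => by rw [key]; rfl))

theorem iso_perp29 {F : Type*} [Field F] [Fintype F] {q : ℕ} (hF : Fintype.card F = q ^ 2) (n : ℕ)
    (u : Fin n → F) (hu : u ≠ 0) (hu0 : hermForm n F q u u = 0) :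
    Nat.card {w : Fin n → F // hermForm n F q w u = 0 ∧ hermForm n F q w w = 0} = q ^ 2 * hermCnt F q (n - 2) 0 := by
  classical
  have h2 := herm_two_le hF
  have hq0 : q ≠ 0 := by omega
  obtain ⟨B, hBdef⟩ : ∃ B, B = hB77 hF n := ⟨_, rfl⟩
  have hS : B.IsSymm := by rw [hBdef]; exact hB_symm77 hF n
  have hnd : B.Nondegenerate := by rw [hBdef]; exact hB_nd77 hF n
  have hBh : ∀ x y, B x y = hermForm n F q y x := fun x y => by rw [hBdef]; rfl
  have hsym : ∀ x y, B x y = (B y x) ^ q := fun x y => (LinearMap.isSymm_def.mp hS y x).symm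
  have hBuu : B u u = 0 := by rw [hBh]; exact hu0
  obtain ⟨y, hy⟩ : ∃ y, B u y ≠ 0 := by
    by_contra hc; push Not at hc; exact hu (hnd.1 u hc)
  obtain ⟨w₀, hw₀⟩ : ∃ w₀, B u w₀ = 1 := ⟨(B u y)⁻¹ • y, by rw [map_smul, smul_eq_mul, inv_mul_cancel₀ hy]⟩
  have hw₀' : B w₀ u = 1 := by rw [hsym, hw₀, one_pow]
  obtain ⟨c, hc⟩ : ∃ c, c = B w₀ w₀ := ⟨_, rfl⟩
  obtain ⟨L, hL⟩ : ∃ L : (Fin n → F) →ₗ[F] F × F, L = (B u).prod (B w₀) := ⟨_, rfl⟩
  have hLap : ∀ z, L z = (B u z, B w₀ z) := fun z => by rw [hL]; rfl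
  have hsec : ∀ a b : F, L (a • w₀ + (b - a * c) • u) = (a, b) := by
    intro a b
    rw [hLap]
    simp only [map_add, map_smul, smul_eq_mul, hw₀, hBuu, hw₀', ← hc]
    refine Prod.ext ?_ ?_
    · show a * 1 + (b - a * c) * 0 = a
      ring
    · show a * c + (b - a * c) * 1 = b
      ring
  have hsurj : Function.Surjective L := fun ab => ⟨_, hsec ab.1 ab.2⟩
  have hfr : finrank F (LinearMap.ker L) = n - 2 := by
    have h1 := LinearMap.finrank_range_add_finrank_ker L
    rw [LinearMap.range_eq_top.mpr hsurj, finrank_top, Module.finrank_prod, Module.finrank_self,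
      Module.finrank_fin_fun] at h1
    omega
  have hmem : ∀ z, z ∈ LinearMap.ker L ↔ (B u z = 0 ∧ B w₀ z = 0) := by
    intro z
    rw [LinearMap.mem_ker, hLap, Prod.mk_eq_zero]
  have hHu : ∀ z : LinearMap.ker L, B (z : Fin n → F) u = 0 := fun z => by
    rw [hsym, ((hmem z.1).mp z.2).1, zero_pow hq0]
  have hHw : ∀ z : LinearMap.ker L, B (z : Fin n → F) w₀ = 0 := fun z => by
    rw [hsym, ((hmem z.1).mp z.2).2, zero_pow hq0]
  have key : ∀ z : LinearMap.ker L, (∀ y : LinearMap.ker L, B (z : Fin n → F) (y : Fin n → F) = 0) → z = 0 := by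
    intro z hz
    apply Subtype.ext
    apply hnd.1
    intro x
    have hmem' : x - (B u x • w₀ + (B w₀ x - B u x * c) • u) ∈ LinearMap.ker L := by
      rw [LinearMap.mem_ker, map_sub, hsec, hLap, sub_self]
    have h1 := hz ⟨_, hmem'⟩
    simp only [map_sub, map_add, map_smul, hHu z, hHw z, smul_eq_mul, mul_zero, add_zero, sub_zero] at h1
    exact h1
  have hndH : (B.domRestrict₁₂ (LinearMap.ker L) (LinearMap.ker L)).Nondegenerate := by
    constructor
    · intro x hx
      exact key x hx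
    · intro y hy
      apply key y
      intro x
      have h1 : B (x : Fin n → F) (y : Fin n → F) = 0 := hy x
      rw [hsym, h1, zero_pow hq0]
  have hcount := cnt_abs29 hF (B.domRestrict₁₂ (LinearMap.ker L) (LinearMap.ker L)) (hS.domRestrict _) hndH (n - 2) hfr 0
  have hz_mem : ∀ w : Fin n → F, B u w = 0 → w - (B w₀ w) • u ∈ LinearMap.ker L := by
    intro w hw
    rw [hmem]
    constructor
    · rw [map_sub, map_smul, hw, hBuu, smul_zero, sub_zero]
    · rw [map_sub, map_smul, hw₀', smul_eq_mul, mul_one, sub_self]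
  have hz_iso : ∀ w : Fin n → F, B u w = 0 → B w w = 0 → B (w - (B w₀ w) • u) (w - (B w₀ w) • u) = 0 := by
    intro w hw hww
    have hwu : B w u = 0 := by rw [hsym, hw, zero_pow hq0]
    simp only [map_sub, LinearMap.sub_apply, LinearMap.map_smulₛₗ, LinearMap.smul_apply, map_smul, smul_eq_mul, hw,
      hww, hwu, hBuu, mul_zero, sub_zero]
  have hw_perp : ∀ (a : F) (z : LinearMap.ker L), B u (a • u + (z : Fin n → F)) = 0 := by
    intro a z
    rw [map_add, map_smul, hBuu, smul_zero, zero_add]; exact ((hmem z.1).mp z.2).1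
  have hw_iso : ∀ (a : F) (z : LinearMap.ker L), B (z : Fin n → F) (z : Fin n → F) = 0 →
      B (a • u + (z : Fin n → F)) (a • u + (z : Fin n → F)) = 0 := by
    intro a z hzz
    simp only [map_add, LinearMap.add_apply, LinearMap.map_smulₛₗ, LinearMap.smul_apply, map_smul, smul_eq_mul, hBuu,
      hHu z, ((hmem z.1).mp z.2).1, hzz, mul_zero, add_zero]
  unfold hermCnt
  rw [← hcount, ← hF, ← Nat.card_eq_fintype_card, ← Nat.card_prod]
  apply Nat.card_congr
  exact
    { toFun := fun w => (B w₀ w.1, ⟨⟨w.1 - (B w₀ w.1) • u, hz_mem w.1 ((hBh u w.1).trans w.2.1)⟩,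
        hz_iso w.1 ((hBh u w.1).trans w.2.1) ((hBh w.1 w.1).trans w.2.2)⟩)
      invFun := fun p => ⟨p.1 • u + (p.2.1 : Fin n → F), (hBh u _).symm.trans (hw_perp p.1 p.2.1),
        (hBh _ _).symm.trans (hw_iso p.1 p.2.1 p.2.2)⟩
      left_inv := fun w => by
        apply Subtype.ext
        show B w₀ w.1 • u + (w.1 - B w₀ w.1 • u) = w.1
        abel
      right_inv := fun p => by
        have ha : B w₀ (p.1 • u + (p.2.1 : Fin n → F)) = p.1 := by
          rw [map_add, map_smul, hw₀', smul_eq_mul, mul_one, ((hmem p.2.1.1).mp p.2.1.2).2, add_zero]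
        refine Prod.ext ha ?_
        apply Subtype.ext; apply Subtype.ext
        show p.1 • u + (p.2.1 : Fin n → F) - B w₀ (p.1 • u + (p.2.1 : Fin n → F)) • u = (p.2.1 : Fin n → F)
        rw [ha]; abel }

theorem ti_span29 {F : Type*} [Field F] [Fintype F] {q : ℕ} (hF : Fintype.card F = q ^ 2) (n : ℕ)
    (u w : Fin n → F) (hu : hermForm n F q u u = 0) (hw : hermForm n F q w w = 0) (hwu : hermForm n F q w u = 0) :
    ∀ x ∈ Submodule.span F {u, w}, ∀ y ∈ Submodule.span F {u, w}, hermForm n F q x y = 0 := by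
  have h2 := herm_two_le hF
  intro x hx y hy
  obtain ⟨a, b, rfl⟩ := Submodule.mem_span_pair.mp hx
  obtain ⟨c, d, rfl⟩ := Submodule.mem_span_pair.mp hy
  have huw : hermForm n F q u w = 0 := by rw [herm_swap77 hF, hwu, zero_pow (by omega)]
  show hB77 hF n (c • u + d • w) (a • u + b • w) = 0
  have e1 : hB77 hF n u u = 0 := hu
  have e2 : hB77 hF n w w = 0 := hw
  have e3 : hB77 hF n u w = 0 := hwu
  have e4 : hB77 hF n w u = 0 := huw
  simp only [map_add, LinearMap.add_apply, LinearMap.map_smulₛₗ, LinearMap.smul_apply, map_smul, smul_eq_mul, e1, e2,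
    e3, e4, mul_zero, add_zero]

theorem count_u29 {F : Type*} [Field F] [Fintype F] {q : ℕ} (hF : Fintype.card F = q ^ 2) (n : ℕ)
    (u : Fin n → F) (hu : u ≠ 0) (hu0 : hermForm n F q u u = 0) :
    Nat.card {W : Submodule F (Fin n → F) // finrank F W = 2 ∧ u ∈ W ∧ ∀ x ∈ W, ∀ y ∈ W, hermForm n F q x y = 0} *
      ((q ^ 2) ^ 2 - q ^ 2) = q ^ 2 * hermCnt F q (n - 2) 0 - q ^ 2 := by
  classical
  haveI : Fintype (Submodule F (Fin n → F)) := Fintype.ofFinite _
  have h2 := herm_two_le hF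
  rw [Nat.card_eq_fintype_card, Fintype.card_subtype]
  obtain ⟨tv, htv⟩ : ∃ tv : Finset (Submodule F (Fin n → F)), tv = Finset.univ.filter (fun W : Submodule F (Fin n → F) =>
    finrank F W = 2 ∧ u ∈ W ∧ ∀ x ∈ W, ∀ y ∈ W, hermForm n F q x y = 0) := ⟨_, rfl⟩
  rw [← htv]
  have hSd : finrank F (Submodule.span F {u}) = 1 := finrank_span_singleton hu
  obtain ⟨S₁, hS₁⟩ : ∃ S₁ : Finset (Fin n → F), S₁ = Finset.univ.filter (fun w : Fin n → F =>
    hermForm n F q w u = 0 ∧ hermForm n F q w w = 0) := ⟨_, rfl⟩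
  obtain ⟨S₂, hS₂⟩ : ∃ S₂ : Finset (Fin n → F), S₂ = Finset.univ.filter (fun w : Fin n → F =>
    w ∈ Submodule.span F {u}) := ⟨_, rfl⟩
  have hS₁mem : ∀ w, w ∈ S₁ ↔ (hermForm n F q w u = 0 ∧ hermForm n F q w w = 0) := by
    intro w; rw [hS₁]; simp
  have hS₂mem : ∀ w, w ∈ S₂ ↔ w ∈ Submodule.span F {u} := by
    intro w; rw [hS₂]; simp
  have htvmem : ∀ W, W ∈ tv ↔ (finrank F W = 2 ∧ u ∈ W ∧ ∀ x ∈ W, ∀ y ∈ W, hermForm n F q x y = 0) := by
    intro W; rw [htv]; simp
  have hsub : S₂ ⊆ S₁ := by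
    intro w hw
    rw [hS₂mem, Submodule.mem_span_singleton] at hw
    obtain ⟨a, rfl⟩ := hw
    rw [hS₁mem]
    have e1 : hB77 hF n u u = 0 := hu0
    constructor
    · show hB77 hF n u (a • u) = 0
      rw [map_smul, e1, smul_zero]
    · show hB77 hF n (a • u) (a • u) = 0
      rw [map_smul, LinearMap.map_smulₛₗ, LinearMap.smul_apply, e1, smul_zero, smul_zero]
  have hS₁card : S₁.card = q ^ 2 * hermCnt F q (n - 2) 0 := by
    rw [← iso_perp29 hF n u hu hu0, Nat.card_eq_fintype_card, Fintype.card_subtype, hS₁]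
  have hS₂card : S₂.card = q ^ 2 := by
    have h3 : Nat.card {w : Fin n → F // w ∈ Submodule.span F {u}} = Nat.card F ^ finrank F (Submodule.span F {u}) :=
      Module.natCard_eq_pow_finrank (K := F) (V := Submodule.span F {u})
    rw [Nat.card_eq_fintype_card, Fintype.card_subtype, Nat.card_eq_fintype_card, hSd, pow_one, hF] at h3
    rw [hS₂]; exact h3
  have hTcard : (S₁ \ S₂).card = q ^ 2 * hermCnt F q (n - 2) 0 - q ^ 2 := by
    rw [Finset.card_sdiff_of_subset hsub, hS₁card, hS₂card]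
  have hTmem : ∀ w, w ∈ S₁ \ S₂ ↔ ((hermForm n F q w u = 0 ∧ hermForm n F q w w = 0) ∧ w ∉ Submodule.span F {u}) := by
    intro w; rw [Finset.mem_sdiff, hS₁mem, hS₂mem]
  have hmaps : ((S₁ \ S₂ : Finset (Fin n → F)) : Set (Fin n → F)).MapsTo (fun w => Submodule.span F {u, w}) tv := by
    intro w hw
    have hw' := (hTmem w).mp hw
    exact (htvmem _).mpr ⟨finrank_pair28 u w hu hw'.2, Submodule.subset_span (by simp),
      ti_span29 hF n u w hu0 hw'.1.2 hw'.1.1⟩
  have hfib : ∀ W ∈ tv, ((S₁ \ S₂).filter (fun w => Submodule.span F {u, w} = W)).card = (q ^ 2) ^ 2 - q ^ 2 := by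
    intro W hW
    have hW' := (htvmem W).mp hW
    have hSW : Submodule.span F {u} ≤ W := (Submodule.span_singleton_le_iff_mem _ _).mpr hW'.2.1
    have heq : (S₁ \ S₂).filter (fun w => Submodule.span F {u, w} = W) =
        Finset.univ.filter (fun w : Fin n → F => w ∈ W ∧ w ∉ Submodule.span F {u}) := by
      ext w
      simp only [Finset.mem_filter, Finset.mem_univ, true_and, hTmem]
      constructor
      · rintro ⟨⟨_, h2⟩, h3⟩
        refine ⟨?_, h2⟩
        rw [← h3]; exact Submodule.subset_span (by simp)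
      · rintro ⟨h1, h2⟩
        refine ⟨⟨⟨hW'.2.2 w h1 u hW'.2.1, hW'.2.2 w h1 w h1⟩, h2⟩, ?_⟩
        apply Submodule.eq_of_le_of_finrank_eq
        · rw [Submodule.span_le]
          intro x hx
          rcases hx with rfl | rfl
          · exact hW'.2.1
          · exact h1
        · rw [finrank_pair28 u w hu h2, hW'.1]
    rw [heq, card_diff28 W _ hSW, hW'.1, hSd, hF, pow_one]
  have hsum := Finset.card_eq_sum_card_fiberwise hmaps
  rw [Finset.sum_congr rfl hfib, Finset.sum_const, smul_eq_mul, hTcard] at hsum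
  exact hsum.symm

theorem ti2_count29 {F : Type*} [Field F] [Fintype F] {q : ℕ} (hF : Fintype.card F = q ^ 2) (n : ℕ) :
    Nat.card {W : Submodule F (Fin n → F) // finrank F W = 2 ∧ ∀ u ∈ W, ∀ v ∈ W, hermForm n F q u v = 0} *
      ((q ^ 2) ^ 2 - 1) * ((q ^ 2) ^ 2 - q ^ 2) =
    (hermCnt F q n 0 - 1) * (q ^ 2 * hermCnt F q (n - 2) 0 - q ^ 2) := by
  classical
  haveI : Fintype (Submodule F (Fin n → F)) := Fintype.ofFinite _
  have h2 := herm_two_le hF
  rw [Nat.card_eq_fintype_card, Fintype.card_subtype]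
  obtain ⟨t, ht⟩ : ∃ t : Finset (Submodule F (Fin n → F)), t = Finset.univ.filter (fun W : Submodule F (Fin n → F) =>
    finrank F W = 2 ∧ ∀ u ∈ W, ∀ v ∈ W, hermForm n F q u v = 0) := ⟨_, rfl⟩
  rw [← ht]
  have htmem : ∀ W, W ∈ t ↔ (finrank F W = 2 ∧ ∀ u ∈ W, ∀ v ∈ W, hermForm n F q u v = 0) := by
    intro W; rw [ht]; simp
  have h1 : ∑ W ∈ t, (Finset.univ.filter (fun v : Fin n → F => v ∈ W ∧ v ∉ (⊥ : Submodule F (Fin n → F)))).card =
      t.card * ((q ^ 2) ^ 2 - 1) := by
    have h5 : ∀ W ∈ t, (Finset.univ.filter (fun v : Fin n → F => v ∈ W ∧ v ∉ (⊥ : Submodule F (Fin n → F)))).card =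
        (q ^ 2) ^ 2 - 1 := by
      intro W hW
      rw [card_diff28 W ⊥ bot_le, ((htmem W).mp hW).1, finrank_bot, hF, pow_zero]
    rw [Finset.sum_congr rfl h5, Finset.sum_const, smul_eq_mul]
  have h2' : ∑ W ∈ t, (Finset.univ.filter (fun v : Fin n → F => v ∈ W ∧ v ∉ (⊥ : Submodule F (Fin n → F)))).card =
      ∑ v ∈ Finset.univ.filter (fun v : Fin n → F => v ≠ 0), (t.filter (fun W => v ∈ W)).card := by
    simp only [Finset.card_filter]
    rw [Finset.sum_comm, Finset.sum_filter]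
    apply Finset.sum_congr rfl
    intro v _
    by_cases hv : v = 0
    · simp [hv]
    · simp [hv]
  have h3 : ∀ v ∈ Finset.univ.filter (fun v : Fin n → F => v ≠ 0), (t.filter (fun W => v ∈ W)).card * ((q ^ 2) ^ 2 - q ^ 2) =
      if hermForm n F q v v = 0 then q ^ 2 * hermCnt F q (n - 2) 0 - q ^ 2 else 0 := by
    intro v hv
    have hv0 : v ≠ 0 := by simpa using hv
    by_cases hiso : hermForm n F q v v = 0
    · rw [if_pos hiso]
      have h6 := count_u29 hF n v hv0 hiso
      rw [Nat.card_eq_fintype_card, Fintype.card_subtype] at h6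
      rw [← h6]
      congr 2
      ext W
      simp only [Finset.mem_filter, Finset.mem_univ, true_and, htmem]
      tauto
    · rw [if_neg hiso]
      have : t.filter (fun W => v ∈ W) = ∅ := by
        apply Finset.filter_eq_empty_iff.mpr
        intro W hW hvW
        exact hiso (((htmem W).mp hW).2 v hvW v hvW)
      rw [this, Finset.card_empty, zero_mul]
  have h4 : ((Finset.univ.filter (fun v : Fin n → F => v ≠ 0)).filter (fun v => hermForm n F q v v = 0)).card =
      hermCnt F q n 0 - 1 := by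
    have e1 : (Finset.univ.filter (fun v : Fin n → F => v ≠ 0)).filter (fun v => hermForm n F q v v = 0) =
        (Finset.univ.filter (fun v : Fin n → F => hermForm n F q v v = 0)).erase 0 := by
      ext v
      simp only [Finset.mem_filter, Finset.mem_univ, true_and, Finset.mem_erase]
    rw [e1, Finset.card_erase_of_mem (by
      simp only [Finset.mem_filter, Finset.mem_univ, true_and]
      unfold hermForm; simp)]
    unfold hermCnt
    rw [Nat.card_eq_fintype_card, Fintype.card_subtype]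
  rw [← h1, h2', Finset.sum_mul, Finset.sum_congr rfl h3, ← Finset.sum_filter, Finset.sum_const, smul_eq_mul, h4]

/-- The unitary quadrangle of PSU_4(q): with |F| = q², the number of 2-dimensional subspaces of F^4 on which the Hermitian form Σ x_i y_i^q vanishes is (q + 1)(q³ + 1). -/
theorem result {F : Type*} [Field F] [Fintype F] {q : ℕ} (hF : Fintype.card F = q ^ 2) : Nat.card {W : Submodule F (Fin 4 → F) // Module.finrank F W = 2 ∧ ∀ u ∈ W, ∀ v ∈ W, Cfsg.hermForm 4 F q u v = 0} = (q + 1) * (q ^ 3 + 1) := by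
  have h2 := herm_two_le hF
  have E := ti2_count29 hF 4
  have z4 : hermCnt F q 4 0 = (q ^ 4 - 1) * (q ^ 3 + 1) + 1 := by
    have := Cfsg.Agent.S0285.result hF 4
    rw [if_pos (by decide)] at this
    exact this
  have z2 : hermCnt F q 2 0 = (q ^ 2 - 1) * (q + 1) + 1 := by
    have h : hermCnt F q 2 0 = _ := Cfsg.Agent.S0285.result hF 2
    rw [if_pos (by decide), show (2:ℕ) - 1 = 1 from rfl, pow_one] at h
    exact h
  have z4' : hermCnt F q 4 0 - 1 = (q ^ 4 - 1) * (q ^ 3 + 1) := by rw [z4, Nat.add_sub_cancel]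
  have z2' : q ^ 2 * hermCnt F q 2 0 - q ^ 2 = q ^ 2 * ((q ^ 2 - 1) * (q + 1)) := by
    rw [z2, Nat.mul_succ, Nat.add_sub_cancel]
  rw [show (4 : ℕ) - 2 = 2 from rfl, z4', z2'] at E
  obtain ⟨A, hA⟩ : ∃ A, A = q ^ 4 - 1 := ⟨_, rfl⟩
  obtain ⟨B, hB⟩ : ∃ B, B = q ^ 2 - 1 := ⟨_, rfl⟩
  have hA0 : 0 < A := by
    have : 1 < q ^ 4 := Nat.one_lt_pow (by norm_num) (by omega)
    omega
  have hB0 : 0 < B := by
    have : 1 < q ^ 2 := Nat.one_lt_pow (by norm_num) (by omega)
    omega
  have e1 : (q ^ 2) ^ 2 - 1 = A := by rw [hA, ← pow_mul]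
  have e2 : (q ^ 2) ^ 2 - q ^ 2 = q ^ 2 * B := by rw [hB, Nat.mul_sub_one, ← pow_two]
  rw [e1, e2, ← hA, ← hB] at E
  have hpos : 0 < A * (q ^ 2 * B) := by positivity
  apply Nat.eq_of_mul_eq_mul_right hpos
  calc _ = _ * A * (q ^ 2 * B) := by ring
    _ = A * (q ^ 3 + 1) * (q ^ 2 * (B * (q + 1))) := E
    _ = (q + 1) * (q ^ 3 + 1) * (A * (q ^ 2 * B)) := by ring

end Cfsg.Agent.S0829
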