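import Cfsg.Statements.S0830
import Mathlib
import Cfsg.Statements.S0830
import Cfsg.Agent.S0285
import Cfsg.Agent.S0829
import Cfsg.Agent.Lib.Lead.HermCount

set_option autoImplicit false
open Cfsg
open scoped commutatorElement

namespace Cfsg.Agent.S0830

open Matrix Module
open Cfsg.Agent.Lib.Lead

/-- The unitary quadrangle of PSU_5(q): with |F| = q², the number of 2-dimensional subspaces of F^5 on which the Hermitian form vanishes is (q³ + 1)(q⁵ + 1). -/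
theorem result {F : Type*} [Field F] [Fintype F] {q : ℕ} (hF : Fintype.card F = q ^ 2) : Nat.card {W : Submodule F (Fin 5 → F) // Module.finrank F W = 2 ∧ ∀ u ∈ W, ∀ v ∈ W, Cfsg.hermForm 5 F q u v = 0} = (q ^ 3 + 1) * (q ^ 5 + 1) := by
  have h2 := herm_two_le hF
  have E := Cfsg.Agent.S0829.ti2_count29 hF 5
  have z5 : hermCnt F q 5 0 = (q ^ 5 + 1) * (q ^ 4 - 1) + 1 := by
    have h : hermCnt F q 5 0 = _ := Cfsg.Agent.S0285.result hF 5
    rw [if_neg (by decide), show (5:ℕ) - 1 = 4 from rfl] at h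
    exact h
  have z3 : hermCnt F q 3 0 = (q ^ 3 + 1) * (q ^ 2 - 1) + 1 := by
    have h : hermCnt F q 3 0 = _ := Cfsg.Agent.S0285.result hF 3
    rw [if_neg (by decide), show (3:ℕ) - 1 = 2 from rfl] at h
    exact h
  have z5' : hermCnt F q 5 0 - 1 = (q ^ 5 + 1) * (q ^ 4 - 1) := by rw [z5, Nat.add_sub_cancel]
  have z3' : q ^ 2 * hermCnt F q 3 0 - q ^ 2 = q ^ 2 * ((q ^ 3 + 1) * (q ^ 2 - 1)) := by
    rw [z3, Nat.mul_succ, Nat.add_sub_cancel]
  rw [show (5 : ℕ) - 2 = 3 from rfl, z5', z3'] at E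
  obtain ⟨A, hA⟩ : ∃ A, A = q ^ 4 - 1 := ⟨_, rfl⟩
  obtain ⟨B, hB⟩ : ∃ B, B = q ^ 2 - 1 := ⟨_, rfl⟩
  have hA0 : 0 < A := by
    have : 1 < q ^ 4 := Nat.one_lt_pow (by norm_num) (by omega)
    omega
  have hB0 : 0 < B := by
    have : 1 < q ^ 2 := Nat.one_lt_pow (by norm_num) (by omega)
    omega
  have e1 : (q ^ 2) ^ 2 - 1 = A := by rw [hA, ← pow_mul]
  have e2 : (q ^ 2) ^ 2 - q ^ 2 = q ^ 2 * B := by rw [hB, Nat.mul_sub_one, ← pow_two]
  rw [e1, e2, ← hA, ← hB] at E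
  have hpos : 0 < A * (q ^ 2 * B) := by positivity
  apply Nat.eq_of_mul_eq_mul_right hpos
  calc _ = _ * A * (q ^ 2 * B) := by ring
    _ = (q ^ 5 + 1) * A * (q ^ 2 * ((q ^ 3 + 1) * B)) := E
    _ = (q ^ 3 + 1) * (q ^ 5 + 1) * (A * (q ^ 2 * B)) := by ring

end Cfsg.Agent.S0830
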