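import Cfsg.Statements.S0833
import Mathlib
import Cfsg.Statements.S0833
import Cfsg.Agent.S0752

set_option autoImplicit false
open Cfsg
open scoped commutatorElement

namespace Cfsg.Agent.S0833

open Cfsg.Agent.S0752
open TensorProduct

theorem tmul_apply33 {F U W : Type*} [Field F] [AddCommGroup U] [Module F U] [AddCommGroup W] [Module F W]
    (B₁ : LinearMap.BilinForm F U) (B₂ : LinearMap.BilinForm F W) (u u' : U) (w w' : W) :
    (B₁.tmul B₂) (u ⊗ₜ[F] w) (u' ⊗ₜ[F] w') = B₁ u u' * B₂ w w' := by
  unfold LinearMap.BilinForm.tmul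
  rw [LinearMap.BilinForm.tensorDistrib_tmul, smul_eq_mul, mul_comm]

/-- If B₁, B₂ are non-degenerate alternating forms on U (dim 2k) and W (dim 2l), then B₁ ⊗ B₂ on U ⊗ W is symmetric, non-degenerate, and vanishes identically on some subspace of dimension 2kl (half of dim U ⊗ W). -/
theorem result {F U W : Type*} [Field F] [Fintype F] [AddCommGroup U] [Module F U] [FiniteDimensional F U] [AddCommGroup W] [Module F W] [FiniteDimensional F W] (B₁ : LinearMap.BilinForm F U) (B₂ : LinearMap.BilinForm F W) (h₁ : B₁.Nondegenerate) (h₂ : B₂.Nondegenerate) (hA₁ : B₁.IsAlt) (hA₂ : B₂.IsAlt) (k l : ℕ) (hU : Module.finrank F U = 2 * k) (hW : Module.finrank F W = 2 * l) : (B₁.tmul B₂).IsSymm ∧ (B₁.tmul B₂).Nondegenerate ∧ (∃ X : Submodule F (TensorProduct F U W), Module.finrank F X = 2 * k * l ∧ ∀ x ∈ X, ∀ y ∈ X, (B₁.tmul B₂) x y = 0) := by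
  classical
  refine ⟨?_, ?_, ?_⟩
  · rw [← LinearMap.BilinForm.isSymm_iff, LinearMap.BilinForm.isSymm_def]
    intro x y
    induction x using TensorProduct.induction_on with
    | zero => simp
    | tmul u w =>
      induction y using TensorProduct.induction_on with
      | zero => simp
      | tmul u' w' =>
        rw [tmul_apply33, tmul_apply33, alt_swap52 B₁ hA₁ u u', alt_swap52 B₂ hA₂ w w']; ring
      | add a b ha hb => rw [map_add, ha, hb, map_add, LinearMap.add_apply]
    | add a b ha hb => rw [map_add, LinearMap.add_apply, ha, hb, map_add]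
  · let b := Module.finBasis F U
    let c := Module.finBasis F W
    refine (LinearMap.BilinForm.nondegenerate_iff_det_ne_zero (b.tensorProduct c)).mpr ?_
    have hM : LinearMap.BilinForm.toMatrix (b.tensorProduct c) (B₁.tmul B₂) = Matrix.kroneckerMap (· * ·) (LinearMap.BilinForm.toMatrix b B₁) (LinearMap.BilinForm.toMatrix c B₂) := by
      ext ⟨i, p⟩ ⟨j, q⟩
      simp [LinearMap.BilinForm.toMatrix_apply, Module.Basis.tensorProduct_apply, mul_comm]
    rw [hM, Matrix.det_kronecker]
    exact mul_ne_zero (pow_ne_zero _ ((LinearMap.BilinForm.nondegenerate_iff_det_ne_zero b).mp h₁)) (pow_ne_zero _ ((LinearMap.BilinForm.nondegenerate_iff_det_ne_zero c).mp h₂))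
  · obtain ⟨m, e, f, ⟨h1, h2, h3⟩, hdim⟩ := main52 (Module.finrank F U) U B₁ rfl hA₁
    have hm : m = k := by rw [h₁.ker_eq_bot, finrank_bot, hU] at hdim; omega
    subst hm
    have hli : LinearIndependent F e := by
      rw [Fintype.linearIndependent_iff]
      intro g hg j
      have h4 : B₁ (∑ i, g i • e i) (f j) = 0 := by rw [hg]; simp
      simpa [map_sum, LinearMap.sum_apply, h1] using h4
    set L := Submodule.span F (Set.range e) with hL
    have hLk : Module.finrank F L = m := by rw [hL, finrank_span_eq_card hli]; simp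
    have hLti : ∀ a ∈ L, ∀ b ∈ L, B₁ a b = 0 := by
      intro a ha b hb
      induction ha using Submodule.span_induction with
      | mem z hz =>
        obtain ⟨i, rfl⟩ := hz
        induction hb using Submodule.span_induction with
        | mem z' hz' => obtain ⟨j, rfl⟩ := hz'; exact h2 i j
        | zero => simp
        | add p q _ _ hp hq => rw [map_add, hp, hq, add_zero]
        | smul r p _ hp => rw [map_smul, hp, smul_zero]
      | zero => simp
      | add p q _ _ hp hq => rw [map_add, LinearMap.add_apply, hp, hq, add_zero]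
      | smul r p _ hp => rw [map_smul, LinearMap.smul_apply, hp, smul_zero]
    refine ⟨LinearMap.range (LinearMap.rTensor W L.subtype), ?_, ?_⟩
    · have hinj : Function.Injective (LinearMap.rTensor W L.subtype) := Module.Flat.rTensor_preserves_injective_linearMap _ (Submodule.injective_subtype L)
      rw [LinearMap.finrank_range_of_inj hinj, Module.finrank_tensorProduct, hLk, hW]; ring
    · rintro x ⟨x', rfl⟩ y ⟨y', rfl⟩
      induction x' using TensorProduct.induction_on with
      | zero => simp
      | tmul a w =>
        induction y' using TensorProduct.induction_on with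
        | zero => simp
        | tmul a' w' =>
          rw [LinearMap.rTensor_tmul, LinearMap.rTensor_tmul, tmul_apply33]
          simp [hLti a a.2 a' a'.2]
        | add p q hp hq => rw [map_add, map_add, hp, hq, add_zero]
      | add p q hp hq => rw [map_add, map_add, LinearMap.add_apply, hp, hq, add_zero]

end Cfsg.Agent.S0833
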