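import Cfsg.Statements.S0834
import Mathlib
import Cfsg.Statements.S0834
import Cfsg.Agent.S2623
import Cfsg.Agent.S2620
import Cfsg.Agent.S0832
import Cfsg.Agent.S2562
import Cfsg.Agent.S0833

set_option autoImplicit false
open Cfsg
open scoped commutatorElement

namespace Cfsg.Agent.S0834

open Cfsg.Agent.S2623 Cfsg.Agent.S2620 Cfsg.Agent.S0832 Cfsg.Agent.S2562 Cfsg.Agent.S0833
open Module TensorProduct

theorem disc_change34 {F V ι κ : Type*} [Field F] [AddCommGroup V] [Module F V] [Fintype ι] [DecidableEq ι]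
    [Fintype κ] [DecidableEq κ] (b : Basis ι F V) (c : Basis κ F V) :
    ∃ p : F, p ≠ 0 ∧ ∀ B : LinearMap.BilinForm F V,
      (LinearMap.BilinForm.toMatrix b B).det = p ^ 2 * (LinearMap.BilinForm.toMatrix c B).det := by
  have hcard : Fintype.card ι = Fintype.card κ := by
    rw [← Module.finrank_eq_card_basis b, ← Module.finrank_eq_card_basis c]
  obtain ⟨σ⟩ : Nonempty (ι ≃ κ) := Fintype.card_eq.mp hcard
  refine ⟨(c.toMatrix (b.reindex σ)).det, ?_, ?_⟩
  · intro h0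
    have h1 := Basis.toMatrix_mul_toMatrix_flip c (b.reindex σ)
    have h2 := congrArg Matrix.det h1
    rw [Matrix.det_mul, h0, zero_mul, Matrix.det_one] at h2
    exact zero_ne_one h2
  · intro B
    have h1 := LinearMap.BilinForm.toMatrix_mul_basis_toMatrix c (b.reindex σ) B
    have h2 : LinearMap.BilinForm.toMatrix (b.reindex σ) B =
        (LinearMap.BilinForm.toMatrix b B).submatrix σ.symm σ.symm := by
      ext i j
      simp [LinearMap.BilinForm.toMatrix_apply, Basis.reindex_apply]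
    rw [← Matrix.det_submatrix_equiv_self σ.symm, ← h2, ← h1,
      Matrix.det_mul, Matrix.det_mul, Matrix.det_transpose]
    ring

theorem lemB34 {F V : Type*} [Field F] [AddCommGroup V] [Module F V] [FiniteDimensional F V]
    (B : LinearMap.BilinForm F V) (hS : ∀ x y, B x y = B y x) (n : ℕ) (hV : finrank F V = 2 * n)
    (X : Submodule F V) (hXd : finrank F X = n) (hX : ∀ x ∈ X, ∀ y ∈ X, B x y = 0)
    {ι : Type*} [Fintype ι] [DecidableEq ι] (b : Basis ι F V) :
    ∃ c : F, (LinearMap.BilinForm.toMatrix b B).det = (-1) ^ n * c ^ 2 := by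
  classical
  obtain ⟨Y, hY⟩ := Submodule.exists_isCompl X
  have hYd : finrank F Y = n := by
    have := Submodule.finrank_add_eq_of_isCompl hY
    omega
  obtain ⟨bX⟩ : Nonempty (Basis (Fin n) F X) := ⟨Module.finBasisOfFinrankEq F X hXd⟩
  obtain ⟨bY⟩ : Nonempty (Basis (Fin n) F Y) := ⟨Module.finBasisOfFinrankEq F Y hYd⟩
  obtain ⟨b₀, hb₀l, hb₀r⟩ : ∃ b₀ : Basis (Fin n ⊕ Fin n) F V, (∀ i, b₀ (Sum.inl i) = (bX i : V)) ∧ (∀ i, b₀ (Sum.inr i) = (bY i : V)) := by
    refine ⟨(bX.prod bY).map (Submodule.prodEquivOfIsCompl X Y hY), ?_, ?_⟩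
    · intro i; simp
    · intro i; simp
  obtain ⟨p, hp0, hp⟩ := disc_change34 b b₀
  obtain ⟨C, hC⟩ : ∃ C : Matrix (Fin n) (Fin n) F, C = Matrix.of (fun i j => B (bX i : V) (bY j : V)) := ⟨_, rfl⟩
  obtain ⟨D, hD⟩ : ∃ D : Matrix (Fin n) (Fin n) F, D = Matrix.of (fun i j => B (bY i : V) (bY j : V)) := ⟨_, rfl⟩
  have hG : LinearMap.BilinForm.toMatrix b₀ B = Matrix.fromBlocks 0 C C.transpose D := by
    ext i j
    rw [LinearMap.BilinForm.toMatrix_apply]
    rcases i with i | i <;> rcases j with j | j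
    · rw [hb₀l, hb₀l, Matrix.fromBlocks_apply₁₁, hX _ (bX i).2 _ (bX j).2]; rfl
    · rw [hb₀l, hb₀r, Matrix.fromBlocks_apply₁₂, hC]; rfl
    · rw [hb₀r, hb₀l, Matrix.fromBlocks_apply₂₁, hC, hS]; rfl
    · rw [hb₀r, hb₀r, Matrix.fromBlocks_apply₂₂, hD]; rfl
  have h1 : Matrix.fromBlocks 0 C C.transpose D * mh23 F n = Matrix.fromBlocks C 0 D C.transpose := by
    unfold mh23
    rw [Matrix.fromBlocks_multiply]; simp
  have h2 := congrArg Matrix.det h1
  rw [Matrix.det_mul, Matrix.det_fromBlocks_zero₁₂, det_mh20, Matrix.det_transpose] at h2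
  refine ⟨p * C.det, ?_⟩
  rw [hp B, hG]
  have h3 : ((-1 : F) ^ n) * ((-1) ^ n) = 1 := by
    rw [← mul_pow]; simp
  linear_combination (p ^ 2 * (-1) ^ n) * h2 - (p ^ 2 * (Matrix.fromBlocks 0 C C.transpose D).det) * h3

theorem lemA34 {F V : Type*} [Field F] [Fintype F] [AddCommGroup V] [Module F V] [FiniteDimensional F V]
    (h2 : (2 : F) ≠ 0) (B : LinearMap.BilinForm F V) (hS : ∀ x y, B x y = B y x) (hB : B.Nondegenerate) (n : ℕ)
    (hV : finrank F V = 2 * n) {ι : Type*} [Fintype ι] [DecidableEq ι] (b : Basis ι F V)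
    (hsq : IsSquare ((-1) ^ n * (LinearMap.BilinForm.toMatrix b B).det)) :
    ∃ X : Submodule F V, finrank F X = n ∧ ∀ x ∈ X, ∀ y ∈ X, B x y = 0 := by
  classical
  obtain ⟨e⟩ : Nonempty (Basis (Fin (2 * n)) F V) := ⟨Module.finBasisOfFinrankEq F V hV⟩
  obtain ⟨φ, hφ⟩ : ∃ φ : V ≃ₗ[F] (Fin (2 * n) → F), ∀ i, φ.symm (Pi.single i 1) = e i := by
    refine ⟨e.equivFun, ?_⟩
    intro i; simp
  have hσ : Fintype.card (Fin n ⊕ Fin n) = 2 * n := by
    rw [Fintype.card_sum, Fintype.card_fin]; ring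
  obtain ⟨σ⟩ : Nonempty (Fin n ⊕ Fin n ≃ Fin (2 * n)) := ⟨Fintype.equivFinOfCardEq hσ⟩
  obtain ⟨ψ, hψ⟩ : ∃ ψ : (Fin (2 * n) → F) ≃ₗ[F] (Fin n ⊕ Fin n → F), True := ⟨LinearEquiv.funCongrLeft F F σ, trivial⟩
  obtain ⟨Q₁, hQ₁⟩ : ∃ Q₁ : QuadraticForm F (Fin (2 * n) → F), ∀ v, Q₁ v = B (φ.symm v) (φ.symm v) :=
    ⟨(LinearMap.BilinMap.toQuadraticMap B).comp (φ.symm : (Fin (2 * n) → F) →ₗ[F] V), fun v => rfl⟩
  obtain ⟨Q₂, hQ₂⟩ : ∃ Q₂ : QuadraticForm F (Fin (2 * n) → F), ∀ v, Q₂ v = qp32 F n (ψ v) :=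
    ⟨(qp32 F n).comp (ψ : (Fin (2 * n) → F) →ₗ[F] (Fin n ⊕ Fin n → F)), fun v => rfl⟩
  have hpol₁ : ∀ x y, QuadraticMap.polar ⇑Q₁ x y = 2 * B (φ.symm x) (φ.symm y) := by
    intro x y
    simp only [QuadraticMap.polar, hQ₁, map_add, LinearMap.add_apply]
    rw [hS (φ.symm y) (φ.symm x)]; ring
  have hpol₂ : ∀ x y, QuadraticMap.polar ⇑Q₂ x y = QuadraticMap.polar ⇑(qp32 F n) (ψ x) (ψ y) := by
    intro x y
    simp only [QuadraticMap.polar, hQ₂, map_add]
  have hnd₁ : (QuadraticMap.polarBilin Q₁).Nondegenerate := by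
    have key : ∀ x, (∀ y, QuadraticMap.polar ⇑Q₁ x y = 0) → x = 0 := by
      intro x hx
      have h3 : φ.symm x = 0 := hB.1 _ (fun y => by
        have h1 := hx (φ y)
        rw [hpol₁, LinearEquiv.symm_apply_apply] at h1
        exact (mul_eq_zero.mp h1).resolve_left h2)
      simpa using h3
    constructor
    · intro x hx
      exact key x (fun y => by rw [← QuadraticMap.polarBilin_apply_apply]; exact hx y)
    · intro y hy
      exact key y (fun x => by
        rw [QuadraticMap.polar_comm, ← QuadraticMap.polarBilin_apply_apply]; exact hy x)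
  have hnd₂ : (QuadraticMap.polarBilin Q₂).Nondegenerate := by
    have key : ∀ x, (∀ y, QuadraticMap.polar ⇑Q₂ x y = 0) → x = 0 := by
      intro x hx
      have h3 : ψ x = 0 := (qp_nondeg32 (F := F) n).1 _ (fun y => by
        have h1 := hx (ψ.symm y)
        rw [hpol₂, LinearEquiv.apply_symm_apply] at h1
        rw [QuadraticMap.polarBilin_apply_apply]; exact h1)
      simpa using h3
    constructor
    · intro x hx
      exact key x (fun y => by rw [← QuadraticMap.polarBilin_apply_apply]; exact hx y)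
    · intro y hy
      exact key y (fun x => by
        rw [QuadraticMap.polar_comm, ← QuadraticMap.polarBilin_apply_apply]; exact hy x)
  obtain ⟨L₀, hL₀, hL₀d⟩ := plus_exists62 F n
  have hfr : finrank F (Fin (2 * n) → F) = 2 * n := by simp
  obtain ⟨c, hc⟩ := lemB34 (QuadraticMap.polarBilin Q₂) (fun x y => by
      rw [QuadraticMap.polarBilin_apply_apply, QuadraticMap.polarBilin_apply_apply, QuadraticMap.polar_comm]) n hfr
    (L₀.map (ψ.symm : (Fin n ⊕ Fin n → F) →ₗ[F] (Fin (2 * n) → F)))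
    (by rw [LinearEquiv.finrank_map_eq, hL₀d])
    (by
      rintro x ⟨x', hx', rfl⟩ y ⟨y', hy', rfl⟩
      rw [QuadraticMap.polarBilin_apply_apply, hpol₂]
      simp only [LinearEquiv.coe_coe, LinearEquiv.apply_symm_apply]
      rw [QuadraticMap.polar, hL₀ _ (L₀.add_mem hx' hy'), hL₀ x' hx', hL₀ y' hy']; ring)
    (Pi.basisFun F (Fin (2 * n)))
  rw [gstd_eq23] at hc
  have hG₁ : gstd23 Q₁ = (2 : F) • LinearMap.BilinForm.toMatrix e B := by
    ext i j
    rw [Matrix.smul_apply, LinearMap.BilinForm.toMatrix_apply, smul_eq_mul]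
    show QuadraticMap.polar ⇑Q₁ (Pi.single i 1) (Pi.single j 1) = _
    rw [hpol₁, hφ, hφ]
  obtain ⟨p, hp0, hp⟩ := disc_change34 e b
  have hsq' : IsSquare ((gstd23 Q₁).det * (gstd23 Q₂).det) := by
    obtain ⟨r, hr⟩ := hsq
    rw [hG₁, Matrix.det_smul, Fintype.card_fin, hp B, hc, pow_mul']
    refine ⟨2 ^ n * p * c * r, ?_⟩
    linear_combination ((2 ^ n) ^ 2 * p ^ 2 * c ^ 2) * hr
  obtain ⟨g, hg⟩ := (Cfsg.Agent.S2623.result h2 Q₁ Q₂ hnd₁ hnd₂).mpr hsq'
  have hBxx : ∀ x : V, B x x = qp32 F n (ψ (g (φ x))) := by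
    intro x
    rw [← hQ₂, hg, hQ₁, LinearEquiv.symm_apply_apply]
  refine ⟨L₀.map ((φ.trans (g.trans ψ)).symm : (Fin n ⊕ Fin n → F) →ₗ[F] V), ?_, ?_⟩
  · rw [LinearEquiv.finrank_map_eq, hL₀d]
  · have hself : ∀ x ∈ L₀.map ((φ.trans (g.trans ψ)).symm : (Fin n ⊕ Fin n → F) →ₗ[F] V), B x x = 0 := by
      rintro x ⟨x', hx', rfl⟩
      rw [hBxx]
      have h3 : ψ (g (φ ((φ.trans (g.trans ψ)).symm x'))) = x' := by
        have h4 := LinearEquiv.apply_symm_apply (φ.trans (g.trans ψ)) x'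
        simpa using h4
      simp only [LinearEquiv.coe_coe]
      rw [h3]; exact hL₀ x' hx'
    intro x hx y hy
    have h5 := hself (x + y) (Submodule.add_mem _ hx hy)
    have h7 : B (x + y) (x + y) = B x x + B x y + B y x + B y y := by
      simp only [map_add, LinearMap.add_apply]; ring
    rw [h7, hself x hx, hself y hy, hS y x] at h5
    have h6 : 2 * B x y = 0 := by linear_combination h5
    exact (mul_eq_zero.mp h6).resolve_left h2

theorem tmul_symm34 {F U W : Type*} [Field F] [AddCommGroup U] [Module F U] [AddCommGroup W] [Module F W]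
    (B₁ : LinearMap.BilinForm F U) (B₂ : LinearMap.BilinForm F W) (hS₁ : ∀ x y, B₁ x y = B₁ y x)
    (hS₂ : ∀ x y, B₂ x y = B₂ y x) : ∀ x y, (B₁.tmul B₂) x y = (B₁.tmul B₂) y x := by
  intro x y
  induction x using TensorProduct.induction_on with
  | zero => simp
  | tmul u w =>
    induction y using TensorProduct.induction_on with
    | zero => simp
    | tmul u' w' =>
      rw [tmul_apply33, tmul_apply33, hS₁ u u', hS₂ w w']
    | add a b ha hb => rw [map_add, ha, hb, map_add, LinearMap.add_apply]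
  | add a b ha hb => rw [map_add, LinearMap.add_apply, ha, hb, map_add]

theorem tmul_det34 {F U W ι κ : Type*} [Field F] [AddCommGroup U] [Module F U] [AddCommGroup W] [Module F W]
    [Fintype ι] [DecidableEq ι] [Fintype κ] [DecidableEq κ]
    (B₁ : LinearMap.BilinForm F U) (B₂ : LinearMap.BilinForm F W) (b : Basis ι F U) (c : Basis κ F W) :
    (LinearMap.BilinForm.toMatrix (b.tensorProduct c) (B₁.tmul B₂)).det =
      (LinearMap.BilinForm.toMatrix b B₁).det ^ Fintype.card κ * (LinearMap.BilinForm.toMatrix c B₂).det ^ Fintype.card ι := by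
  have hM : LinearMap.BilinForm.toMatrix (b.tensorProduct c) (B₁.tmul B₂) = Matrix.kroneckerMap (· * ·) (LinearMap.BilinForm.toMatrix b B₁) (LinearMap.BilinForm.toMatrix c B₂) := by
    ext ⟨i, p⟩ ⟨j, q⟩
    simp [LinearMap.BilinForm.toMatrix_apply, Module.Basis.tensorProduct_apply, mul_comm]
  rw [hM, Matrix.det_kronecker]

theorem tmul_nd34 {F U W : Type*} [Field F] [AddCommGroup U] [Module F U] [FiniteDimensional F U] [AddCommGroup W] [Module F W] [FiniteDimensional F W]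
    (B₁ : LinearMap.BilinForm F U) (B₂ : LinearMap.BilinForm F W) (h₁ : B₁.Nondegenerate) (h₂ : B₂.Nondegenerate) :
    (B₁.tmul B₂).Nondegenerate := by
  classical
  refine (LinearMap.BilinForm.nondegenerate_iff_det_ne_zero ((Module.finBasis F U).tensorProduct (Module.finBasis F W))).mpr ?_
  rw [tmul_det34]
  exact mul_ne_zero (pow_ne_zero _ ((LinearMap.BilinForm.nondegenerate_iff_det_ne_zero _).mp h₁)) (pow_ne_zero _ ((LinearMap.BilinForm.nondegenerate_iff_det_ne_zero _).mp h₂))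

/-- Over a finite field with 2 ≠ 0: if B₁ on U (dim 2k, k ≥ 1) and B₂ on W (dim 2l, l ≥ 1) are non-degenerate symmetric forms admitting no totally isotropic subspaces of dimensions k, resp. l (minus type), then B₁ ⊗ B₂ admits a totally isotropic subspace of dimension 2kl (plus type). -/
theorem result {F U W : Type*} [Field F] [Fintype F] [AddCommGroup U] [Module F U] [FiniteDimensional F U] [AddCommGroup W] [Module F W] [FiniteDimensional F W] (h2 : (2 : F) ≠ 0) (B₁ : LinearMap.BilinForm F U) (B₂ : LinearMap.BilinForm F W) (h₁ : B₁.Nondegenerate) (h₂ : B₂.Nondegenerate) (hS₁ : B₁.IsSymm) (hS₂ : B₂.IsSymm) (k l : ℕ) (hk : 1 ≤ k) (hl : 1 ≤ l) (hU : Module.finrank F U = 2 * k) (hW : Module.finrank F W = 2 * l) (hm₁ : ¬ (∃ X : Submodule F (U), Module.finrank F X = k ∧ ∀ x ∈ X, ∀ y ∈ X, (B₁) x y = 0)) (hm₂ : ¬ (∃ X : Submodule F (W), Module.finrank F X = l ∧ ∀ x ∈ X, ∀ y ∈ X, (B₂) x y = 0)) : (∃ X : Submodule F (TensorProduct F U W),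 Module.finrank F X = 2 * k * l ∧ ∀ x ∈ X, ∀ y ∈ X, (B₁.tmul B₂) x y = 0) := by
  classical
  have hs₁ : ∀ x y, B₁ x y = B₁ y x := fun x y => LinearMap.BilinForm.IsSymm.eq hS₁ x y
  have hs₂ : ∀ x y, B₂ x y = B₂ y x := fun x y => LinearMap.BilinForm.IsSymm.eq hS₂ x y
  have hdim : finrank F (TensorProduct F U W) = 2 * (2 * k * l) := by
    rw [Module.finrank_tensorProduct, hU, hW]; ring
  obtain ⟨b⟩ : Nonempty (Basis (Fin (2 * k)) F U) := ⟨Module.finBasisOfFinrankEq F U hU⟩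
  obtain ⟨c⟩ : Nonempty (Basis (Fin (2 * l)) F W) := ⟨Module.finBasisOfFinrankEq F W hW⟩
  apply lemA34 h2 (B₁.tmul B₂) (tmul_symm34 B₁ B₂ hs₁ hs₂) (tmul_nd34 B₁ B₂ h₁ h₂) (2 * k * l) hdim
    (b.tensorProduct c)
  rw [tmul_det34, Fintype.card_fin, Fintype.card_fin]
  refine ⟨(-1) ^ (k * l) * (LinearMap.BilinForm.toMatrix b B₁).det ^ l * (LinearMap.BilinForm.toMatrix c B₂).det ^ k, ?_⟩
  ring

end Cfsg.Agent.S0834
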