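import Cfsg.Statements.S0835
import Mathlib
import Cfsg.Statements.S0835
import Cfsg.Agent.S0834

set_option autoImplicit false
open Cfsg
open scoped commutatorElement

namespace Cfsg.Agent.S0835

open Cfsg.Agent.S0834
open Module TensorProduct

/-- Over a finite field with 2 ≠ 0: if B₁ on U (dim 2k, k ≥ 1) is non-degenerate symmetric of minus type (no totally isotropic k-subspace) and B₂ on W (dim 2l + 1) is non-degenerate symmetric, then B₁ ⊗ B₂ (dimension 2k(2l+1)) admits no totally isotropic subspace of dimension k(2l+1) (minus type). -/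
theorem result {F U W : Type*} [Field F] [Fintype F] [AddCommGroup U] [Module F U] [FiniteDimensional F U] [AddCommGroup W] [Module F W] [FiniteDimensional F W] (h2 : (2 : F) ≠ 0) (B₁ : LinearMap.BilinForm F U) (B₂ : LinearMap.BilinForm F W) (h₁ : B₁.Nondegenerate) (h₂ : B₂.Nondegenerate) (hS₁ : B₁.IsSymm) (hS₂ : B₂.IsSymm) (k l : ℕ) (hk : 1 ≤ k) (hU : Module.finrank F U = 2 * k) (hW : Module.finrank F W = 2 * l + 1) (hm₁ : ¬ (∃ X : Submodule F (U), Module.finrank F X = k ∧ ∀ x ∈ X, ∀ y ∈ X, (B₁) x y = 0)) : ¬ (∃ X : Submodule F (TensorProduct F U W), Module.finrank F X = k * (2 * l + 1) ∧ ∀ x ∈ X, ∀ y ∈ X, (B₁.tmul B₂) x y = 0) := by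
  classical
  rintro ⟨X, hXd, hX⟩
  have hs₁ : ∀ x y, B₁ x y = B₁ y x := fun x y => LinearMap.BilinForm.IsSymm.eq hS₁ x y
  have hs₂ : ∀ x y, B₂ x y = B₂ y x := fun x y => LinearMap.BilinForm.IsSymm.eq hS₂ x y
  have hdim : finrank F (TensorProduct F U W) = 2 * (k * (2 * l + 1)) := by
    rw [Module.finrank_tensorProduct, hU, hW]; ring
  obtain ⟨b⟩ : Nonempty (Basis (Fin (2 * k)) F U) := ⟨Module.finBasisOfFinrankEq F U hU⟩
  obtain ⟨c⟩ : Nonempty (Basis (Fin (2 * l + 1)) F W) := ⟨Module.finBasisOfFinrankEq F W hW⟩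
  obtain ⟨r, hr⟩ := lemB34 (B₁.tmul B₂) (tmul_symm34 B₁ B₂ hs₁ hs₂) (k * (2 * l + 1)) hdim X hXd hX (b.tensorProduct c)
  have hsgn : (-1 : F) ^ (k * (2 * l + 1)) = (-1) ^ k := by
    rw [mul_comm, pow_mul, Odd.neg_one_pow ⟨l, rfl⟩]
  rw [tmul_det34, Fintype.card_fin, Fintype.card_fin, hsgn] at hr
  have hd₁ : (LinearMap.BilinForm.toMatrix b B₁).det ≠ 0 := (LinearMap.BilinForm.nondegenerate_iff_det_ne_zero b).mp h₁
  have hd₂ : (LinearMap.BilinForm.toMatrix c B₂).det ≠ 0 := (LinearMap.BilinForm.nondegenerate_iff_det_ne_zero c).mp h₂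
  apply hm₁
  apply lemA34 h2 B₁ hs₁ h₁ k hU b
  obtain ⟨d₁, hd₁def⟩ : ∃ d₁ : F, d₁ = (LinearMap.BilinForm.toMatrix b B₁).det := ⟨_, rfl⟩
  obtain ⟨d₂, hd₂def⟩ : ∃ d₂ : F, d₂ = (LinearMap.BilinForm.toMatrix c B₂).det := ⟨_, rfl⟩
  rw [← hd₁def] at hr hd₁ ⊢
  rw [← hd₂def] at hr hd₂
  have hs : ((-1 : F) ^ k) * ((-1) ^ k) = 1 := by
    rw [← mul_pow]; simp
  have hD : d₁ ^ l * d₂ ^ k ≠ 0 := mul_ne_zero (pow_ne_zero _ hd₁) (pow_ne_zero _ hd₂)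
  refine ⟨r / (d₁ ^ l * d₂ ^ k), ?_⟩
  rw [div_mul_div_comm, eq_div_iff (mul_ne_zero hD hD)]
  have e1 : d₁ ^ (2 * l + 1) * d₂ ^ (2 * k) = d₁ * ((d₁ ^ l * d₂ ^ k) * (d₁ ^ l * d₂ ^ k)) := by ring
  rw [e1] at hr
  linear_combination ((-1 : F) ^ k) * hr + r ^ 2 * hs

end Cfsg.Agent.S0835
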