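import Mathlib
import Cfsg.Statements.S0836

set_option autoImplicit false
open Cfsg

namespace Cfsg.Agent.S0836

theorem result {F : Type*} [Field F] (n : ℕ) (hn : 3 ≤ n ∨ (n = 2 ∧ ∃ x : F, x ≠ 0 ∧ x ^ 2 ≠ 1)) (i j : Fin n) (hij : i ≠ j) (c : F) (t : Matrix.SpecialLinearGroup (Fin n) F) (ht : (t : Matrix (Fin n) (Fin n) F) = Matrix.transvection i j c) : t ∈ commutatorSet (Matrix.SpecialLinearGroup (Fin n) F) := by
  suffices h : ∃ g₁ g₂ : Matrix.SpecialLinearGroup (Fin n) F, g₁ * g₂ = t * g₂ * g₁ by
    obtain ⟨g₁, g₂, h⟩ := h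
    refine ⟨g₁, g₂, ?_⟩
    rw [commutatorElement_def, h]; group
  rcases hn with hn | ⟨rfl, x, hx0, hx1⟩
  · obtain ⟨k, hki, hkj⟩ : ∃ k : Fin n, k ≠ i ∧ k ≠ j := by
      by_contra hcon
      push Not at hcon
      have hsub : (Finset.univ : Finset (Fin n)) ⊆ {i, j} := by
        intro k _
        by_cases hki : k = i
        · simp [hki]
        · simp [hcon k hki]
      have h1 := Finset.card_le_card hsub
      rw [Finset.card_univ, Fintype.card_fin] at h1
      have h2 : ({i, j} : Finset (Fin n)).card ≤ 2 := Finset.card_le_two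
      omega
    refine ⟨⟨Matrix.transvection i k c, Matrix.det_transvection_of_ne _ _ hki.symm c⟩,
      ⟨Matrix.transvection k j 1, Matrix.det_transvection_of_ne _ _ hkj 1⟩, ?_⟩
    apply Subtype.ext
    show Matrix.transvection i k c * Matrix.transvection k j 1
      = (t : Matrix (Fin n) (Fin n) F) * Matrix.transvection k j 1 * Matrix.transvection i k c
    rw [ht]
    have e1 : Matrix.single i j c * Matrix.single k j (1 : F) = 0 := by
      rw [Matrix.single_mul_single_of_ne]; exact hkj.symm
    have e2 : Matrix.single i j c * Matrix.single i k c = 0 := by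
      rw [Matrix.single_mul_single_of_ne]; exact hij.symm
    have e3 : Matrix.single k j (1 : F) * Matrix.single i k c = 0 := by
      rw [Matrix.single_mul_single_of_ne]; exact hij.symm
    simp only [Matrix.transvection, add_mul, mul_add, one_mul, mul_one,
      Matrix.single_mul_single_same, e1, e2, e3, add_zero, zero_mul]
    abel
  · have hx2 : x ^ 2 - 1 ≠ 0 := sub_ne_zero.mpr hx1
    let D : Matrix (Fin 2) (Fin 2) F := Matrix.diagonal (fun k => if k = i then x else x⁻¹)
    have hD : D.det = 1 := by
      rw [Matrix.det_diagonal, Fin.prod_univ_two]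
      fin_cases i <;> fin_cases j <;> simp_all
    refine ⟨⟨D, hD⟩, ⟨Matrix.transvection i j (c / (x ^ 2 - 1)),
      Matrix.det_transvection_of_ne _ _ hij _⟩, ?_⟩
    apply Subtype.ext
    show D * Matrix.transvection i j (c / (x ^ 2 - 1))
      = (t : Matrix (Fin 2) (Fin 2) F) * Matrix.transvection i j (c / (x ^ 2 - 1)) * D
    rw [ht, Matrix.transvection_mul_transvection_same i j hij]
    ext a b
    fin_cases i <;> fin_cases j <;> fin_cases a <;> fin_cases b <;>
      simp [D, Matrix.transvection, Matrix.single, Matrix.mul_apply,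
        Matrix.diagonal, Matrix.one_apply] at hij ⊢ <;> field_simp <;> ring

end Cfsg.Agent.S0836
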