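import Cfsg.Statements.S0837
import Mathlib
import Cfsg.Statements.S0837
import Cfsg.Agent.S0755
import Cfsg.Agent.S0277
import Cfsg.Agent.Lib.Lead.HermCount

set_option autoImplicit false
open Cfsg
open scoped commutatorElement

namespace Cfsg.Agent.S0837

open Matrix Module
open Cfsg.Agent.Lib.Lead Cfsg.Agent.S0277 Cfsg.Agent.S0755

def cs37 {F : Type*} [Field F] [Fintype F] {q : ℕ} (hF : Fintype.card F = q ^ 2) {α β : Type*}
    (M : Matrix α β F) : Matrix β α F :=
  (M.map (sig77 hF))ᵀ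

theorem cs_apply37 {F : Type*} [Field F] [Fintype F] {q : ℕ} (hF : Fintype.card F = q ^ 2) {α β : Type*}
    (M : Matrix α β F) (i : β) (j : α) : cs37 hF M i j = (M j i) ^ q := rfl

theorem cs_mul37 {F : Type*} [Field F] [Fintype F] {q : ℕ} (hF : Fintype.card F = q ^ 2) {α β γ : Type*} [Fintype β]
    (M : Matrix α β F) (N : Matrix β γ F) : cs37 hF (M * N) = cs37 hF N * cs37 hF M := by
  unfold cs37
  rw [Matrix.map_mul, Matrix.transpose_mul]

theorem cs_cs37 {F : Type*} [Field F] [Fintype F] {q : ℕ} (hF : Fintype.card F = q ^ 2) {α β : Type*}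
    (M : Matrix α β F) : cs37 hF (cs37 hF M) = M := by
  ext i j
  rw [cs_apply37, cs_apply37]
  exact herm_pow_sq hF _

theorem cs_add37 {F : Type*} [Field F] [Fintype F] {q : ℕ} (hF : Fintype.card F = q ^ 2) {α β : Type*}
    (M N : Matrix α β F) : cs37 hF (M + N) = cs37 hF M + cs37 hF N := by
  ext i j
  rw [cs_apply37, Matrix.add_apply, Matrix.add_apply, cs_apply37, cs_apply37]
  exact herm_pow_add hF _ _

theorem cs_one37 {F : Type*} [Field F] [Fintype F] {q : ℕ} (hF : Fintype.card F = q ^ 2) {α : Type*} [DecidableEq α] :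
    cs37 hF (1 : Matrix α α F) = 1 := by
  have h2 := herm_two_le hF
  ext i j
  rw [cs_apply37, Matrix.one_apply, Matrix.one_apply]
  by_cases h : i = j
  · rw [if_pos h, if_pos h.symm, one_pow]
  · rw [if_neg h, if_neg (Ne.symm h), zero_pow (by omega)]

theorem cs_mul_apply37 {F : Type*} [Field F] [Fintype F] {q : ℕ} (hF : Fintype.card F = q ^ 2) {n : ℕ} {α β : Type*}
    (M : Matrix (Fin n) α F) (N : Matrix (Fin n) β F) (i : α) (j : β) :
    (cs37 hF M * N) i j = hermForm n F q (fun a => N a j) (fun a => M a i) := by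
  rw [Matrix.mul_apply]; unfold hermForm
  exact Finset.sum_congr rfl (fun a _ => mul_comm _ _)

theorem gu_iff37 {F : Type*} [Field F] [Fintype F] {q : ℕ} (hF : Fintype.card F = q ^ 2) (n : ℕ)
    (g : Matrix.GeneralLinearGroup (Fin n) F) :
    g ∈ GU n F q ↔ cs37 hF (g : Matrix (Fin n) (Fin n) F) * (g : Matrix (Fin n) (Fin n) F) = 1 := by
  rw [gu_mem77 hF n g]
  constructor
  · intro h
    ext i j
    rw [cs_mul_apply37, Matrix.one_apply]
    refine (h j i).trans ?_
    by_cases hij : i = j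
    · rw [if_pos hij.symm, if_pos hij]
    · rw [if_neg (Ne.symm hij), if_neg hij]
  · intro h i j
    have h1 := congrFun (congrFun h j) i
    rw [cs_mul_apply37, Matrix.one_apply] at h1
    refine h1.trans ?_
    by_cases hij : i = j
    · rw [if_pos hij.symm, if_pos hij]
    · rw [if_neg (Ne.symm hij), if_neg hij]

theorem exists_XY37 {F : Type*} [Field F] [Fintype F] {q : ℕ} (hF : Fintype.card F = q ^ 2) (n k : ℕ) (hk : k ≤ n)
    (W : Submodule F (Fin n → F)) (hWk : finrank F W = k)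
    (hW : ∀ u ∈ W, (∀ v ∈ W, hermForm n F q u v = 0) → u = 0) :
    ∃ (X : Matrix (Fin n) (Fin k) F) (Y : Matrix (Fin n) (Fin (n - k)) F),
      cs37 hF X * X = 1 ∧ cs37 hF Y * Y = 1 ∧ cs37 hF X * Y = 0 ∧ cs37 hF Y * X = 0 ∧
      X * cs37 hF X + Y * cs37 hF Y = 1 ∧ ∀ v, v ∈ W ↔ ∃ c, v = X *ᵥ c := by
  classical
  have h2 := herm_two_le hF
  have hq0 : q ≠ 0 := by omega
  subst hWk
  obtain ⟨B, hBdef⟩ : ∃ B, B = hB77 hF n := ⟨_, rfl⟩
  have hS : B.IsSymm := by rw [hBdef]; exact hB_symm77 hF n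
  have hnd : B.Nondegenerate := by rw [hBdef]; exact hB_nd77 hF n
  have hBh : ∀ x y, B x y = hermForm n F q y x := fun x y => by rw [hBdef]; rfl
  have hsym : ∀ x y, B x y = (B y x) ^ q := fun x y => (LinearMap.isSymm_def.mp hS y x).symm
  have hndW : (B.domRestrict₁₂ W W).Nondegenerate := by
    constructor
    · intro x hx
      apply Subtype.ext
      apply hW x.1 x.2
      intro v hv
      have h1 : B (x : Fin n → F) v = 0 := hx ⟨v, hv⟩
      rw [← hBh, hsym, h1, zero_pow hq0]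
    · intro y hy
      apply Subtype.ext
      apply hW y.1 y.2
      intro v hv
      have h1 : B v (y : Fin n → F) = 0 := hy ⟨v, hv⟩
      rw [← hBh]; exact h1
  obtain ⟨b, hb⟩ := Cfsg.Agent.S0755.result (sig77 hF) (sig_ne77 hF) (fun a => herm_pow_sq hF a)
    (B.domRestrict₁₂ W W) (hS.domRestrict _) hndW
  have hb' : ∀ i j, B (b i : Fin n → F) (b j : Fin n → F) = if i = j then 1 else 0 := hb
  obtain ⟨L, hL⟩ : ∃ L : (Fin n → F) →ₗ[F] (Fin (finrank F W) → F),
      L = LinearMap.pi (fun i => B (b i : Fin n → F)) := ⟨_, rfl⟩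
  have hLap : ∀ w i, L w i = B (b i : Fin n → F) w := fun w i => by rw [hL]; rfl
  have hsurj : Function.Surjective L := by
    intro a
    refine ⟨∑ j, a j • (b j : Fin n → F), ?_⟩
    funext i
    rw [hLap]
    simp only [map_sum, map_smul, hb', smul_eq_mul, mul_ite, mul_one, mul_zero, Finset.sum_ite_eq, Finset.sum_ite_eq',
      Finset.mem_univ, if_true]
  have hfr : finrank F (LinearMap.ker L) = n - finrank F W := by
    have h1 := LinearMap.finrank_range_add_finrank_ker L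
    rw [LinearMap.range_eq_top.mpr hsurj, finrank_top, Module.finrank_fin_fun, Module.finrank_fin_fun] at h1
    omega
  have hUb : ∀ x : LinearMap.ker L, ∀ i, B (b i : Fin n → F) (x : Fin n → F) = 0 := fun x i => by
    have h1 := LinearMap.mem_ker.mp x.2
    rw [← hLap, h1]; rfl
  have hbU : ∀ x : LinearMap.ker L, ∀ i, B (x : Fin n → F) (b i : Fin n → F) = 0 := fun x i => by
    rw [hsym, hUb, zero_pow hq0]
  have key : ∀ x : LinearMap.ker L, (∀ y : LinearMap.ker L, B (x : Fin n → F) (y : Fin n → F) = 0) → x = 0 := by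
    intro x hx
    apply Subtype.ext
    apply hnd.1
    intro z
    have hmem' : z - ∑ j, (B (b j : Fin n → F) z) • (b j : Fin n → F) ∈ LinearMap.ker L := by
      rw [LinearMap.mem_ker]
      funext i
      rw [hLap]
      simp only [map_sub, map_sum, map_smul, hb', smul_eq_mul, mul_ite, mul_one, mul_zero, Finset.sum_ite_eq,
        Finset.sum_ite_eq', Finset.mem_univ, if_true, sub_self, Pi.zero_apply]
    have h1 := hx ⟨_, hmem'⟩
    simp only [map_sub, map_sum, map_smul, hbU x, smul_eq_mul, mul_zero, Finset.sum_const_zero, sub_zero] at h1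
    exact h1
  have hndU : (B.domRestrict₁₂ (LinearMap.ker L) (LinearMap.ker L)).Nondegenerate := by
    constructor
    · intro x hx
      exact key x hx
    · intro y hy
      apply key y
      intro x
      have h1 : B (x : Fin n → F) (y : Fin n → F) = 0 := hy x
      rw [hsym, h1, zero_pow hq0]
  obtain ⟨y, hy⟩ := main55 (sig77 hF) (sig_ne77 hF) (fun a => herm_pow_sq hF a) (n - finrank F W) (LinearMap.ker L)
    (B.domRestrict₁₂ (LinearMap.ker L) (LinearMap.ker L)) hfr (hS.domRestrict _) hndU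
  have hy' : ∀ i j, B (y i : Fin n → F) (y j : Fin n → F) = if i = j then 1 else 0 := hy
  obtain ⟨X, hX⟩ : ∃ X : Matrix (Fin n) (Fin (finrank F W)) F, X = Matrix.of (fun a i => (b i : Fin n → F) a) := ⟨_, rfl⟩
  obtain ⟨Y, hY⟩ : ∃ Y : Matrix (Fin n) (Fin (n - finrank F W)) F, Y = Matrix.of (fun a i => (y i : Fin n → F) a) :=
    ⟨_, rfl⟩
  have hXcol : ∀ i, (fun a => X a i) = (b i : Fin n → F) := fun i => by rw [hX]; rfl
  have hYcol : ∀ i, (fun a => Y a i) = (y i : Fin n → F) := fun i => by rw [hY]; rfl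
  have h1 : cs37 hF X * X = 1 := by
    ext i j
    rw [cs_mul_apply37, Matrix.one_apply, hXcol, hXcol, ← hBh]
    exact hb' i j
  have h2' : cs37 hF Y * Y = 1 := by
    ext i j
    rw [cs_mul_apply37, Matrix.one_apply, hYcol, hYcol, ← hBh]
    exact hy' i j
  have h3 : cs37 hF X * Y = 0 := by
    ext i j
    rw [cs_mul_apply37, hXcol, hYcol, ← hBh]
    exact hUb (y j) i
  have h4 : cs37 hF Y * X = 0 := by
    ext i j
    rw [cs_mul_apply37, hXcol, hYcol, ← hBh]
    exact hbU (y i) j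
  refine ⟨X, Y, h1, h2', h3, h4, ?_, ?_⟩
  · have hP : Matrix.fromRows (cs37 hF X) (cs37 hF Y) * Matrix.fromCols X Y = 1 := by
      rw [Matrix.fromRows_mul_fromCols, h1, h2', h3, h4, Matrix.fromBlocks_one]
    have e : Fin n ≃ Fin (finrank F W) ⊕ Fin (n - finrank F W) :=
      (finCongr (by omega)).trans finSumFinEquiv.symm
    have h5 := (Matrix.fromCols_mul_fromRows_eq_one_comm e X Y (cs37 hF X) (cs37 hF Y)).mpr hP
    rwa [Matrix.fromCols_mul_fromRows] at h5
  · have hXc : ∀ c : Fin (finrank F W) → F, X *ᵥ c = ∑ i, c i • (b i : Fin n → F) := by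
      intro c; funext a
      rw [hX]
      simp [Matrix.mulVec, dotProduct, Finset.sum_apply, mul_comm]
    intro v
    constructor
    · intro hv
      refine ⟨b.repr ⟨v, hv⟩, ?_⟩
      rw [hXc]
      have h6 := congrArg Subtype.val (b.sum_repr ⟨v, hv⟩)
      rw [Submodule.coe_sum] at h6
      exact h6.symm
    · rintro ⟨c, rfl⟩
      rw [hXc]
      exact Submodule.sum_mem _ (fun i _ => Submodule.smul_mem _ _ (b i).2)

theorem absorb37 {F : Type*} [Field F] {α β γ : Type*} [Fintype α] [Fintype β] [DecidableEq β]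
    (P : Matrix β α F) (Q : Matrix α β F) (h : P * Q = 1) (M : Matrix β γ F) : P * (Q * M) = M := by
  rw [← Matrix.mul_assoc, h, Matrix.one_mul]

theorem kill37 {F : Type*} [Field F] {α β β' γ : Type*} [Fintype α] [Fintype β']
    (P : Matrix β α F) (Q : Matrix α β' F) (h : P * Q = 0) (M : Matrix β' γ F) : P * (Q * M) = 0 := by
  rw [← Matrix.mul_assoc, h, Matrix.zero_mul]

/-- If W ≤ F^n (|F| = q²) is a k-dimensional subspace on which the Hermitian form Σ x_i y_i^q is non-degenerate, then the stabiliser of W in GU_n(q) is isomorphic to GU_k(q) × GU_(n−k)(q). -/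
theorem result {F : Type*} [Field F] [Fintype F] {q : ℕ} (hF : Fintype.card F = q ^ 2) (n k : ℕ) (hk : k ≤ n) (W : Submodule F (Fin n → F)) (hWk : Module.finrank F W = k) (hW : ∀ u ∈ W, (∀ v ∈ W, Cfsg.hermForm n F q u v = 0) → u = 0) : Nonempty (↥((Cfsg.stabilizing (Cfsg.glToMat (Fin n) F) (W : Set (Fin n → F))).subgroupOf (Cfsg.GU n F q)) ≃* ↥(Cfsg.GU k F q) × ↥(Cfsg.GU (n - k) F q)) := by
  classical
  have h2 := herm_two_le hF
  obtain ⟨X, Y, hXX, hYY, hXY, hYX, hE, hWX⟩ := exists_XY37 hF n k hk W hWk hW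
  have a1 : ∀ M : Matrix (Fin k) (Fin n) F, cs37 hF X * (X * M) = M := absorb37 _ _ hXX
  have a2 : ∀ M : Matrix (Fin (n - k)) (Fin n) F, cs37 hF X * (Y * M) = 0 := kill37 _ _ hXY
  have a3 : ∀ M : Matrix (Fin k) (Fin n) F, cs37 hF Y * (X * M) = 0 := kill37 _ _ hYX
  have a4 : ∀ M : Matrix (Fin (n - k)) (Fin n) F, cs37 hF Y * (Y * M) = M := absorb37 _ _ hYY
  let Φ : Matrix (Fin k) (Fin k) F × Matrix (Fin (n - k)) (Fin (n - k)) F →* Matrix (Fin n) (Fin n) F :=
    { toFun := fun p => X * p.1 * cs37 hF X + Y * p.2 * cs37 hF Y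
      map_one' := by
        show X * 1 * cs37 hF X + Y * 1 * cs37 hF Y = 1
        rw [Matrix.mul_one, Matrix.mul_one]; exact hE
      map_mul' := fun p p' => by
        show X * (p.1 * p'.1) * cs37 hF X + Y * (p.2 * p'.2) * cs37 hF Y =
          (X * p.1 * cs37 hF X + Y * p.2 * cs37 hF Y) * (X * p'.1 * cs37 hF X + Y * p'.2 * cs37 hF Y)
        simp only [Matrix.add_mul, Matrix.mul_add, Matrix.mul_assoc, a1, a2, a3, a4, Matrix.mul_zero, add_zero,
          zero_add] }
  have hΦ : ∀ p, Φ p = X * p.1 * cs37 hF X + Y * p.2 * cs37 hF Y := fun p => rfl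
  have hΦX : ∀ p, Φ p * X = X * p.1 := by
    intro p
    rw [hΦ, Matrix.add_mul, Matrix.mul_assoc (X * p.1), hXX, Matrix.mul_one, Matrix.mul_assoc (Y * p.2), hYX,
      Matrix.mul_zero, add_zero]
  have hΦY : ∀ p, Φ p * Y = Y * p.2 := by
    intro p
    rw [hΦ, Matrix.add_mul, Matrix.mul_assoc (X * p.1), hXY, Matrix.mul_zero, Matrix.mul_assoc (Y * p.2), hYY,
      Matrix.mul_one, zero_add]
  have hΦ2 : ∀ p, cs37 hF X * Φ p * X = p.1 := by
    intro p
    rw [Matrix.mul_assoc, hΦX, ← Matrix.mul_assoc, hXX, Matrix.one_mul]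
  have hΦ2' : ∀ p, cs37 hF Y * Φ p * Y = p.2 := by
    intro p
    rw [Matrix.mul_assoc, hΦY, ← Matrix.mul_assoc, hYY, Matrix.one_mul]
  have hΦ4 : ∀ p : Matrix (Fin k) (Fin k) F × Matrix (Fin (n - k)) (Fin (n - k)) F,
      cs37 hF (Φ p) = Φ (cs37 hF p.1, cs37 hF p.2) := by
    intro p
    rw [hΦ, hΦ, cs_add37, cs_mul37, cs_mul37, cs_mul37, cs_mul37, cs_cs37, cs_cs37, Matrix.mul_assoc, Matrix.mul_assoc]
  let f₀ : GU k F q × GU (n - k) F q →* Matrix.GeneralLinearGroup (Fin n) F :=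
    (Units.map Φ).comp (MulEquiv.prodUnits.symm.toMonoidHom.comp
      ((GU k F q).subtype.prodMap (GU (n - k) F q).subtype))
  have hf₀ : ∀ x : GU k F q × GU (n - k) F q, ((f₀ x : Matrix.GeneralLinearGroup (Fin n) F) : Matrix (Fin n) (Fin n) F) =
      Φ ((x.1.1 : Matrix (Fin k) (Fin k) F), (x.2.1 : Matrix (Fin (n - k)) (Fin (n - k)) F)) := fun x => rfl
  have hGU : ∀ x, f₀ x ∈ GU n F q := by
    intro x
    rw [gu_iff37 hF, hf₀, hΦ4, ← map_mul]
    have ha := (gu_iff37 hF k x.1.1).mp x.1.2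
    have hb := (gu_iff37 hF (n - k) x.2.1).mp x.2.2
    rw [Prod.mk_mul_mk, ha, hb]
    exact map_one Φ
  have hSt : ∀ (x : GU k F q × GU (n - k) F q) (v : Fin n → F), v ∈ W →
      ((f₀ x : Matrix.GeneralLinearGroup (Fin n) F) : Matrix (Fin n) (Fin n) F) *ᵥ v ∈ W := by
    intro x v hv
    obtain ⟨c, rfl⟩ := (hWX v).mp hv
    rw [Matrix.mulVec_mulVec, hf₀, hΦX, ← Matrix.mulVec_mulVec]
    exact (hWX _).mpr ⟨_, rfl⟩
  have hStab : ∀ x, f₀ x ∈ stabilizing (glToMat (Fin n) F) (W : Set (Fin n → F)) := by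
    intro x v
    show v ∈ W ↔ ((f₀ x : Matrix.GeneralLinearGroup (Fin n) F) : Matrix (Fin n) (Fin n) F) *ᵥ v ∈ W
    constructor
    · exact hSt x v
    · intro h
      have h3 := hSt x⁻¹ _ h
      rw [Matrix.mulVec_mulVec, ← Units.val_mul, ← map_mul, inv_mul_cancel, map_one, Units.val_one,
        Matrix.one_mulVec] at h3
      exact h3
  let f₁ : GU k F q × GU (n - k) F q →* GU n F q := f₀.codRestrict (GU n F q) hGU
  let f₂ : GU k F q × GU (n - k) F q →*
      ↥((stabilizing (glToMat (Fin n) F) (W : Set (Fin n → F))).subgroupOf (GU n F q)) :=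
    f₁.codRestrict _ (fun x => Subgroup.mem_subgroupOf.mpr (hStab x))
  have hf₂ : ∀ x, (((f₂ x).1.1 : Matrix.GeneralLinearGroup (Fin n) F) : Matrix (Fin n) (Fin n) F) =
      Φ ((x.1.1 : Matrix (Fin k) (Fin k) F), (x.2.1 : Matrix (Fin (n - k)) (Fin (n - k)) F)) := fun x => rfl
  have hinj : Function.Injective f₂ := by
    intro x y hxy
    have h3 : Φ ((x.1.1 : Matrix (Fin k) (Fin k) F), (x.2.1 : Matrix (Fin (n - k)) (Fin (n - k)) F)) =
        Φ ((y.1.1 : Matrix (Fin k) (Fin k) F), (y.2.1 : Matrix (Fin (n - k)) (Fin (n - k)) F)) := by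
      rw [← hf₂, ← hf₂, hxy]
    have hA := hΦ2 ((x.1.1 : Matrix (Fin k) (Fin k) F), (x.2.1 : Matrix (Fin (n - k)) (Fin (n - k)) F))
    have hB := hΦ2' ((x.1.1 : Matrix (Fin k) (Fin k) F), (x.2.1 : Matrix (Fin (n - k)) (Fin (n - k)) F))
    rw [h3, hΦ2] at hA
    rw [h3, hΦ2'] at hB
    exact Prod.ext (Subtype.ext (Units.ext hA.symm)) (Subtype.ext (Units.ext hB.symm))
  have hsurj : Function.Surjective f₂ := by
    intro g
    obtain ⟨G, hG⟩ : ∃ G : Matrix (Fin n) (Fin n) F, G = ((g.1.1 : Matrix.GeneralLinearGroup (Fin n) F) : Matrix (Fin n) (Fin n) F) :=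
      ⟨_, rfl⟩
    have hGU' : cs37 hF G * G = 1 := by rw [hG]; exact (gu_iff37 hF n g.1.1).mp g.1.2
    have hGG' : G * cs37 hF G = 1 := mul_eq_one_comm.mp hGU'
    have hst : ∀ v, v ∈ W ↔ G *ᵥ v ∈ W := by
      rw [hG]; exact Subgroup.mem_subgroupOf.mp g.2
    have hcol : ∀ j, ∃ c : Fin k → F, G *ᵥ (X *ᵥ Pi.single j 1) = X *ᵥ c := fun j =>
      (hWX _).mp ((hst _).mp ((hWX _).mpr ⟨_, rfl⟩))
    choose c hc using hcol
    have hGX : G * X = X * Matrix.of (fun a j => c j a) := by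
      ext a j
      have h3 := congrFun (hc j) a
      rw [Matrix.mulVec_mulVec, Matrix.mulVec_single_one] at h3
      rw [Matrix.mul_apply]
      exact h3
    have hcol' : ∀ j, ∃ c : Fin k → F, cs37 hF G *ᵥ (X *ᵥ Pi.single j 1) = X *ᵥ c := fun j =>
      (hWX _).mp ((hst _).mpr (by
        rw [Matrix.mulVec_mulVec, hGG', Matrix.one_mulVec]; exact (hWX _).mpr ⟨_, rfl⟩))
    choose c' hc' using hcol'
    have hGX' : cs37 hF G * X = X * Matrix.of (fun a j => c' j a) := by
      ext a j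
      have h3 := congrFun (hc' j) a
      rw [Matrix.mulVec_mulVec, Matrix.mulVec_single_one] at h3
      rw [Matrix.mul_apply]
      exact h3
    have ha : cs37 hF Y * G * X = 0 := by
      rw [Matrix.mul_assoc, hGX, ← Matrix.mul_assoc, hYX, Matrix.zero_mul]
    have hXG : cs37 hF X * G = cs37 hF (Matrix.of (fun a j => c' j a)) * cs37 hF X := by
      calc cs37 hF X * G = cs37 hF X * cs37 hF (cs37 hF G) := by rw [cs_cs37]
        _ = cs37 hF (cs37 hF G * X) := (cs_mul37 hF _ _).symm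
        _ = cs37 hF (X * Matrix.of (fun a j => c' j a)) := by rw [hGX']
        _ = cs37 hF (Matrix.of (fun a j => c' j a)) * cs37 hF X := cs_mul37 hF _ _
    have hb : cs37 hF X * G * Y = 0 := by
      rw [hXG, Matrix.mul_assoc, hXY, Matrix.mul_zero]
    obtain ⟨A, hA⟩ : ∃ A, A = cs37 hF X * G * X := ⟨_, rfl⟩
    obtain ⟨Bm, hBm⟩ : ∃ Bm, Bm = cs37 hF Y * G * Y := ⟨_, rfl⟩
    have hΦG : Φ (A, Bm) = G := by
      symm
      calc G = 1 * G * 1 := by rw [Matrix.one_mul, Matrix.mul_one]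
        _ = (X * cs37 hF X + Y * cs37 hF Y) * G * (X * cs37 hF X + Y * cs37 hF Y) := by rw [hE]
        _ = X * (cs37 hF X * G * X) * cs37 hF X + X * (cs37 hF X * G * Y) * cs37 hF Y +
            Y * (cs37 hF Y * G * X) * cs37 hF X + Y * (cs37 hF Y * G * Y) * cs37 hF Y := by
          simp only [Matrix.add_mul, Matrix.mul_add, Matrix.mul_assoc]; abel
        _ = Φ (A, Bm) := by
          rw [ha, hb, hΦ, hA, hBm]; simp
    have hcsA : cs37 hF A = cs37 hF X * cs37 hF G * X := by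
      rw [hA, cs_mul37, cs_mul37, cs_cs37, Matrix.mul_assoc]
    have hcsB : cs37 hF Bm = cs37 hF Y * cs37 hF G * Y := by
      rw [hBm, cs_mul37, cs_mul37, cs_cs37, Matrix.mul_assoc]
    have ha' : cs37 hF Y * (G * X) = 0 := by rw [← Matrix.mul_assoc]; exact ha
    have hb' : cs37 hF X * (G * Y) = 0 := by rw [← Matrix.mul_assoc]; exact hb
    have hA1 : cs37 hF A * A = 1 := by
      have hXcX : X * cs37 hF X = 1 - Y * cs37 hF Y := eq_sub_of_add_eq hE
      calc cs37 hF A * A = cs37 hF X * (cs37 hF G * ((X * cs37 hF X) * (G * X))) := by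
            rw [hcsA, hA]; simp only [Matrix.mul_assoc]
        _ = cs37 hF X * (cs37 hF G * ((1 - Y * cs37 hF Y) * (G * X))) := by rw [hXcX]
        _ = cs37 hF X * (cs37 hF G * (G * X)) - cs37 hF X * (cs37 hF G * (Y * (cs37 hF Y * (G * X)))) := by
            simp only [Matrix.sub_mul, Matrix.mul_sub, Matrix.one_mul, Matrix.mul_assoc]
        _ = 1 := by
            rw [← Matrix.mul_assoc (cs37 hF G), hGU', Matrix.one_mul, hXX, ha', Matrix.mul_zero, Matrix.mul_zero,
              Matrix.mul_zero, sub_zero]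
    have hB1 : cs37 hF Bm * Bm = 1 := by
      have hYcY : Y * cs37 hF Y = 1 - X * cs37 hF X := eq_sub_of_add_eq' hE
      calc cs37 hF Bm * Bm = cs37 hF Y * (cs37 hF G * ((Y * cs37 hF Y) * (G * Y))) := by
            rw [hcsB, hBm]; simp only [Matrix.mul_assoc]
        _ = cs37 hF Y * (cs37 hF G * ((1 - X * cs37 hF X) * (G * Y))) := by rw [hYcY]
        _ = cs37 hF Y * (cs37 hF G * (G * Y)) - cs37 hF Y * (cs37 hF G * (X * (cs37 hF X * (G * Y)))) := by
            simp only [Matrix.sub_mul, Matrix.mul_sub, Matrix.one_mul, Matrix.mul_assoc]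
        _ = 1 := by
            rw [← Matrix.mul_assoc (cs37 hF G), hGU', Matrix.one_mul, hYY, hb', Matrix.mul_zero, Matrix.mul_zero,
              Matrix.mul_zero, sub_zero]
    have hAu : IsUnit A := (Matrix.isUnit_iff_isUnit_det _).mpr (Matrix.isUnit_det_of_left_inverse hA1)
    have hBu : IsUnit Bm := (Matrix.isUnit_iff_isUnit_det _).mpr (Matrix.isUnit_det_of_left_inverse hB1)
    refine ⟨(⟨hAu.unit, (gu_iff37 hF k _).mpr (by rw [IsUnit.unit_spec]; exact hA1)⟩,
      ⟨hBu.unit, (gu_iff37 hF (n - k) _).mpr (by rw [IsUnit.unit_spec]; exact hB1)⟩), ?_⟩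
    apply Subtype.ext; apply Subtype.ext; apply Units.ext
    rw [hf₂]
    show Φ (((hAu.unit : Matrix.GeneralLinearGroup (Fin k) F) : Matrix (Fin k) (Fin k) F),
      ((hBu.unit : Matrix.GeneralLinearGroup (Fin (n - k)) F) : Matrix (Fin (n - k)) (Fin (n - k)) F)) = _
    rw [IsUnit.unit_spec, IsUnit.unit_spec, hΦG, hG]
  exact ⟨(MulEquiv.ofBijective f₂ ⟨hinj, hsurj⟩).symm⟩

end Cfsg.Agent.S0837
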