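import Cfsg.Statements.S0839
import Mathlib
import Cfsg.Statements.S0839
import Cfsg.Agent.S2579
import Cfsg.Agent.S2572

set_option autoImplicit false
open Cfsg
open scoped commutatorElement

namespace Cfsg.Agent.S0839

open Matrix

/-- Every transvection t ∈ SL_(n+2)(F) (rank(t − 1) = 1, (t − 1)² = 0) is conjugate in SL_(n+2)(F) to 1 + v·e_0ᵀ for some column vector v with v_0 = 0 (the group A of matrices that are the identity except in the first column below the diagonal); the dimension is written n + 2 ≥ 2. -/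
theorem result {F : Type*} [Field F] (n : ℕ) (t : Matrix.SpecialLinearGroup (Fin (n + 2)) F) (ht : Cfsg.IsTransvection (t : Matrix (Fin (n + 2)) (Fin (n + 2)) F)) : ∃ (g : Matrix.SpecialLinearGroup (Fin (n + 2)) F) (v : Fin (n + 2) → F), v 0 = 0 ∧ ((g⁻¹ * t * g : Matrix.SpecialLinearGroup (Fin (n + 2)) F) : Matrix (Fin (n + 2)) (Fin (n + 2)) F) = 1 + Matrix.vecMulVec v (Pi.single 0 1) := by
  obtain ⟨a, φ, ha, hφ, hφa, hta⟩ := Cfsg.Agent.S2572.tv_decomp72 _ ht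
  obtain ⟨M, hM, hMφ⟩ := Cfsg.Agent.S2579.col_reach79 (0 : Fin (n + 2)) 1 (by simp) φ hφ
  obtain ⟨G, hG⟩ : ∃ G : Matrix.SpecialLinearGroup (Fin (n + 2)) F,
      (G : Matrix (Fin (n + 2)) (Fin (n + 2)) F) = Mᵀ :=
    ⟨⟨Mᵀ, by rw [Matrix.det_transpose, hM]⟩, rfl⟩
  have hrow : (Pi.single 0 1 : Fin (n + 2) → F) ᵥ* (G : Matrix (Fin (n + 2)) (Fin (n + 2)) F) = φ := by
    rw [hG, Matrix.vecMul_transpose, hMφ]
  have hGG : (G : Matrix (Fin (n + 2)) (Fin (n + 2)) F) *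
      ((G⁻¹ : Matrix.SpecialLinearGroup (Fin (n + 2)) F) : Matrix (Fin (n + 2)) (Fin (n + 2)) F) = 1 := by
    rw [← Matrix.SpecialLinearGroup.coe_mul, mul_inv_cancel]; rfl
  have hrow2 : φ ᵥ* ((G⁻¹ : Matrix.SpecialLinearGroup (Fin (n + 2)) F) :
      Matrix (Fin (n + 2)) (Fin (n + 2)) F) = Pi.single 0 1 := by
    rw [← hrow, Matrix.vecMul_vecMul, hGG, Matrix.vecMul_one]
  refine ⟨G⁻¹, (G : Matrix (Fin (n + 2)) (Fin (n + 2)) F) *ᵥ a, ?_, ?_⟩
  · have h1 : ((G : Matrix (Fin (n + 2)) (Fin (n + 2)) F) *ᵥ a) 0 =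
        (Pi.single 0 1 : Fin (n + 2) → F) ⬝ᵥ ((G : Matrix (Fin (n + 2)) (Fin (n + 2)) F) *ᵥ a) := by
      rw [single_dotProduct, one_mul]
    rw [h1, Matrix.dotProduct_mulVec, hrow, hφa]
  · rw [inv_inv, Matrix.SpecialLinearGroup.coe_mul, Matrix.SpecialLinearGroup.coe_mul, hta,
      Matrix.mul_add, Matrix.add_mul, Matrix.mul_one, hGG, Matrix.mul_vecMulVec,
      Matrix.vecMulVec_mul, hrow2]

end Cfsg.Agent.S0839
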