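import Mathlib
import Cfsg.Statements.S0841

set_option autoImplicit false
open Cfsg

namespace Cfsg.Agent.S0841

open scoped commutatorElement

theorem c_central {G : Type*} [Group G] (hG : commutator G ≤ Subgroup.center G) (x y : G) :
    ∀ g : G, (y⁻¹ * x⁻¹ * y * x) * g = g * (y⁻¹ * x⁻¹ * y * x) := by
  have hc : (y⁻¹ * x⁻¹ * y * x) ∈ Subgroup.center G := by
    apply hG
    rw [commutator_def]
    have : y⁻¹ * x⁻¹ * y * x = ⁅y⁻¹, x⁻¹⁆ := by
      rw [commutatorElement_def]; simp
    rw [this]
    exact Subgroup.commutator_mem_commutator (Subgroup.mem_top _) (Subgroup.mem_top _)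
  intro g
  exact (Subgroup.mem_center_iff.mp hc g).symm

theorem comm_swap {G : Type*} [Group G] (x y c : G) (hc : ∀ g : G, c * g = g * c)
    (hxy : y * x = x * y * c) (n : ℕ) :
    y ^ n * x = x * y ^ n * c ^ n := by
  induction n with
  | zero => simp
  | succ n ih =>
    calc y ^ (n + 1) * x = y * (y ^ n * x) := by rw [pow_succ']; group
      _ = y * (x * y ^ n * c ^ n) := by rw [ih]
      _ = (y * x) * y ^ n * c ^ n := by group
      _ = x * y * c * y ^ n * c ^ n := by rw [hxy]
      _ = x * y * (c * y ^ n) * c ^ n := by group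
      _ = x * y * (y ^ n * c) * c ^ n := by rw [hc]
      _ = x * (y * y ^ n) * (c * c ^ n) := by group
      _ = x * y ^ (n + 1) * c ^ (n + 1) := by rw [← pow_succ', ← pow_succ']

theorem main {G : Type*} [Group G] (x y c : G) (hc : ∀ g : G, c * g = g * c)
    (hxy : y * x = x * y * c) (n : ℕ) :
    (x * y) ^ n = x ^ n * y ^ n * c ^ (n * (n - 1) / 2) := by
  have hck : ∀ (k : ℕ) (g : G), c ^ k * g = g * c ^ k := by
    intro k g
    induction k with
    | zero => simp
    | succ k ih =>
      calc c ^ (k + 1) * g = c * (c ^ k * g) := by rw [pow_succ']; group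
        _ = c * (g * c ^ k) := by rw [ih]
        _ = (c * g) * c ^ k := by group
        _ = g * c * c ^ k := by rw [hc]
        _ = g * c ^ (k + 1) := by rw [pow_succ']; group
  induction n with
  | zero => simp
  | succ n ih =>
    have hT : (n + 1) * (n + 1 - 1) / 2 = n * (n - 1) / 2 + n := by
      have h2 : (n + 1) * (n + 1 - 1) = n * (n - 1) + 2 * n := by
        cases n with
        | zero => simp
        | succ m => simp; ring
      rw [h2]
      omega
    have s := comm_swap x y c hc hxy n
    calc (x * y) ^ (n + 1) = (x * y) ^ n * (x * y) := by rw [pow_succ]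
      _ = x ^ n * y ^ n * c ^ (n * (n - 1) / 2) * (x * y) := by rw [ih]
      _ = x ^ n * y ^ n * (c ^ (n * (n - 1) / 2) * (x * y)) := by group
      _ = x ^ n * y ^ n * ((x * y) * c ^ (n * (n - 1) / 2)) := by rw [hck]
      _ = x ^ n * (y ^ n * x) * y * c ^ (n * (n - 1) / 2) := by group
      _ = x ^ n * (x * y ^ n * c ^ n) * y * c ^ (n * (n - 1) / 2) := by rw [s]
      _ = x ^ n * x * y ^ n * (c ^ n * y) * c ^ (n * (n - 1) / 2) := by group
      _ = x ^ n * x * y ^ n * (y * c ^ n) * c ^ (n * (n - 1) / 2) := by rw [hck]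
      _ = (x ^ n * x) * (y ^ n * y) * (c ^ n * c ^ (n * (n - 1) / 2)) := by group
      _ = x ^ (n + 1) * y ^ (n + 1) * c ^ ((n + 1) * (n + 1 - 1) / 2) := by
          rw [← pow_succ, ← pow_succ, ← pow_add, hT, Nat.add_comm n (n * (n - 1) / 2)]

/-- If the commutator subgroup of G lies in the centre, then for all x, y in G and every natural number n one has (x * y) ^ n = x ^ n * y ^ n * c ^ (n * (n - 1) / 2) with c = y⁻¹ * x⁻¹ * y * x. -/
theorem result {G : Type*} [Group G] (hG : commutator G ≤ Subgroup.center G) (x y : G) (n : ℕ) : (x * y) ^ n = x ^ n * y ^ n * (y⁻¹ * x⁻¹ * y * x) ^ (n * (n - 1) / 2) := by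
  exact main x y _ (c_central hG x y) (by group) n

end Cfsg.Agent.S0841
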