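import Cfsg.Statements.S0849
import Mathlib
import Cfsg.Agent.Lib.Lead.Char5

set_option autoImplicit false
open Cfsg

namespace Cfsg.Agent.S0849

open Cfsg.Agent.Lib.Lead

theorem sum_of_support_le {G : Type*} [Group G] [Fintype G] (H : Subgroup G) [Fintype H]
    (F : G → ℂ) (hF : ∀ a, F a ≠ 0 → a ∈ H) : ∑ a : G, F a = ∑ a : H, F a := by
  classical
  rw [← Finset.sum_filter_of_ne (p := (· ∈ H)) (fun x _ hx => hF x hx)]
  exact (Finset.sum_subtype (Finset.univ.filter (· ∈ H)) (by simp) F)

theorem invol_of_conj {G : Type*} [Group G] (u a : G) (hu : orderOf u = 2) (ha : IsConj u a) :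
    a * a = 1 := by
  obtain ⟨c, hc⟩ := isConj_iff.mp ha
  rw [← hc]
  have : u * u = 1 := by rw [← pow_two, ← hu, pow_orderOf_eq_one]
  calc c * u * c⁻¹ * (c * u * c⁻¹) = c * (u * u) * c⁻¹ := by group
    _ = 1 := by rw [this]; group

/-- Let H be a subgroup of a finite group G and S a subset of H that is mapped to itself under conjugation by H, is disjoint from its conjugate by any element outside H, and is closed under inverses. Let φ be a class function of H vanishing on H away from S, and let u, v be involutions of G. Then the sum of the induced function of φ over all products a * b with a conjugate to u and b conjugate to v equals the index of H times the sum of φ (a * b) over such pairs with a and b in H. -/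
theorem result {G : Type*} [Group G] [Fintype G] (H : Subgroup G) (S : Set G) (hSH : S ⊆ H) (hHS : ∀ h ∈ H, ∀ s ∈ S, h * s * h⁻¹ ∈ S) (hTI : ∀ g : G, g ∉ H → ∀ s ∈ S, g * s * g⁻¹ ∉ S) (hinv : ∀ s ∈ S, s⁻¹ ∈ S) (φ : H → ℂ) (hφ : Cfsg.IsClassFunction H φ) (hφS : ∀ x : H, (x : G) ∉ S → φ x = 0) (u v : G) (hu : orderOf u = 2) (hv : orderOf v = 2) : ∑ᶠ p ∈ {p : G × G | IsConj u p.1 ∧ IsConj v p.2}, Cfsg.indFun H φ (p.1 * p.2) = (H.index : ℂ) * ∑ᶠ p ∈ {p : H × H | IsConj u (p.1 : G) ∧ IsConj v (p.2 : G)}, φ (p.1 * p.2) := by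
  classical
  haveI : Fintype H := Fintype.ofFinite H
  obtain ⟨ψ, hψ⟩ : ∃ ψ : G → ℂ, ψ = Cfsg.extendByZero H φ := ⟨_, rfl⟩
  have hsupp : ∀ a b : G, IsConj u a → IsConj v b → ψ (a * b) ≠ 0 → a ∈ H ∧ b ∈ H := by
    intro a b ha hb hne
    have habH : a * b ∈ H := by
      by_contra h
      exact hne (by rw [hψ]; exact extendByZero_not_mem H φ h)
    have habS : a * b ∈ S := by
      by_contra h
      apply hne
      rw [hψ, extendByZero_mem' H φ habH]
      exact hφS ⟨a * b, habH⟩ h
    have haa := invol_of_conj u a hu ha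
    have hbb := invol_of_conj v b hv hb
    have hainv : a⁻¹ = a := inv_eq_of_mul_eq_one_right haa
    have hbinv : b⁻¹ = b := inv_eq_of_mul_eq_one_right hbb
    have h1 : a * (a * b) * a⁻¹ = (a * b)⁻¹ := by
      rw [mul_inv_rev, hainv, hbinv, ← mul_assoc, haa, one_mul]
    have h2 : b * (a * b) * b⁻¹ = (a * b)⁻¹ := by
      rw [mul_inv_rev, hainv, hbinv, mul_assoc, mul_assoc, hbb, mul_one]
    constructor
    · by_contra h
      exact hTI a h (a * b) habS (h1 ▸ hinv _ habS)
    · by_contra h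
      exact hTI b h (a * b) habS (h2 ▸ hinv _ habS)
  rw [finsum_mem_def, finsum_mem_def, finsum_eq_sum_of_fintype, finsum_eq_sum_of_fintype]
  obtain ⟨T, hT⟩ : ∃ T : ℂ, T = ∑ p : G × G,
      Set.indicator {p : G × G | IsConj u p.1 ∧ IsConj v p.2} (fun p => ψ (p.1 * p.2)) p :=
    ⟨_, rfl⟩
  have step1 : ∑ p : G × G, Set.indicator {p : G × G | IsConj u p.1 ∧ IsConj v p.2}
      (fun p => Cfsg.indFun H φ (p.1 * p.2)) p = (Nat.card H : ℂ)⁻¹ * ((Nat.card G : ℂ) * T) := by
    have e1 : ∀ p : G × G, Set.indicator {p : G × G | IsConj u p.1 ∧ IsConj v p.2}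
        (fun p => Cfsg.indFun H φ (p.1 * p.2)) p = (Nat.card H : ℂ)⁻¹ * ∑ x : G,
          Set.indicator {p : G × G | IsConj u p.1 ∧ IsConj v p.2}
            (fun p => ψ (x⁻¹ * (p.1 * p.2) * x)) p := by
      intro p
      by_cases hp : p ∈ {p : G × G | IsConj u p.1 ∧ IsConj v p.2}
      · simp only [Set.indicator_of_mem hp, Cfsg.indFun, hψ]
      · simp only [Set.indicator_of_notMem hp, Finset.sum_const_zero, mul_zero]
    rw [Finset.sum_congr rfl (fun p _ => e1 p), ← Finset.mul_sum, Finset.sum_comm]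
    congr 1
    have e2 : ∀ x : G, ∑ p : G × G, Set.indicator {p : G × G | IsConj u p.1 ∧ IsConj v p.2}
            (fun p => ψ (x⁻¹ * (p.1 * p.2) * x)) p = T := by
      intro x
      rw [hT]
      refine Fintype.sum_equiv
        (((Equiv.mulLeft x⁻¹).trans (Equiv.mulRight x)).prodCongr
          ((Equiv.mulLeft x⁻¹).trans (Equiv.mulRight x))) _ _ ?_
      intro p
      have hc1 : IsConj u p.1 ↔ IsConj u (x⁻¹ * p.1 * x) := by
        have : IsConj p.1 (x⁻¹ * p.1 * x) := isConj_iff.mpr ⟨x⁻¹, by simp⟩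
        exact ⟨fun h => h.trans this, fun h => h.trans this.symm⟩
      have hc2 : IsConj v p.2 ↔ IsConj v (x⁻¹ * p.2 * x) := by
        have : IsConj p.2 (x⁻¹ * p.2 * x) := isConj_iff.mpr ⟨x⁻¹, by simp⟩
        exact ⟨fun h => h.trans this, fun h => h.trans this.symm⟩
      by_cases hp : p ∈ {p : G × G | IsConj u p.1 ∧ IsConj v p.2}
      · have hp' : (((Equiv.mulLeft x⁻¹).trans (Equiv.mulRight x)).prodCongr
          ((Equiv.mulLeft x⁻¹).trans (Equiv.mulRight x))) p ∈
            {p : G × G | IsConj u p.1 ∧ IsConj v p.2} := by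
          simp only [Set.mem_setOf_eq, Equiv.prodCongr_apply, Prod.map_fst, Prod.map_snd,
            Equiv.trans_apply, Equiv.coe_mulLeft, Equiv.coe_mulRight]
          exact ⟨hc1.mp hp.1, hc2.mp hp.2⟩
        rw [Set.indicator_of_mem hp, Set.indicator_of_mem hp']
        simp only [Equiv.prodCongr_apply, Prod.map_fst, Prod.map_snd,
            Equiv.trans_apply, Equiv.coe_mulLeft, Equiv.coe_mulRight]
        congr 1
        group
      · have hp' : (((Equiv.mulLeft x⁻¹).trans (Equiv.mulRight x)).prodCongr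
          ((Equiv.mulLeft x⁻¹).trans (Equiv.mulRight x))) p ∉
            {p : G × G | IsConj u p.1 ∧ IsConj v p.2} := by
          simp only [Set.mem_setOf_eq, Equiv.prodCongr_apply, Prod.map_fst, Prod.map_snd,
            Equiv.trans_apply, Equiv.coe_mulLeft, Equiv.coe_mulRight]
          intro h
          exact hp ⟨hc1.mpr h.1, hc2.mpr h.2⟩
        rw [Set.indicator_of_notMem hp, Set.indicator_of_notMem hp']
    rw [Finset.sum_congr rfl (fun x _ => e2 x), Finset.sum_const, Finset.card_univ, nsmul_eq_mul,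
      Nat.card_eq_fintype_card]
  have step2 : T = ∑ q : H × H, Set.indicator {p : H × H | IsConj u (p.1 : G) ∧ IsConj v (p.2 : G)}
      (fun q => φ (q.1 * q.2)) q := by
    rw [hT, Fintype.sum_prod_type, Fintype.sum_prod_type]
    have hf : ∀ a b : G, Set.indicator {p : G × G | IsConj u p.1 ∧ IsConj v p.2}
        (fun p => ψ (p.1 * p.2)) (a, b) ≠ 0 → a ∈ H ∧ b ∈ H := by
      intro a b hne
      by_cases hp : (a, b) ∈ {p : G × G | IsConj u p.1 ∧ IsConj v p.2}
      · rw [Set.indicator_of_mem hp] at hne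
        exact hsupp a b hp.1 hp.2 hne
      · rw [Set.indicator_of_notMem hp] at hne
        exact absurd rfl hne
    rw [sum_of_support_le H]
    · refine Finset.sum_congr rfl (fun a _ => ?_)
      rw [sum_of_support_le H]
      · refine Finset.sum_congr rfl (fun b _ => ?_)
        by_cases hp : ((a : G), (b : G)) ∈ {p : G × G | IsConj u p.1 ∧ IsConj v p.2}
        · have hp' : (a, b) ∈ {p : H × H | IsConj u (p.1 : G) ∧ IsConj v (p.2 : G)} := hp
          rw [Set.indicator_of_mem hp, Set.indicator_of_mem hp', hψ]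
          exact extendByZero_mem H φ (a * b)
        · have hp' : (a, b) ∉ {p : H × H | IsConj u (p.1 : G) ∧ IsConj v (p.2 : G)} := hp
          rw [Set.indicator_of_notMem hp, Set.indicator_of_notMem hp']
      · intro b hb
        exact (hf _ _ hb).2
    · intro a ha
      obtain ⟨b, _, hb⟩ := Finset.exists_ne_zero_of_sum_ne_zero ha
      exact (hf _ _ hb).1
  rw [step1, ← step2, ← mul_assoc]
  congr 1
  have hcard : (Nat.card G : ℂ) = (H.index : ℂ) * (Nat.card H : ℂ) := by
    rw [← Nat.cast_mul, Subgroup.index_mul_card]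
  have hne : (Nat.card H : ℂ) ≠ 0 := by
    have : 0 < Nat.card H := Nat.card_pos
    exact_mod_cast this.ne'
  rw [hcard]
  field_simp

end Cfsg.Agent.S0849
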