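import Mathlib
import Cfsg.Statements.S0850
import Cfsg.Agent.Lib.Lead.Char6

set_option autoImplicit false
open Cfsg

namespace Cfsg.Agent.S0850



open Cfsg.Agent.Lib

/-- Let K be a subgroup of the finite group G that meets each conjugate by an element outside its normalizer N trivially, is properly contained in N, and contains the centralizer of each of its non-identity elements (a T.I. subgroup with Frobenius normalizer). Then no element of N outside K is conjugate in G to an element of K, and for every class function ϑ of N that vanishes on N away from K and at the identity, the function induced from ϑ to G agrees with ϑ on all of N. -/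
theorem result {G : Type*} [Group G] [Fintype G] (K : Subgroup G) (hTI : ∀ g : G, g ∉ Subgroup.normalizer (K : Set G) → ∀ k ∈ K, g * k * g⁻¹ ∈ K → k = 1) (hlt : K < Subgroup.normalizer (K : Set G)) (hC : ∀ k ∈ K, k ≠ 1 → Subgroup.centralizer ({k} : Set G) ≤ K) : (∀ x ∈ Subgroup.normalizer (K : Set G), x ∉ K → ∀ g : G, g * x * g⁻¹ ∉ K) ∧ ∀ (ϑ : Subgroup.normalizer (K : Set G) → ℂ), Cfsg.IsClassFunction (Subgroup.normalizer (K : Set G)) ϑ → (∀ x : Subgroup.normalizer (K : Set G), (x : G) ∉ K → ϑ x = 0) → ϑ 1 = 0 → ∀ x : Subgroup.normalizer (K : Set G), Cfsg.indFun (Subgroup.normalizer (K : Set G)) ϑ x = ϑ x := by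
  classical
  have part1 : ∀ x ∈ Subgroup.normalizer (K : Set G), x ∉ K → ∀ g : G, g * x * g⁻¹ ∉ K := by
    intro x hxN hxK g hk
    set k := g * x * g⁻¹ with hkdef
    have hx_eq : x = g⁻¹ * k * g := by rw [hkdef]; group
    have hgN : g ∉ Subgroup.normalizer (K : Set G) := by
      intro hg
      apply hxK
      rw [hx_eq]
      have := (Subgroup.mem_normalizer_iff.mp (Subgroup.inv_mem _ hg) k).mp hk
      rw [inv_inv] at this
      exact this
    have hk1 : k ≠ 1 := by
      intro h1
      apply hxK
      rw [hx_eq, h1, mul_one, inv_mul_cancel]; exact K.one_mem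
    have ho : orderOf k ≠ 1 := by rw [Ne, orderOf_eq_one_iff]; exact hk1
    set r := Nat.minFac (orderOf k) with hr
    have hrp : r.Prime := Nat.minFac_prime ho
    haveI : Fact r.Prime := ⟨hrp⟩
    have hrd : r ∣ orderOf k := Nat.minFac_dvd _
    set y' := k ^ (orderOf k / r) with hy'
    have hy'K : y' ∈ K := K.pow_mem hk _
    have hy'o : orderOf y' = r := orderOf_pow_orderOf_div (orderOf_pos k).ne' hrd
    have hpowx : ∀ i : ℕ, x ^ i = g⁻¹ * k ^ i * g := by
      intro i
      have := conj_pow (a := g⁻¹) (b := k) (i := i)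
      rw [inv_inv] at this
      rw [hx_eq]; exact this
    set y := g⁻¹ * y' * g with hy
    have hyx : y = x ^ (orderOf k / r) := by rw [hy, hy', hpowx]
    have hyN : y ∈ Subgroup.normalizer (K : Set G) := by rw [hyx]; exact Subgroup.pow_mem _ hxN _
    have hy'1 : y' ≠ 1 := by
      intro h
      rw [h, orderOf_one] at hy'o
      exact hrp.one_lt.ne hy'o
    have hyK : y ∉ K := by
      intro h
      have h1 := hTI g hgN y h (by
        have : g * y * g⁻¹ = y' := by rw [hy]; group
        rw [this]; exact hy'K)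
      apply hy'1
      have : y' = g * y * g⁻¹ := by rw [hy]; group
      rw [this, h1]; group
    have hyr : y ^ r = 1 := by
      have h1 : y' ^ r = 1 := by rw [← hy'o]; exact pow_orderOf_eq_one y'
      have h2 := conj_pow (a := g⁻¹) (b := y') (i := r)
      rw [inv_inv] at h2
      rw [hy, h2, h1, mul_one, inv_mul_cancel]
    let f : Function.End ↥K := fun k1 => ⟨y * k1 * y⁻¹, (Subgroup.mem_normalizer_iff.mp hyN k1).mp k1.2⟩
    have hfpow : ∀ (i : ℕ) (k1 : ↥K), (((f ^ i) k1 : ↥K) : G) = y ^ i * k1 * (y ^ i)⁻¹ := by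
      intro i
      induction i with
      | zero => intro k1; rw [pow_zero, pow_zero, one_mul, inv_one, mul_one]; rfl
      | succ i ih =>
        intro k1
        rw [pow_succ]
        show (((f ^ i) (f k1) : ↥K) : G) = _
        rw [ih]
        show y ^ i * (y * k1 * y⁻¹) * (y ^ i)⁻¹ = _
        rw [pow_succ]; group
    have hf : f ^ r ^ 1 = 1 := by
      funext k1
      apply Subtype.ext
      rw [pow_one, hfpow, hyr, one_mul, inv_one, mul_one]
      rfl
    have hmod := Equiv.Perm.card_fixedPoints_modEq (p := r) (n := 1) hf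
    have hrK : r ∣ Fintype.card ↥K := by
      rw [← Nat.card_eq_fintype_card, ← hy'o]
      exact Subgroup.orderOf_dvd_natCard K hy'K
    have hrF : r ∣ Fintype.card (Function.fixedPoints f) := (Nat.ModEq.dvd_iff hmod (dvd_refl r)).mp hrK
    have h1mem : (1 : ↥K) ∈ Function.fixedPoints f := by
      show f 1 = 1
      apply Subtype.ext
      show y * 1 * y⁻¹ = 1
      rw [mul_one, mul_inv_cancel]
    have hcard : 1 < Fintype.card (Function.fixedPoints f) := by
      have hpos : 0 < Fintype.card (Function.fixedPoints f) := Fintype.card_pos_iff.mpr ⟨⟨1, h1mem⟩⟩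
      have := Nat.le_of_dvd hpos hrF
      have := hrp.two_le
      omega
    haveI : Nontrivial (Function.fixedPoints f) := Fintype.one_lt_card_iff_nontrivial.mp hcard
    obtain ⟨a, ha⟩ := exists_ne (⟨1, h1mem⟩ : Function.fixedPoints f)
    have ha1 : ((a : ↥K) : G) ≠ 1 := by
      intro h
      apply ha
      apply Subtype.ext
      apply Subtype.ext
      exact h
    have hfa : y * ((a : ↥K) : G) * y⁻¹ = ((a : ↥K) : G) := congrArg Subtype.val a.2
    apply hyK
    apply hC _ (a : ↥K).2 ha1
    rw [Subgroup.mem_centralizer_iff]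
    intro h hh
    rw [Set.mem_singleton_iff.mp hh]
    calc ((a : ↥K) : G) * y = (y * ((a : ↥K) : G) * y⁻¹) * y := by rw [hfa]
      _ = y * ((a : ↥K) : G) := by group
  refine ⟨part1, ?_⟩
  intro ϑ hϑ hϑK hϑ1 x
  by_cases hxK : (x : G) ∈ K
  · by_cases hx1 : x = 1
    · rw [hx1, hϑ1, Lead.indFun_apply]
      have : ∀ g : G, Cfsg.extendByZero (Subgroup.normalizer (K : Set G)) ϑ
          (g⁻¹ * ((1 : ↥(Subgroup.normalizer (K : Set G))) : G) * g) = 0 := by
        intro g
        have h1 : g⁻¹ * ((1 : ↥(Subgroup.normalizer (K : Set G))) : G) * g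
            = ((1 : ↥(Subgroup.normalizer (K : Set G))) : G) := by
          rw [Subgroup.coe_one, mul_one, inv_mul_cancel]
        rw [h1, Lead.extendByZero_mem, hϑ1]
      rw [Finset.sum_eq_zero (fun g _ => this g), mul_zero]
    · exact Lead.indFun_TI (K : Set G) hTI ϑ hϑ hϑK x hxK hx1
  · rw [hϑK x hxK, Lead.indFun_apply]
    have : ∀ g : G, Cfsg.extendByZero (Subgroup.normalizer (K : Set G)) ϑ (g⁻¹ * (x : G) * g) = 0 := by
      intro g
      by_cases hmem : g⁻¹ * (x : G) * g ∈ Subgroup.normalizer (K : Set G)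
      · rw [Lead.extendByZero_mem' _ _ hmem]
        apply hϑK
        have := part1 (x : G) x.2 hxK g⁻¹
        rw [inv_inv] at this
        exact this
      · exact Lead.extendByZero_not_mem _ _ hmem
    rw [Finset.sum_eq_zero (fun g _ => this g), mul_zero]

end Cfsg.Agent.S0850
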