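import Cfsg.Statements.S0851
import Mathlib
import Cfsg.Agent.Lib.Helper6.FrobChar
import Cfsg.Agent.S0170

set_option autoImplicit false
open Cfsg
open Cfsg.Agent.Lib.Helper6 Cfsg.Agent.Lib

namespace Cfsg.Agent.S0851


/-- Let K be a subgroup of the finite group G that meets each conjugate by an element outside its normalizer N trivially, is properly contained in N, and contains the centralizer of each of its non-identity elements (a T.I. subgroup with Frobenius normalizer). Suppose K is abelian, let e be the index of K in N, and call an irreducible character of N relevant when it takes at some element of K a value different from its degree. Then either there is exactly one relevant character and K is an elementary abelian p-group of order e + 1 for some prime p, or there are a sign ε and an injective map f from the relevant characters to the irreducible characters of G such that inducing χ - ξ to G gives ε (f χ - f ξ) for all relevant χ and ξ. -/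
theorem result {G : Type*} [Group G] [Fintype G] (K : Subgroup G) (hTI : ∀ g : G, g ∉ Subgroup.normalizer (K : Set G) → ∀ k ∈ K, g * k * g⁻¹ ∈ K → k = 1) (hlt : K < Subgroup.normalizer (K : Set G)) (hC : ∀ k ∈ K, k ≠ 1 → Subgroup.centralizer ({k} : Set G) ≤ K) (hab : ∀ a ∈ K, ∀ b ∈ K, a * b = b * a) : (Nat.card {χ : Cfsg.IrrCharacter (Subgroup.normalizer (K : Set G)) // ∃ k : Subgroup.normalizer (K : Set G), (k : G) ∈ K ∧ (χ : ↥(Subgroup.normalizer (K : Set G)) → ℂ) k ≠ (χ : ↥(Subgroup.normalizer (K : Set G)) → ℂ) 1} = 1 ∧ ∃ p : ℕ, p.Prime ∧ Cfsg.IsElementaryAbelian p K ∧ Nat.card K = (K.subgroupOf (Subgroup.normalizer (K : Set G))).index + 1) ∨ ∃ (ε : ℂ) (f : {χ : Cfsg.IrrCharacter (Subgroup.normalizer (K : Set G)) // ∃ k : Subgroup.normalizer (K : Set G), (k : G) ∈ K ∧ (χ : ↥(Subgroup.normalizer (K : Set G)) → ℂ) k ≠ (χ : ↥(Subgroup.normalizer (K : Set G)) → ℂ) 1} → Cfsg.IrrCharacter G), (ε = 1 ∨ ε = -1) ∧ Function.Injective f ∧ ∀ χ ξ, Cfsg.indFun (Subgroup.normalizer (K : Set G)) ((χ.1 : ↥(Subgroup.normalizer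 (K : Set G)) → ℂ) - (ξ.1 : ↥(Subgroup.normalizer (K : Set G)) → ℂ)) = ε • ((f χ : G → ℂ) - (f ξ : G → ℂ)) := by
  classical
  right
  haveI : Fintype ↥(Subgroup.normalizer (K : Set G)) := Fintype.ofFinite _
  have hF : ∀ χ : Cfsg.IrrCharacter ↥(Subgroup.normalizer (K : Set G)),
      (∃ k : ↥(Subgroup.normalizer (K : Set G)), (k : G) ∈ K ∧ χ.1 k ≠ χ.1 1) →
      (∀ x : ↥(Subgroup.normalizer (K : Set G)), (x : G) ∉ K → χ.1 x = 0) ∧
        χ.1 1 = ((K.subgroupOf (Subgroup.normalizer (K : Set G))).index : ℂ) := by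
    intro χ hχ
    obtain ⟨k, hk, hne⟩ := hχ
    have h1 := frob_abelian_kernel_char (K.subgroupOf (Subgroup.normalizer (K : Set G)))
      (fun a ha b hb => Subtype.ext (hab a.1 (Subgroup.mem_subgroupOf.mp ha) b.1
        (Subgroup.mem_subgroupOf.mp hb)))
      (fun a ha ha1 g hg => by
        rw [Subgroup.mem_subgroupOf]
        have ha' : (a : G) ∈ K := Subgroup.mem_subgroupOf.mp ha
        have ha1' : (a : G) ≠ 1 := fun h => ha1 (Subtype.ext h)
        apply hC (a : G) ha' ha1'
        rw [Subgroup.mem_centralizer_iff]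
        intro h hh
        rw [Set.mem_singleton_iff] at hh
        rw [hh]
        exact (congrArg Subtype.val hg).symm)
      χ.2 ⟨k, Subgroup.mem_subgroupOf.mpr hk, hne⟩
    exact ⟨fun x hx => h1.1 x (fun h => hx (Subgroup.mem_subgroupOf.mp h)), h1.2⟩
  by_cases hn : Nat.card {χ : Cfsg.IrrCharacter (Subgroup.normalizer (K : Set G)) //
      ∃ k : Subgroup.normalizer (K : Set G), (k : G) ∈ K ∧
        (χ : ↥(Subgroup.normalizer (K : Set G)) → ℂ) k
          ≠ (χ : ↥(Subgroup.normalizer (K : Set G)) → ℂ) 1} ≤ 1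
  · haveI := (Finite.card_le_one_iff_subsingleton).mp hn
    refine ⟨1, fun _ => Lead.irrOne G, Or.inl rfl, fun a b _ => Subsingleton.elim a b, ?_⟩
    intro χ ξ
    rw [Subsingleton.elim χ ξ, sub_self, sub_self, smul_zero]
    exact map_zero (Lead.indLin (Subgroup.normalizer (K : Set G)))
  · push Not at hn
    have e := (Finite.equivFin {χ : Cfsg.IrrCharacter (Subgroup.normalizer (K : Set G)) //
      ∃ k : Subgroup.normalizer (K : Set G), (k : G) ∈ K ∧
        (χ : ↥(Subgroup.normalizer (K : Set G)) → ℂ) k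
          ≠ (χ : ↥(Subgroup.normalizer (K : Set G)) → ℂ) 1}).symm
    obtain ⟨ε, hε, θ, hθirr, hθinj, hθ⟩ := Cfsg.Agent.S0170.result (K : Set G)
      (fun k hk => Subgroup.le_normalizer hk) hTI _ hn (fun i => (e i).1.1)
      (fun i => (e i).1.2) (fun i j hij => e.injective (Subtype.ext (Subtype.ext hij)))
      (fun i x hx => (hF (e i).1 (e i).2).1 x hx)
      (fun i j => ((hF (e i).1 (e i).2).2).trans ((hF (e j).1 (e j).2).2).symm)
    refine ⟨ε, fun s => ⟨θ (e.symm s), hθirr _⟩, hε, ?_, ?_⟩
    · intro a b hab'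
      exact e.symm.injective (hθinj (congrArg Subtype.val hab'))
    · intro χ ξ
      have h1 := hθ (e.symm χ) (e.symm ξ)
      simp only [Equiv.apply_symm_apply] at h1
      rw [← h1]
      exact map_sub (Lead.indLin (Subgroup.normalizer (K : Set G))) _ _

end Cfsg.Agent.S0851
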