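import Mathlib
import Cfsg.Statements.S0855
import Cfsg.Agent.Lib.Helper7.Clifford
import Cfsg.Agent.Lib.Lead.Char9
import Cfsg.Agent.Lib.Lead.Char10
import Cfsg.Agent.Lib.Lead.Char14
import Cfsg.Agent.Lib.Lead.ItoDeg
import Cfsg.Agent.Lib.Helper3.IndexP

set_option autoImplicit false
open Cfsg

namespace Cfsg.Agent.S0855



open Cfsg.Agent.Lib Cfsg.Agent.Lib.Lead
open scoped commutatorElement

universe u

theorem all_linear_comm {G : Type*} [Group G] [Finite G]
    (h : ∀ χ : Cfsg.IrrCharacter G, χ.1 1 = 1) : ∀ a b : G, a * b = b * a := by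
  classical
  haveI : Fintype (Cfsg.IrrCharacter G) := Fintype.ofFinite _
  have h1 := sum_deg_sq (G := G)
  rw [finsum_eq_sum_of_fintype] at h1
  have h2 : ∑ χ : Cfsg.IrrCharacter G, (χ : G → ℂ) 1 ^ 2
      = (Fintype.card (Cfsg.IrrCharacter G) : ℂ) := by
    rw [Finset.sum_congr rfl (fun χ _ => by rw [h χ, one_pow])]
    simp
  have h3 : Nat.card {χ : Cfsg.IrrCharacter G // (χ : G → ℂ) 1 = 1}
      = Fintype.card (Cfsg.IrrCharacter G) := by
    rw [← Nat.card_eq_fintype_card]
    exact Nat.card_congr (Equiv.subtypeUnivEquiv h)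
  have h4 : (commutator G).index = Nat.card G := by
    rw [← card_linear_char, h3]
    rw [h2] at h1
    exact_mod_cast h1
  have h5 : Nat.card (commutator G) = 1 := by
    have := Subgroup.card_mul_index (commutator G)
    rw [h4] at this
    have hpos : 0 < Nat.card G := Nat.card_pos
    exact Nat.eq_of_mul_eq_mul_right hpos (by rw [this, one_mul])
  have h6 : commutator G = ⊥ := (Subgroup.card_eq_one).mp h5
  intro a b
  have h7 : ⁅a, b⁆ ∈ commutator G := by
    rw [commutator_def]
    exact Subgroup.commutator_mem_commutator (Subgroup.mem_top a) (Subgroup.mem_top b)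
  rw [h6, Subgroup.mem_bot] at h7
  exact commutatorElement_eq_one_iff_mul_comm.mp h7

theorem fwd (p : ℕ) (hp : p.Prime) : ∀ (n : ℕ) (G : Type u) [Group G] [Finite G], Nat.card G = n →
    (∀ χ : Cfsg.IrrCharacter G, ∃ k : ℕ, (χ : G → ℂ) 1 = (p : ℂ) ^ k) →
    ∃ A : Subgroup G, A.Normal ∧ (∀ a ∈ A, ∀ b ∈ A, a * b = b * a) ∧
      Nat.Coprime (Nat.card A) p ∧ ∃ k : ℕ, A.index = p ^ k := by
  intro n
  induction n using Nat.strong_induction_on with
  | _ n ih =>
  intro G _ _ hn hdeg
  classical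
  haveI : Fact p.Prime := ⟨hp⟩
  haveI : Fintype G := Fintype.ofFinite G
  haveI : Fintype (Cfsg.IrrCharacter G) := Fintype.ofFinite _
  choose k hk using hdeg
  have hp1 : 1 < p := hp.one_lt
  by_cases hpG : p ∣ Nat.card G
  · -- the congruence
    have hsum : ∑ χ : Cfsg.IrrCharacter G, (p ^ k χ) ^ 2 = Nat.card G := by
      have h1 := sum_deg_sq (G := G)
      rw [finsum_eq_sum_of_fintype] at h1
      rw [Finset.sum_congr rfl (fun χ _ => by rw [hk χ])] at h1
      exact_mod_cast h1
    have hiff : ∀ χ : Cfsg.IrrCharacter G, (χ : G → ℂ) 1 = 1 ↔ k χ = 0 := by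
      intro χ
      constructor
      · intro h
        rw [hk χ] at h
        have h' : p ^ k χ = 1 := by exact_mod_cast h
        rcases (Nat.pow_eq_one).mp h' with h2 | h2
        · omega
        · exact h2
      · intro h
        rw [hk χ, h, pow_zero]
    have hcard : (commutator G).index
        = (Finset.univ.filter (fun χ : Cfsg.IrrCharacter G => k χ = 0)).card := by
      rw [← card_linear_char, Nat.card_eq_fintype_card, ← Fintype.card_subtype]
      exact Fintype.card_congr (Equiv.subtypeEquivRight hiff)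
    have hdvd : p ∣ (commutator G).index := by
      rw [← Finset.sum_filter_add_sum_filter_not Finset.univ (fun χ : Cfsg.IrrCharacter G => k χ = 0)] at hsum
      have h1 : ∑ χ ∈ Finset.univ.filter (fun χ : Cfsg.IrrCharacter G => k χ = 0), (p ^ k χ) ^ 2
          = (Finset.univ.filter (fun χ : Cfsg.IrrCharacter G => k χ = 0)).card := by
        rw [Finset.card_eq_sum_ones]
        apply Finset.sum_congr rfl
        intro χ hχ
        rw [(Finset.mem_filter.mp hχ).2]; simp
      have h2 : p ∣ ∑ χ ∈ Finset.univ.filter (fun χ : Cfsg.IrrCharacter G => ¬ k χ = 0), (p ^ k χ) ^ 2 := by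
        apply Finset.dvd_sum
        intro χ hχ
        exact dvd_pow (dvd_pow_self p (Finset.mem_filter.mp hχ).2) two_ne_zero
      rw [h1, ← hcard] at hsum
      rw [← hsum] at hpG
      exact (Nat.dvd_add_left h2).mp hpG
    obtain ⟨K, hKn, hKi⟩ := Helper3.hasIndexP_of_dvd_index_commutator (Y := G) hdvd
    haveI := hKn
    haveI : Fintype K := Fintype.ofFinite K
    have hKcard : Nat.card K < n := by
      have := Subgroup.card_mul_index K
      rw [hKi, hn] at this
      have hKpos : 0 < Nat.card K := Nat.card_pos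
      nlinarith
    have hKdeg : ∀ ψ : Cfsg.IrrCharacter K, ∃ j : ℕ, (ψ : K → ℂ) 1 = (p : ℂ) ^ j := by
      intro ψ
      obtain ⟨χ, hχ⟩ := Helper7.Cliff.exists_over K ψ
      obtain ⟨e, he0, he⟩ := Helper7.Cliff.clifford_deg K χ ψ hχ
      obtain ⟨t, ht0, ht⟩ := irr_one_eq_nat ψ
      rw [hk χ, ht] at he
      have h1 : p ^ k χ = e * Nat.card {ψ' : Cfsg.IrrCharacter K // ∃ x : G, ψ'.1 = conjFun K ψ.1 x} * t := by
        exact_mod_cast he
      have h2 : t ∣ p ^ k χ := Dvd.intro_left _ h1.symm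
      obtain ⟨j, -, hj⟩ := (Nat.dvd_prime_pow hp).mp h2
      exact ⟨j, by rw [ht, hj]; push_cast; rfl⟩
    obtain ⟨A, hAn, hAab, hAcop, kA, hAi⟩ := ih (Nat.card K) hKcard K rfl hKdeg
    haveI := hAn
    refine ⟨A.map K.subtype, ?_, ?_, ?_, ?_⟩
    · constructor
      intro x hx g
      obtain ⟨a, ha, rfl⟩ := Subgroup.mem_map.mp hx
      have hy : g * (a : G) * g⁻¹ ∈ K := hKn.conj_mem _ a.2 g
      refine Subgroup.mem_map.mpr ⟨⟨_, hy⟩, ?_, rfl⟩
      obtain ⟨y, hydef⟩ : ∃ y : K, y = ⟨g * (a : G) * g⁻¹, hy⟩ := ⟨_, rfl⟩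
      rw [← hydef]
      have ho : orderOf y = orderOf a := by
        rw [← Subgroup.orderOf_coe y, ← Subgroup.orderOf_coe a, hydef]
        show orderOf (g * (a : G) * g⁻¹) = _
        exact (MulAut.conj g).orderOf_eq (a : G)
      have hco : (orderOf y).Coprime p := by
        rw [ho]
        have h1 : orderOf a ∣ Nat.card A := by
          have := orderOf_dvd_natCard (⟨a, ha⟩ : A)
          rwa [Subgroup.orderOf_mk] at this
        exact Nat.Coprime.coprime_dvd_left h1 hAcop
      have h3 : orderOf (QuotientGroup.mk y : K ⧸ A) ∣ orderOf y := by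
        apply orderOf_dvd_of_pow_eq_one
        rw [← QuotientGroup.mk_pow, pow_orderOf_eq_one]; rfl
      have h4 : orderOf (QuotientGroup.mk y : K ⧸ A) ∣ p ^ kA := by
        have := orderOf_dvd_natCard (QuotientGroup.mk y : K ⧸ A)
        rwa [← Subgroup.index_eq_card, hAi] at this
      have h5 : orderOf (QuotientGroup.mk y : K ⧸ A) = 1 := by
        have h6 : (orderOf (QuotientGroup.mk y : K ⧸ A)).Coprime (p ^ kA) :=
          Nat.Coprime.pow_right _ (Nat.Coprime.coprime_dvd_left h3 hco)
        exact Nat.Coprime.eq_one_of_dvd h6 h4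
      have h7 : (QuotientGroup.mk y : K ⧸ A) = 1 := orderOf_eq_one_iff.mp h5
      exact (QuotientGroup.eq_one_iff y).mp h7
    · rintro _ ⟨a, ha, rfl⟩ _ ⟨b, hb, rfl⟩
      have := hAab a ha b hb
      show (a : G) * (b : G) = (b : G) * (a : G)
      rw [← Subgroup.coe_mul, this, Subgroup.coe_mul]
    · rw [Subgroup.card_map_of_injective K.subtype_injective]
      exact hAcop
    · refine ⟨kA + 1, ?_⟩
      rw [Subgroup.index_map_subtype, hAi, hKi, pow_succ]
  · -- p does not divide |G|: abelian, A = ⊤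
    have hlin : ∀ χ : Cfsg.IrrCharacter G, (χ : G → ℂ) 1 = 1 := by
      intro χ
      obtain ⟨d, hd, hdvd, -⟩ := irr_deg_dvd_card χ
      have h1 : d = p ^ k χ := by
        have := hk χ
        rw [hd] at this
        exact_mod_cast this
      have h2 : k χ = 0 := by
        by_contra h0
        apply hpG
        exact (dvd_pow_self p h0).trans (h1 ▸ hdvd)
      rw [hk χ, h2, pow_zero]
    have hab := all_linear_comm hlin
    refine ⟨⊤, inferInstance, fun a _ b _ => hab a b, ?_, 0, ?_⟩
    · rw [Subgroup.card_top]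
      exact (Nat.Coprime.symm ((Nat.Prime.coprime_iff_not_dvd hp).mpr hpG))
    · rw [Subgroup.index_top, pow_zero]

/-- For a finite group G and a prime p: every irreducible character of G has degree a power of p if and only if G has an abelian normal subgroup whose order is prime to p and whose index is a power of p. -/
theorem result {G : Type*} [Group G] [Finite G] (p : ℕ) (hp : p.Prime) : (∀ χ : Cfsg.IrrCharacter G, ∃ k : ℕ, (χ : G → ℂ) 1 = (p : ℂ) ^ k) ↔ ∃ A : Subgroup G, A.Normal ∧ (∀ a ∈ A, ∀ b ∈ A, a * b = b * a) ∧ Nat.Coprime (Nat.card A) p ∧ ∃ k : ℕ, A.index = p ^ k := by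
  constructor
  · intro h
    exact fwd p hp (Nat.card G) G rfl h
  · rintro ⟨A, hAn, hAab, -, kA, hAi⟩ χ
    haveI := hAn
    obtain ⟨n, ρ, hρ, hρχ⟩ := χ.2
    haveI := hρ
    have h1 := ito_degree ρ A hAab
    rw [hAi] at h1
    obtain ⟨j, -, hj⟩ := (Nat.dvd_prime_pow hp).mp h1
    refine ⟨j, ?_⟩
    rw [← hρχ, Representation.char_one, hj]; push_cast; rfl

end Cfsg.Agent.S0855
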