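import Cfsg.Statements.S0860
import Mathlib
import Cfsg.Agent.Lib.Lead.Char5

set_option autoImplicit false
open Cfsg

namespace Cfsg.Agent.S0860

open Cfsg.Agent.Lib.Lead

theorem sum_classes {G : Type*} [Group G] [Fintype G] [Fintype (ConjClasses G)]
    (rep : ConjClasses G → G) (hrep : ∀ C, ConjClasses.mk (rep C) = C) (F : G → ℂ)
    (hF : Cfsg.IsClassFunction G F) :
    ∑ g : G, F g = ∑ C : ConjClasses G, (Nat.card {x : G // IsConj (rep C) x} : ℂ) * F (rep C) := by
  classical
  rw [← Finset.sum_fiberwise (s := Finset.univ) (g := ConjClasses.mk) (f := F)]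
  apply Finset.sum_congr rfl
  intro C _
  have h1 : ∀ g ∈ Finset.univ.filter (fun g : G => ConjClasses.mk g = C), F g = F (rep C) := by
    intro g hg
    rw [Finset.mem_filter] at hg
    have : IsConj g (rep C) := by
      rw [← ConjClasses.mk_eq_mk_iff_isConj, hrep]
      exact hg.2
    exact isClassFunction_conj_eq hF this
  rw [Finset.sum_congr rfl h1, Finset.sum_const, nsmul_eq_mul]
  congr 2
  rw [Nat.card_eq_fintype_card, Fintype.card_subtype]
  congr 1
  ext g
  simp only [Finset.mem_filter, Finset.mem_univ, true_and]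
  rw [← hrep C, ConjClasses.mk_eq_mk_iff_isConj, hrep C]
  exact isConj_comm

/-- Let a group A act on the set of irreducible characters and on the set of conjugacy classes of a finite group G in such a way that (a • χ) evaluated on the class a • C equals χ evaluated on C, for all a, χ and C. Then every element of A fixes exactly as many irreducible characters as it fixes conjugacy classes. -/
theorem result {G : Type*} [Group G] [Finite G] {A : Type*} [Group A] [MulAction A (Cfsg.IrrCharacter G)] [MulAction A (ConjClasses G)] (hcompat : ∀ (a : A) (χ : Cfsg.IrrCharacter G) (g g' : G), ConjClasses.mk g' = a • ConjClasses.mk g → ((a • χ : Cfsg.IrrCharacter G) : G → ℂ) g' = (χ : G → ℂ) g) (a : A) : Nat.card {χ : Cfsg.IrrCharacter G // a • χ = χ} = Nat.card {C : ConjClasses G // a • C = C} := by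
  classical
  have : Fintype G := Fintype.ofFinite G
  have : Fintype (Cfsg.IrrCharacter G) := Fintype.ofFinite _
  have : Fintype (ConjClasses G) := Fintype.ofFinite _
  obtain ⟨rep, hrep⟩ : ∃ rep : ConjClasses G → G, ∀ C, ConjClasses.mk (rep C) = C :=
    ⟨Function.surjInv ConjClasses.mk_surjective, Function.surjInv_eq ConjClasses.mk_surjective⟩
  have hG : (Nat.card G : ℂ) ≠ 0 := by
    have : 0 < Nat.card G := Nat.card_pos
    exact_mod_cast this.ne'
  obtain ⟨X, hX⟩ : ∃ X : Matrix (Cfsg.IrrCharacter G) (ConjClasses G) ℂ,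
      X = fun χ C => χ.1 (rep C) := ⟨_, rfl⟩
  obtain ⟨Y, hY⟩ : ∃ Y : Matrix (ConjClasses G) (Cfsg.IrrCharacter G) ℂ,
      Y = fun C χ => (Nat.card {x : G // IsConj (rep C) x} : ℂ) / (Nat.card G : ℂ) *
        (starRingEnd ℂ) (χ.1 (rep C)) := ⟨_, rfl⟩
  obtain ⟨P, hP⟩ : ∃ P : Matrix (Cfsg.IrrCharacter G) (Cfsg.IrrCharacter G) ℂ,
      P = fun χ ψ => if a • χ = ψ then 1 else 0 := ⟨_, rfl⟩
  obtain ⟨Q, hQ⟩ : ∃ Q : Matrix (ConjClasses G) (ConjClasses G) ℂ,
      Q = fun C D => if a • C = D then 1 else 0 := ⟨_, rfl⟩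
  have hXY : X * Y = 1 := by
    ext χ ψ
    rw [Matrix.mul_apply, Matrix.one_apply]
    have h1 := irr_inner χ ψ
    unfold Cfsg.classInner at h1
    have hcf : Cfsg.IsClassFunction G (fun g => χ.1 g * (starRingEnd ℂ) (ψ.1 g)) := by
      intro g h
      show χ.1 (h * g * h⁻¹) * (starRingEnd ℂ) (ψ.1 (h * g * h⁻¹)) = χ.1 g * (starRingEnd ℂ) (ψ.1 g)
      rw [isClassFunction_of_irr χ g h, isClassFunction_of_irr ψ g h]
    rw [sum_classes rep hrep (fun g => χ.1 g * (starRingEnd ℂ) (ψ.1 g)) hcf] at h1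
    rw [← h1, Finset.mul_sum]
    apply Finset.sum_congr rfl
    intro C _
    rw [hX, hY]
    show χ.1 (rep C) * ((Nat.card {x : G // IsConj (rep C) x} : ℂ) / (Nat.card G : ℂ) *
        (starRingEnd ℂ) (ψ.1 (rep C))) = _
    field_simp
  have hYX : Y * X = 1 := by
    ext C D
    rw [Matrix.mul_apply, Matrix.one_apply]
    have e : ∀ χ : Cfsg.IrrCharacter G, Y C χ * X χ D =
        (Nat.card {x : G // IsConj (rep C) x} : ℂ) / (Nat.card G : ℂ) *
          (χ.1 (rep D) * (starRingEnd ℂ) (χ.1 (rep C))) := by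
      intro χ
      rw [hX, hY]
      show (Nat.card {x : G // IsConj (rep C) x} : ℂ) / (Nat.card G : ℂ) *
        (starRingEnd ℂ) (χ.1 (rep C)) * χ.1 (rep D) = _
      ring
    rw [Finset.sum_congr rfl (fun χ _ => e χ), ← Finset.mul_sum, col_orth' (rep D) (rep C)]
    by_cases h : C = D
    · subst h
      rw [if_pos (IsConj.refl _), if_pos rfl]
      have h3 := card_conj_mul_card_centralizer (rep C)
      rw [div_mul_eq_mul_div, div_eq_one_iff_eq hG]
      exact_mod_cast h3
    · rw [if_neg h, if_neg, mul_zero]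
      intro hc
      apply h
      rw [← hrep C, ← hrep D]
      exact (ConjClasses.mk_eq_mk_iff_isConj.mpr hc).symm
  have hPX : P * X = X * Q := by
    ext χ D
    rw [Matrix.mul_apply, Matrix.mul_apply, hP, hQ, hX]
    show ∑ ψ : Cfsg.IrrCharacter G, (if a • χ = ψ then (1 : ℂ) else 0) * ψ.1 (rep D) =
      ∑ C : ConjClasses G, χ.1 (rep C) * (if a • C = D then (1 : ℂ) else 0)
    rw [Finset.sum_eq_single (a • χ), Finset.sum_eq_single (a⁻¹ • D)]
    · rw [if_pos rfl, if_pos (smul_inv_smul a D), one_mul, mul_one]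
      exact hcompat a χ (rep (a⁻¹ • D)) (rep D) (by rw [hrep, hrep, smul_inv_smul])
    · intro C _ hC
      rw [if_neg, mul_zero]
      intro h
      apply hC
      rw [← h, inv_smul_smul]
    · intro h
      exact absurd (Finset.mem_univ _) h
    · intro ψ _ hψ
      rw [if_neg (fun h => hψ h.symm), zero_mul]
    · intro h
      exact absurd (Finset.mem_univ _) h
  have htr : Matrix.trace P = Matrix.trace Q := by
    calc Matrix.trace P = Matrix.trace (P * (X * Y)) := by rw [hXY, mul_one]
      _ = Matrix.trace ((X * Q) * Y) := by rw [← Matrix.mul_assoc, hPX]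
      _ = Matrix.trace (Y * (X * Q)) := Matrix.trace_mul_comm _ _
      _ = Matrix.trace Q := by rw [← Matrix.mul_assoc, hYX, one_mul]
  have hP' : Matrix.trace P = (Nat.card {χ : Cfsg.IrrCharacter G // a • χ = χ} : ℂ) := by
    rw [Matrix.trace, Nat.card_eq_fintype_card, Fintype.card_subtype, hP]
    show ∑ χ : Cfsg.IrrCharacter G, (if a • χ = χ then (1 : ℂ) else 0) = _
    rw [Finset.sum_boole]
  have hQ' : Matrix.trace Q = (Nat.card {C : ConjClasses G // a • C = C} : ℂ) := by
    rw [Matrix.trace, Nat.card_eq_fintype_card, Fintype.card_subtype, hQ]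
    show ∑ C : ConjClasses G, (if a • C = C then (1 : ℂ) else 0) = _
    rw [Finset.sum_boole]
  rw [hP', hQ'] at htr
  exact_mod_cast htr

end Cfsg.Agent.S0860
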