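import Cfsg.Statements.S0864
import Mathlib
import Cfsg.Agent.Lib.Lead.LinTransfer
import Cfsg.Agent.Lib.Lead.LinTransfer2
-- import your own Cfsg.Agent.* helpers here

set_option autoImplicit false
open Cfsg

namespace Cfsg.Agent.S0864

/-- Let N be a normal subgroup of the finite group G and λ a character of N of degree 1 invariant under conjugation by G. Suppose that for every prime p dividing the order of λ (in the group of functions under pointwise multiplication) there is a subgroup H containing N, of index prime to p and with the index of N in H a power of p, together with a character of H of degree 1 restricting to λ. Then λ is the restriction of a character of G of degree 1. -/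
theorem result {G : Type*} [Group G] [Finite G] (N : Subgroup G) [hN : N.Normal] (lam : N → ℂ) (hlam : Cfsg.IsCharacter N lam ∧ lam 1 = 1) (hinv : ∀ (g : G) (n : N), lam ⟨g * n * g⁻¹, hN.conj_mem (n : G) n.2 g⟩ = lam n) (hsyl : ∀ p : ℕ, p.Prime → p ∣ orderOf lam → ∃ (H : Subgroup G) (hNH : N ≤ H) (ν : H → ℂ), Nat.Coprime H.index p ∧ (∃ k : ℕ, N.relIndex H = p ^ k) ∧ Cfsg.IsCharacter H ν ∧ ν 1 = 1 ∧ ∀ n : N, ν ⟨(n : G), hNH n.2⟩ = lam n) : ∃ μ : G → ℂ, Cfsg.IsCharacter G μ ∧ μ 1 = 1 ∧ ∀ n : N, μ n = lam n := by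
  classical
  obtain ⟨l, hl⟩ := Lib.Lead.hom_of_isCharacter_one hlam.1 hlam.2
  subst hl
  obtain ⟨m, hm⟩ : ∃ m, m = orderOf (fun x : N => (l x : ℂ)) := ⟨_, rfl⟩
  rw [← hm] at hsyl
  have hpowfun : ∀ (k : ℕ),
      ((fun x : N => (l x : ℂ)) ^ k = 1) ↔ ∀ x : N, l x ^ k = 1 := by
    intro k
    constructor
    · intro h x
      apply Units.ext
      have h2 := congrFun h x
      simpa using h2
    · intro h
      funext x
      have h2 := congrArg (fun u : ℂˣ => (u : ℂ)) (h x)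
      simpa using h2
  have hmpos : 0 < m := by
    rw [hm]
    apply orderOf_pos_iff.2
    rw [isOfFinOrder_iff_pow_eq_one]
    refine ⟨Nat.card N, Nat.card_pos, ?_⟩
    rw [hpowfun]
    intro x
    rw [← map_pow, pow_card_eq_one', map_one]
  have hlm : ∀ x : N, l x ^ m = 1 := by
    rw [← hpowfun, hm]
    exact pow_orderOf_eq_one _
  have hinv' : ∀ (g : G) (x : N) (h : g⁻¹ * (x : G) * g ∈ N), l ⟨g⁻¹ * x * g, h⟩ = l x := by
    intro g x h
    have h2 := hinv g⁻¹ x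
    have h3 : (⟨g⁻¹ * x * g, h⟩ : N) = ⟨g⁻¹ * x * g⁻¹⁻¹, hN.conj_mem (x : G) x.2 g⁻¹⟩ :=
      Subtype.ext (by simp)
    rw [h3]
    exact Units.ext h2
  let P : ℕ → Prop := fun k => ∃ μ : G →* ℂˣ, ∀ x : N, μ x = l x ^ k
  have hPm : P m := ⟨1, fun x => by rw [hlm x]; rfl⟩
  have hex : ∃ d, 0 < d ∧ P d := ⟨m, hmpos, hPm⟩
  obtain ⟨d, hd⟩ : ∃ d, d = Nat.find hex := ⟨_, rfl⟩
  have hdspec : 0 < d ∧ P d := by rw [hd]; exact Nat.find_spec hex
  have hdvd : ∀ k, P k → d ∣ k := by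
    intro k hk
    by_contra hnd
    have hlt : k % d < d := Nat.mod_lt _ hdspec.1
    have hpos : 0 < k % d := Nat.pos_of_ne_zero (fun h => hnd (Nat.dvd_of_mod_eq_zero h))
    have hPmod : P (k % d) := by
      obtain ⟨μk, hμk⟩ := hk
      obtain ⟨μd, hμd⟩ := hdspec.2
      refine ⟨μk * (μd ^ (k / d))⁻¹, fun x => ?_⟩
      rw [MonoidHom.mul_apply, MonoidHom.inv_apply, MonoidHom.pow_apply, hμk, hμd, ← pow_mul,
        mul_inv_eq_iff_eq_mul, ← pow_add, Nat.mod_add_div]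
    have hmin : ∀ j, j < d → ¬ (0 < j ∧ P j) := by
      rw [hd]; intro j hj; exact Nat.find_min hex hj
    exact hmin _ hlt ⟨hpos, hPmod⟩
  have hd1 : d = 1 := by
    by_contra hne
    obtain ⟨q, hq, hqd⟩ := Nat.exists_prime_and_dvd hne
    have hqm : q ∣ m := hqd.trans (hdvd m hPm)
    obtain ⟨a, r, hr, hmr⟩ := Nat.exists_eq_pow_mul_and_not_dvd hmpos.ne' q hq.ne_one
    obtain ⟨H, hNH, ν, hidx, _, hν, hν1, hνN⟩ := hsyl q hq hqm
    obtain ⟨v, hv⟩ := Lib.Lead.hom_of_isCharacter_one hν hν1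
    subst hv
    have hvN : ∀ x : N, v ⟨(x : G), hNH x.2⟩ = l x := fun x => Units.ext (hνN x)
    haveI : H.FiniteIndex := Subgroup.finiteIndex_of_finite_quotient
    have hP : P (r * H.index) := by
      refine ⟨MonoidHom.transfer (v ^ r), fun x => ?_⟩
      have h1 := Lib.Lead.transfer_of_invariant_elt H (v ^ r) ⟨(x : G), hNH x.2⟩ (by
        intro g k h
        have hmem : g⁻¹ * (x : G) ^ k * g ∈ N := by
          have h5 := hN.conj_mem ((x : G) ^ k) (N.pow_mem x.2 k) g⁻¹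
          simpa using h5
        have h2 : (⟨g⁻¹ * (x : G) ^ k * g, h⟩ : H) = ⟨((⟨g⁻¹ * (x : G) ^ k * g, hmem⟩ : N) : G), hNH hmem⟩ := rfl
        rw [MonoidHom.pow_apply, MonoidHom.pow_apply]
        show v ⟨g⁻¹ * (x : G) ^ k * g, h⟩ ^ r = _
        rw [h2, hvN, hvN]
        have h3 := hinv' g (x ^ k) (by simpa using hmem)
        have h4 : (⟨g⁻¹ * (x : G) ^ k * g, hmem⟩ : N) = ⟨g⁻¹ * ((x ^ k : N) : G) * g, by simpa using hmem⟩ :=
          Subtype.ext (by simp)
        rw [h4, h3, map_pow, ← pow_mul, ← pow_mul, mul_comm])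
      rw [h1, MonoidHom.pow_apply, hvN, ← pow_mul]
    have h6 := hqd.trans (hdvd _ hP)
    rcases (Nat.Prime.dvd_mul hq).1 h6 with h | h
    · exact hr h
    · exact (Nat.Prime.coprime_iff_not_dvd hq).1 hidx.symm h
  rw [hd1] at hdspec
  obtain ⟨μ, hμ⟩ := hdspec.2
  refine ⟨fun g => (μ g : ℂ), Lib.Lead.isCharacter_of_hom μ, ?_, fun x => ?_⟩
  · show ((μ 1 : ℂˣ) : ℂ) = 1
    rw [map_one]; rfl
  · show ((μ x : ℂˣ) : ℂ) = _
    rw [hμ, pow_one]

end Cfsg.Agent.S0864
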