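import Cfsg.Statements.S0875
import Mathlib
import Cfsg.Agent.Lib.Lead.PiSection
-- import your own Cfsg.Agent.* helpers here

set_option autoImplicit false
open Cfsg

namespace Cfsg.Agent.S0875

/-- Let G be a finite group of order m * n with m and n coprime, and g an element whose order is coprime to m. Every x in G factors uniquely as x = u * v with u, v commuting, the order of u coprime to n and the order of v coprime to m; let ϑ be the function on G equal to n at those x whose factor v is conjugate to g and equal to 0 elsewhere. Then ϑ is a linear combination of the irreducible characters of G with algebraic-integer coefficients. -/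
theorem result {G : Type*} [Group G] [Fintype G] (m n : ℕ) (hmn : Nat.card G = m * n) (hcop : Nat.Coprime m n) (g : G) (hg : Nat.Coprime (orderOf g) m) (ϑ : G → ℂ) (hϑ1 : ∀ x : G, (∃ v : G, IsConj v g ∧ (∃ u : G, x = u * v ∧ Commute u v ∧ Nat.Coprime (orderOf u) n ∧ Nat.Coprime (orderOf v) m)) → ϑ x = n) (hϑ0 : ∀ x : G, (¬ ∃ v : G, IsConj v g ∧ (∃ u : G, x = u * v ∧ Commute u v ∧ Nat.Coprime (orderOf u) n ∧ Nat.Coprime (orderOf v) m)) → ϑ x = 0) : ∃ c : Cfsg.IrrCharacter G → ℂ, (∀ χ, c χ ∈ Cfsg.AlgInt) ∧ ϑ = ∑ᶠ χ : Cfsg.IrrCharacter G, c χ • (χ : G → ℂ) := by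
  classical
  haveI : Fintype (Cfsg.IrrCharacter G) := Fintype.ofFinite _
  obtain ⟨t, ht0, ht1⟩ := Nat.chineseRemainder hcop 0 1
  have htm : m ∣ t := (Nat.modEq_zero_iff_dvd).mp ht0
  obtain ⟨t', ht'1, ht'0⟩ := Nat.chineseRemainder hcop 1 0
  have ht'n : n ∣ t' := (Nat.modEq_zero_iff_dvd).mp ht'0
  have hord : ∀ x : G, orderOf x ∣ m * n := fun x => hmn ▸ orderOf_dvd_natCard x
  have hϑ : ϑ = fun x : G => if IsConj (x ^ t) g then (n : ℂ) else 0 := by
    funext x
    by_cases h : IsConj (x ^ t) g
    · rw [if_pos h]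
      apply hϑ1
      refine ⟨x ^ t, h, x ^ t', ?_, (Commute.refl x).pow_pow _ _, ?_, ?_⟩
      · rw [← pow_add]
        have h1 : t' + t ≡ 1 [MOD m * n] := by
          rw [← Nat.modEq_and_modEq_iff_modEq_mul hcop]
          constructor
          · have h7 := ht'1.add ht0
            simpa using h7
          · have h7 := ht'0.add ht1
            simpa using h7
        have h2 := pow_eq_pow_iff_modEq.mpr (h1.of_dvd (hord x))
        rw [pow_one] at h2
        exact h2.symm
      · have h3 : orderOf (x ^ t') ∣ m := by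
          apply orderOf_dvd_of_pow_eq_one
          rw [← pow_mul]
          apply orderOf_dvd_iff_pow_eq_one.mp
          exact (hord x).trans (by rw [mul_comm m n]; exact Nat.mul_dvd_mul_right ht'n m)
        exact Nat.Coprime.coprime_dvd_left h3 hcop
      · have h3 : orderOf (x ^ t) ∣ n := by
          apply orderOf_dvd_of_pow_eq_one
          rw [← pow_mul]
          apply orderOf_dvd_iff_pow_eq_one.mp
          exact (hord x).trans (Nat.mul_dvd_mul_right htm n)
        exact Nat.Coprime.coprime_dvd_left h3 hcop.symm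
    · rw [if_neg h]
      apply hϑ0
      rintro ⟨v, hv, u, hx, hcomm, hu, hv'⟩
      apply h
      have hum : orderOf u ∣ m := hu.dvd_of_dvd_mul_right (hord u)
      have hvn : orderOf v ∣ n := hv'.dvd_of_dvd_mul_left (hord v)
      have h4 : u ^ t = 1 := orderOf_dvd_iff_pow_eq_one.mp (hum.trans htm)
      have h5 : v ^ t = v := by
        have h6 := pow_eq_pow_iff_modEq.mpr (ht1.of_dvd hvn)
        rw [pow_one] at h6
        exact h6
      rw [hx, hcomm.mul_pow, h4, h5, one_mul]
      exact hv
  have hmem := Lib.Lead.pi_section_ai m n hmn hcop g t htm ht1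
  rw [← hϑ] at hmem
  obtain ⟨c, hc, hsum⟩ := Lib.Lead.aiSpan_exists_coeff hmem
  refine ⟨c, fun χ => hc χ, ?_⟩
  rw [finsum_eq_sum_of_fintype]
  exact hsum

end Cfsg.Agent.S0875
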