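import Cfsg.Statements.S0876
import Mathlib
import Cfsg.Agent.Lib.Lead.PiSection
import Cfsg.Agent.Lib.Lead.PReg
-- import your own Cfsg.Agent.* helpers here

set_option autoImplicit false
open Cfsg

namespace Cfsg.Agent.S0876

/-- Let G be a finite group, p a prime and M a maximal ideal of the ring of algebraic integers containing p. Let x, y be elements with p-parts a and b (so a⁻¹ * x and b⁻¹ * y are their p-regular parts). Then a⁻¹ * x and b⁻¹ * y are conjugate in G if and only if, for every irreducible character χ, the difference χ x - χ y lies in the local ideal at M. -/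
theorem result {G : Type*} [Group G] [Finite G] (p : ℕ) (M : Ideal Cfsg.AlgInt) (hM : Cfsg.IsPModular p M) (x y a b : G) (ha : Cfsg.IsPPart p x a) (hb : Cfsg.IsPPart p y b) : IsConj (a⁻¹ * x) (b⁻¹ * y) ↔ ∀ χ : Cfsg.IrrCharacter G, Cfsg.MemLocalIdeal M ((χ : G → ℂ) x - (χ : G → ℂ) y) := by
  classical
  obtain ⟨hp, hMmax, hpM⟩ := hM
  haveI : Fact p.Prime := ⟨hp⟩
  have hMp : M.IsPrime := hMmax.isPrime
  haveI : Fintype G := Fintype.ofFinite G
  haveI : Fintype (Cfsg.IrrCharacter G) := Fintype.ofFinite _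
  obtain ⟨x', hx1, hxc, ⟨kx, hkx⟩, hxp⟩ := ha
  obtain ⟨y', hy1, hyc, ⟨ky, hky⟩, hyp⟩ := hb
  have hax : a⁻¹ * x = x' := by rw [← hx1, inv_mul_cancel_left]
  have hby : b⁻¹ * y = y' := by rw [← hy1, inv_mul_cancel_left]
  rw [hax, hby]
  subst hx1 hy1
  have hint : ∀ (χ : Cfsg.IrrCharacter G) (g : G), IsIntegral ℤ (χ.1 g) :=
    fun χ g => Lib.Lead.irr_isIntegral χ g
  have hcong : ∀ (χ : Cfsg.IrrCharacter G), Lib.Lead.InIdeal M (χ.1 (a * x') - χ.1 x') ∧
      Lib.Lead.InIdeal M (χ.1 (b * y') - χ.1 y') := by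
    intro χ
    obtain ⟨n, ρ, hρ, hρχ⟩ := χ.2
    rw [← hρχ]
    exact ⟨Lib.Lead.char_preg_congr_M ρ p M hMp hpM a x' hxc kx hkx hxp,
      Lib.Lead.char_preg_congr_M ρ p M hMp hpM b y' hyc ky hky hyp⟩
  constructor
  · intro hconj χ
    rw [Lib.Lead.memLocalIdeal_iff hMp ((hint χ _).sub (hint χ _))]
    have h1 : χ.1 x' = χ.1 y' := by
      obtain ⟨c, hc⟩ := isConj_iff.mp hconj
      rw [← hc]
      exact (Lib.Lead.isClassFunction_of_char (Lib.Lead.isCharacter_of_irr χ.2) x' c).symm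
    have h2 := Lib.Lead.inIdeal_sub (hcong χ).1 (hcong χ).2
    have h3 : χ.1 (a * x') - χ.1 x' - (χ.1 (b * y') - χ.1 y') = χ.1 (a * x') - χ.1 (b * y') := by
      rw [h1]; ring
    rw [h3] at h2
    exact h2
  · intro h
    obtain ⟨A, n, hn, hGn⟩ :=
      Nat.exists_eq_pow_mul_and_not_dvd (Nat.card_pos (α := G)).ne' p hp.ne_one
    have hpn : Nat.Coprime p n := (Nat.Prime.coprime_iff_not_dvd hp).mpr hn
    have hcop : Nat.Coprime (p ^ A) n := Nat.Coprime.pow_left A hpn
    obtain ⟨t, ht0, ht1⟩ := Nat.chineseRemainder hcop 0 1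
    have htm : p ^ A ∣ t := (Nat.modEq_zero_iff_dvd).mp ht0
    have hmem := Lib.Lead.pi_section_ai (p ^ A) n hGn hcop x' t htm ht1
    obtain ⟨c, hc, hsum⟩ := Lib.Lead.aiSpan_exists_coeff hmem
    have hval : ∀ z : G, (if IsConj (z ^ t) x' then (n : ℂ) else 0)
        = ∑ χ : Cfsg.IrrCharacter G, c χ * χ.1 z := by
      intro z
      have h4 := congrFun hsum z
      rw [Finset.sum_apply] at h4
      exact h4
    have hpow : ∀ (u v : G), Commute u v → (∃ k, orderOf u = p ^ k) → ¬ p ∣ orderOf v →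
        (u * v) ^ t = v := by
      rintro u v huv ⟨k, hk⟩ hv
      have h1 : orderOf u ∣ p ^ A := by
        have h2 : p ^ k ∣ p ^ A * n := by
          rw [← hk, ← hGn]; exact orderOf_dvd_natCard u
        rw [hk]
        exact (Nat.Coprime.pow_left k hpn).dvd_of_dvd_mul_right h2
      have h3 : orderOf v ∣ n := by
        have h4 : orderOf v ∣ p ^ A * n := by
          rw [← hGn]; exact orderOf_dvd_natCard v
        exact (Nat.Coprime.pow_left A ((Nat.Prime.coprime_iff_not_dvd hp).mpr hv)).symm.dvd_of_dvd_mul_left h4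
      rw [huv.mul_pow, orderOf_dvd_iff_pow_eq_one.mp (h1.trans htm), one_mul]
      have h6 := pow_eq_pow_iff_modEq.mpr (ht1.of_dvd h3)
      rw [pow_one] at h6
      exact h6
    have hvx := hval (a * x')
    rw [hpow a x' hxc ⟨kx, hkx⟩ hxp, if_pos (IsConj.refl x')] at hvx
    have hvy := hval (b * y')
    rw [hpow b y' hyc ⟨ky, hky⟩ hyp] at hvy
    by_contra hnc
    rw [if_neg (fun h' => hnc h'.symm)] at hvy
    have hdiff : Lib.Lead.InIdeal M ((n : ℂ)) := by
      have h7 : ∑ χ : Cfsg.IrrCharacter G, c χ * (χ.1 (a * x') - χ.1 (b * y')) = (n : ℂ) := by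
        simp only [mul_sub, Finset.sum_sub_distrib]
        rw [← hvx, ← hvy, sub_zero]
      rw [← h7]
      apply Lib.Lead.inIdeal_sum
      intro χ _
      exact Lib.Lead.inIdeal_mul_left (hc χ)
        ((Lib.Lead.memLocalIdeal_iff hMp ((hint χ _).sub (hint χ _))).mp (h χ))
    obtain ⟨a', ha', hae⟩ := hdiff
    have ha'n : a' = (n : Cfsg.AlgInt) := Subtype.ext (by rw [hae]; simp)
    rw [ha'n] at ha'
    have h8 : (1 : Cfsg.AlgInt) ∈ M := by
      have hb := Nat.gcd_eq_gcd_ab n p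
      rw [hpn.symm.gcd_eq_one] at hb
      have h9 : (1 : Cfsg.AlgInt) = (n : Cfsg.AlgInt) * ((Nat.gcdA n p : ℤ) : Cfsg.AlgInt)
          + (p : Cfsg.AlgInt) * ((Nat.gcdB n p : ℤ) : Cfsg.AlgInt) := by
        have h10 := congrArg (fun z : ℤ => (z : Cfsg.AlgInt)) hb
        simpa using h10
      rw [h9]
      exact M.add_mem (M.mul_mem_right _ ha') (M.mul_mem_right _ hpM)
    exact hMp.ne_top ((Ideal.eq_top_iff_one M).mpr h8)

end Cfsg.Agent.S0876
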