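import Mathlib
import Cfsg.Statements.S0878

set_option autoImplicit false
open Cfsg

namespace Cfsg.Agent.S0878

theorem result {G Ω : Type*} [Group G] [Finite G] [MulAction G Ω] [Fintype Ω] (hZ : Cfsg.IsZassenhausGroup G Ω) (a : Ω) (H : Subgroup G) (hHa : H ≤ MulAction.stabilizer G a) (hHcard : Nat.card H + 1 = Fintype.card Ω) (hHfix : ∀ u ∈ H, u ≠ 1 → ∀ c : Ω, u • c = c → c = a) : (∀ g : G, g ∉ MulAction.stabilizer G a → ∀ u ∈ H, g * u * g⁻¹ ∈ H → u = 1) ∧ Subgroup.normalizer (H : Set G) = MulAction.stabilizer G a := by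
  classical
  have : Fintype G := Fintype.ofFinite G
  obtain ⟨hfaith, h2t, h3, ⟨g₀, hg₀, a₀, b₀, hab₀, hga₀, hgb₀⟩, -⟩ := hZ
  rw [MulAction.is_two_pretransitive_iff] at h2t
  have hHa' : ∀ u ∈ H, u • a = a := fun u hu => MulAction.mem_stabilizer_iff.mp (hHa hu)
  have part1 : ∀ g : G, g ∉ MulAction.stabilizer G a → ∀ u ∈ H, g * u * g⁻¹ ∈ H → u = 1 := by
    intro g hg u hu hgu
    by_contra hu1
    apply hg
    rw [MulAction.mem_stabilizer_iff]
    apply hHfix (g * u * g⁻¹) hgu
    · intro h; apply hu1
      have e : u = g⁻¹ * (g * u * g⁻¹) * g := by group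
      rw [e, h]; group
    · rw [mul_smul, mul_smul, inv_smul_smul, hHa' u hu]
  refine ⟨part1, ?_⟩
  have hm : Nat.card H = Fintype.card Ω - 1 := by omega
  -- regularity of H on the points other than a
  have hreg : ∀ c : Ω, c ≠ a → ∀ d : Ω, d ≠ a → ∃ h ∈ H, h • c = d := by
    intro c hc d hd
    have hmem : ∀ h : H, (h : G) • c ≠ a := by
      intro h hh
      apply hc
      have e : (h : G) • c = (h : G) • a := by rw [hh, hHa' h h.2]
      exact MulAction.injective (h : G) e
    let ψ : H → {d : Ω // d ≠ a} := fun h => ⟨(h : G) • c, hmem h⟩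
    have hinj : Function.Injective ψ := by
      intro h h' hh
      have e : (h : G) • c = (h' : G) • c := congrArg Subtype.val hh
      have e2 : ((h' : G)⁻¹ * (h : G)) • c = c := by rw [mul_smul, e, inv_smul_smul]
      have e3 : (h' : G)⁻¹ * (h : G) = 1 := by
        by_contra hne
        exact hc (hHfix _ (H.mul_mem (H.inv_mem h'.2) h.2) hne c e2)
      apply Subtype.ext
      have e4 : (h : G) = (h' : G) * ((h' : G)⁻¹ * (h : G)) := by group
      rw [e4, e3, mul_one]
    have hcard : Fintype.card H = Fintype.card {d : Ω // d ≠ a} := by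
      rw [← Nat.card_eq_fintype_card, hm, Fintype.card_subtype, Finset.filter_ne',
        Finset.card_erase_of_mem (Finset.mem_univ a), Finset.card_univ]
    have hbij := (Fintype.bijective_iff_injective_and_card ψ).mpr ⟨hinj, hcard⟩
    obtain ⟨h, hh⟩ := hbij.2 ⟨d, hd⟩
    exact ⟨h, h.2, congrArg Subtype.val hh⟩
  have hA : ∀ c : Ω, c ≠ a → Nat.card (MulAction.stabilizer G a) = Nat.card H *
      Nat.card (MulAction.stabilizer G a ⊓ MulAction.stabilizer G c : Subgroup G) := by
    intro c hc
    rw [← Nat.card_prod]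
    symm
    apply Nat.card_congr
    let Φ : H × (MulAction.stabilizer G a ⊓ MulAction.stabilizer G c : Subgroup G) →
        MulAction.stabilizer G a :=
      fun x => ⟨(x.1 : G) * (x.2 : G), Subgroup.mul_mem _ (hHa x.1.2) x.2.2.1⟩
    apply Equiv.ofBijective Φ
    constructor
    · rintro ⟨h, e⟩ ⟨h', e'⟩ hh
      have e1 : (h : G) * (e : G) = (h' : G) * (e' : G) := congrArg Subtype.val hh
      have e2 : ((h' : G)⁻¹ * (h : G)) • c = c := by
        have e0 : (h' : G)⁻¹ * (h : G) = (e' : G) * (e : G)⁻¹ := by
          calc (h' : G)⁻¹ * (h : G) = (h' : G)⁻¹ * ((h : G) * (e : G)) * (e : G)⁻¹ := by group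
            _ = (h' : G)⁻¹ * ((h' : G) * (e' : G)) * (e : G)⁻¹ := by rw [e1]
            _ = (e' : G) * (e : G)⁻¹ := by group
        rw [e0, mul_smul]
        have he : (e : G) • c = c := MulAction.mem_stabilizer_iff.mp e.2.2
        have he' : (e' : G) • c = c := MulAction.mem_stabilizer_iff.mp e'.2.2
        rw [inv_smul_eq_iff.mpr he.symm, he']
      have e3 : (h' : G)⁻¹ * (h : G) = 1 := by
        by_contra hne
        exact hc (hHfix _ (H.mul_mem (H.inv_mem h'.2) h.2) hne c e2)
      have e4 : (h : G) = (h' : G) := by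
        have e6 : (h : G) = (h' : G) * ((h' : G)⁻¹ * (h : G)) := by group
        rw [e6, e3, mul_one]
      have e5 : (e : G) = (e' : G) := by
        rw [e4] at e1; exact mul_left_cancel e1
      exact Prod.ext (Subtype.ext e4) (Subtype.ext e5)
    · rintro ⟨g, hg⟩
      have hga : g • a = a := MulAction.mem_stabilizer_iff.mp hg
      have hgc : g • c ≠ a := by
        intro h; apply hc
        exact MulAction.injective g (h.trans hga.symm)
      obtain ⟨h, hh, hhc⟩ := hreg c hc (g • c) hgc
      have hm1 : h⁻¹ * g ∈ MulAction.stabilizer G a := by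
        rw [MulAction.mem_stabilizer_iff, mul_smul, hga, inv_smul_eq_iff, hHa' h hh]
      have hm2 : h⁻¹ * g ∈ MulAction.stabilizer G c := by
        rw [MulAction.mem_stabilizer_iff, mul_smul, ← hhc, inv_smul_smul]
      refine ⟨(⟨h, hh⟩, ⟨h⁻¹ * g, hm1, hm2⟩), ?_⟩
      apply Subtype.ext
      show h * (h⁻¹ * g) = g
      group
  have hC : ∀ g₁ ∈ MulAction.stabilizer G a, g₁ ∉ H → ∃ c : Ω, c ≠ a ∧ g₁ • c = c := by
    intro g₁ hg₁K hg₁H
    by_contra hcon
    push Not at hcon
    let A₀ : Finset G := Finset.univ.filter (fun g => g ∈ MulAction.stabilizer G a)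
    let S : Ω → Finset G := fun c =>
      Finset.univ.filter (fun g => g ∈ MulAction.stabilizer G a ∧ g • c = c ∧ g ≠ 1)
    let Ω' : Finset Ω := Finset.univ.erase a
    let B' : Finset G := insert g₁ (Finset.univ.filter (fun g => g ∈ H))
    have hA₀ : A₀.card = Nat.card (MulAction.stabilizer G a) := by
      rw [Nat.card_eq_fintype_card, Fintype.card_subtype]
    have hB' : B'.card = Nat.card H + 1 := by
      rw [Finset.card_insert_of_notMem (by simpa using hg₁H), Nat.card_eq_fintype_card,
        Fintype.card_subtype]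
    have hΩ' : Ω'.card = Nat.card H := by
      rw [Finset.card_erase_of_mem (Finset.mem_univ a), Finset.card_univ, hm]
    have hdisjS : ∀ c ∈ Ω', ∀ d ∈ Ω', c ≠ d → Disjoint (S c) (S d) := by
      intro c hc d hd hcd
      rw [Finset.disjoint_left]
      intro g hgc hgd
      simp only [S, Finset.mem_filter, Finset.mem_univ, true_and] at hgc hgd
      have hca : c ≠ a := Finset.ne_of_mem_erase hc
      have hda : d ≠ a := Finset.ne_of_mem_erase hd
      exact hgc.2.2 (h3 g a c d (Ne.symm hca) hcd (Ne.symm hda)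
        (MulAction.mem_stabilizer_iff.mp hgc.1) hgc.2.1 hgd.2.1)
    have hdisjB : Disjoint (Ω'.biUnion S) B' := by
      rw [Finset.disjoint_left]
      intro g hg hgB
      rw [Finset.mem_biUnion] at hg
      obtain ⟨c, hc, hgc⟩ := hg
      simp only [S, Finset.mem_filter, Finset.mem_univ, true_and] at hgc
      have hca : c ≠ a := Finset.ne_of_mem_erase hc
      simp only [B', Finset.mem_insert, Finset.mem_filter, Finset.mem_univ, true_and] at hgB
      rcases hgB with hgg | hgH
      · rw [hgg] at hgc; exact hcon c hca hgc.2.1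
      · exact hca (hHfix g hgH hgc.2.2 c hgc.2.1)
    have hsub : (Ω'.biUnion S) ∪ B' ⊆ A₀ := by
      intro g hg
      simp only [A₀, Finset.mem_filter, Finset.mem_univ, true_and]
      rw [Finset.mem_union] at hg
      rcases hg with hg | hg
      · rw [Finset.mem_biUnion] at hg
        obtain ⟨c, -, hgc⟩ := hg
        simp only [S, Finset.mem_filter, Finset.mem_univ, true_and] at hgc
        exact hgc.1
      · simp only [B', Finset.mem_insert, Finset.mem_filter, Finset.mem_univ, true_and] at hg
        rcases hg with hgg | hgH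
        · rw [hgg]; exact hg₁K
        · exact hHa hgH
    have hcardle := Finset.card_le_card hsub
    rw [Finset.card_union_of_disjoint hdisjB, Finset.card_biUnion hdisjS, hA₀, hB'] at hcardle
    have hS : ∀ c ∈ Ω', (S c).card + 1 =
        Nat.card (MulAction.stabilizer G a ⊓ MulAction.stabilizer G c : Subgroup G) := by
      intro c hc
      have hSc : S c = (Finset.univ.filter (fun g => g ∈
          (MulAction.stabilizer G a ⊓ MulAction.stabilizer G c : Subgroup G))).erase 1 := by
        ext g
        simp only [S, Finset.mem_filter, Finset.mem_univ, true_and, Finset.mem_erase,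
          Subgroup.mem_inf, MulAction.mem_stabilizer_iff]
        tauto
      rw [hSc, Finset.card_erase_of_mem (by simp), Nat.card_eq_fintype_card, Fintype.card_subtype]
      exact Nat.sub_add_cancel (Finset.card_pos.mpr ⟨1, by simp⟩)
    have hsum : ∑ c ∈ Ω', ((S c).card + 1) = Nat.card (MulAction.stabilizer G a) := by
      have h1 : ∀ c ∈ Ω', Nat.card H * ((S c).card + 1) = Nat.card (MulAction.stabilizer G a) := by
        intro c hc; rw [hS c hc]; exact (hA c (Finset.ne_of_mem_erase hc)).symm
      have h2 : Nat.card H * ∑ c ∈ Ω', ((S c).card + 1)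
          = Nat.card H * Nat.card (MulAction.stabilizer G a) := by
        rw [Finset.mul_sum, Finset.sum_congr rfl h1, Finset.sum_const, hΩ', smul_eq_mul]
      exact Nat.eq_of_mul_eq_mul_left Nat.card_pos h2
    rw [Finset.sum_add_distrib, Finset.sum_const, hΩ', smul_eq_mul, mul_one] at hsum
    omega
  have hthree : 2 ≤ Nat.card H := by
    have hex : ∃ c : Ω, g₀ • c ≠ c := by
      by_contra hall
      push Not at hall
      apply hg₀
      apply hfaith.eq_of_smul_eq_smul
      intro c; rw [hall c, one_smul]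
    obtain ⟨c, hc⟩ := hex
    have hca : c ≠ a₀ := fun h => hc (h ▸ hga₀)
    have hcb : c ≠ b₀ := fun h => hc (h ▸ hgb₀)
    have h3' : ({a₀, b₀, c} : Finset Ω).card = 3 := by
      rw [Finset.card_insert_of_notMem, Finset.card_insert_of_notMem, Finset.card_singleton]
      · simpa using hcb.symm
      · simp [hab₀, hca.symm]
    have h4 := Finset.card_le_univ ({a₀, b₀, c} : Finset Ω)
    omega
  apply le_antisymm
  · intro g hg
    by_contra hga
    obtain ⟨u, hu⟩ : ∃ u : H, u ≠ 1 := by
      by_contra hall; push Not at hall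
      have h5 : Nat.card H ≤ 1 := by
        rw [Nat.card_eq_fintype_card]
        exact Fintype.card_le_one_iff.mpr (fun x y => (hall x).trans (hall y).symm)
      omega
    have h6 := part1 g hga u u.2 ((Subgroup.mem_normalizer_iff.mp hg u).mp u.2)
    exact hu (Subtype.ext h6)
  · intro t ht
    have key : ∀ t ∈ MulAction.stabilizer G a, ∀ h ∈ H, t * h * t⁻¹ ∈ H := by
      intro t ht h hh
      by_contra hnot
      have htK : t * h * t⁻¹ ∈ MulAction.stabilizer G a :=
        Subgroup.mul_mem _ (Subgroup.mul_mem _ ht (hHa hh)) (Subgroup.inv_mem _ ht)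
      obtain ⟨c, hca, hc⟩ := hC _ htK hnot
      have hta : t⁻¹ • a = a := by
        rw [inv_smul_eq_iff]; exact (MulAction.mem_stabilizer_iff.mp ht).symm
      have h1 : h ≠ 1 := by
        rintro rfl; apply hnot; simp
      have h2 : h • (t⁻¹ • c) = t⁻¹ • c := by
        rw [mul_smul, mul_smul] at hc
        have e := congrArg (fun z => t⁻¹ • z) hc
        simpa using e
      have h3' := hHfix h hh h1 _ h2
      apply hca
      have e : t⁻¹ • c = t⁻¹ • a := by rw [h3', hta]
      exact MulAction.injective t⁻¹ e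
    rw [Subgroup.mem_normalizer_iff]
    intro h
    constructor
    · exact key t ht h
    · intro hh
      have h7 := key t⁻¹ (Subgroup.inv_mem _ ht) _ hh
      have e : t⁻¹ * (t * h * t⁻¹) * t⁻¹⁻¹ = h := by group
      rwa [e] at h7

end Cfsg.Agent.S0878
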