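import Mathlib
import Cfsg.Statements.S0879

set_option autoImplicit false
open Cfsg

namespace Cfsg.Agent.S0879

theorem result {G Ω : Type*} [Group G] [Finite G] [MulAction G Ω] [Fintype Ω] (hZ : Cfsg.IsZassenhausGroup G Ω) {a b : Ω} (hab : a ≠ b) : (∀ g : G, g ∉ Subgroup.normalizer ((MulAction.stabilizer G a ⊓ MulAction.stabilizer G b : Subgroup G) : Set G) → ∀ x ∈ (MulAction.stabilizer G a ⊓ MulAction.stabilizer G b : Subgroup G), g * x * g⁻¹ ∈ (MulAction.stabilizer G a ⊓ MulAction.stabilizer G b : Subgroup G) → x = 1) ∧ ((MulAction.stabilizer G a ⊓ MulAction.stabilizer G b : Subgroup G).subgroupOf (Subgroup.normalizer ((MulAction.stabilizer G a ⊓ MulAction.stabilizer G b : Subgroup G) : Set G))).index = 2 := by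
  obtain ⟨hfaith, h2t, h3, ⟨g₀, hg₀, a₀, b₀, hab₀, hga₀, hgb₀⟩, -⟩ := hZ
  rw [MulAction.is_two_pretransitive_iff] at h2t
  set E := (MulAction.stabilizer G a ⊓ MulAction.stabilizer G b : Subgroup G) with hE
  have memE : ∀ x : G, x ∈ E ↔ x • a = a ∧ x • b = b := by
    intro x; rw [hE, Subgroup.mem_inf, MulAction.mem_stabilizer_iff, MulAction.mem_stabilizer_iff]
  obtain ⟨x₀, hx₀E, hx₀⟩ : ∃ x ∈ E, x ≠ 1 := by
    obtain ⟨t, hta, htb⟩ := h2t hab₀ hab
    refine ⟨t * g₀ * t⁻¹, (memE _).mpr ⟨?_, ?_⟩, ?_⟩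
    · rw [mul_smul, mul_smul, ← hta, inv_smul_smul, hga₀]
    · rw [mul_smul, mul_smul, ← htb, inv_smul_smul, hgb₀]
    · intro h
      apply hg₀
      have e : g₀ = t⁻¹ * (t * g₀ * t⁻¹) * t := by group
      rw [e, h]; group
  have hfix : ∀ x ∈ E, x ≠ 1 → ∀ c : Ω, x • c = c → c = a ∨ c = b := by
    intro x hx hx1 c hc
    by_contra hcon
    push Not at hcon
    exact hx1 (h3 x a b c hab (Ne.symm hcon.2) (Ne.symm hcon.1) ((memE x).mp hx).1
      ((memE x).mp hx).2 hc)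
  have hN : ∀ g : G, (g • a = a ∧ g • b = b) ∨ (g • a = b ∧ g • b = a) →
      g ∈ Subgroup.normalizer (E : Set G) := by
    intro g hg
    rw [Subgroup.mem_normalizer_iff]
    intro h
    rw [memE, memE]
    rcases hg with ⟨ha, hb⟩ | ⟨ha, hb⟩
    · have ha' : g⁻¹ • a = a := by rw [inv_smul_eq_iff, ha]
      have hb' : g⁻¹ • b = b := by rw [inv_smul_eq_iff, hb]
      rw [mul_smul, mul_smul, mul_smul, mul_smul, ha', hb']
      constructor
      · rintro ⟨h1, h2⟩; rw [h1, h2]; exact ⟨ha, hb⟩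
      · rintro ⟨h1, h2⟩
        constructor
        · have e := congrArg (fun z => g⁻¹ • z) h1; simpa [ha'] using e
        · have e := congrArg (fun z => g⁻¹ • z) h2; simpa [hb'] using e
    · have ha' : g⁻¹ • a = b := by rw [inv_smul_eq_iff, hb]
      have hb' : g⁻¹ • b = a := by rw [inv_smul_eq_iff, ha]
      rw [mul_smul, mul_smul, mul_smul, mul_smul, ha', hb']
      constructor
      · rintro ⟨h1, h2⟩; rw [h1, h2]; exact ⟨hb, ha⟩
      · rintro ⟨h1, h2⟩
        constructor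
        · have e := congrArg (fun z => g⁻¹ • z) h2; simpa [hb'] using e
        · have e := congrArg (fun z => g⁻¹ • z) h1; simpa [ha'] using e
  have hperm : ∀ g : G, ∀ x ∈ E, x ≠ 1 → g * x * g⁻¹ ∈ E →
      (g⁻¹ • a = a ∧ g⁻¹ • b = b) ∨ (g⁻¹ • a = b ∧ g⁻¹ • b = a) := by
    intro g x hx hx1 hgx
    have h1 : x • (g⁻¹ • a) = g⁻¹ • a := by
      have e := ((memE _).mp hgx).1
      rw [mul_smul, mul_smul] at e
      have e2 := congrArg (fun z => g⁻¹ • z) e
      simpa using e2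
    have h2 : x • (g⁻¹ • b) = g⁻¹ • b := by
      have e := ((memE _).mp hgx).2
      rw [mul_smul, mul_smul] at e
      have e2 := congrArg (fun z => g⁻¹ • z) e
      simpa using e2
    have hne : g⁻¹ • a ≠ g⁻¹ • b := fun h => hab (MulAction.injective g⁻¹ h)
    rcases hfix x hx hx1 _ h1 with ha | ha <;> rcases hfix x hx hx1 _ h2 with hb | hb
    · exact absurd (ha.trans hb.symm) hne
    · exact Or.inl ⟨ha, hb⟩
    · exact Or.inr ⟨ha, hb⟩
    · exact absurd (ha.trans hb.symm) hne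
  constructor
  · intro g hg x hx hgx
    by_contra hx1
    apply hg
    have h := hN g⁻¹ (hperm g x hx hx1 hgx)
    simpa using Subgroup.inv_mem _ h
  · show E.relIndex (Subgroup.normalizer (E : Set G)) = 2
    rw [Subgroup.relIndex_eq_two_iff]
    obtain ⟨s, hsa, hsb⟩ := h2t hab (Ne.symm hab)
    refine ⟨s, hN s (Or.inr ⟨hsa, hsb⟩), ?_⟩
    intro n hn
    have hn' : n⁻¹ * x₀ * n⁻¹⁻¹ ∈ E :=
      (Subgroup.mem_normalizer_iff.mp (Subgroup.inv_mem _ hn) x₀).mp hx₀E
    have hp := hperm n⁻¹ x₀ hx₀E hx₀ hn'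
    rw [inv_inv] at hp
    rcases hp with ⟨ha, hb⟩ | ⟨ha, hb⟩
    · refine Or.inr ⟨(memE n).mpr ⟨ha, hb⟩, ?_⟩
      intro h
      have e := ((memE _).mp h).1
      rw [mul_smul, hsa, hb] at e
      exact hab e.symm
    · refine Or.inl ⟨(memE _).mpr ⟨?_, ?_⟩, ?_⟩
      · rw [mul_smul, hsa, hb]
      · rw [mul_smul, hsb, ha]
      · intro h
        have e := ((memE _).mp h).1
        rw [ha] at e
        exact hab e.symm

end Cfsg.Agent.S0879
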