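import Mathlib
import Cfsg.Statements.S0888
import Cfsg.Agent.S0887

set_option autoImplicit false
open Cfsg

namespace Cfsg.Agent.S0888

open scoped ComplexConjugate
open Cfsg.Agent.Lib Cfsg.Agent.Lib.Lead
open Cfsg.Agent.S0887 (Gam piG iota Rrep ker_scalar piG_iota Rrep_iota iota_conj piG_surj gam_finite piG_apply ker_central)

section lift

/-- scalar units -/
def scal (d : ℕ) : ℂˣ →* (Module.End ℂ (Fin d → ℂ))ˣ :=
  Units.map (algebraMap ℂ (Module.End ℂ (Fin d → ℂ))).toMonoidHom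

theorem scal_val {d : ℕ} (c : ℂˣ) :
    ((scal d c : (Module.End ℂ (Fin d → ℂ))ˣ) : Module.End ℂ (Fin d → ℂ))
      = (c : ℂ) • (1 : Module.End ℂ (Fin d → ℂ)) := by
  show algebraMap ℂ (Module.End ℂ (Fin d → ℂ)) (c : ℂ) = _
  rw [Algebra.algebraMap_eq_smul_one]

theorem scal_comm {d : ℕ} (c : ℂˣ) (u : (Module.End ℂ (Fin d → ℂ))ˣ) :
    scal d c * u = u * scal d c := by
  apply Units.ext
  rw [Units.val_mul, Units.val_mul, scal_val, smul_mul_assoc, mul_smul_comm, one_mul, mul_one]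

theorem smul_one_inj {d : ℕ} [Nontrivial (Fin d → ℂ)] (a b : ℂ)
    (h : a • (1 : Module.End ℂ (Fin d → ℂ)) = b • (1 : Module.End ℂ (Fin d → ℂ))) : a = b := by
  obtain ⟨v, hv⟩ := exists_ne (0 : Fin d → ℂ)
  have h3 : a • v = b • v := congrArg (fun f : Module.End ℂ (Fin d → ℂ) => f v) h
  have h4 : (a - b) • v = 0 := by rw [sub_smul, h3, sub_self]
  rcases smul_eq_zero.mp h4 with h | h
  · exact sub_eq_zero.mp h
  · exact absurd h hv

theorem scal_inj {d : ℕ} [Nontrivial (Fin d → ℂ)] : Function.Injective (scal d) := by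
  intro a b hab
  have h1 := congrArg (fun u : (Module.End ℂ (Fin d → ℂ))ˣ => (u : Module.End ℂ (Fin d → ℂ))) hab
  simp only [scal_val] at h1
  exact Units.ext (smul_one_inj _ _ h1)

theorem unit_scalar_ne {d : ℕ} [Nontrivial (Fin d → ℂ)] (u : (Module.End ℂ (Fin d → ℂ))ˣ) (c : ℂ)
    (h : (u : Module.End ℂ (Fin d → ℂ)) = c • (1 : Module.End ℂ (Fin d → ℂ))) : c ≠ 0 := by
  rintro rfl
  rw [zero_smul] at h
  have h2 : ((u⁻¹ : (Module.End ℂ (Fin d → ℂ))ˣ) : Module.End ℂ (Fin d → ℂ))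
      * (u : Module.End ℂ (Fin d → ℂ)) = 1 := Units.inv_mul u
  rw [h, mul_zero] at h2
  have h3 : (0 : ℂ) • (1 : Module.End ℂ (Fin d → ℂ)) = (1 : ℂ) • (1 : Module.End ℂ (Fin d → ℂ)) := by
    rw [zero_smul, one_smul]; exact h2
  exact zero_ne_one (smul_one_inj _ _ h3)

variable {G : Type*} [Group G] (N : Subgroup G) [hN : N.Normal] {d : ℕ}
  (X : Representation ℂ N (Fin d → ℂ)) (m : ℕ)

theorem phi_exists [Finite G] [hX : X.IsIrreducible] (hm : ∀ n : N, n ^ m = 1)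
    (P : Subgroup G) (hNP : N ≤ P) (η : P → ℂ) (hη : Cfsg.IsIrrCharacter P η)
    (hηϑ : ∀ n : N, η ⟨(n : G), hNP n.2⟩ = X.character n) :
    ∃ ϕ : (P.comap (piG N X m)) →* ℂˣ,
      (∀ (n : N) (h : iota N X m hm n ∈ P.comap (piG N X m)), ϕ ⟨iota N X m hm n, h⟩ = 1) ∧
      (∀ (ζ : Gam N X m) (h : ζ ∈ P.comap (piG N X m)), piG N X m ζ = 1 →
        ((ϕ ⟨ζ, h⟩ : ℂˣ) : ℂ) • Rrep N X m ζ = 1) := by
  classical
  haveI : Fintype N := Fintype.ofFinite N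
  haveI hnt : Nontrivial (Fin d → ℂ) := ((irr_iff X).mp hX).1
  obtain ⟨d₂, Y, hY, hYη⟩ := hη
  have hdim : d₂ = d := by
    have h1 : η 1 = (d₂ : ℂ) := by rw [← hYη, Representation.char_one, Module.finrank_fin_fun]
    have h2 : η 1 = (d : ℂ) := by
      have h3 := hηϑ 1
      rw [Representation.char_one, Module.finrank_fin_fun] at h3
      rw [← h3]
      congr 1
    rw [h1] at h2
    exact_mod_cast h2
  subst hdim
  obtain ⟨YN, hYNdef⟩ : ∃ YN : Representation ℂ N (Fin d₂ → ℂ),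
      YN = Y.comp (Subgroup.inclusion hNP) := ⟨_, rfl⟩
  have hYNn : ∀ n : N, YN n = Y (Subgroup.inclusion hNP n) := fun n => by rw [hYNdef]; rfl
  have hYNc : YN.character = X.character := by
    funext n
    rw [← hηϑ n, ← hYη]
    show LinearMap.trace ℂ _ (YN n) = LinearMap.trace ℂ _ (Y ⟨(n : G), hNP n.2⟩)
    rw [hYNn]
    rfl
  have h1 := classInner_char X YN
  rw [hYNc, irr_inner_self (⟨X.character, ⟨d₂, X, hX, rfl⟩⟩ : Cfsg.IrrCharacter N)] at h1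
  obtain ⟨f, hf⟩ : ∃ f : Representation.IntertwiningMap X YN, f ≠ 0 := by
    by_contra hall
    push Not at hall
    haveI : Subsingleton (Representation.IntertwiningMap X YN) :=
      ⟨fun a b => by rw [hall a, hall b]⟩
    have h2 := Module.finrank_zero_of_subsingleton (R := ℂ)
      (M := Representation.IntertwiningMap X YN)
    rw [h2, Nat.cast_zero] at h1
    exact one_ne_zero h1
  have hfl : f.toLinearMap ≠ 0 := fun h => hf (Representation.IntertwiningMap.ext (by rw [h]; rfl))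
  have hfint : ∀ (n : N) (v : Fin d₂ → ℂ), f.toLinearMap (X n v) = YN n (f.toLinearMap v) := by
    intro n v
    exact congrArg (fun g : (Fin d₂ → ℂ) →ₗ[ℂ] (Fin d₂ → ℂ) => g v) (f.isIntertwining' n)
  have hker : LinearMap.ker f.toLinearMap = ⊥ := by
    rcases ((irr_iff X).mp hX).2 (LinearMap.ker f.toLinearMap) (fun n v hv => by
      rw [LinearMap.mem_ker] at hv ⊢
      rw [hfint, hv, map_zero]) with h | h
    · exact h
    · exfalso
      exact hfl (LinearMap.ker_eq_top.mp h)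
  have hinj : Function.Injective f.toLinearMap := LinearMap.ker_eq_bot.mp hker
  have hbij : Function.Bijective f.toLinearMap :=
    ⟨hinj, LinearMap.injective_iff_surjective.mp hinj⟩
  obtain ⟨Eu, hEu⟩ : ∃ Eu : (Module.End ℂ (Fin d₂ → ℂ))ˣ,
      (Eu : Module.End ℂ (Fin d₂ → ℂ)) = f.toLinearMap :=
    ⟨LinearMap.GeneralLinearGroup.ofLinearEquiv (LinearEquiv.ofBijective f.toLinearMap hbij), rfl⟩
  obtain ⟨Xu, hXu⟩ : ∃ Xu : N →* (Module.End ℂ (Fin d₂ → ℂ))ˣ,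
      ∀ n, (Xu n : Module.End ℂ (Fin d₂ → ℂ)) = X n := ⟨MonoidHom.toHomUnits X, fun n => rfl⟩
  obtain ⟨Yu, hYu⟩ : ∃ Yu : P →* (Module.End ℂ (Fin d₂ → ℂ))ˣ,
      ∀ h, (Yu h : Module.End ℂ (Fin d₂ → ℂ)) = Y h := ⟨MonoidHom.toHomUnits Y, fun h => rfl⟩
  obtain ⟨Ru, hRu⟩ : ∃ Ru : Gam N X m →* (Module.End ℂ (Fin d₂ → ℂ))ˣ, ∀ γ, Ru γ = γ.1.2 :=
    ⟨(MonoidHom.snd G _).comp (Gam N X m).subtype, fun γ => rfl⟩
  have r1 : ∀ n : N, Eu * Xu n = Yu (Subgroup.inclusion hNP n) * Eu := by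
    intro n
    apply Units.ext
    rw [Units.val_mul, Units.val_mul, hXu, hYu, hEu, ← hYNn]
    exact f.isIntertwining' n
  have r2 : ∀ (γ : Gam N X m) (n : N),
      Ru γ * Xu n = Xu (MulAut.conjNormal γ.1.1 n) * Ru γ := by
    intro γ n
    apply Units.ext
    rw [Units.val_mul, Units.val_mul, hXu, hXu, hRu]
    exact γ.2.1 n
  obtain ⟨πP, hπP⟩ : ∃ πP : (P.comap (piG N X m)) →* P,
      ∀ γ, ((πP γ : P) : G) = piG N X m γ :=
    ⟨((piG N X m).comp (P.comap (piG N X m)).subtype).codRestrict P (fun γ => γ.2), fun γ => rfl⟩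
  obtain ⟨Au, hAu⟩ : ∃ Au : (P.comap (piG N X m)) →* (Module.End ℂ (Fin d₂ → ℂ))ˣ,
      ∀ γ, Au γ = Eu⁻¹ * Yu (πP γ) * Eu := by
    refine ⟨MonoidHom.mk' (fun γ => Eu⁻¹ * Yu (πP γ) * Eu) (fun a b => ?_), fun γ => rfl⟩
    show Eu⁻¹ * Yu (πP (a * b)) * Eu = Eu⁻¹ * Yu (πP a) * Eu * (Eu⁻¹ * Yu (πP b) * Eu)
    rw [map_mul, map_mul]
    group
  have hex : ∀ γ : (P.comap (piG N X m)),
      ∃ c : ℂˣ, Au γ = scal d₂ c * Ru (γ : Gam N X m) := by
    intro γ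
    obtain ⟨ru, hru⟩ : ∃ ru, ru = Ru (γ : Gam N X m) := ⟨_, rfl⟩
    obtain ⟨yg, hyg⟩ : ∃ yg, yg = Yu (πP γ) := ⟨_, rfl⟩
    have hcomm : ∀ n : N, (ru⁻¹ * (Eu⁻¹ * yg * Eu)) * Xu n = Xu n * (ru⁻¹ * (Eu⁻¹ * yg * Eu)) := by
      intro n
      obtain ⟨n', hn'⟩ : ∃ n' : N, n' = MulAut.conjNormal (γ : Gam N X m).1.1 n := ⟨_, rfl⟩
      have e1 : Xu n = Eu⁻¹ * Yu (Subgroup.inclusion hNP n) * Eu := by
        rw [mul_assoc]; exact eq_inv_mul_of_mul_eq (r1 n)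
      have e2 : Xu n' = Eu⁻¹ * Yu (Subgroup.inclusion hNP n') * Eu := by
        rw [mul_assoc]; exact eq_inv_mul_of_mul_eq (r1 n')
      have e3 : Xu n = ru⁻¹ * Xu n' * ru := by
        rw [mul_assoc, hru, hn']; exact eq_inv_mul_of_mul_eq (r2 _ n)
      have r3 : yg * Yu (Subgroup.inclusion hNP n) = Yu (Subgroup.inclusion hNP n') * yg := by
        rw [hyg, ← map_mul, ← map_mul]
        congr 1
        apply Subtype.ext
        rw [Subgroup.coe_mul, Subgroup.coe_mul, hπP, Subgroup.coe_inclusion,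
          Subgroup.coe_inclusion, hn', MulAut.conjNormal_apply, piG_apply]
        group
      calc (ru⁻¹ * (Eu⁻¹ * yg * Eu)) * Xu n
          = ru⁻¹ * (Eu⁻¹ * (yg * Yu (Subgroup.inclusion hNP n)) * Eu) := by
            rw [e1]; group
        _ = ru⁻¹ * (Eu⁻¹ * (Yu (Subgroup.inclusion hNP n') * yg) * Eu) := by rw [r3]
        _ = (ru⁻¹ * Xu n' * ru) * (ru⁻¹ * (Eu⁻¹ * yg * Eu)) := by
            rw [e2]; group
        _ = Xu n * (ru⁻¹ * (Eu⁻¹ * yg * Eu)) := by rw [← e3]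
    have hcomm' : ∀ (n : N) (v : Fin d₂ → ℂ),
        ((ru⁻¹ * (Eu⁻¹ * yg * Eu) : (Module.End ℂ (Fin d₂ → ℂ))ˣ) : Module.End ℂ (Fin d₂ → ℂ))
          (X n v) = X n (((ru⁻¹ * (Eu⁻¹ * yg * Eu) : (Module.End ℂ (Fin d₂ → ℂ))ˣ) :
            Module.End ℂ (Fin d₂ → ℂ)) v) := by
      intro n v
      have h := congrArg Units.val (hcomm n)
      rw [Units.val_mul, Units.val_mul (Xu n), hXu] at h
      exact congrArg (fun g : Module.End ℂ (Fin d₂ → ℂ) => g v) h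
    obtain ⟨c, hc⟩ := S0868.schur_scalar X _ hcomm'
    have hc0 : c ≠ 0 := unit_scalar_ne _ c hc
    refine ⟨Units.mk0 c hc0, ?_⟩
    have hQ : ru⁻¹ * (Eu⁻¹ * yg * Eu) = scal d₂ (Units.mk0 c hc0) := by
      apply Units.ext
      rw [scal_val]
      exact hc
    rw [hAu, ← hyg, ← hru, scal_comm, ← hQ, mul_inv_cancel_left]
  obtain ⟨cf, hcf⟩ : ∃ cf : (P.comap (piG N X m)) → ℂˣ,
      ∀ γ, Au γ = scal d₂ (cf γ) * Ru (γ : Gam N X m) :=
    ⟨fun γ => Classical.choose (hex γ), fun γ => Classical.choose_spec (hex γ)⟩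
  have hmul : ∀ a b : (P.comap (piG N X m)), cf (a * b) = cf a * cf b := by
    intro a b
    apply scal_inj (d := d₂)
    have h1 := hcf (a * b)
    rw [map_mul, hcf a, hcf b] at h1
    have h2 : Ru ((a * b : (P.comap (piG N X m))) : Gam N X m)
        = Ru (a : Gam N X m) * Ru (b : Gam N X m) := by rw [Subgroup.coe_mul, map_mul]
    rw [h2] at h1
    have h3 : scal d₂ (cf a) * Ru (a : Gam N X m) * (scal d₂ (cf b) * Ru (b : Gam N X m))
        = scal d₂ (cf a) * scal d₂ (cf b) * (Ru (a : Gam N X m) * Ru (b : Gam N X m)) := by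
      rw [mul_assoc, ← mul_assoc (Ru (a : Gam N X m)), ← scal_comm, mul_assoc, ← mul_assoc]
    rw [h3] at h1
    rw [map_mul]
    exact (mul_right_cancel h1).symm
  refine ⟨MonoidHom.mk' cf hmul, fun n h => ?_, fun ζ h hζ => ?_⟩
  · show cf ⟨iota N X m hm n, h⟩ = 1
    apply scal_inj (d := d₂)
    rw [map_one]
    have h1 := hcf ⟨iota N X m hm n, h⟩
    have h2 : πP ⟨iota N X m hm n, h⟩ = Subgroup.inclusion hNP n := by
      apply Subtype.ext
      rw [hπP, Subgroup.coe_inclusion]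
      exact piG_iota N X m hm n
    have h3 : Ru (iota N X m hm n) = Xu n := by
      apply Units.ext
      rw [hXu, hRu]
      rfl
    have e1 : Xu n = Eu⁻¹ * Yu (Subgroup.inclusion hNP n) * Eu := by
      rw [mul_assoc]; exact eq_inv_mul_of_mul_eq (r1 n)
    rw [hAu, h2, ← e1] at h1
    have h4 : (⟨iota N X m hm n, h⟩ : (P.comap (piG N X m))).1 = iota N X m hm n := rfl
    rw [h4, h3] at h1
    have h5 : scal d₂ (cf ⟨iota N X m hm n, h⟩) * Xu n = 1 * Xu n := by rw [one_mul]; exact h1.symm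
    exact mul_right_cancel h5
  · show ((cf ⟨ζ, h⟩ : ℂˣ) : ℂ) • Rrep N X m ζ = 1
    have h1 := hcf ⟨ζ, h⟩
    have h2 : πP ⟨ζ, h⟩ = 1 := by
      apply Subtype.ext
      rw [hπP]
      exact hζ
    rw [hAu, h2, map_one, mul_one, inv_mul_cancel] at h1
    have h3 := congrArg Units.val h1
    rw [Units.val_one, Units.val_mul, scal_val, smul_mul_assoc, one_mul, hRu] at h3
    exact h3.symm

theorem mu_exists [Finite (Gam N X m)] [hX : X.IsIrreducible] (hm : ∀ n : N, n ^ m = 1)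
    (Γp : Subgroup (Gam N X m)) (ϕ : Γp →* ℂˣ)
    (hϕ1 : ∀ (n : N) (h : iota N X m hm n ∈ Γp), ϕ ⟨iota N X m hm n, h⟩ = 1)
    (hker : ∀ ζ : Gam N X m, piG N X m ζ = 1 → ζ ∈ Γp) :
    ∃ μ : Gam N X m →* ℂˣ, (∀ n : N, μ (iota N X m hm n) = 1) ∧
      ∀ (ζ : Gam N X m) (hζ : piG N X m ζ = 1), μ ζ = ϕ ⟨ζ, hker ζ hζ⟩ ^ Γp.index := by
  classical
  refine ⟨MonoidHom.transfer ϕ, fun n => ?_, fun ζ hζ => ?_⟩
  · haveI : Fintype (Quotient (MulAction.orbitRel (Subgroup.zpowers (iota N X m hm n))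
        (Gam N X m ⧸ Γp))) := Fintype.ofFinite _
    rw [MonoidHom.transfer_eq_prod_quotient_orbitRel_zpowers_quot]
    apply Finset.prod_eq_one
    intro q _
    have key : ∀ (y : Gam N X m) (j : ℕ) (h : y⁻¹ * iota N X m hm n ^ j * y ∈ Γp),
        ϕ ⟨y⁻¹ * iota N X m hm n ^ j * y, h⟩ = 1 := by
      intro y j h
      have h1 : y⁻¹ * iota N X m hm n ^ j * y
          = iota N X m hm (MulAut.conjNormal (y⁻¹).1.1 (n ^ j)) := by
        rw [iota_conj, inv_inv, map_pow]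
      have h2 : ∀ (z : Gam N X m) (hz : z ∈ Γp),
          z = iota N X m hm (MulAut.conjNormal (y⁻¹).1.1 (n ^ j)) → ϕ ⟨z, hz⟩ = 1 := by
        intro z hz hzeq
        subst hzeq
        exact hϕ1 _ hz
      exact h2 _ h h1
    exact key _ _ _
  · have hc : ζ ∈ Subgroup.center (Gam N X m) := ker_central N X m ζ hζ
    have hkey : ∀ (k : ℕ) (g₀ : Gam N X m), g₀⁻¹ * ζ ^ k * g₀ ∈ Γp → g₀⁻¹ * ζ ^ k * g₀ = ζ ^ k := by
      intro k g₀ _
      have h1 := Subgroup.mem_center_iff.mp (Subgroup.pow_mem _ hc k) g₀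
      rw [mul_assoc, ← h1, inv_mul_cancel_left]
    rw [MonoidHom.transfer_eq_pow ϕ ζ hkey, ← map_pow]
    exact congrArg ϕ (Subtype.ext rfl)

/-- the exponents `k` such that the `-k`-th power of the scalar character extends -/
def Hexp [Nontrivial (Fin d → ℂ)] (hm : ∀ n : N, n ^ m = 1) : AddSubgroup ℤ where
  carrier := {k | ∃ μ : Gam N X m →* ℂˣ, (∀ n : N, μ (iota N X m hm n) = 1) ∧
      ∀ (ζ : Gam N X m), piG N X m ζ = 1 → ∀ c : ℂ,
        Rrep N X m ζ = c • (1 : Module.End ℂ (Fin d → ℂ)) → ((μ ζ : ℂˣ) : ℂ) * c ^ k = 1}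
  zero_mem' := ⟨1, fun _ => rfl, fun ζ _ c _ => by
    rw [MonoidHom.one_apply, Units.val_one, zpow_zero, one_mul]⟩
  add_mem' := by
    rintro a b ⟨μ₁, h1, h1'⟩ ⟨μ₂, h2, h2'⟩
    refine ⟨μ₁ * μ₂, fun n => by rw [MonoidHom.mul_apply, h1, h2, one_mul], fun ζ hζ c hc => ?_⟩
    have hc0 : c ≠ 0 := unit_scalar_ne ζ.1.2 c hc
    rw [MonoidHom.mul_apply, Units.val_mul, zpow_add₀ hc0]
    calc ((μ₁ ζ : ℂˣ) : ℂ) * ((μ₂ ζ : ℂˣ) : ℂ) * (c ^ a * c ^ b)
        = (((μ₁ ζ : ℂˣ) : ℂ) * c ^ a) * (((μ₂ ζ : ℂˣ) : ℂ) * c ^ b) := by ring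
      _ = 1 := by rw [h1' ζ hζ c hc, h2' ζ hζ c hc, one_mul]
  neg_mem' := by
    rintro a ⟨μ, h1, h1'⟩
    refine ⟨μ⁻¹, fun n => by rw [MonoidHom.inv_apply, h1, inv_one], fun ζ hζ c hc => ?_⟩
    rw [MonoidHom.inv_apply, Units.val_inv_eq_inv_val, zpow_neg, ← mul_inv, h1' ζ hζ c hc, inv_one]

theorem descend [hX : X.IsIrreducible] (hm : ∀ n : N, n ^ m = 1)
    (hπ : Function.Surjective (piG N X m)) (μ : Gam N X m →* ℂˣ)
    (hμ1 : ∀ n : N, μ (iota N X m hm n) = 1)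
    (hμ2 : ∀ ζ : Gam N X m, piG N X m ζ = 1 → ((μ ζ : ℂˣ) : ℂ) • Rrep N X m ζ = 1) :
    ∃ χ : G → ℂ, Cfsg.IsIrrCharacter G χ ∧ ∀ n : N, χ n = X.character n := by
  classical
  obtain ⟨R', hR'⟩ : ∃ R' : Gam N X m →* Module.End ℂ (Fin d → ℂ),
      ∀ γ, R' γ = ((μ γ : ℂˣ) : ℂ) • Rrep N X m γ := by
    refine ⟨{ toFun := fun γ => ((μ γ : ℂˣ) : ℂ) • Rrep N X m γ, map_one' := ?_, map_mul' := ?_ },
      fun γ => rfl⟩
    · show ((μ 1 : ℂˣ) : ℂ) • Rrep N X m 1 = 1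
      rw [map_one, map_one, Units.val_one, one_smul]
    · intro a b
      show ((μ (a * b) : ℂˣ) : ℂ) • Rrep N X m (a * b)
        = ((μ a : ℂˣ) : ℂ) • Rrep N X m a * ((μ b : ℂˣ) : ℂ) • Rrep N X m b
      rw [map_mul, map_mul, Units.val_mul, smul_mul_smul_comm]
  have hconst : ∀ γ γ' : Gam N X m, piG N X m γ = piG N X m γ' → R' γ = R' γ' := by
    intro γ γ' h
    have h1 : R' (γ⁻¹ * γ') = 1 := by
      rw [hR']
      apply hμ2
      rw [map_mul, map_inv, h, inv_mul_cancel]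
    have h2 : R' γ' = R' (γ * (γ⁻¹ * γ')) := by rw [mul_inv_cancel_left]
    rw [h2, map_mul, h1, mul_one]
  obtain ⟨s, hs⟩ : ∃ s : G → Gam N X m, ∀ g, piG N X m (s g) = g :=
    ⟨Function.surjInv hπ, Function.surjInv_eq hπ⟩
  obtain ⟨ρ, hρ⟩ : ∃ ρ : Representation ℂ G (Fin d → ℂ), ∀ γ, ρ (piG N X m γ) = R' γ := by
    refine ⟨{ toFun := fun g => R' (s g), map_one' := ?_, map_mul' := ?_ }, fun γ => ?_⟩
    · show R' (s 1) = 1
      rw [hconst (s 1) 1 (by rw [hs, map_one]), map_one]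
    · intro a b
      show R' (s (a * b)) = R' (s a) * R' (s b)
      rw [← map_mul]
      exact hconst _ _ (by rw [hs, map_mul, hs, hs])
    · show R' (s (piG N X m γ)) = R' γ
      exact hconst _ _ (hs _)
  have hρN : ∀ n : N, ρ (n : G) = X n := by
    intro n
    have h1 := hρ (iota N X m hm n)
    rw [piG_iota, hR', hμ1, Units.val_one, one_smul, Rrep_iota] at h1
    exact h1
  have hρirr : ρ.IsIrreducible := by
    have hX' := (irr_iff X).mp hX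
    rw [irr_iff]
    refine ⟨hX'.1, fun U hU => hX'.2 U (fun n v hv => ?_)⟩
    have := hU (n : G) v hv
    rwa [hρN] at this
  refine ⟨ρ.character, ⟨d, ρ, hρirr, rfl⟩, fun n => ?_⟩
  show LinearMap.trace ℂ _ (ρ (n : G)) = LinearMap.trace ℂ _ (X n)
  rw [hρN]

end lift


/-- Let N be a normal subgroup of the finite group G and ϑ an irreducible character of N invariant under conjugation by G. Suppose that for every prime p there are a subgroup P containing N, of index prime to p and with the index of N in P a power of p, and an irreducible character of P restricting to ϑ. Then ϑ is the restriction of an irreducible character of G. -/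
theorem result {G : Type*} [Group G] [Finite G] (N : Subgroup G) [hN : N.Normal] (ϑ : N → ℂ) (hϑ : Cfsg.IsIrrCharacter N ϑ) (hinv : ∀ (g : G) (n : N), ϑ ⟨g * n * g⁻¹, hN.conj_mem (n : G) n.2 g⟩ = ϑ n) (hsyl : ∀ p : ℕ, p.Prime → ∃ (P : Subgroup G) (hNP : N ≤ P) (η : P → ℂ), Nat.Coprime P.index p ∧ (∃ k : ℕ, N.relIndex P = p ^ k) ∧ Cfsg.IsIrrCharacter P η ∧ ∀ n : N, η ⟨(n : G), hNP n.2⟩ = ϑ n) : ∃ χ : G → ℂ, Cfsg.IsIrrCharacter G χ ∧ ∀ n : N, χ n = ϑ n := by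
  classical
  obtain ⟨d, X, hX, hXϑ⟩ := hϑ
  haveI := hX
  haveI : Fintype G := Fintype.ofFinite G
  haveI : Fintype N := Fintype.ofFinite N
  haveI hnt : Nontrivial (Fin d → ℂ) := ((irr_iff X).mp hX).1
  have hd : 0 < d := by
    have := Module.finrank_pos (R := ℂ) (M := Fin d → ℂ)
    rwa [Module.finrank_fin_fun] at this
  obtain ⟨m, hmdef⟩ : ∃ m : ℕ, m = Nat.card N := ⟨_, rfl⟩
  have hm0 : 0 < m := hmdef ▸ Nat.card_pos
  have hm : ∀ n : N, n ^ m = 1 := fun n => by rw [hmdef]; exact pow_card_eq_one'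
  haveI hfin : Finite (Gam N X m) := gam_finite N X m hd hm0
  have hinv' : ∀ (g : G) (n : N), X.character (MulAut.conjNormal g n) = X.character n := by
    intro g n
    rw [hXϑ]
    exact hinv g n
  have hπ : Function.Surjective (piG N X m) := piG_surj N X m hinv'
  have hmemH : ∀ p : ℕ, p.Prime → ∃ k : ℕ, Nat.Coprime k p ∧ (k : ℤ) ∈ Hexp N X m hm := by
    intro p hp
    obtain ⟨P, hNP, η, hcop, -, hη, hηϑ⟩ := hsyl p hp
    have hηϑ' : ∀ n : N, η ⟨(n : G), hNP n.2⟩ = X.character n := fun n => by rw [hηϑ, hXϑ]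
    obtain ⟨ϕ, hϕ1, hϕ2⟩ := phi_exists N X m hm P hNP η hη hηϑ'
    have hkerP : ∀ ζ : Gam N X m, piG N X m ζ = 1 → ζ ∈ P.comap (piG N X m) := by
      intro ζ hζ
      show piG N X m ζ ∈ P
      rw [hζ]; exact P.one_mem
    obtain ⟨μ, hμ1, hμ2⟩ := mu_exists N X m hm (P.comap (piG N X m)) ϕ hϕ1 hkerP
    refine ⟨P.index, hcop, μ, hμ1, fun ζ hζ c hc => ?_⟩
    rw [hμ2 ζ hζ, Subgroup.index_comap_of_surjective P hπ, zpow_natCast, Units.val_pow_eq_pow_val,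
      ← mul_pow]
    have h3 := hϕ2 ζ (hkerP ζ hζ) hζ
    rw [hc, smul_smul] at h3
    have h4 : ((ϕ ⟨ζ, hkerP ζ hζ⟩ : ℂˣ) : ℂ) * c = 1 := by
      apply smul_one_inj (d := d)
      rw [h3, one_smul]
    rw [h4, one_pow]
  have hone : (1 : ℤ) ∈ Hexp N X m hm := by
    obtain ⟨g, hg⟩ := Int.subgroup_cyclic (Hexp N X m hm)
    have hdvd : ∀ p : ℕ, p.Prime → ∃ k : ℕ, Nat.Coprime k p ∧ g ∣ (k : ℤ) := by
      intro p hp
      obtain ⟨k, hk1, hk2⟩ := hmemH p hp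
      refine ⟨k, hk1, ?_⟩
      rw [hg, AddSubgroup.mem_closure_singleton] at hk2
      obtain ⟨z, hz⟩ := hk2
      exact ⟨z, by rw [← hz, smul_eq_mul, mul_comm]⟩
    have hg1 : g.natAbs = 1 := by
      by_contra hne
      obtain ⟨q, hq, hqg⟩ := Nat.exists_prime_and_dvd hne
      obtain ⟨k, hk1, hk2⟩ := hdvd q hq
      have h1 : (q : ℤ) ∣ (k : ℤ) := (Int.natCast_dvd.mpr hqg).trans hk2
      have h2 : q ∣ k := Int.natCast_dvd_natCast.mp h1
      have h3 : q ∣ Nat.gcd k q := Nat.dvd_gcd h2 dvd_rfl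
      rw [Nat.Coprime.gcd_eq_one hk1] at h3
      exact hq.one_lt.ne' (Nat.dvd_one.mp h3)
    have hgmem : g ∈ Hexp N X m hm := by
      rw [hg]; exact AddSubgroup.subset_closure rfl
    rcases Int.natAbs_eq g with h | h
    · rw [hg1] at h
      have h' : (1 : ℤ) = g := by rw [h]; rfl
      rw [h']; exact hgmem
    · rw [hg1] at h
      have h' : (1 : ℤ) = -g := by rw [h]; simp
      rw [h']; exact neg_mem hgmem
  obtain ⟨μ, hμ1, hμ2⟩ := hone
  have hμ2' : ∀ ζ : Gam N X m, piG N X m ζ = 1 → ((μ ζ : ℂˣ) : ℂ) • Rrep N X m ζ = 1 := by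
    intro ζ hζ
    obtain ⟨c, -, hc⟩ := ker_scalar N X m ζ.1 ζ.2 hζ
    have hc' : Rrep N X m ζ = c • (1 : Module.End ℂ (Fin d → ℂ)) := hc
    have h1 := hμ2 ζ hζ c hc'
    rw [zpow_one] at h1
    rw [hc', smul_smul, h1, one_smul]
  obtain ⟨χ, hχ, hχN⟩ := descend N X m hm hπ μ hμ1 hμ2'
  exact ⟨χ, hχ, fun n => by rw [hχN, hXϑ]⟩


end Cfsg.Agent.S0888
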