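import Cfsg.Statements.S0895
import Mathlib
import Cfsg.Agent.Lib.Helper7.FS

set_option autoImplicit false
open Cfsg

namespace Cfsg.Agent.S0895


open Matrix Cfsg.Agent.Lib.Lead Cfsg.Agent.Lib.Helper7.FS

/-- Let χ be a real-valued irreducible character of a finite group G whose degree is an odd natural number. Then the average over s in G of χ (s * s) equals 1. -/
theorem result {G : Type*} [Group G] [Fintype G] (χ : G → ℂ) (hχ : Cfsg.IsIrrCharacter G χ) (hreal : ∀ g : G, (χ g).im = 0) (d : ℕ) (hd : χ 1 = d) (hodd : Odd d) : (Nat.card G : ℂ)⁻¹ * ∑ s : G, χ (s * s) = 1 := by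
  classical
  obtain ⟨n, ρ, hirr, hρχ⟩ := hχ
  obtain ⟨a, b, h1, h2, -, -, h5, h6⟩ := fs_irr ρ hirr
  rw [hρχ] at h1 h2
  have hab := h2 hreal
  rw [← h1]
  have hcase : (a = 1 ∧ b = 0) ∨ (a = 0 ∧ b = 1) := by omega
  rcases hcase with ⟨ha, hb⟩ | ⟨ha, hb⟩
  · rw [ha, hb]; norm_num
  · exfalso
    obtain ⟨M, hM0, hM⟩ := h6 (by omega)
    have hanti : Mᵀ = -M := h5 ha M hM
    have hn : (n : ℂ) = d := by
      rw [← hd, ← hρχ, Representation.char_one]
      simp
    have hnd : n = d := by exact_mod_cast hn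
    have h1' : ∀ g : G, M * X ρ g = (X ρ g⁻¹)ᵀ * M := by
      intro g
      calc M * X ρ g = ((X ρ g⁻¹)ᵀ * (X ρ g)ᵀ) * M * X ρ g := by
            rw [← Matrix.transpose_mul, X_mul_inv, Matrix.transpose_one, one_mul]
        _ = (X ρ g⁻¹)ᵀ * ((X ρ g)ᵀ * M * X ρ g) := by simp only [mul_assoc]
        _ = (X ρ g⁻¹)ᵀ * M := by rw [hM g]
    have hU : ∀ g : G, ∀ v ∈ LinearMap.ker (Matrix.toLin' M), ρ g v ∈ LinearMap.ker (Matrix.toLin' M) := by
      intro g v hv
      rw [LinearMap.mem_ker] at hv ⊢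
      have h2' : ρ g v = Matrix.toLin' (X ρ g) v := by unfold X; rw [Matrix.toLin'_toMatrix']
      rw [h2', ← LinearMap.comp_apply, ← Matrix.toLin'_mul, h1' g, Matrix.toLin'_mul,
        LinearMap.comp_apply, hv, map_zero]
    rcases ((irr_iff ρ).mp hirr).2 _ hU with h | h
    · have hinj : Function.Injective (Matrix.toLin' M) := LinearMap.ker_eq_bot.mp h
      have hunit : IsUnit M := (Matrix.mulVec_injective_iff_isUnit).mp hinj
      have hdet : M.det ≠ 0 := ((Matrix.isUnit_iff_isUnit_det M).1 hunit).ne_zero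
      have hdd : M.det = -M.det := by
        have h7 : Mᵀ.det = (-M).det := by rw [hanti]
        have hoddn : Odd n := by rw [hnd]; exact hodd
        rw [Matrix.det_transpose, Matrix.det_neg, Fintype.card_fin, hoddn.neg_one_pow] at h7
        linear_combination h7
      apply hdet
      have h8 : (2 : ℂ) * M.det = 0 := by linear_combination hdd
      rcases mul_eq_zero.1 h8 with h9 | h9
      · norm_num at h9
      · exact h9
    · apply hM0
      have h2' : Matrix.toLin' M = 0 := LinearMap.ker_eq_top.mp h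
      have h3 := congrArg LinearMap.toMatrix' h2'
      rw [LinearMap.toMatrix'_toLin'] at h3
      rw [h3]; simp

end Cfsg.Agent.S0895
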