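import Mathlib
import Cfsg.Statements.S0932

set_option autoImplicit false
open Cfsg

namespace Cfsg.Agent.S0932

theorem result {G : Type*} [Group G] [Fintype G] (H : Subgroup G) (ξ : H → ℂ) (hξ : Cfsg.IsCharacter H ξ) (g : G) : Cfsg.inducedCentralChar H ξ g = Cfsg.centralChar (Cfsg.indFun H ξ) g := by
  classical
  set f := extendByZero H ξ with hf
  have hfH : ∀ h : H, f h = ξ h := fun h => Subtype.val_injective.extend_apply ξ 0 h
  have hf0 : ∀ y : G, y ∉ H → f y = 0 := by
    intro y hy
    apply Function.extend_apply'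
    rintro ⟨h, rfl⟩; exact hy h.2
  have hA : ∑ x : G, f (x⁻¹ * g * x) = (Nat.card (Subgroup.centralizer ({g} : Set G)) : ℂ) *
      ∑ y ∈ Finset.univ.filter (fun y => IsConj g y), f y := by
    have h1 := Finset.sum_comp (s := (Finset.univ : Finset G)) f (fun x : G => x⁻¹ * g * x)
    rw [h1]
    have himg : (Finset.univ : Finset G).image (fun x : G => x⁻¹ * g * x)
        = Finset.univ.filter (fun y => IsConj g y) := by
      ext y
      simp only [Finset.mem_image, Finset.mem_univ, true_and, Finset.mem_filter, isConj_iff]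
      constructor
      · rintro ⟨x, rfl⟩; exact ⟨x⁻¹, by group⟩
      · rintro ⟨c, rfl⟩; exact ⟨c⁻¹, by group⟩
    rw [himg, Finset.mul_sum]
    apply Finset.sum_congr rfl
    intro y hy
    rw [Finset.mem_filter] at hy
    obtain ⟨c, rfl⟩ := isConj_iff.mp hy.2
    have hcard : (Finset.univ.filter (fun x : G => x⁻¹ * g * x = c * g * c⁻¹)).card
        = Nat.card (Subgroup.centralizer ({g} : Set G)) := by
      rw [← Fintype.card_subtype, ← Nat.card_eq_fintype_card]
      apply Nat.card_congr
      refine
        { toFun := fun x => ⟨x.1 * c, ?_⟩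
          invFun := fun z => ⟨z.1 * c⁻¹, ?_⟩
          left_inv := ?_
          right_inv := ?_ }
      · rw [Subgroup.mem_centralizer_iff]
        intro k hk
        rw [Set.mem_singleton_iff] at hk
        rw [hk]
        have hx := x.2
        calc g * (x.1 * c) = x.1 * (x.1⁻¹ * g * x.1) * c := by group
          _ = x.1 * (c * g * c⁻¹) * c := by rw [hx]
          _ = x.1 * c * g := by group
      · have hz := Subgroup.mem_centralizer_iff.mp z.2 g rfl
        show (z.1 * c⁻¹)⁻¹ * g * (z.1 * c⁻¹) = c * g * c⁻¹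
        calc (z.1 * c⁻¹)⁻¹ * g * (z.1 * c⁻¹) = c * (z.1 : G)⁻¹ * (g * z.1) * c⁻¹ := by group
          _ = c * (z.1 : G)⁻¹ * (z.1 * g) * c⁻¹ := by rw [hz]
          _ = c * g * c⁻¹ := by group
      · intro x; apply Subtype.ext; show x.1 * c * c⁻¹ = x.1; group
      · intro z; apply Subtype.ext; show (z.1 : G) * c⁻¹ * c = z.1; group
    rw [hcard, nsmul_eq_mul]
  have hB : inducedCentralChar H ξ g
      = ∑ y ∈ Finset.univ.filter (fun y => IsConj g y), f y / ξ 1 := by
    unfold inducedCentralChar
    have hset : {h : H | IsConj g (h : G)}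
        = ((Finset.univ.filter (fun h : H => IsConj g (h : G)) : Finset H) : Set H) := by
      ext h; simp
    rw [hset, finsum_mem_coe_finset]
    apply Finset.sum_of_injOn (Subtype.val : H → G)
    · exact Subtype.val_injective.injOn
    · intro h hh
      simp only [Finset.coe_filter, Finset.mem_univ, true_and, Set.mem_ofPred_eq] at hh ⊢
      exact hh
    · intro y _ hy
      have hyH : y ∉ H := by
        intro hyH
        apply hy
        refine ⟨⟨y, hyH⟩, ?_, rfl⟩
        simp only [Finset.coe_filter, Finset.mem_univ, true_and, Set.mem_ofPred_eq]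
        have : y ∈ Finset.univ.filter (fun y => IsConj g y) := by assumption
        exact (Finset.mem_filter.mp this).2
      rw [hf0 y hyH, zero_div]
    · intro h _
      rw [hfH]
  rw [hB]
  unfold centralChar indFun
  rw [hA]
  have h1 : ∑ x : G, extendByZero H ξ (x⁻¹ * 1 * x) = (Nat.card G : ℂ) * ξ 1 := by
    have : ∀ x : G, extendByZero H ξ (x⁻¹ * 1 * x) = ξ 1 := by
      intro x
      have e : x⁻¹ * 1 * x = ((1 : H) : G) := by simp
      rw [e]; exact hfH 1
    rw [Finset.sum_congr rfl (fun x _ => this x), Finset.sum_const, Finset.card_univ,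
      nsmul_eq_mul, Nat.card_eq_fintype_card]
  rw [h1, ← Finset.sum_div]
  have hidx : ((Subgroup.centralizer ({g} : Set G)).index : ℂ) *
      (Nat.card (Subgroup.centralizer ({g} : Set G)) : ℂ) = (Nat.card G : ℂ) := by
    rw [← Nat.cast_mul, mul_comm, Subgroup.card_mul_index]
  have hG0 : (Nat.card G : ℂ) ≠ 0 := by
    exact_mod_cast (Nat.card_pos (α := G)).ne'
  have hH0 : (Nat.card H : ℂ) ≠ 0 := by
    exact_mod_cast (Nat.card_pos (α := H)).ne'
  by_cases hξ1 : ξ 1 = 0
  · simp [hξ1]
  · rw [← hidx]
    have hC0 : (Nat.card (Subgroup.centralizer ({g} : Set G)) : ℂ) ≠ 0 := by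
      exact_mod_cast (Nat.card_pos (α := Subgroup.centralizer ({g} : Set G))).ne'
    have hI0 : ((Subgroup.centralizer ({g} : Set G)).index : ℂ) ≠ 0 := by
      intro h0; rw [h0, zero_mul] at hidx; exact hG0 hidx.symm
    field_simp

end Cfsg.Agent.S0932
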