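import Cfsg.Statements.S0943
import Mathlib
import Cfsg.Agent.Lib.Lead.Char16
-- import your own Cfsg.Agent.* helpers here

set_option autoImplicit false
open Cfsg

namespace Cfsg.Agent.S0943

/-- Let χ be an irreducible character of the finite group G and u, v ∈ G. If χ (x * y) = χ (u * v) whenever x is conjugate to u and y is conjugate to v, then χ u * χ v = χ 1 * χ (u * v). (Multiply the class sums of u and v and apply the central character of χ.) -/
theorem result {G : Type*} [Group G] [Finite G] (χ : Cfsg.IrrCharacter G) (u v : G) (hc : ∀ x y : G, IsConj u x → IsConj v y → (χ : G → ℂ) (x * y) = (χ : G → ℂ) (u * v)) : (χ : G → ℂ) u * (χ : G → ℂ) v = (χ : G → ℂ) 1 * (χ : G → ℂ) (u * v) := by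
  classical
  haveI : Fintype G := Fintype.ofFinite G
  obtain ⟨n, ρ, hirr, hchar⟩ := χ.2
  haveI := hirr
  have h1 := Lib.Lead.sum_conj_rep ρ v
  have h3 : ρ u * ∑ a : G, ρ (a * v * a⁻¹) = ρ u * (((Nat.card G : ℂ) * ρ.character v /
      (Module.finrank ℂ (Fin n → ℂ) : ℂ)) • (1 : Module.End ℂ (Fin n → ℂ))) := by rw [h1]
  rw [Finset.mul_sum, mul_smul_comm, mul_one] at h3
  have h4 := congrArg (LinearMap.trace ℂ (Fin n → ℂ)) h3
  rw [map_sum, map_smul, smul_eq_mul] at h4
  have h5 : ∀ a : G, LinearMap.trace ℂ (Fin n → ℂ) (ρ u * ρ (a * v * a⁻¹)) =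
      (χ : G → ℂ) (u * v) := by
    intro a
    rw [← map_mul]
    have h6 : LinearMap.trace ℂ (Fin n → ℂ) (ρ (u * (a * v * a⁻¹))) =
        ρ.character (u * (a * v * a⁻¹)) := rfl
    rw [h6, hchar]
    exact hc u (a * v * a⁻¹) (IsConj.refl u) (isConj_iff.2 ⟨a, rfl⟩)
  rw [Finset.sum_congr rfl (fun a _ => h5 a), Finset.sum_const, Finset.card_univ, nsmul_eq_mul] at h4
  have h7 : LinearMap.trace ℂ (Fin n → ℂ) (ρ u) = (χ : G → ℂ) u := by
    rw [← hchar]; rfl
  have h8 : (Module.finrank ℂ (Fin n → ℂ) : ℂ) = (χ : G → ℂ) 1 := by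
    rw [← hchar, Representation.char_one]
  rw [h7, hchar, h8, ← Nat.card_eq_fintype_card] at h4
  have hG : (Nat.card G : ℂ) ≠ 0 := by
    have : 0 < Nat.card G := Nat.card_pos
    exact_mod_cast this.ne'
  have h1' : (χ : G → ℂ) 1 ≠ 0 := Lib.Lead.irr_deg_ne_zero χ
  field_simp at h4
  linear_combination -h4

end Cfsg.Agent.S0943
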