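import Mathlib
import Cfsg.Statements.S0944

set_option autoImplicit false
open Cfsg

namespace Cfsg.Agent.S0944

theorem result {G : Type*} [Group G] [Finite G] (χ : Cfsg.IrrCharacter G) (u : G) (hu : orderOf u = 2) : ∃ n : ℤ, (χ : G → ℂ) u = (n : ℂ) ∧ (2 : ℤ) ∣ (Cfsg.charDegree (χ : G → ℂ) : ℤ) - n := by
  obtain ⟨n, ρ, -, hχ⟩ := χ.2
  have hu2 : u * u = 1 := by rw [← pow_two, ← hu, pow_orderOf_eq_one]
  set T : (Fin n → ℂ) →ₗ[ℂ] (Fin n → ℂ) := ρ u with hT
  have hTT : T * T = 1 := by rw [hT, ← map_mul, hu2, map_one]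
  have hχu : (χ : G → ℂ) u = LinearMap.trace ℂ _ T := by rw [← hχ]; rfl
  have hχ1 : (χ : G → ℂ) 1 = (n : ℂ) := by rw [← hχ, Representation.char_one]; simp
  have hdeg : Cfsg.charDegree (χ : G → ℂ) = n := by
    unfold Cfsg.charDegree; rw [hχ1]; simp
  set P : (Fin n → ℂ) →ₗ[ℂ] (Fin n → ℂ) := (1/2 : ℂ) • (1 + T) with hP
  have hPidem : IsIdempotentElem P := by
    unfold IsIdempotentElem
    have h2 : (1 + T) * (1 + T) = (2 : ℂ) • (1 + T) := by
      rw [mul_add, add_mul, add_mul, hTT, two_smul]; simp; abel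
    rw [hP, smul_mul_smul_comm, h2, smul_smul]; norm_num
  have htr := (LinearMap.IsIdempotentElem.isProj_range P hPidem).trace
  have htrP : LinearMap.trace ℂ _ P = (1/2 : ℂ) * ((n : ℂ) + LinearMap.trace ℂ _ T) := by
    rw [hP, map_smul, map_add, LinearMap.trace_one]; simp
  refine ⟨2 * (Module.finrank ℂ (LinearMap.range P) : ℤ) - n, ?_, ?_⟩
  · rw [hχu]; push_cast; rw [← htr, htrP]; ring
  · rw [hdeg]; exact ⟨n - Module.finrank ℂ (LinearMap.range P), by ring⟩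

end Cfsg.Agent.S0944
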