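import Mathlib
import Cfsg.Statements.S0946
import Cfsg.Agent.Lib.Helper1.OddAut

set_option autoImplicit false
open Cfsg

namespace Cfsg.Agent.S0946

open Cfsg.Agent.Lib.Helper1

/-- Every involution is conjugate to an involution of a given Sylow `2`-subgroup. -/
theorem invol_conj_into_sylow {G : Type*} [Group G] [Finite G] (P : Sylow 2 G) (s : G)
    (hs : orderOf s = 2) : ∃ x : G, x * s * x⁻¹ ∈ (P : Subgroup G) := by
  have hp : IsPGroup 2 (Subgroup.zpowers s) := by
    apply IsPGroup.of_card (n := 1)
    rw [Nat.card_zpowers, hs, pow_one]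
  obtain ⟨Q, hQ⟩ := hp.exists_le_sylow
  obtain ⟨x, hx⟩ := MulAction.exists_smul_eq G Q P
  refine ⟨x, ?_⟩
  rw [← hx, Sylow.coe_subgroup_smul]
  have h2 := Subgroup.smul_mem_pointwise_smul _ (MulAut.conj x) _ (hQ (Subgroup.mem_zpowers s))
  simpa [MulAut.smul_def] using h2

/-- The main step: if two involutions `a ≠ b` of the abelian Sylow `2`-subgroup `P`, whose elements
of order at most two are `1, a, b, ab`, are not conjugate, then `N(P) ≤ C(P)`. -/
theorem normalizer_le_centralizer {G : Type*} [Group G] [Finite G] (P : Sylow 2 G)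
    (hPcomm : ∀ x ∈ (P : Subgroup G), ∀ y ∈ (P : Subgroup G), x * y = y * x)
    (a b : G) (ha : a ∈ (P : Subgroup G)) (hb : b ∈ (P : Subgroup G)) (ha1 : a ≠ 1) (hb1 : b ≠ 1)
    (hab : a ≠ b) (ha2 : a ^ 2 = 1) (hb2 : b ^ 2 = 1)
    (hall : ∀ x ∈ (P : Subgroup G), x ^ 2 = 1 → x = 1 ∨ x = a ∨ x = b ∨ x = a * b)
    (hnc : ¬ IsConj a b) :
    Subgroup.normalizer ((P : Subgroup G) : Set G) ≤ Subgroup.centralizer ((P : Subgroup G) : Set G) := by
  have hTcomm : IsMulCommutative (P : Subgroup G) :=
    ⟨⟨fun x y => Subtype.ext (hPcomm x x.2 y y.2)⟩⟩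
  have hCN : Subgroup.centralizer ((P : Subgroup G) : Set G) ≤
      Subgroup.normalizer ((P : Subgroup G) : Set G) := Subgroup.centralizer_le_normalizer _
  have h7 := Subgroup.relIndex_mul_index hCN
  have hTC : (P : Subgroup G) ≤ Subgroup.centralizer ((P : Subgroup G) : Set G) := (P : Subgroup G).le_centralizer
  have h9 : (Subgroup.centralizer ((P : Subgroup G) : Set G)).index ∣ (P : Subgroup G).index :=
    Subgroup.index_dvd_of_le hTC
  have h10 : ¬ 2 ∣ (P : Subgroup G).index := P.not_dvd_index
  have hodd : Odd ((Subgroup.centralizer ((P : Subgroup G) : Set G)).relIndex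
      (Subgroup.normalizer ((P : Subgroup G) : Set G))) := by
    rw [← Nat.not_even_iff_odd, even_iff_two_dvd]
    intro h
    apply h10
    exact (h.trans ⟨_, h7.symm⟩).trans h9
  have hnormal : ((Subgroup.centralizer ((P : Subgroup G) : Set G)).subgroupOf
      (Subgroup.normalizer ((P : Subgroup G) : Set G))).Normal := by
    rw [← Subgroup.normalizerMonoidHom_ker]
    exact MonoidHom.normal_ker _
  intro g hg
  have hgr : g ^ ((Subgroup.centralizer ((P : Subgroup G) : Set G)).relIndex
      (Subgroup.normalizer ((P : Subgroup G) : Set G))) ∈ Subgroup.centralizer ((P : Subgroup G) : Set G) := by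
    have := Subgroup.pow_index_mem ((Subgroup.centralizer ((P : Subgroup G) : Set G)).subgroupOf
      (Subgroup.normalizer ((P : Subgroup G) : Set G))) ⟨g, hg⟩
    exact this
  generalize (Subgroup.centralizer ((P : Subgroup G) : Set G)).relIndex
      (Subgroup.normalizer ((P : Subgroup G) : Set G)) = r at hodd hgr
  have hgN : ∀ x ∈ (P : Subgroup G), g * x * g⁻¹ ∈ (P : Subgroup G) := fun x hx =>
    (Subgroup.mem_normalizer_iff.mp hg x).mp hx
  have hgr' : ∀ x ∈ (P : Subgroup G), g ^ r * x * (g ^ r)⁻¹ = x := by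
    intro x hx
    have := Subgroup.mem_centralizer_iff.mp hgr x hx
    rw [← this]; group
  -- powers of two
  have hP2 : ∀ x ∈ (P : Subgroup G), ∃ k : ℕ, x ^ (2 ^ k) = 1 := by
    intro x hx
    obtain ⟨k, hk⟩ := P.isPGroup' ⟨x, hx⟩
    exact ⟨k, by simpa using congrArg Subtype.val hk⟩
  have habP : a * b ∈ (P : Subgroup G) := (P : Subgroup G).mul_mem ha hb
  have hcomm_ab : a * b = b * a := hPcomm a ha b hb
  have haa : a * a = 1 := by rw [← pow_two]; exact ha2
  have hbb : b * b = 1 := by rw [← pow_two]; exact hb2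
  -- g permutes the involutions
  have hconj_sq : ∀ x : G, x ^ 2 = 1 → (g * x * g⁻¹) ^ 2 = 1 := by
    intro x hx
    rw [conj_pow, hx]; group
  have hconj_ne : ∀ x : G, x ≠ 1 → g * x * g⁻¹ ≠ 1 := by
    intro x hx h
    apply hx
    have : x = g⁻¹ * (g * x * g⁻¹) * g := by group
    rw [this, h]; group
  have hga : g * a * g⁻¹ = a ∨ g * a * g⁻¹ = a * b := by
    rcases hall _ (hgN a ha) (hconj_sq a ha2) with h | h | h | h
    · exact absurd h (hconj_ne a ha1)
    · exact Or.inl h
    · exact absurd (isConj_iff.mpr ⟨g, h⟩) hnc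
    · exact Or.inr h
  have hgb : g * b * g⁻¹ = b ∨ g * b * g⁻¹ = a * b := by
    rcases hall _ (hgN b hb) (hconj_sq b hb2) with h | h | h | h
    · exact absurd h (hconj_ne b hb1)
    · exfalso
      apply hnc
      rw [isConj_iff]
      refine ⟨g⁻¹, ?_⟩
      rw [← h]; group
    · exact Or.inl h
    · exact Or.inr h
  -- an element swapped with another by g is impossible
  have hswap : ∀ x y : G, x ∈ (P : Subgroup G) → g * x * g⁻¹ = y → g * y * g⁻¹ = x → x = y := by
    intro x y hx h1 h2
    obtain ⟨q, hq⟩ := hodd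
    have hg2y : (g * g) * y * (g * g)⁻¹ = y := by
      calc (g * g) * y * (g * g)⁻¹ = g * (g * y * g⁻¹) * g⁻¹ := by group
        _ = y := by rw [h2, h1]
    have hcy : Commute (g * g) y := by
      show (g * g) * y = y * (g * g)
      calc (g * g) * y = ((g * g) * y * (g * g)⁻¹) * (g * g) := by group
        _ = y * (g * g) := by rw [hg2y]
    have hcy' : Commute ((g * g) ^ q) y := hcy.pow_left q
    have h3 := hgr' x hx
    rw [hq, pow_succ, pow_mul, pow_two] at h3
    obtain ⟨w, hw⟩ : ∃ w, w = (g * g) ^ q := ⟨_, rfl⟩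
    rw [← hw] at h3 hcy'
    have h4 : w * g * x * (w * g)⁻¹ = y := by
      calc w * g * x * (w * g)⁻¹ = w * (g * x * g⁻¹) * w⁻¹ := by group
        _ = w * y * w⁻¹ := by rw [h1]
        _ = y * w * w⁻¹ := by rw [hcy'.eq]
        _ = y := by group
    rw [← h3, h4]
  have hne_a : a * b ≠ a := by
    intro h
    apply hb1
    calc b = a⁻¹ * (a * b) := by group
      _ = 1 := by rw [h]; group
  have hne_b : a * b ≠ b := by
    intro h
    apply ha1
    calc a = (a * b) * b⁻¹ := by group
      _ = 1 := by rw [h]; group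
  have hfix : g * a * g⁻¹ = a ∧ g * b * g⁻¹ = b := by
    rcases hga with h1 | h1 <;> rcases hgb with h2 | h2
    · exact ⟨h1, h2⟩
    · exfalso
      -- g fixes a, sends b to ab, hence ab to b
      have h3 : g * (a * b) * g⁻¹ = b := by
        calc g * (a * b) * g⁻¹ = (g * a * g⁻¹) * (g * b * g⁻¹) := by group
          _ = a * (a * b) := by rw [h1, h2]
          _ = (a * a) * b := by group
          _ = b := by rw [haa, one_mul]
      exact hne_b (hswap b (a * b) hb h2 h3).symm
    · exfalso
      have h3 : g * (a * b) * g⁻¹ = a := by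
        calc g * (a * b) * g⁻¹ = (g * a * g⁻¹) * (g * b * g⁻¹) := by group
          _ = (a * b) * b := by rw [h1, h2]
          _ = a * (b * b) := by group
          _ = a := by rw [hbb, mul_one]
      exact hne_a (hswap a (a * b) ha h1 h3).symm
    · exfalso
      apply hab
      have : g * a * g⁻¹ = g * b * g⁻¹ := by rw [h1, h2]
      calc a = g⁻¹ * (g * a * g⁻¹) * g := by group
        _ = g⁻¹ * (g * b * g⁻¹) * g := by rw [this]
        _ = b := by group
  have hΩ : ∀ x ∈ (P : Subgroup G), x ^ 2 = 1 → g * x * g⁻¹ = x := by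
    intro x hx hx2
    rcases hall x hx hx2 with h | h | h | h
    · rw [h]; group
    · rw [h]; exact hfix.1
    · rw [h]; exact hfix.2
    · rw [h]
      calc g * (a * b) * g⁻¹ = (g * a * g⁻¹) * (g * b * g⁻¹) := by group
        _ = a * b := by rw [hfix.1, hfix.2]
  have hcent := centralizes_of_odd_of_centralizes_omega (P : Subgroup G) hPcomm hP2 g hgN r hodd hgr' hΩ
  rw [Subgroup.mem_centralizer_iff]
  intro x hx
  have := hcent x hx
  calc x * g = (g * x * g⁻¹) * g := by rw [this]
    _ = g * x := by group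

/-- Let P be a Sylow 2-subgroup of the finite group G isomorphic to Z/2^m × Z/2^m with m ≥ 1. Then either P has a normal complement in G, or all involutions of G are conjugate. -/
theorem result {G : Type*} [Group G] [Finite G] (P : Sylow 2 G) (m : ℕ) (hm : 1 ≤ m) (e : (P : Subgroup G) ≃* Multiplicative (ZMod (2 ^ m) × ZMod (2 ^ m))) : (∃ N : Subgroup G, N.Normal ∧ Subgroup.IsComplement' N (P : Subgroup G)) ∨ ∀ s t : G, orderOf s = 2 → orderOf t = 2 → IsConj s t := by
  have hPcomm : ∀ x ∈ (P : Subgroup G), ∀ y ∈ (P : Subgroup G), x * y = y * x := by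
    intro x hx y hy
    have h1 : e (⟨x, hx⟩ * ⟨y, hy⟩) = e (⟨y, hy⟩ * ⟨x, hx⟩) := by
      rw [map_mul, map_mul, mul_comm]
    exact congrArg Subtype.val (e.injective h1)
  obtain ⟨u, v, hu1, hv1, huv, hu2, hv2, hall⟩ := two_torsion_struct m hm e
  have hu1' : (u : G) ≠ 1 := fun h => hu1 (Subtype.ext h)
  have hv1' : (v : G) ≠ 1 := fun h => hv1 (Subtype.ext h)
  have huv' : (u : G) ≠ (v : G) := fun h => huv (Subtype.ext h)
  have hu2' : (u : G) ^ 2 = 1 := by simpa using congrArg Subtype.val hu2
  have hv2' : (v : G) ^ 2 = 1 := by simpa using congrArg Subtype.val hv2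
  have hall' : ∀ x ∈ (P : Subgroup G), x ^ 2 = 1 → x = 1 ∨ x = (u : G) ∨ x = (v : G) ∨ x = (u : G) * (v : G) := by
    intro x hx hx2
    have := hall ⟨x, hx⟩ (Subtype.ext (by simpa using hx2))
    rcases this with h | h | h | h
    · left; simpa using congrArg Subtype.val h
    · right; left; simpa using congrArg Subtype.val h
    · right; right; left; simpa using congrArg Subtype.val h
    · right; right; right; simpa using congrArg Subtype.val h
  have huu : (u : G) * (u : G) = 1 := by rw [← pow_two]; exact hu2'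
  by_cases hc1 : IsConj (u : G) (v : G)
  · by_cases hc2 : IsConj (u : G) ((u : G) * (v : G))
    · right
      -- every involution is conjugate to u
      have key : ∀ s : G, orderOf s = 2 → IsConj s (u : G) := by
        intro s hs
        obtain ⟨x, hx⟩ := invol_conj_into_sylow P s hs
        have hs2 : (x * s * x⁻¹) ^ 2 = 1 := by
          rw [conj_pow, ← hs, pow_orderOf_eq_one]; group
        have hs1 : x * s * x⁻¹ ≠ 1 := by
          intro h
          have h1 : s = 1 := by
            calc s = x⁻¹ * (x * s * x⁻¹) * x := by group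
              _ = 1 := by rw [h]; group
          rw [h1, orderOf_one] at hs
          norm_num at hs
        have hsc : IsConj s (x * s * x⁻¹) := isConj_iff.mpr ⟨x, rfl⟩
        rcases hall' _ hx hs2 with h | h | h | h
        · exact absurd h hs1
        · rw [h] at hsc; exact hsc
        · rw [h] at hsc; exact hsc.trans hc1.symm
        · rw [h] at hsc; exact hsc.trans hc2.symm
      intro s t hs ht
      exact (key s hs).trans (key t ht).symm
    · left
      have hall'' : ∀ x ∈ (P : Subgroup G), x ^ 2 = 1 →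
          x = 1 ∨ x = (u : G) ∨ x = (u : G) * (v : G) ∨ x = (u : G) * ((u : G) * (v : G)) := by
        intro x hx hx2
        have e1 : (u : G) * ((u : G) * (v : G)) = (v : G) := by
          calc (u : G) * ((u : G) * (v : G)) = ((u : G) * (u : G)) * (v : G) := by group
            _ = (v : G) := by rw [huu, one_mul]
        rw [e1]
        rcases hall' x hx hx2 with h | h | h | h
        · exact Or.inl h
        · exact Or.inr (Or.inl h)
        · exact Or.inr (Or.inr (Or.inr h))
        · exact Or.inr (Or.inr (Or.inl h))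
      have huv1 : (u : G) * (v : G) ≠ 1 := by
        intro h
        apply huv'
        calc (u : G) = (u : G) * ((v : G) * (v : G)) := by rw [← pow_two, hv2', mul_one]
          _ = ((u : G) * (v : G)) * (v : G) := by group
          _ = (v : G) := by rw [h, one_mul]
      have hne : (u : G) ≠ (u : G) * (v : G) := by
        intro h
        apply hv1'
        calc (v : G) = (u : G)⁻¹ * ((u : G) * (v : G)) := by group
          _ = 1 := by rw [← h]; group
      have huv2 : ((u : G) * (v : G)) ^ 2 = 1 := by
        rw [pow_two]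
        calc (u : G) * (v : G) * ((u : G) * (v : G)) = (u : G) * ((v : G) * (u : G)) * (v : G) := by group
          _ = (u : G) * ((u : G) * (v : G)) * (v : G) := by rw [hPcomm (v : G) v.2 (u : G) u.2]
          _ = ((u : G) * (u : G)) * ((v : G) * (v : G)) := by group
          _ = 1 := by rw [huu, ← pow_two (v : G), hv2', one_mul]
      have hNC := normalizer_le_centralizer P hPcomm (u : G) ((u : G) * (v : G)) u.2
        ((P : Subgroup G).mul_mem u.2 v.2) hu1' huv1 hne hu2' huv2 hall'' hc2
      exact ⟨_, MonoidHom.normal_ker _, MonoidHom.ker_transferSylow_isComplement' P hNC⟩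
  · left
    have hNC := normalizer_le_centralizer P hPcomm (u : G) (v : G) u.2 v.2 hu1' hv1' huv' hu2' hv2' hall' hc1
    exact ⟨_, MonoidHom.normal_ker _, MonoidHom.ker_transferSylow_isComplement' P hNC⟩

end Cfsg.Agent.S0946
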