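import Mathlib
import Cfsg.Statements.S0957
import Cfsg.Agent.Lib.Helper1.Orbit

set_option autoImplicit false
open Cfsg
open Cfsg.Agent.Lib.Helper1

namespace Cfsg.Agent.S0957

abbrev X {G : Type*} [Group G] (P : Subgroup G) (g h : G) : Type _ :=
  {yz : G × G // IsConj g yz.1 ∧ IsConj h yz.2 ∧ yz.2 * yz.1⁻¹ ∈ P}

theorem hconj {G : Type*} [Group G] (a x t : G) (hax : IsConj a x) : IsConj a (t * x * t⁻¹) :=
  hax.trans (isConj_iff.mpr ⟨t, rfl⟩)

def act {G : Type*} [Group G] (P : Subgroup G) (g h : G) : MulAction P (X P g h) where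
  smul := fun t yz => ⟨((t : G) * yz.1.1 * (t : G)⁻¹, (t : G) * yz.1.2 * (t : G)⁻¹),
        hconj _ _ _ yz.2.1, hconj _ _ _ yz.2.2.1, by
          have h3 := yz.2.2.2
          have e : (t : G) * yz.1.2 * (t : G)⁻¹ * ((t : G) * yz.1.1 * (t : G)⁻¹)⁻¹
              = (t : G) * (yz.1.2 * yz.1.1⁻¹) * (t : G)⁻¹ := by group
          show (t : G) * yz.1.2 * (t : G)⁻¹ * ((t : G) * yz.1.1 * (t : G)⁻¹)⁻¹ ∈ P
          rw [e]
          exact P.mul_mem (P.mul_mem t.2 h3) (P.inv_mem t.2)⟩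
  one_smul := by
    rintro ⟨⟨x, y⟩, hxy⟩
    apply Subtype.ext
    show (((1 : P) : G) * x * ((1 : P) : G)⁻¹, ((1 : P) : G) * y * ((1 : P) : G)⁻¹) = (x, y)
    simp
  mul_smul := by
    rintro s t ⟨⟨x, y⟩, hxy⟩
    apply Subtype.ext
    show (((s * t : P) : G) * x * ((s * t : P) : G)⁻¹, ((s * t : P) : G) * y * ((s * t : P) : G)⁻¹)
      = ((s : G) * ((t : G) * x * (t : G)⁻¹) * (s : G)⁻¹, (s : G) * ((t : G) * y * (t : G)⁻¹) * (s : G)⁻¹)
    simp [mul_assoc]

theorem result {G : Type*} [Group G] [Finite G] (p : ℕ) [Fact p.Prime] (P : Sylow p G) (g h : G) (S : Sylow p (Subgroup.centralizer ({g} : Set G))) : Nat.card P / Nat.card S ∣ Nat.card {yz : G × G // IsConj g yz.1 ∧ IsConj h yz.2 ∧ yz.2 * yz.1⁻¹ ∈ (P : Subgroup G)} := by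
  letI := act (P : Subgroup G) g h
  apply dvd_card_of_dvd_index_stabilizer (P := (P : Subgroup G)) (X := X (P : Subgroup G) g h)
  intro xy
  set St := MulAction.stabilizer (P : Subgroup G) xy with hSt
  obtain ⟨c, hc⟩ := isConj_iff.mp xy.2.1
  have h1 : Nat.card St ∣ Nat.card (Subgroup.centralizer ({xy.1.1} : Set G)) := by
    have hle : St.map (P : Subgroup G).subtype ≤ Subgroup.centralizer ({xy.1.1} : Set G) := by
      rintro _ ⟨t, ht, rfl⟩
      rw [Subgroup.mem_centralizer_iff]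
      intro k hk
      rw [Set.mem_singleton_iff] at hk
      rw [hk]
      have h3 := congrArg (fun w : X (P : Subgroup G) g h => w.1.1)
        (MulAction.mem_stabilizer_iff.mp ht)
      exact (mul_inv_eq_iff_eq_mul.mp h3).symm
    have h4 := Subgroup.card_dvd_of_le hle
    rwa [Subgroup.card_map_of_injective (Subgroup.subtype_injective _)] at h4
  have h2 : Nat.card (Subgroup.centralizer ({xy.1.1} : Set G))
      = Nat.card (Subgroup.centralizer ({g} : Set G)) := by
    rw [← hc]; exact card_centralizer_conj c g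
  obtain ⟨a, ha⟩ := (P.isPGroup'.to_subgroup St).exists_card_eq
  have hStS : Nat.card St ∣ Nat.card S := by
    rw [ha]; apply pow_dvd_sylow_card S a; rw [← ha, ← h2]; exact h1
  obtain ⟨b, hb⟩ := S.isPGroup'.exists_card_eq
  have hSP : Nat.card S ∣ Nat.card P := by
    rw [hb]; apply pow_dvd_sylow_card P b; rw [← hb]
    exact (Subgroup.card_subgroup_dvd_card _).trans (Subgroup.card_subgroup_dvd_card _)
  have hidx : Nat.card St * St.index = Nat.card P := Subgroup.card_mul_index St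
  obtain ⟨e, he⟩ := hStS
  obtain ⟨d, hd⟩ := hSP
  have hSpos : 0 < Nat.card S := Nat.card_pos
  have hStpos : 0 < Nat.card St := Nat.card_pos
  have hdiv : Nat.card P / Nat.card S = d := by
    rw [hd]; exact Nat.mul_div_cancel_left d hSpos
  rw [hdiv]
  refine ⟨e, ?_⟩
  apply Nat.eq_of_mul_eq_mul_left hStpos
  rw [hidx, hd, he]; ring

end Cfsg.Agent.S0957
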