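import Mathlib
import Cfsg.Statements.S0985
import Cfsg.Agent.Lib.Helper1.Orbit2

set_option autoImplicit false
open Cfsg

namespace Cfsg.Agent.S0985

open Cfsg.Agent.Lib.Helper1

/-- If the number of Sylow p-subgroups of a finite group is not congruent to 1 modulo p^k, then there are two distinct Sylow p-subgroups P and R such that the index of P ∩ R in P is at most p^(k-1). -/
theorem result {G : Type*} [Group G] [Finite G] (p k : ℕ) [Fact p.Prime] (h : ¬ Nat.card (Sylow p G) ≡ 1 [MOD p ^ k]) : ∃ P R : Sylow p G, P ≠ R ∧ ((R : Subgroup G).subgroupOf (P : Subgroup G)).index ≤ p ^ (k - 1) := by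
  by_contra hcon
  push Not at hcon
  apply h
  obtain ⟨P⟩ : Nonempty (Sylow p G) := inferInstance
  have hp : p.Prime := Fact.out
  apply card_modEq_one_of_fixed_of_dvd (P := (P : Subgroup G)) (p ^ k) P
  · intro g
    show (g : G) • P = P
    rw [Sylow.smul_eq_iff_mem_normalizer]
    exact Subgroup.le_normalizer g.2
  · intro R hR
    have hstab : MulAction.stabilizer (P : Subgroup G) R = (R : Subgroup G).subgroupOf (P : Subgroup G) := by
      ext g
      rw [MulAction.mem_stabilizer_iff, Subgroup.mem_subgroupOf]
      show (g : G) • R = R ↔ _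
      rw [Sylow.smul_eq_iff_mem_normalizer]
      have hinf := IsPGroup.inf_normalizer_sylow P.isPGroup' R
      constructor
      · intro hg
        exact (hinf.le ⟨g.2, hg⟩).2
      · intro hg
        exact Subgroup.le_normalizer hg
    rw [hstab]
    have hlt := hcon P R hR.symm
    have hdvd : ((R : Subgroup G).subgroupOf (P : Subgroup G)).index ∣ Nat.card (P : Subgroup G) :=
      Subgroup.index_dvd_card _
    obtain ⟨n, hn⟩ := (IsPGroup.iff_card.mp P.isPGroup')
    rw [hn] at hdvd
    obtain ⟨j, _, hj⟩ := (Nat.dvd_prime_pow hp).mp hdvd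
    rw [hj] at hlt ⊢
    apply pow_dvd_pow
    have := (Nat.pow_lt_pow_iff_right hp.one_lt).mp hlt
    omega

end Cfsg.Agent.S0985
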