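import Mathlib
import Cfsg.Statements.S0987
import Cfsg.Agent.Lib.Helper1.SylowCard

set_option autoImplicit false
open Cfsg

namespace Cfsg.Agent.S0987

open Cfsg.Agent.Lib.Helper1

/-- If a finite group has order pqr for primes p < q < r, then its Sylow r-subgroups are normal. -/
theorem result {G : Type*} [Group G] [Finite G] (p q r : ℕ) (hp : p.Prime) (hq : q.Prime) [Fact r.Prime] (hpq : p < q) (hqr : q < r) (hG : Nat.card G = p * q * r) (R : Sylow r G) : (R : Subgroup G).Normal := by
  have hr : r.Prime := Fact.out
  have : Fact p.Prime := ⟨hp⟩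
  have hpr : p < r := hpq.trans hqr
  have hmin : (Nat.card G).minFac = p := by
    rw [hG]
    apply le_antisymm
    · exact Nat.minFac_le_of_dvd hp.two_le ⟨q * r, by ring⟩
    · have hne : p * q * r ≠ 1 := by
        intro h1
        have h2 : p ∣ 1 := ⟨q * r, by rw [← h1]; ring⟩
        exact hp.one_lt.ne' (Nat.dvd_one.mp h2)
      have h1 : (p * q * r).minFac.Prime := Nat.minFac_prime hne
      have h2 : (p * q * r).minFac ∣ p * q * r := Nat.minFac_dvd _
      rcases (Nat.Prime.dvd_mul h1).mp h2 with h | h
      · rcases (Nat.Prime.dvd_mul h1).mp h with h | h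
        · exact ((Nat.prime_dvd_prime_iff_eq h1 hp).mp h).ge
        · rw [(Nat.prime_dvd_prime_iff_eq h1 hq).mp h]; exact hpq.le
      · rw [(Nat.prime_dvd_prime_iff_eq h1 hr).mp h]; exact hpr.le
  obtain ⟨P⟩ : Nonempty (Sylow p G) := inferInstance
  have hPcard : Nat.card (P : Subgroup G) = p := by
    apply sylow_card_eq_prime p
    · rw [hG]; exact ⟨q * r, by ring⟩
    · rw [hG]
      intro h
      have h1 : p * p ∣ p * (q * r) := by
        have e1 : p * (q * r) = p * q * r := by ring
        rw [e1, ← sq]; exact h
      have h2 : p ∣ q * r := Nat.dvd_of_mul_dvd_mul_left hp.pos h1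
      rcases (Nat.Prime.dvd_mul hp).mp h2 with h | h
      · have := (Nat.prime_dvd_prime_iff_eq hp hq).mp h; omega
      · have := (Nat.prime_dvd_prime_iff_eq hp hr).mp h; omega
  have hPc : IsCyclic (P : Subgroup G) := isCyclic_of_prime_card hPcard
  have hcompl := IsCyclic.isComplement' hmin hPc
  have hKn : (MonoidHom.transferSylow P (hPc.normalizer_le_centralizer hmin)).ker.Normal :=
    MonoidHom.normal_ker _
  generalize (MonoidHom.transferSylow P (hPc.normalizer_le_centralizer hmin)).ker = K at hcompl hKn
  have hKcard : Nat.card K = q * r := by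
    have h := hcompl.card_mul_card
    rw [hPcard, hG] at h
    have e : p * (q * r) = p * Nat.card K := by rw [mul_comm p (Nat.card K), h]; ring
    exact (Nat.eq_of_mul_eq_mul_left hp.pos e).symm
  obtain ⟨R'⟩ : Nonempty (Sylow r K) := inferInstance
  have hrq : ¬ r ∣ q := by
    intro h
    have := (Nat.prime_dvd_prime_iff_eq hr hq).mp h; omega
  have hR'card : Nat.card (R' : Subgroup K) = r := by
    apply sylow_card_eq_prime r
    · rw [hKcard]; exact ⟨q, by ring⟩
    · rw [hKcard]
      intro h
      have h1 : r * r ∣ r * q := by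
        rw [mul_comm r q, ← sq]; exact h
      exact hrq (Nat.dvd_of_mul_dvd_mul_left hr.pos h1)
  have hidx : (R' : Subgroup K).index = q := by
    have h := Subgroup.index_mul_card (R' : Subgroup K)
    rw [hR'card, hKcard] at h
    exact Nat.eq_of_mul_eq_mul_right hr.pos h
  have hn1 : Nat.card (Sylow r K) = 1 := by
    have hd := R'.card_dvd_index
    rw [hidx] at hd
    have hm : Nat.card (Sylow r K) % r = 1 % r := card_sylow_modEq_one r K
    rcases (Nat.dvd_prime hq).mp hd with h | h
    · exact h
    · rw [h, Nat.mod_eq_of_lt hqr, Nat.mod_eq_of_lt hr.one_lt] at hm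
      have := hq.one_lt
      omega
  have hsub : Subsingleton (Sylow r K) := (Nat.card_eq_one_iff_unique.mp hn1).1
  have hchar : (R' : Subgroup K).Characteristic := Sylow.characteristic_of_subsingleton R'
  have hnorm : ((R' : Subgroup K).map K.subtype).Normal := inferInstance
  have hR0p : IsPGroup r ((R' : Subgroup K).map K.subtype) := R'.isPGroup'.map _
  have hle := normal_le_sylow _ hR0p R
  have hRcard : Nat.card (R : Subgroup G) = r := by
    apply sylow_card_eq_prime r
    · rw [hG]; exact ⟨p * q, by ring⟩
    · rw [hG]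
      intro h
      have h1 : r * r ∣ r * (p * q) := by
        rw [mul_comm r (p * q), ← sq]; exact h
      have h2 : r ∣ p * q := Nat.dvd_of_mul_dvd_mul_left hr.pos h1
      rcases (Nat.Prime.dvd_mul hr).mp h2 with h | h
      · have := (Nat.prime_dvd_prime_iff_eq hr hp).mp h; omega
      · exact hrq h
  have heq : (R' : Subgroup K).map K.subtype = (R : Subgroup G) := by
    apply Subgroup.eq_of_le_of_card_ge hle
    rw [hRcard, Subgroup.card_map_of_injective (Subgroup.subtype_injective _), hR'card]
  rw [← heq]
  exact hnorm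

end Cfsg.Agent.S0987
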