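import Cfsg.Statements.S0989
import Mathlib
import Cfsg.Agent.Lib.Lead.BaerSuzuki
-- import your own Cfsg.Agent.* helpers here

set_option autoImplicit false
open Cfsg

namespace Cfsg.Agent.S0989

/-- In the symmetric group on p or p + 1 letters, p a prime, the normalizer of a Sylow p-subgroup has order p * (p - 1). -/
theorem result {α : Type*} [Fintype α] [DecidableEq α] (p : ℕ) [Fact p.Prime] (hα : Fintype.card α = p ∨ Fintype.card α = p + 1) (P : Sylow p (Equiv.Perm α)) : Nat.card ↥(Subgroup.normalizer ((P : Subgroup (Equiv.Perm α)) : Set (Equiv.Perm α))) = p * (p - 1) := by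
  classical
  have hp : p.Prime := Fact.out
  have hp2 := hp.two_le
  have hfac : (Nat.card (Equiv.Perm α)).factorization p = 1 := by
    rw [Nat.card_eq_fintype_card, Fintype.card_perm]
    have h1 : (p.factorial).factorization p = 1 := by
      obtain ⟨m, rfl⟩ : ∃ m, p = m + 1 := ⟨p - 1, by omega⟩
      rw [Nat.factorial_succ, Nat.factorization_mul (by omega) (Nat.factorial_ne_zero m),
        Finsupp.add_apply, hp.factorization_self,
        Nat.factorization_factorial_eq_zero_of_lt (by omega)]
    rcases hα with h | h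
    · rw [h, h1]
    · rw [h, Nat.factorial_succ, Nat.factorization_mul (by omega) (Nat.factorial_ne_zero p),
        Finsupp.add_apply, h1, Nat.factorization_eq_zero_of_not_dvd (by
          intro hd
          have := (Nat.dvd_add_right (dvd_refl p)).1 hd
          exact hp.one_lt.ne' (Nat.dvd_one.1 this))]
  have hPcard : Nat.card (P : Subgroup (Equiv.Perm α)) = p := by
    rw [Sylow.card_eq_multiplicity, hfac, pow_one]
  obtain ⟨σ', hσ'⟩ := exists_prime_orderOf_dvd_card' (G := (P : Subgroup (Equiv.Perm α))) p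
    (dvd_of_eq hPcard.symm)
  set σ : Equiv.Perm α := (σ' : Equiv.Perm α) with hσdef
  have hσP : σ ∈ (P : Subgroup (Equiv.Perm α)) := σ'.2
  have hσ : orderOf σ = p := by rw [hσdef, Subgroup.orderOf_coe]; exact hσ'
  have hσ1 : σ ≠ 1 := by
    intro e; rw [e, orderOf_one] at hσ; omega
  have hPeq : Subgroup.zpowers σ = (P : Subgroup (Equiv.Perm α)) := by
    apply Subgroup.eq_of_le_of_card_ge
    · rw [Subgroup.zpowers_le]; exact hσP
    · rw [Nat.card_zpowers, hσ, hPcard]
  have hct : ∀ τ : Equiv.Perm α, orderOf τ = p → τ.cycleType = {p} := by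
    intro τ hτ
    obtain ⟨n, hn⟩ := Equiv.Perm.cycleType_prime_order (σ := τ) (by rw [hτ]; exact hp)
    have hs := τ.sum_cycleType_le
    rw [hn, Multiset.sum_replicate, hτ, smul_eq_mul] at hs
    have hn0 : n = 0 := by
      rcases hα with h | h <;> rw [h] at hs <;> nlinarith
    subst hn0
    rw [hn, hτ]; rfl
  have hCcard : Nat.card (Subgroup.centralizer ({σ} : Set (Equiv.Perm α))) = p := by
    rw [Equiv.Perm.nat_card_centralizer, hct σ hσ]
    have h01 : (Fintype.card α - p).factorial = 1 := by
      rcases hα with h | h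
      · rw [h, Nat.sub_self]; rfl
      · rw [h, Nat.add_sub_cancel_left]; rfl
    simp [h01]
  have hN : ∀ n : Equiv.Perm α,
      n ∈ Subgroup.normalizer ((P : Subgroup (Equiv.Perm α)) : Set (Equiv.Perm α)) ↔
        n * σ * n⁻¹ ∈ (P : Subgroup (Equiv.Perm α)) := by
    intro n
    constructor
    · intro hn
      exact (Subgroup.mem_normalizer_iff.1 hn σ).1 hσP
    · intro hn
      apply Lib.Lead.mem_normalizer_of_conj_le
      intro d hd
      rw [← hPeq] at hd
      obtain ⟨k, rfl⟩ := Subgroup.mem_zpowers_iff.1 hd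
      rw [← conj_zpow]
      exact Subgroup.zpow_mem _ hn k
  rw [Nat.card_congr (Equiv.subtypeEquivRight hN), Nat.card_eq_fintype_card, Fintype.card_subtype]
  set T : Finset (Equiv.Perm α) :=
    (Finset.univ.filter (fun τ : Equiv.Perm α => τ ∈ (P : Subgroup (Equiv.Perm α)))).erase 1 with hT
  have hTcard : T.card = p - 1 := by
    rw [hT, Finset.card_erase_of_mem (by simp), ← Fintype.card_subtype,
      ← Nat.card_eq_fintype_card]
    have : Nat.card {x // x ∈ (P : Subgroup (Equiv.Perm α))} = p := hPcard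
    rw [this]
  have hmaps : ∀ n ∈ Finset.univ.filter (fun n : Equiv.Perm α =>
      n * σ * n⁻¹ ∈ (P : Subgroup (Equiv.Perm α))), n * σ * n⁻¹ ∈ T := by
    intro n hn
    rw [Finset.mem_filter] at hn
    rw [hT, Finset.mem_erase, Finset.mem_filter]
    refine ⟨?_, Finset.mem_univ _, hn.2⟩
    intro e
    apply hσ1
    have : σ = n⁻¹ * (n * σ * n⁻¹) * n := by group
    rw [this, e]; group
  rw [Finset.card_eq_sum_card_fiberwise hmaps]
  have hfib : ∀ τ ∈ T, (Finset.filter (fun n : Equiv.Perm α => n * σ * n⁻¹ = τ)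
      (Finset.univ.filter (fun n : Equiv.Perm α =>
        n * σ * n⁻¹ ∈ (P : Subgroup (Equiv.Perm α))))).card = p := by
    intro τ hτ
    rw [hT, Finset.mem_erase, Finset.mem_filter] at hτ
    obtain ⟨hτ1, -, hτP⟩ := hτ
    have hτo : orderOf τ = p := by
      have h1 : orderOf τ ∣ p := by
        have := Subgroup.orderOf_dvd_natCard _ hτP
        rwa [hPcard] at this
      rcases (Nat.dvd_prime hp).1 h1 with h | h
      · exact absurd (orderOf_eq_one_iff.1 h) hτ1
      · exact h
    have hconj : IsConj σ τ := by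
      rw [Equiv.Perm.isConj_iff_cycleType_eq, hct σ hσ, hct τ hτo]
    obtain ⟨n₀, hn₀⟩ := isConj_iff.1 hconj
    have hset : Finset.filter (fun n : Equiv.Perm α => n * σ * n⁻¹ = τ)
        (Finset.univ.filter (fun n : Equiv.Perm α =>
          n * σ * n⁻¹ ∈ (P : Subgroup (Equiv.Perm α))))
        = (Finset.univ.filter (fun c : Equiv.Perm α =>
            c ∈ Subgroup.centralizer ({σ} : Set (Equiv.Perm α)))).image (fun c => n₀ * c) := by
      ext n
      simp only [Finset.mem_filter, Finset.mem_univ, true_and, Finset.mem_image]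
      constructor
      · rintro ⟨-, hnτ⟩
        refine ⟨n₀⁻¹ * n, ?_, by group⟩
        apply Subgroup.mem_centralizer_iff.2
        intro y hy
        rw [Set.mem_singleton_iff.1 hy]
        calc σ * (n₀⁻¹ * n) = n₀⁻¹ * (n₀ * σ * n₀⁻¹) * n := by group
          _ = n₀⁻¹ * (n * σ * n⁻¹) * n := by rw [hn₀, hnτ]
          _ = n₀⁻¹ * n * σ := by group
      · rintro ⟨c, hc, rfl⟩
        have hc' : σ * c = c * σ := Subgroup.mem_centralizer_iff.1 hc σ rfl
        have e : n₀ * c * σ * (n₀ * c)⁻¹ = τ := by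
          calc n₀ * c * σ * (n₀ * c)⁻¹ = n₀ * (c * σ) * c⁻¹ * n₀⁻¹ := by group
            _ = n₀ * (σ * c) * c⁻¹ * n₀⁻¹ := by rw [hc']
            _ = n₀ * σ * n₀⁻¹ := by group
            _ = τ := hn₀
        exact ⟨e ▸ hτP, e⟩
    rw [hset, Finset.card_image_of_injective _ (mul_right_injective n₀), ← Fintype.card_subtype,
      ← Nat.card_eq_fintype_card]
    exact hCcard
  rw [Finset.sum_const_nat hfib, hTcard, mul_comm]

end Cfsg.Agent.S0989
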