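import Mathlib
import Cfsg.Statements.S0991

set_option autoImplicit false
open Cfsg

namespace Cfsg.Agent.S0991

theorem result {G : Type*} [Group G] [Finite G] [IsSimpleGroup G] (hG : ¬ IsMulCommutative G) (H : Subgroup G) (hH : H ≠ ⊤) : ∃ f : G →* ↥(alternatingGroup (Fin H.index)), Function.Injective f := by
  classical
  have e : (G ⧸ H) ≃ Fin H.index := Finite.equivFin (G ⧸ H)
  let φ : G →* Equiv.Perm (Fin H.index) :=
    (e.permCongrHom.toMonoidHom).comp (MulAction.toPermHom G (G ⧸ H))
  have hker : φ.ker = ⊥ := by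
    rcases (φ.normal_ker).eq_bot_or_eq_top with h | h
    · exact h
    · exfalso; apply hH
      rw [eq_top_iff]
      intro g _
      have hg : g ∈ φ.ker := by rw [h]; trivial
      rw [MonoidHom.mem_ker] at hg
      have h2 : MulAction.toPermHom G (G ⧸ H) g = 1 := by
        have : e.permCongrHom (MulAction.toPermHom G (G ⧸ H) g) = 1 := hg
        exact (MulEquiv.map_eq_one_iff e.permCongrHom).mp this
      have h3 : g • (QuotientGroup.mk 1 : G ⧸ H) = QuotientGroup.mk 1 := by
        have := congrArg (fun f : Equiv.Perm (G ⧸ H) => f (QuotientGroup.mk 1)) h2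
        simpa using this
      have := QuotientGroup.eq.mp h3
      simpa using this
  have hinj : Function.Injective φ := (MonoidHom.ker_eq_bot_iff φ).mp hker
  have hsign : ∀ g, Equiv.Perm.sign (φ g) = 1 := by
    let ψ : G →* ℤˣ := Equiv.Perm.sign.comp φ
    rcases (ψ.normal_ker).eq_bot_or_eq_top with h | h
    · exfalso; apply hG
      have hψ : Function.Injective ψ := (MonoidHom.ker_eq_bot_iff ψ).mp h
      exact ⟨⟨fun a b => hψ (by rw [map_mul, map_mul, mul_comm])⟩⟩
    · intro g
      have hg : g ∈ ψ.ker := by rw [h]; trivial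
      exact hg
  refine ⟨φ.codRestrict (alternatingGroup (Fin H.index))
    (fun g => Equiv.Perm.mem_alternatingGroup.mpr (hsign g)), ?_⟩
  intro a b hab
  apply hinj
  exact congrArg Subtype.val hab

end Cfsg.Agent.S0991
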