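import Mathlib
import Cfsg.Statements.S0992

set_option autoImplicit false
open Cfsg

namespace Cfsg.Agent.S0992

/-- Let G be a non-abelian finite simple group of even order not divisible by 8, and T a Sylow 2-subgroup. Then T is a Klein four-group and the centralizer of T has index 3 in the normalizer of T. -/
theorem result {G : Type*} [Group G] [Finite G] [IsSimpleGroup G] (hG : ¬ IsMulCommutative G) (h2 : Even (Nat.card G)) (h8 : ¬ 8 ∣ Nat.card G) (T : Sylow 2 G) : IsKleinFour ↥(T : Subgroup G) ∧ (Subgroup.centralizer ((T : Subgroup G) : Set G)).relIndex (Subgroup.normalizer ((T : Subgroup G) : Set G)) = 3 := by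
  have h2' : 2 ∣ Nat.card G := even_iff_two_dvd.mp h2
  have hmin : (Nat.card G).minFac = 2 := (Nat.minFac_eq_two_iff _).mpr h2'
  -- order of T
  obtain ⟨k, hk⟩ := (IsPGroup.iff_card.mp T.isPGroup')
  have hT2 : 2 ∣ Nat.card (T : Subgroup G) := T.dvd_card_of_dvd_card h2'
  have hTG : Nat.card (T : Subgroup G) ∣ Nat.card G := Subgroup.card_subgroup_dvd_card _
  have hk1 : k ≠ 0 := by
    rintro rfl
    rw [hk] at hT2
    norm_num at hT2
  have hk2 : k < 3 := by
    by_contra hk2
    push Not at hk2
    apply h8
    rw [hk] at hTG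
    exact (pow_dvd_pow 2 hk2).trans hTG
  -- no normal complement
  have hnocompl : ∀ K : Subgroup G, K.Normal → ¬ K.IsComplement' (T : Subgroup G) := by
    intro K hK hc
    rcases hK.eq_bot_or_eq_top with h | h
    · subst h
      have hT : (T : Subgroup G) = ⊤ := Subgroup.isComplement'_bot_left.mp hc
      have hcard : Nat.card G = 2 ^ k := by rw [← hk, hT, Subgroup.card_top]
      apply hG
      have hcomm : ∀ a b : G, a * b = b * a := by
        interval_cases k
        · exact absurd rfl hk1
        · have : Fact (Nat.Prime 2) := ⟨Nat.prime_two⟩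
          have hc : IsCyclic G := isCyclic_of_prime_card (p := 2) (by rw [hcard]; norm_num)
          intro a b
          obtain ⟨g, hg⟩ := hc.exists_generator
          obtain ⟨i, rfl⟩ := Subgroup.mem_zpowers_iff.mp (hg a)
          obtain ⟨j, rfl⟩ := Subgroup.mem_zpowers_iff.mp (hg b)
          rw [← zpow_add, ← zpow_add, add_comm]
        · have : Fact (Nat.Prime 2) := ⟨Nat.prime_two⟩
          have hmc : IsMulCommutative G := IsPGroup.isMulCommutative_of_card_eq_prime_sq (p := 2) hcard
          exact fun a b => hmc.is_comm.comm a b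
      exact ⟨⟨hcomm⟩⟩
    · subst h
      have hT : (T : Subgroup G) = ⊥ := Subgroup.isComplement'_top_left.mp hc
      rw [hT, Subgroup.card_bot] at hT2
      norm_num at hT2
  have hTnc : ¬ IsCyclic (T : Subgroup G) := by
    intro hcyc
    exact hnocompl _ (MonoidHom.normal_ker _) (IsCyclic.isComplement' hmin hcyc)
  have hT4 : Nat.card (T : Subgroup G) = 4 := by
    interval_cases k
    · exact absurd rfl hk1
    · exfalso
      apply hTnc
      have : Fact (Nat.Prime 2) := ⟨Nat.prime_two⟩
      exact isCyclic_of_prime_card (p := 2) (by rw [hk]; norm_num)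
    · rw [hk]; norm_num
  have hsq : ∀ x : (T : Subgroup G), x ^ 2 = 1 := by
    intro x
    have h1 : orderOf x ∣ 4 := by rw [← hT4]; exact orderOf_dvd_natCard x
    have h3 : orderOf x ≠ 4 := by
      intro h
      exact hTnc (isCyclic_of_orderOf_eq_card x (by rw [h, hT4]))
    have h4 : orderOf x ∈ Nat.divisors 4 := by simp [h1]
    have hdec : ∀ d ∈ Nat.divisors 4, d ≠ 4 → d ∣ 2 := by decide
    exact orderOf_dvd_iff_pow_eq_one.mp (hdec _ h4 h3)
  have hklein : IsKleinFour ↥(T : Subgroup G) := by
    refine ⟨hT4, ?_⟩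
    have h1 : Monoid.exponent (T : Subgroup G) ∣ 2 := Monoid.exponent_dvd_of_forall_pow_eq_one hsq
    rcases (Nat.dvd_prime Nat.prime_two).mp h1 with h | h
    · exfalso
      have := Monoid.exp_eq_one_iff.mp h
      have h5 : Nat.card (T : Subgroup G) = 1 := Nat.card_eq_one_iff_unique.mpr ⟨this, ⟨1⟩⟩
      omega
    · exact h
  refine ⟨hklein, ?_⟩
  have hTcomm : IsMulCommutative (T : Subgroup G) := by
    have : Fact (Nat.Prime 2) := ⟨Nat.prime_two⟩
    exact IsPGroup.isMulCommutative_of_card_eq_prime_sq (p := 2) (by rw [hT4]; norm_num)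
  -- N/C embeds in Perm T
  have hinj1 : Function.Injective (MulAut.toPerm (T : Subgroup G)) := by
    intro a b hab
    apply MulEquiv.ext
    intro x
    exact Equiv.congr_fun hab x
  have hinj2 : Function.Injective (QuotientGroup.kerLift (T : Subgroup G).normalizerMonoidHom) :=
    QuotientGroup.kerLift_injective (T : Subgroup G).normalizerMonoidHom
  have hinj : Function.Injective ((MulAut.toPerm (T : Subgroup G)).comp
      (QuotientGroup.kerLift (T : Subgroup G).normalizerMonoidHom)) := by
    rw [MonoidHom.coe_comp]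
    exact hinj1.comp hinj2
  have key := Subgroup.card_dvd_of_injective _ hinj
  rw [Subgroup.normalizerMonoidHom_ker, ← Subgroup.index, ← Subgroup.relIndex, Nat.card_perm, hT4] at key
  have hCN : Subgroup.centralizer ((T : Subgroup G) : Set G) ≤
      Subgroup.normalizer ((T : Subgroup G) : Set G) := Subgroup.centralizer_le_normalizer _
  have h7 := Subgroup.relIndex_mul_index hCN
  have hTC : (T : Subgroup G) ≤ Subgroup.centralizer ((T : Subgroup G) : Set G) := (T : Subgroup G).le_centralizer
  have h9 : (Subgroup.centralizer ((T : Subgroup G) : Set G)).index ∣ (T : Subgroup G).index :=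
    Subgroup.index_dvd_of_le hTC
  have h10 : ¬ 2 ∣ (T : Subgroup G).index := T.not_dvd_index
  have h11 : ¬ 2 ∣ (Subgroup.centralizer ((T : Subgroup G) : Set G)).relIndex
      (Subgroup.normalizer ((T : Subgroup G) : Set G)) := by
    intro h
    apply h10
    exact (h.trans ⟨_, h7.symm⟩).trans h9
  have h12 : (Subgroup.centralizer ((T : Subgroup G) : Set G)).relIndex
      (Subgroup.normalizer ((T : Subgroup G) : Set G)) ∈ Nat.divisors (Nat.factorial 4) := by
    rw [Nat.mem_divisors]
    exact ⟨key, by decide⟩
  have hdec : ∀ d ∈ Nat.divisors (Nat.factorial 4), ¬ 2 ∣ d → d = 1 ∨ d = 3 := by decide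
  rcases hdec _ h12 h11 with h | h
  · exfalso
    have hNC : Subgroup.normalizer ((T : Subgroup G) : Set G) ≤
        Subgroup.centralizer ((T : Subgroup G) : Set G) := Subgroup.relIndex_eq_one.mp h
    exact hnocompl _ (MonoidHom.normal_ker _) (MonoidHom.ker_transferSylow_isComplement' T hNC)
  · exact h

end Cfsg.Agent.S0992
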