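import Mathlib
import Cfsg.Statements.S1004
import Cfsg.Agent.Lib.Helper6.S168b
import Cfsg.Agent.Lib.Helper8.Ord2
import Cfsg.Agent.S0114

set_option autoImplicit false
open Cfsg

namespace Cfsg.Agent.S1004


open scoped commutatorElement

section
variable {G : Type*} [Group G] [Finite G]

theorem comm_zpowers (u b : G) (hub : u * b = b * u) :
    u ∈ Subgroup.centralizer ((Subgroup.zpowers b : Subgroup G) : Set G) := by
  rw [Subgroup.mem_centralizer_iff]
  intro y hy
  obtain ⟨k, rfl⟩ := Subgroup.mem_zpowers_iff.mp hy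
  have hc : Commute b u := hub.symm
  exact (hc.zpow_left k).eq

theorem key {p : ℕ} [Fact p.Prime] (Q : Sylow p G) (w b : G)
    (hQ : Subgroup.zpowers b = (Q : Subgroup G)) (hwb : w * b = b * w) :
    w ∈ Subgroup.normalizer ((Q : Subgroup G) : Set G) ∧
      w ∈ Subgroup.centralizer ((Q : Subgroup G) : Set G) := by
  have h1 := comm_zpowers w b hwb
  rw [hQ] at h1
  exact ⟨Subgroup.centralizer_le_normalizer _ h1, h1⟩

theorem cent2 [IsSimpleGroup G] (h : Nat.card G = 168) (u : G) (hu : u ≠ 1) (hu8 : u ^ 8 = 1) :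
    IsPGroup 2 (Subgroup.centralizer ({u} : Set G)) := by
  haveI : Fact (Nat.Prime 2) := ⟨by norm_num⟩
  haveI : Fact (Nat.Prime 3) := ⟨by norm_num⟩
  haveI : Fact (Nat.Prime 7) := ⟨by norm_num⟩
  obtain ⟨n2, n3, n7⟩ := Cfsg.Agent.Lib.Helper6.s168_main h
  obtain ⟨C, hC⟩ : ∃ C : Subgroup G, C = Subgroup.centralizer ({u} : Set G) := ⟨_, rfl⟩
  rw [← hC]
  have hCd : Nat.card C ∣ 168 := by rw [← h]; exact Subgroup.card_subgroup_dvd_card C
  have ho2 : orderOf u ∣ 8 := orderOf_dvd_of_pow_eq_one hu8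
  have h2u : 2 ∣ orderOf u := by
    obtain ⟨k, hk, hk2⟩ := (Nat.dvd_prime_pow Nat.prime_two).mp (show orderOf u ∣ 2 ^ 3 from ho2)
    rcases Nat.eq_zero_or_pos k with h0 | h0
    · subst h0
      rw [pow_zero] at hk2
      exact absurd (orderOf_eq_one_iff.mp hk2) hu
    · rw [hk2]; exact dvd_pow_self 2 (by omega)
  have hmemC : ∀ b : C, u * (b : G) = (b : G) * u := by
    intro b
    have hb : (b : G) ∈ Subgroup.centralizer ({u} : Set G) := by rw [← hC]; exact b.2
    rw [Subgroup.mem_centralizer_iff] at hb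
    exact hb u (Set.mem_singleton u)
  have h7 : ¬ 7 ∣ Nat.card C := by
    intro hd
    obtain ⟨b, hb⟩ := exists_prime_orderOf_dvd_card' (G := C) 7 hd
    have hbG : orderOf (b : G) = 7 := by rw [Subgroup.orderOf_coe]; exact hb
    have hA : IsPGroup 7 (Subgroup.zpowers (b : G)) := by
      apply IsPGroup.of_card (n := 1)
      rw [Nat.card_zpowers, hbG, pow_one]
    obtain ⟨Q, hQ⟩ := hA.exists_le_sylow
    have hc := Cfsg.Agent.Lib.Helper6.syl_card Q 1 24 (by rw [h]; norm_num) (by norm_num)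
    have hQeq : Subgroup.zpowers (b : G) = (Q : Subgroup G) := by
      apply Subgroup.eq_of_le_of_card_ge hQ
      rw [hc, Nat.card_zpowers, hbG, pow_one]
    have hN := Cfsg.Agent.Lib.Helper6.syl_norm_card Q
    rw [n7, h] at hN
    have huN := (key Q u (b : G) hQeq (hmemC b)).1
    have ho1 : orderOf u ∣ 21 := by
      have h1 := orderOf_dvd_natCard (⟨u, huN⟩ : Subgroup.normalizer ((Q : Subgroup G) : Set G))
      rw [Subgroup.orderOf_mk] at h1
      have h21 : Nat.card (Subgroup.normalizer ((Q : Subgroup G) : Set G)) = 21 := by omega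
      rwa [h21] at h1
    have h3 : orderOf u ∣ Nat.gcd 21 8 := Nat.dvd_gcd ho1 ho2
    have h4 : orderOf u = 1 := by
      have hg : Nat.gcd 21 8 = 1 := by norm_num
      rw [hg] at h3; exact Nat.dvd_one.mp h3
    exact hu (orderOf_eq_one_iff.mp h4)
  have h3 : ¬ 3 ∣ Nat.card C := by
    intro hd
    obtain ⟨a, ha⟩ := exists_prime_orderOf_dvd_card' (G := C) 3 hd
    have haG : orderOf (a : G) = 3 := by rw [Subgroup.orderOf_coe]; exact ha
    obtain ⟨Q, hQeq⟩ := Cfsg.Agent.Lib.Helper6.syl3_of_order3 h (a : G) haG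
    have hc := Cfsg.Agent.Lib.Helper6.syl_card Q 1 56 (by rw [h]; norm_num) (by norm_num)
    have hN := Cfsg.Agent.Lib.Helper6.syl_norm_card Q
    rw [n3, h] at hN
    have hNc : Nat.card (Subgroup.normalizer ((Q : Subgroup G) : Set G)) = 6 := by omega
    obtain ⟨Z, hZ⟩ : ∃ Z : Subgroup G, Z = Subgroup.centralizer ((Q : Subgroup G) : Set G) :=
      ⟨_, rfl⟩
    have hZN : Z ≤ Subgroup.normalizer ((Q : Subgroup G) : Set G) := by
      rw [hZ]; exact Subgroup.centralizer_le_normalizer _
    have huZ : u ∈ Z := by rw [hZ]; exact (key Q u (a : G) hQeq (hmemC a)).2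
    have haZ : (a : G) ∈ Z := by rw [hZ]; exact (key Q (a : G) (a : G) hQeq rfl).2
    have h3Z : 3 ∣ Nat.card Z := by
      have h1 := orderOf_dvd_natCard (⟨(a : G), haZ⟩ : Z)
      rwa [Subgroup.orderOf_mk, haG] at h1
    have h2Z : 2 ∣ Nat.card Z := by
      have h1 := orderOf_dvd_natCard (⟨u, huZ⟩ : Z)
      rw [Subgroup.orderOf_mk] at h1
      exact dvd_trans h2u h1
    have hZd : Nat.card Z ∣ 6 := by rw [← hNc]; exact Subgroup.card_dvd_of_le hZN
    have hZ6 : Nat.card Z = 6 := by
      have hle6 := Nat.le_of_dvd (by norm_num) hZd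
      obtain ⟨k2, hk2⟩ := h2Z
      obtain ⟨k3, hk3⟩ := h3Z
      have hpos : 0 < Nat.card Z := Nat.card_pos
      omega
    have hle : Subgroup.normalizer ((Q : Subgroup G) : Set G) ≤
        Subgroup.centralizer ((Q : Subgroup G) : Set G) := by
      rw [← hZ]
      have hh := Subgroup.eq_of_le_of_card_ge hZN (by rw [hZ6, hNc])
      rw [hh]
    have hcomp := MonoidHom.ker_transferSylow_isComplement' Q hle
    have hcm := hcomp.card_mul_card
    rcases (MonoidHom.normal_ker (MonoidHom.transferSylow Q hle)).eq_bot_or_eq_top with hb | ht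
    · rw [hb, Subgroup.card_bot, hc, h] at hcm; omega
    · rw [ht, Subgroup.card_top, hc, h] at hcm; omega
  have h8 : Nat.card C ∣ 8 := by
    have hcop : Nat.Coprime (Nat.card C) 21 := by
      have e21 : (21 : ℕ) = 3 * 7 := by norm_num
      rw [e21]
      exact Nat.Coprime.mul_right ((Nat.Prime.coprime_iff_not_dvd (by norm_num)).mpr h3).symm
        ((Nat.Prime.coprime_iff_not_dvd (by norm_num)).mpr h7).symm
    apply hcop.dvd_of_dvd_mul_right
    have e168 : (8 * 21 : ℕ) = 168 := by norm_num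
    rw [e168]; exact hCd
  obtain ⟨k, hk, hk2⟩ := (Nat.dvd_prime_pow Nat.prime_two).mp (show Nat.card C ∣ 2 ^ 3 from h8)
  exact IsPGroup.of_card hk2

theorem exists_inter (T : Sylow 2 G) (n2 : Nat.card (Sylow 2 G) = 21)
    (hT : Nat.card (T : Subgroup G) = 8) :
    ∃ T' : Sylow 2 G, T' ≠ T ∧ (T : Subgroup G) ⊓ (T' : Subgroup G) ≠ ⊥ := by
  haveI : Fact (Nat.Prime 2) := ⟨by norm_num⟩
  by_contra hcon
  push Not at hcon
  let X : SubMulAction (↥(T : Subgroup G)) (Sylow 2 G) :=
    { carrier := {T' | T' ≠ T}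
      smul_mem' := by
        intro g T' hT' heq
        apply hT'
        have h1 : (g : G) • T' = T := heq
        have h2 : T' = (g : G)⁻¹ • T := by rw [eq_inv_smul_iff]; exact h1
        rw [h2]
        exact Sylow.smul_eq_iff_mem_normalizer.mpr (Subgroup.le_normalizer (inv_mem g.2)) }
  have hfree : ∀ x : X, MulAction.stabilizer (↥(T : Subgroup G)) x = ⊥ := by
    intro x
    rw [eq_bot_iff]
    intro g hg
    rw [MulAction.mem_stabilizer_iff] at hg
    have h1 : (g : G) • (x : Sylow 2 G) = (x : Sylow 2 G) := congrArg Subtype.val hg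
    have h2 := Sylow.smul_eq_iff_mem_normalizer.mp h1
    have h3 : (g : G) ∈ (T : Subgroup G) ⊓ ((x : Sylow 2 G) : Subgroup G) := by
      rw [← T.2.inf_normalizer_sylow (x : Sylow 2 G)]
      exact ⟨g.2, h2⟩
    have hx : (x : Sylow 2 G) ≠ T := x.2
    rw [hcon (x : Sylow 2 G) hx] at h3
    rw [Subgroup.mem_bot]
    exact Subtype.ext (Subgroup.mem_bot.mp h3)
  have e := MulAction.selfEquivOrbitsQuotientProd hfree
  have hc : Nat.card X = Nat.card (Quotient (MulAction.orbitRel (↥(T : Subgroup G)) X)) *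
      Nat.card (T : Subgroup G) := by
    rw [Nat.card_congr e, Nat.card_prod]
  have hX : Nat.card X = 20 := by
    have h1 : Nat.card X = Set.ncard {T' : Sylow 2 G | T' ≠ T} :=
      Nat.card_coe_set_eq {T' : Sylow 2 G | T' ≠ T}
    have h2 := Set.ncard_add_ncard_compl ({T} : Set (Sylow 2 G))
    rw [Set.ncard_singleton, n2] at h2
    have h3 : ({T} : Set (Sylow 2 G))ᶜ = {T' : Sylow 2 G | T' ≠ T} := by ext; simp
    rw [h3] at h2
    omega
  rw [hX, hT] at hc
  omega

end

theorem d8_of_noncentral_invol {H : Type*} [Group H] [Finite H] (hcard : Nat.card H = 8)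
    (t x : H) (ht : t * t = 1) (hxt : x * t ≠ t * x) : Nonempty (H ≃* DihedralGroup 4) := by
  haveI : Fact (Nat.Prime 2) := ⟨by norm_num⟩
  have hcard' : Nat.card H = 2 ^ 3 := by rw [hcard]; norm_num
  have hnc : ¬ ∀ a b : H, a * b = b * a := fun hh => hxt (hh x t)
  have hZ2 := Cfsg.Agent.Lib.Helper8.p3_center_card8 hcard' hnc
  have hzsq : ∀ z ∈ Subgroup.center H, z * z = 1 := by
    intro z hz
    have h1 := pow_card_eq_one' (G := Subgroup.center H) (x := ⟨z, hz⟩)
    rw [hZ2] at h1
    have h2 := congrArg Subtype.val h1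
    simpa [pow_two] using h2
  have htinv : t⁻¹ = t := inv_eq_of_mul_eq_one_right ht
  obtain ⟨s, hs, hst⟩ : ∃ s : H, s * s = 1 ∧ s * t ≠ t * s := by
    have hx2 := Cfsg.Agent.Lib.Helper8.p3_pow_mem8 hcard' hnc x
    have hcm := Cfsg.Agent.Lib.Helper8.p3_comm_mem8 hcard' hnc x t
    obtain ⟨c, hcdef⟩ : ∃ c : H, c = ⁅x, t⁆ := ⟨_, rfl⟩
    rw [← hcdef] at hcm
    have hc1 : c ≠ 1 := by
      rw [hcdef]
      intro h1
      rw [commutatorElement_eq_one_iff_commute] at h1
      exact hxt h1.eq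
    have hcc : ∀ g : H, g * c = c * g := fun g => Subgroup.mem_center_iff.mp hcm g
    have hc2 : c * c = 1 := hzsq c hcm
    have hxt' : x * t = c * t * x := by
      rw [hcdef, commutatorElement_def]
      group
    by_cases hx1 : x ^ 2 = 1
    · exact ⟨x, by rw [← pow_two]; exact hx1, hxt⟩
    · have hxc : x * x = c := by
        obtain ⟨y, hy, hyu⟩ := (Nat.card_eq_two_iff' (1 : Subgroup.center H)).mp hZ2
        have e1 : (⟨x ^ 2, hx2⟩ : Subgroup.center H) = y :=
          hyu _ (fun hh => hx1 (congrArg Subtype.val hh))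
        have e2 : (⟨c, hcm⟩ : Subgroup.center H) = y :=
          hyu _ (fun hh => hc1 (congrArg Subtype.val hh))
        have e3 : x ^ 2 = c := congrArg Subtype.val (e1.trans e2.symm)
        rw [← pow_two]; exact e3
      refine ⟨x * t, ?_, ?_⟩
      · calc x * t * (x * t) = c * t * x * (x * t) := by rw [← hxt']
          _ = c * t * (x * x) * t := by simp only [mul_assoc]
          _ = c * (t * c) * t := by rw [hxc]; simp only [mul_assoc]
          _ = c * (c * t) * t := by rw [hcc t]
          _ = (c * c) * (t * t) := by simp only [mul_assoc]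
          _ = 1 := by rw [hc2, ht, one_mul]
      · intro heq
        apply hxt
        have h1 : x * t * t = x := by rw [mul_assoc, ht, mul_one]
        rw [h1] at heq
        calc x * t = t * (x * t) * t := by rw [← heq]
          _ = t * x := by rw [mul_assoc, mul_assoc, ht, mul_one]
  obtain ⟨r, hr⟩ : ∃ r : H, r = s * t := ⟨_, rfl⟩
  have hsinv : s⁻¹ = s := inv_eq_of_mul_eq_one_right hs
  have hr2 : r ^ 2 ≠ 1 := by
    intro h1
    apply hst
    rw [hr, pow_two] at h1
    have h2 : s * t = (s * t)⁻¹ := (inv_eq_of_mul_eq_one_right h1).symm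
    rw [mul_inv_rev, hsinv, htinv] at h2
    exact h2
  have hr4 : r ^ 4 = 1 := by
    have h1 := Cfsg.Agent.Lib.Helper8.p3_pow_mem8 hcard' hnc r
    have h2 := hzsq _ h1
    rw [← pow_add] at h2; exact h2
  have hro : orderOf r = 4 := by
    have e4 : (2 : ℕ) ^ (1 + 1) = 4 := by norm_num
    have hh := orderOf_eq_prime_pow (p := 2) (n := 1) (x := r) (by rw [pow_one]; exact hr2)
      (by rw [e4]; exact hr4)
    rw [e4] at hh; exact hh
  obtain ⟨R, hR⟩ : ∃ R : Subgroup H, R = Subgroup.zpowers r := ⟨_, rfl⟩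
  have hRc : Nat.card R = 4 := by rw [hR, Nat.card_zpowers, hro]
  have hRi : R.index = 2 := by
    have h1 := Subgroup.card_mul_index R
    rw [hRc, hcard] at h1; omega
  have htR : t ∉ R := by
    intro h1
    rw [hR] at h1
    obtain ⟨k, hk⟩ := Subgroup.mem_zpowers_iff.mp h1
    have h2 : t * r = r * t := by rw [← hk]; exact ((Commute.refl r).zpow_left k).eq
    apply hst
    rw [hr] at h2
    have h3 : s * t * t = s := by rw [mul_assoc, ht, mul_one]
    rw [h3] at h2
    calc s * t = t * (s * t) * t := by rw [h2]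
      _ = t * s := by rw [mul_assoc, mul_assoc, ht, mul_one]
  haveI : NeZero (4 : ℕ) := ⟨by norm_num⟩
  refine Cfsg.Agent.S0114.dihedral_iso 4 r t hr4 ht ?_ (by omega) ?_
  · rw [hr, htinv, mul_inv_rev, hsinv, htinv]
    rw [mul_assoc, mul_assoc, ht, mul_one]
  · intro q
    by_cases hq : q ∈ R
    · left
      rw [hR] at hq
      obtain ⟨k, hk⟩ := Subgroup.mem_zpowers_iff.mp hq
      exact ⟨k, hk.symm⟩
    · right
      have h1 : t * q ∈ R := (Subgroup.mul_mem_iff_of_index_two hRi).mpr
        ⟨fun hh => absurd hh htR, fun hh => absurd hh hq⟩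
      rw [hR] at h1
      obtain ⟨k, hk⟩ := Subgroup.mem_zpowers_iff.mp h1
      refine ⟨k, ?_⟩
      rw [hk, ← mul_assoc, ht, one_mul]

/-- Let G be a simple group of order 168 and T a Sylow 2-subgroup. Then T is dihedral of order 8, T is its own normalizer, and T is the centralizer of any non-identity element of T that commutes with every element of T. -/
theorem result {G : Type*} [Group G] [Finite G] [IsSimpleGroup G] (h : Nat.card G = 168) (T : Sylow 2 G) : Nonempty (↥(T : Subgroup G) ≃* DihedralGroup 4) ∧ Subgroup.normalizer ((T : Subgroup G) : Set G) = T ∧ ∀ z : G, z ∈ (T : Subgroup G) → z ≠ 1 → (∀ t ∈ (T : Subgroup G), t * z = z * t) → Subgroup.centralizer ({z} : Set G) = T := by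
  haveI : Fact (Nat.Prime 2) := ⟨by norm_num⟩
  obtain ⟨n2, n3, n7⟩ := Cfsg.Agent.Lib.Helper6.s168_main h
  have hc8 : ∀ R : Sylow 2 G, Nat.card (R : Subgroup G) = 8 := by
    intro R
    have hh := Cfsg.Agent.Lib.Helper6.syl_card R 3 21 (by rw [h]; norm_num) (by norm_num)
    rw [hh]; norm_num
  have hcent : ∀ (R : Sylow 2 G) (z : G), z ∈ (R : Subgroup G) → z ≠ 1 →
      (∀ t ∈ (R : Subgroup G), t * z = z * t) → Subgroup.centralizer ({z} : Set G) = R := by
    intro R z hzR hz1 hzc
    have hz8 : z ^ 8 = 1 := by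
      have h1 := pow_card_eq_one' (G := (R : Subgroup G)) (x := ⟨z, hzR⟩)
      rw [hc8 R] at h1
      have h2 := congrArg Subtype.val h1
      simpa using h2
    have hp := cent2 h z hz1 hz8
    obtain ⟨R', hR'⟩ := hp.exists_le_sylow
    have hle : (R : Subgroup G) ≤ Subgroup.centralizer ({z} : Set G) := by
      intro t ht
      rw [Subgroup.mem_centralizer_iff]
      intro y hy
      rw [Set.mem_singleton_iff] at hy
      rw [hy]
      exact (hzc t ht).symm
    symm
    apply Subgroup.eq_of_le_of_card_ge hle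
    have h1 : Nat.card (Subgroup.centralizer ({z} : Set G)) ≤ Nat.card (R' : Subgroup G) :=
      Subgroup.card_le_of_le hR'
    rw [hc8 R'] at h1
    rw [hc8 R]; exact h1
  refine ⟨?_, ?_, fun z hz hz1 hzc => hcent T z hz hz1 hzc⟩
  · have hex : ∃ t ∈ (T : Subgroup G), t * t = 1 ∧ t ≠ 1 ∧
        ∃ x ∈ (T : Subgroup G), x * t ≠ t * x := by
      by_contra hall
      push Not at hall
      obtain ⟨T', hne, hint⟩ := exists_inter T n2 (hc8 T)
      obtain ⟨D, hD⟩ : ∃ D : Subgroup G, D = (T : Subgroup G) ⊓ (T' : Subgroup G) := ⟨_, rfl⟩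
      rw [← hD] at hint
      have hDd : Nat.card D ∣ 2 ^ 3 := by
        have hh := Subgroup.card_dvd_of_le (show D ≤ (T : Subgroup G) by rw [hD]; exact inf_le_left)
        rw [hc8 T] at hh
        have e8 : (2 : ℕ) ^ 3 = 8 := by norm_num
        rw [e8]; exact hh
      obtain ⟨k, hk, hk2⟩ := (Nat.dvd_prime_pow Nat.prime_two).mp hDd
      have hk0 : k ≠ 0 := by
        rintro rfl
        rw [pow_zero] at hk2
        exact hint (Subgroup.eq_bot_of_card_eq D hk2)
      have h2D : 2 ∣ Nat.card D := by rw [hk2]; exact dvd_pow_self 2 hk0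
      obtain ⟨v, hv⟩ := exists_prime_orderOf_dvd_card' (G := D) 2 h2D
      have hvG : orderOf (v : G) = 2 := by rw [Subgroup.orderOf_coe]; exact hv
      have hv2 : (v : G) * (v : G) = 1 := by rw [← pow_two, ← hvG]; exact pow_orderOf_eq_one _
      have hv1 : (v : G) ≠ 1 := by
        intro h1; rw [h1, orderOf_one] at hvG; omega
      have hDle1 : D ≤ (T : Subgroup G) := by rw [hD]; exact inf_le_left
      have hDle2 : D ≤ (T' : Subgroup G) := by rw [hD]; exact inf_le_right
      have hvT : (v : G) ∈ (T : Subgroup G) := hDle1 v.2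
      have hvT' : (v : G) ∈ (T' : Subgroup G) := hDle2 v.2
      have hcT := hall (v : G) hvT hv2 hv1
      obtain ⟨g, hg⟩ := MulAction.exists_smul_eq G T T'
      have hmem : ∀ y : G, y ∈ (T' : Subgroup G) ↔ ∃ s ∈ (T : Subgroup G), g * s * g⁻¹ = y := by
        intro y
        rw [← hg, Sylow.coe_subgroup_smul, Subgroup.mem_smul_pointwise_iff_exists]
        simp only [MulAut.smul_def, MulAut.conj_apply]
      obtain ⟨s, hsT, hsv⟩ := (hmem (v : G)).mp hvT'
      have hs2 : s * s = 1 := by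
        have h1 : g * s * g⁻¹ * (g * s * g⁻¹) = 1 := by rw [hsv]; exact hv2
        have h2 : g * (s * s) * g⁻¹ = 1 := by rw [← h1]; group
        have h3 : s * s = g⁻¹ * (g * (s * s) * g⁻¹) * g := by group
        rw [h3, h2]; group
      have hs1 : s ≠ 1 := by
        rintro rfl
        apply hv1; rw [← hsv]; group
      have hcs := hall s hsT hs2 hs1
      have hcT' : ∀ y ∈ (T' : Subgroup G), y * (v : G) = (v : G) * y := by
        intro y hy
        obtain ⟨r, hrT, hry⟩ := (hmem y).mp hy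
        rw [← hry, ← hsv]
        have hh := hcs r hrT
        calc g * r * g⁻¹ * (g * s * g⁻¹) = g * (r * s) * g⁻¹ := by group
          _ = g * (s * r) * g⁻¹ := by rw [hh]
          _ = g * s * g⁻¹ * (g * r * g⁻¹) := by group
      have e1 := hcent T (v : G) hvT hv1 hcT
      have e2 := hcent T' (v : G) hvT' hv1 hcT'
      apply hne
      apply Sylow.ext
      rw [← e2, e1]
    obtain ⟨t, htT, ht2, ht1, x, hxT, hxt⟩ := hex
    apply d8_of_noncentral_invol (hc8 T) (⟨t, htT⟩ : (T : Subgroup G)) ⟨x, hxT⟩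
    · exact Subtype.ext ht2
    · intro heq
      exact hxt (congrArg Subtype.val heq)
  · have h1 := Cfsg.Agent.Lib.Helper6.syl_norm_card T
    rw [n2, h] at h1
    symm
    apply Subgroup.eq_of_le_of_card_ge Subgroup.le_normalizer
    rw [hc8 T]; omega


end Cfsg.Agent.S1004
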