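import Mathlib
import Cfsg.Statements.S1005
import Cfsg.Agent.S1004

set_option autoImplicit false
open Cfsg

namespace Cfsg.Agent.S1005


section
variable {G : Type*} [Group G] [Finite G]

theorem conj_into [IsSimpleGroup G] (h : Nat.card G = 168) (M : Subgroup G) (hM : Nat.card M = 4)
    (u : G) (hu2 : u * u = 1) (hu1 : u ≠ 1) : ∃ g : G, g⁻¹ * u * g ∈ M := by
  classical
  haveI : Fact (Nat.Prime 2) := ⟨Nat.prime_two⟩
  by_contra hcon
  push Not at hcon
  haveI : Fintype (G ⧸ M) := Fintype.ofFinite _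
  obtain ⟨φ, hφ⟩ : ∃ φ : G →* Equiv.Perm (G ⧸ M), φ = MulAction.toPermHom G (G ⧸ M) := ⟨_, rfl⟩
  obtain ⟨ψ, hψ⟩ : ∃ ψ : G →* ℤˣ, ψ = Equiv.Perm.sign.comp φ := ⟨_, rfl⟩
  have hker : ψ.ker = ⊤ := by
    rcases (MonoidHom.normal_ker ψ).eq_bot_or_eq_top with hb | ht
    · exfalso
      have hinj : Function.Injective ψ := (MonoidHom.ker_eq_bot_iff ψ).mp hb
      have h1 := Nat.card_le_card_of_injective ψ hinj
      have e2 : Nat.card ℤˣ = 2 := by rw [Nat.card_eq_fintype_card]; rfl
      rw [h, e2] at h1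
      omega
    · exact ht
  have hsign : Equiv.Perm.sign (φ u) = 1 := by
    have h1 : u ∈ ψ.ker := by rw [hker]; exact Subgroup.mem_top u
    have h2 := MonoidHom.mem_ker.mp h1
    rw [hψ] at h2
    exact h2
  have huinv : u⁻¹ = u := inv_eq_of_mul_eq_one_right hu2
  have hfix : ∀ q : G ⧸ M, φ u q ≠ q := by
    intro q heq
    obtain ⟨g, rfl⟩ := QuotientGroup.mk_surjective q
    rw [hφ] at heq
    have h1 : ((u * g : G) : G ⧸ M) = (g : G ⧸ M) := heq
    rw [QuotientGroup.eq] at h1
    apply hcon g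
    have h2 : (u * g)⁻¹ * g = g⁻¹ * u * g := by rw [mul_inv_rev, huinv]
    rw [← h2]; exact h1
  have hφ2 : (φ u) ^ 2 = 1 := by
    rw [← map_pow, pow_two, hu2, map_one]
  have hφ1 : φ u ≠ 1 := by
    intro h1
    exact hfix ((1 : G) : G ⧸ M) (by rw [h1]; rfl)
  have ho : orderOf (φ u) = 2 := orderOf_eq_prime hφ2 hφ1
  have hprime : (orderOf (φ u)).Prime := by rw [ho]; exact Nat.prime_two
  obtain ⟨n, hn⟩ := Equiv.Perm.cycleType_prime_order hprime
  rw [ho] at hn
  have hsupp : (φ u).support = Finset.univ := by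
    ext q
    simp only [Equiv.Perm.mem_support, Finset.mem_univ, iff_true]
    exact hfix q
  have hq42 : Nat.card (G ⧸ M) = 42 := by
    have h1 := Subgroup.card_eq_card_quotient_mul_card_subgroup M
    rw [h, hM] at h1
    omega
  have hsum : (φ u).cycleType.sum = 42 := by
    rw [Equiv.Perm.sum_cycleType, hsupp, Finset.card_univ, ← Nat.card_eq_fintype_card]
    exact hq42
  have hn20 : n = 20 := by
    rw [hn, Multiset.sum_replicate, smul_eq_mul] at hsum
    omega
  have hs := Equiv.Perm.sign_of_cycleType (φ u)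
  rw [hn, Multiset.sum_replicate, Multiset.card_replicate, hn20, hsign] at hs
  have hneg : (-1 : ℤˣ) ^ ((20 + 1) • 2 + (20 + 1)) = -1 := by
    have e63 : ((20 + 1) • 2 + (20 + 1) : ℕ) = 2 * 31 + 1 := by norm_num
    rw [e63, pow_succ, pow_mul, neg_one_sq, one_pow, one_mul]
  rw [hneg] at hs
  exact absurd hs (by decide)

theorem syl_noncomm [IsSimpleGroup G] (h : Nat.card G = 168) (R : Sylow 2 G) :
    ¬ ∀ a b : (R : Subgroup G), a * b = b * a := by
  obtain ⟨⟨e⟩, -, -⟩ := Cfsg.Agent.S1004.result h R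
  intro hh
  have h1 := hh (e.symm (DihedralGroup.r 1)) (e.symm (DihedralGroup.sr 0))
  rw [← map_mul, ← map_mul] at h1
  have h2 := e.symm.injective h1
  revert h2; decide

theorem syl_facts [IsSimpleGroup G] (h : Nat.card G = 168) (R : Sylow 2 G) :
    ∃ z : G, z ∈ (R : Subgroup G) ∧ z ≠ 1 ∧ z * z = 1 ∧
      (∀ t ∈ (R : Subgroup G), t * z = z * t) ∧
      ∀ w : G, w ∈ (R : Subgroup G) → w ≠ 1 → (∀ t ∈ (R : Subgroup G), t * w = w * t) → w = z := by
  haveI : Fact (Nat.Prime 2) := ⟨Nat.prime_two⟩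
  obtain ⟨⟨e⟩, -, -⟩ := Cfsg.Agent.S1004.result h R
  have hc8 : Nat.card (R : Subgroup G) = 2 ^ 3 := by
    rw [Nat.card_congr e.toEquiv, DihedralGroup.nat_card]; norm_num
  have hnc := syl_noncomm h R
  have hZ2 := Cfsg.Agent.Lib.Helper8.p3_center_card8 hc8 hnc
  obtain ⟨y, hy, hyu⟩ := (Nat.card_eq_two_iff' (1 : Subgroup.center (R : Subgroup G))).mp hZ2
  refine ⟨((y : (R : Subgroup G)) : G), (y : (R : Subgroup G)).2, ?_, ?_, ?_, ?_⟩
  · intro h1
    apply hy
    apply Subtype.ext; apply Subtype.ext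
    exact h1
  · have h1 := pow_card_eq_one' (G := Subgroup.center (R : Subgroup G)) (x := y)
    rw [hZ2] at h1
    have h2 := congrArg (fun w : Subgroup.center (R : Subgroup G) => ((w : (R : Subgroup G)) : G)) h1
    simpa [pow_two] using h2
  · intro t ht
    have h1 := Subgroup.mem_center_iff.mp y.2 ⟨t, ht⟩
    exact congrArg Subtype.val h1
  · intro w hw hw1 hwc
    have hwc' : (⟨w, hw⟩ : (R : Subgroup G)) ∈ Subgroup.center (R : Subgroup G) := by
      rw [Subgroup.mem_center_iff]
      intro g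
      apply Subtype.ext
      exact hwc g.1 g.2
    have h1 : (⟨⟨w, hw⟩, hwc'⟩ : Subgroup.center (R : Subgroup G)) = y :=
      hyu _ (fun hh => hw1 (congrArg
        (fun w : Subgroup.center (R : Subgroup G) => ((w : (R : Subgroup G)) : G)) hh))
    exact congrArg (fun w : Subgroup.center (R : Subgroup G) => ((w : (R : Subgroup G)) : G)) h1

theorem invol_central [IsSimpleGroup G] (h : Nat.card G = 168) (u : G) (hu2 : u * u = 1)
    (hu1 : u ≠ 1) :
    ∃ R : Sylow 2 G, u ∈ (R : Subgroup G) ∧ ∀ t ∈ (R : Subgroup G), t * u = u * t := by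
  haveI : Fact (Nat.Prime 2) := ⟨Nat.prime_two⟩
  obtain ⟨T⟩ := (inferInstance : Nonempty (Sylow 2 G))
  obtain ⟨⟨e⟩, -, -⟩ := Cfsg.Agent.S1004.result h T
  obtain ⟨m, hm⟩ : ∃ m : (T : Subgroup G), m = e.symm (DihedralGroup.r 1) := ⟨_, rfl⟩
  have hem : e m = DihedralGroup.r 1 := by rw [hm, e.apply_symm_apply]
  have hmo : orderOf m = 4 := by
    rw [← e.orderOf_eq m, hem, DihedralGroup.orderOf_r_one]
  obtain ⟨M, hMdef⟩ : ∃ M : Subgroup G,
      M = (Subgroup.zpowers m).map (T : Subgroup G).subtype := ⟨_, rfl⟩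
  have hM : Nat.card M = 4 := by
    rw [hMdef, Subgroup.card_map_of_injective (Subgroup.subtype_injective _), Nat.card_zpowers,
      hmo]
  obtain ⟨g, hg⟩ := conj_into h M hM u hu2 hu1
  rw [hMdef, Subgroup.mem_map] at hg
  obtain ⟨w, hwz, hw⟩ := hg
  have hw' : (w : G) = g⁻¹ * u * g := hw
  obtain ⟨k, hk⟩ := Subgroup.mem_zpowers_iff.mp hwz
  have hew : e w = DihedralGroup.r (k : ZMod 4) := by
    rw [← hk, map_zpow, hem, DihedralGroup.r_one_zpow]
  have hw2 : w * w = 1 := by
    apply Subtype.ext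
    show (w : G) * (w : G) = 1
    rw [hw']
    calc g⁻¹ * u * g * (g⁻¹ * u * g) = g⁻¹ * (u * u) * g := by group
      _ = 1 := by rw [hu2]; group
  have hw1 : w ≠ 1 := by
    intro h1
    apply hu1
    have h2 : (w : G) = 1 := by rw [h1]; rfl
    rw [hw'] at h2
    calc u = g * (g⁻¹ * u * g) * g⁻¹ := by group
      _ = 1 := by rw [h2]; group
  have hdec : ∀ i : ZMod 4, DihedralGroup.r i * DihedralGroup.r i = (1 : DihedralGroup 4) →
      DihedralGroup.r i ≠ (1 : DihedralGroup 4) →
      ∀ y : DihedralGroup 4, y * DihedralGroup.r i = DihedralGroup.r i * y := by decide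
  have hwc : ∀ t : (T : Subgroup G), t * w = w * t := by
    intro t
    apply e.injective
    rw [map_mul, map_mul, hew]
    apply hdec
    · rw [← hew, ← map_mul, hw2, map_one]
    · rw [← hew]
      intro h1
      exact hw1 (e.injective (by rw [h1, map_one]))
  have hmem : ∀ y : G, y ∈ ((g • T : Sylow 2 G) : Subgroup G) ↔
      ∃ s ∈ (T : Subgroup G), g * s * g⁻¹ = y := by
    intro y
    rw [Sylow.coe_subgroup_smul, Subgroup.mem_smul_pointwise_iff_exists]
    simp only [MulAut.smul_def, MulAut.conj_apply]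
  have hu' : u = g * (w : G) * g⁻¹ := by rw [hw']; group
  refine ⟨g • T, (hmem u).mpr ⟨(w : G), w.2, hu'.symm⟩, ?_⟩
  intro t ht
  obtain ⟨s, hsT, hst⟩ := (hmem t).mp ht
  have hh' : s * (w : G) = (w : G) * s := congrArg Subtype.val (hwc ⟨s, hsT⟩)
  rw [← hst, hu']
  calc g * s * g⁻¹ * (g * (w : G) * g⁻¹) = g * (s * (w : G)) * g⁻¹ := by group
    _ = g * ((w : G) * s) * g⁻¹ := by rw [hh']
    _ = g * (w : G) * g⁻¹ * (g * s * g⁻¹) := by group

end

/-- In a simple group of order 168 every element has order 1, 2, 3, 4 or 7; there are exactly 21 elements of order 2, and any two of them are conjugate. -/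
theorem result {G : Type*} [Group G] [Finite G] [IsSimpleGroup G] (h : Nat.card G = 168) : (∀ g : G, orderOf g = 1 ∨ orderOf g = 2 ∨ orderOf g = 3 ∨ orderOf g = 4 ∨ orderOf g = 7) ∧ Nat.card {g : G // orderOf g = 2} = 21 ∧ ∀ s t : G, orderOf s = 2 → orderOf t = 2 → IsConj s t := by
  haveI : Fact (Nat.Prime 2) := ⟨Nat.prime_two⟩
  haveI : Fact (Nat.Prime 3) := ⟨by norm_num⟩
  obtain ⟨n2, n3, n7⟩ := Cfsg.Agent.Lib.Helper6.s168_main h
  have hinv : ∀ u : G, orderOf u = 2 → u * u = 1 ∧ u ≠ 1 := by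
    intro u hu
    refine ⟨?_, ?_⟩
    · rw [← pow_two, ← hu]; exact pow_orderOf_eq_one u
    · intro h1; rw [h1, orderOf_one] at hu; omega
  refine ⟨?_, ?_, ?_⟩
  · intro g
    have hn : orderOf g ∣ 168 := by rw [← h]; exact orderOf_dvd_natCard g
    have hpos : 0 < orderOf g := orderOf_pos g
    by_cases h2 : 2 ∣ orderOf g
    · obtain ⟨u, hudef⟩ : ∃ u : G, u = g ^ (orderOf g / 2) := ⟨_, rfl⟩
      have huo : orderOf u = 2 := by rw [hudef]; exact orderOf_pow_orderOf_div hpos.ne' h2
      obtain ⟨hu2, hu1⟩ := hinv u huo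
      have hu8 : u ^ 8 = 1 := by
        have e8 : (8 : ℕ) = 2 * 4 := by norm_num
        rw [e8, pow_mul, pow_two, hu2, one_pow]
      have hp := Cfsg.Agent.S1004.cent2 h u hu1 hu8
      have hgC : g ∈ Subgroup.centralizer ({u} : Set G) := by
        rw [Subgroup.mem_centralizer_iff]
        intro y hy
        rw [Set.mem_singleton_iff] at hy
        rw [hy, hudef]
        exact pow_mul_comm' g _
      obtain ⟨k, hk⟩ := hp ⟨g, hgC⟩
      have hgk : g ^ 2 ^ k = 1 := congrArg Subtype.val hk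
      have hd : orderOf g ∣ 2 ^ k := orderOf_dvd_of_pow_eq_one hgk
      obtain ⟨j, hj, hj2⟩ := (Nat.dvd_prime_pow Nat.prime_two).mp hd
      have hj3 : j ≤ 3 := by
        by_contra hcon
        push Not at hcon
        have h16 : 2 ^ 4 ∣ 2 ^ j := pow_dvd_pow 2 hcon
        rw [← hj2] at h16
        have h16' : (2 : ℕ) ^ 4 ∣ 168 := dvd_trans h16 hn
        norm_num at h16'
      interval_cases j
      · rw [hj2] at h2; norm_num at h2
      · right; left; rw [hj2]; norm_num
      · right; right; right; left; rw [hj2]; norm_num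
      · exfalso
        have ho8 : orderOf g = 8 := by rw [hj2]; norm_num
        have hA : IsPGroup 2 (Subgroup.zpowers g) := by
          apply IsPGroup.of_card (n := 3)
          rw [Nat.card_zpowers, ho8]; norm_num
        obtain ⟨Q, hQ⟩ := hA.exists_le_sylow
        obtain ⟨⟨e⟩, -, -⟩ := Cfsg.Agent.S1004.result h Q
        have hc : Nat.card (Q : Subgroup G) = 8 := by
          rw [Nat.card_congr e.toEquiv, DihedralGroup.nat_card]
        have hQeq : Subgroup.zpowers g = (Q : Subgroup G) := by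
          apply Subgroup.eq_of_le_of_card_ge hQ
          rw [hc, Nat.card_zpowers, ho8]
        apply syl_noncomm h Q
        intro a b
        have ha : (a : G) ∈ Subgroup.zpowers g := by rw [hQeq]; exact a.2
        have hb : (b : G) ∈ Subgroup.zpowers g := by rw [hQeq]; exact b.2
        obtain ⟨i, hi⟩ := Subgroup.mem_zpowers_iff.mp ha
        obtain ⟨i', hi'⟩ := Subgroup.mem_zpowers_iff.mp hb
        apply Subtype.ext
        show (a : G) * (b : G) = (b : G) * (a : G)
        rw [← hi, ← hi', ← zpow_add, ← zpow_add, add_comm]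
    · have hcop : Nat.Coprime (orderOf g) 8 := by
        have hc2 : Nat.Coprime (orderOf g) 2 :=
          ((Nat.Prime.coprime_iff_not_dvd Nat.prime_two).mpr h2).symm
        have e8 : (8 : ℕ) = 2 ^ 3 := by norm_num
        rw [e8]
        exact Nat.Coprime.pow_right 3 hc2
      have h21 : orderOf g ∣ 21 := by
        apply hcop.dvd_of_dvd_mul_right
        have e168 : (21 * 8 : ℕ) = 168 := by norm_num
        rw [e168]; exact hn
      have hmemd : orderOf g ∈ Nat.divisors 21 := Nat.mem_divisors.mpr ⟨h21, by norm_num⟩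
      have hdv : Nat.divisors 21 = {1, 3, 7, 21} := by decide
      rw [hdv] at hmemd
      simp only [Finset.mem_insert, Finset.mem_singleton] at hmemd
      rcases hmemd with h1 | h3 | h7 | h21'
      · left; exact h1
      · right; right; left; exact h3
      · right; right; right; right; exact h7
      · exfalso
        have hao : orderOf (g ^ (orderOf g / 3)) = 3 :=
          orderOf_pow_orderOf_div hpos.ne' (by rw [h21']; norm_num)
        have hbo : orderOf (g ^ (orderOf g / 7)) = 7 :=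
          orderOf_pow_orderOf_div hpos.ne' (by rw [h21']; norm_num)
        obtain ⟨Q, hQeq⟩ := Cfsg.Agent.Lib.Helper6.syl3_of_order3 h _ hao
        have hbN := (Cfsg.Agent.S1004.key Q (g ^ (orderOf g / 7)) (g ^ (orderOf g / 3)) hQeq
          (Commute.pow_pow_self g _ _).eq).1
        have hN := Cfsg.Agent.Lib.Helper6.syl_norm_card Q
        rw [n3, h] at hN
        have hd7 := orderOf_dvd_natCard
          (⟨_, hbN⟩ : Subgroup.normalizer ((Q : Subgroup G) : Set G))
        rw [Subgroup.orderOf_mk, hbo] at hd7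
        have hN6 : Nat.card (Subgroup.normalizer ((Q : Subgroup G) : Set G)) = 6 := by omega
        rw [hN6] at hd7
        norm_num at hd7
  · classical
    choose zf hzf using fun R : Sylow 2 G => syl_facts h R
    have hzo : ∀ R, orderOf (zf R) = 2 := fun R =>
      orderOf_eq_prime (by rw [pow_two]; exact (hzf R).2.2.1) (hzf R).2.1
    obtain ⟨f, hf⟩ : ∃ f : Sylow 2 G → {g : G // orderOf g = 2}, ∀ R, (f R : G) = zf R :=
      ⟨fun R => ⟨zf R, hzo R⟩, fun R => rfl⟩
    have hbij : Function.Bijective f := by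
      constructor
      · intro R1 R2 heq
        have h1 : zf R1 = zf R2 := by rw [← hf R1, ← hf R2, heq]
        obtain ⟨-, -, hc1⟩ := Cfsg.Agent.S1004.result h R1
        obtain ⟨-, -, hc2⟩ := Cfsg.Agent.S1004.result h R2
        have e1 := hc1 (zf R1) (hzf R1).1 (hzf R1).2.1 (hzf R1).2.2.2.1
        have e2 := hc2 (zf R2) (hzf R2).1 (hzf R2).2.1 (hzf R2).2.2.2.1
        apply Sylow.ext
        rw [← e1, ← e2, h1]
      · rintro ⟨u, hu⟩
        obtain ⟨hu2, hu1⟩ := hinv u hu
        obtain ⟨R, huR, hcR⟩ := invol_central h u hu2 hu1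
        refine ⟨R, ?_⟩
        apply Subtype.ext
        rw [hf R]
        exact ((hzf R).2.2.2.2 u huR hu1 hcR).symm
    rw [← n2]
    exact (Nat.card_congr (Equiv.ofBijective f hbij)).symm
  · intro s t hs ht
    obtain ⟨hs2, hs1⟩ := hinv s hs
    obtain ⟨ht2, ht1⟩ := hinv t ht
    obtain ⟨R1, hsR, hcs⟩ := invol_central h s hs2 hs1
    obtain ⟨R2, htR, hct⟩ := invol_central h t ht2 ht1
    obtain ⟨g, hg⟩ := MulAction.exists_smul_eq G R1 R2
    have hmem : ∀ y : G, y ∈ (R2 : Subgroup G) ↔ ∃ x ∈ (R1 : Subgroup G), g * x * g⁻¹ = y := by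
      intro y
      rw [← hg, Sylow.coe_subgroup_smul, Subgroup.mem_smul_pointwise_iff_exists]
      simp only [MulAut.smul_def, MulAut.conj_apply]
    obtain ⟨z, hzR, hz1, hz2, hzc, hzu⟩ := syl_facts h R2
    have e1 : t = z := hzu t htR ht1 hct
    have e2 : g * s * g⁻¹ = z := by
      apply hzu
      · exact (hmem _).mpr ⟨s, hsR, rfl⟩
      · intro h1
        apply hs1
        calc s = g⁻¹ * (g * s * g⁻¹) * g := by group
          _ = 1 := by rw [h1]; group
      · intro y hy
        obtain ⟨x, hxR, hxy⟩ := (hmem y).mp hy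
        rw [← hxy]
        have hh := hcs x hxR
        calc g * x * g⁻¹ * (g * s * g⁻¹) = g * (x * s) * g⁻¹ := by group
          _ = g * (s * x) * g⁻¹ := by rw [hh]
          _ = g * s * g⁻¹ * (g * x * g⁻¹) := by group
    rw [isConj_iff]
    exact ⟨g, by rw [e2, e1]⟩


end Cfsg.Agent.S1005
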