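import Mathlib
import Cfsg.Statements.S1006
import Cfsg.Agent.S1005

set_option autoImplicit false
open Cfsg

namespace Cfsg.Agent.S1006


section
variable {G : Type*} [Group G] [Finite G]

theorem class_size (x : G) :
    Nat.card (Subgroup.centralizer ({x} : Set G)) * Nat.card {g : G // IsConj x g} =
      Nat.card G := by
  have h1 : (Subgroup.centralizer ({x} : Set G)).index =
      (MulAction.stabilizer (ConjAct G) x).index := by
    rw [Subgroup.centralizer_eq_comap_stabilizer]
    exact Subgroup.index_comap_of_surjective _ ConjAct.toConjAct.surjective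
  have h2 : (MulAction.stabilizer (ConjAct G) x).index =
      (MulAction.orbit (ConjAct G) x).ncard := by rw [MulAction.index_stabilizer]
  have h3 : MulAction.orbit (ConjAct G) x = {g : G | IsConj x g} := by
    ext g
    rw [ConjAct.mem_orbit_conjAct, isConj_comm]; rfl
  have h4 : Nat.card {g : G // IsConj x g} = ({g : G | IsConj x g} : Set G).ncard :=
    Nat.card_coe_set_eq _
  rw [h4, ← h3, ← h2, ← h1]
  exact Subgroup.card_mul_index _

theorem conj_order (c a : G) : orderOf (c * a * c⁻¹) = orderOf a := by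
  have hh := MulEquiv.orderOf_eq (MulAut.conj c) a
  rwa [MulAut.conj_apply] at hh

theorem cent3 [IsSimpleGroup G] (h : Nat.card G = 168) (a : G) (ha : orderOf a = 3) :
    Nat.card (Subgroup.centralizer ({a} : Set G)) = 3 := by
  haveI : Fact (Nat.Prime 2) := ⟨Nat.prime_two⟩
  haveI : Fact (Nat.Prime 3) := ⟨by norm_num⟩
  obtain ⟨n2, n3, n7⟩ := Cfsg.Agent.Lib.Helper6.s168_main h
  obtain ⟨Q, hQeq⟩ := Cfsg.Agent.Lib.Helper6.syl3_of_order3 h a ha
  have hN := Cfsg.Agent.Lib.Helper6.syl_norm_card Q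
  rw [n3, h] at hN
  have hN6 : Nat.card (Subgroup.normalizer ((Q : Subgroup G) : Set G)) = 6 := by omega
  obtain ⟨C, hC⟩ : ∃ C : Subgroup G, C = Subgroup.centralizer ({a} : Set G) := ⟨_, rfl⟩
  rw [← hC]
  have hmemC : ∀ w : G, w ∈ C → w * a = a * w := by
    intro w hw
    rw [hC, Subgroup.mem_centralizer_iff] at hw
    exact (hw a (Set.mem_singleton a)).symm
  have hCN : C ≤ Subgroup.normalizer ((Q : Subgroup G) : Set G) := by
    intro w hw
    exact (Cfsg.Agent.S1004.key Q w a hQeq (hmemC w hw)).1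
  have hd6 : Nat.card C ∣ 6 := by rw [← hN6]; exact Subgroup.card_dvd_of_le hCN
  have haC : a ∈ C := by
    rw [hC, Subgroup.mem_centralizer_iff]
    intro y hy
    rw [Set.mem_singleton_iff] at hy
    rw [hy]
  have h3 : 3 ∣ Nat.card C := by
    have h1 := orderOf_dvd_natCard (⟨a, haC⟩ : C)
    rwa [Subgroup.orderOf_mk, ha] at h1
  have h2 : ¬ 2 ∣ Nat.card C := by
    intro hd
    obtain ⟨u, hu⟩ := exists_prime_orderOf_dvd_card' (G := C) 2 hd
    have huG : orderOf (u : G) = 2 := by rw [Subgroup.orderOf_coe]; exact hu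
    have hu1 : (u : G) ≠ 1 := by intro h1; rw [h1, orderOf_one] at huG; omega
    have hu8 : (u : G) ^ 8 = 1 := by
      have e8 : (8 : ℕ) = 2 * 4 := by norm_num
      rw [e8, pow_mul, ← huG, pow_orderOf_eq_one, one_pow]
    have hp := Cfsg.Agent.S1004.cent2 h (u : G) hu1 hu8
    have haCu : a ∈ Subgroup.centralizer ({(u : G)} : Set G) := by
      rw [Subgroup.mem_centralizer_iff]
      intro y hy
      rw [Set.mem_singleton_iff] at hy
      rw [hy]
      exact hmemC (u : G) u.2
    obtain ⟨k, hk⟩ := hp ⟨a, haCu⟩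
    have hak : a ^ 2 ^ k = 1 := congrArg Subtype.val hk
    have hd3 : 3 ∣ 2 ^ k := by rw [← ha]; exact orderOf_dvd_of_pow_eq_one hak
    have hd3' := Nat.Prime.dvd_of_dvd_pow (by norm_num : Nat.Prime 3) hd3
    norm_num at hd3'
  have hle := Nat.le_of_dvd (by norm_num) hd6
  obtain ⟨k3, hk3⟩ := h3
  have hpos : 0 < Nat.card C := Nat.card_pos
  omega

theorem cent7 [IsSimpleGroup G] (h : Nat.card G = 168) (x : G) (hx : orderOf x = 7) :
    Nat.card (Subgroup.centralizer ({x} : Set G)) = 7 ∧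
      ∃ Q : Sylow 7 G, Subgroup.zpowers x = (Q : Subgroup G) ∧
        Nat.card (Subgroup.normalizer ((Q : Subgroup G) : Set G)) = 21 := by
  haveI : Fact (Nat.Prime 3) := ⟨by norm_num⟩
  haveI : Fact (Nat.Prime 7) := ⟨by norm_num⟩
  obtain ⟨n2, n3, n7⟩ := Cfsg.Agent.Lib.Helper6.s168_main h
  have hA : IsPGroup 7 (Subgroup.zpowers x) := by
    apply IsPGroup.of_card (n := 1)
    rw [Nat.card_zpowers, hx, pow_one]
  obtain ⟨Q, hQ⟩ := hA.exists_le_sylow
  have hc := Cfsg.Agent.Lib.Helper6.syl_card Q 1 24 (by rw [h]; norm_num) (by norm_num)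
  have hQeq : Subgroup.zpowers x = (Q : Subgroup G) := by
    apply Subgroup.eq_of_le_of_card_ge hQ
    rw [hc, Nat.card_zpowers, hx, pow_one]
  have hN := Cfsg.Agent.Lib.Helper6.syl_norm_card Q
  rw [n7, h] at hN
  have hN21 : Nat.card (Subgroup.normalizer ((Q : Subgroup G) : Set G)) = 21 := by omega
  refine ⟨?_, Q, hQeq, hN21⟩
  obtain ⟨C, hC⟩ : ∃ C : Subgroup G, C = Subgroup.centralizer ({x} : Set G) := ⟨_, rfl⟩
  rw [← hC]
  have hmemC : ∀ w : G, w ∈ C → w * x = x * w := by
    intro w hw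
    rw [hC, Subgroup.mem_centralizer_iff] at hw
    exact (hw x (Set.mem_singleton x)).symm
  have hCN : C ≤ Subgroup.normalizer ((Q : Subgroup G) : Set G) := by
    intro w hw
    exact (Cfsg.Agent.S1004.key Q w x hQeq (hmemC w hw)).1
  have hd21 : Nat.card C ∣ 21 := by rw [← hN21]; exact Subgroup.card_dvd_of_le hCN
  have hxC : x ∈ C := by
    rw [hC, Subgroup.mem_centralizer_iff]
    intro y hy
    rw [Set.mem_singleton_iff] at hy
    rw [hy]
  have h7 : 7 ∣ Nat.card C := by
    have h1 := orderOf_dvd_natCard (⟨x, hxC⟩ : C)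
    rwa [Subgroup.orderOf_mk, hx] at h1
  have h3 : ¬ 3 ∣ Nat.card C := by
    intro hd
    obtain ⟨a, ha⟩ := exists_prime_orderOf_dvd_card' (G := C) 3 hd
    have haG : orderOf (a : G) = 3 := by rw [Subgroup.orderOf_coe]; exact ha
    have hc3 := cent3 h (a : G) haG
    have hxCa : x ∈ Subgroup.centralizer ({(a : G)} : Set G) := by
      rw [Subgroup.mem_centralizer_iff]
      intro y hy
      rw [Set.mem_singleton_iff] at hy
      rw [hy]
      exact hmemC (a : G) a.2
    have h1 := orderOf_dvd_natCard (⟨x, hxCa⟩ : Subgroup.centralizer ({(a : G)} : Set G))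
    rw [Subgroup.orderOf_mk, hx, hc3] at h1
    norm_num at h1
  have h2 : ¬ 2 ∣ Nat.card C := by
    intro h2
    have h2' := dvd_trans h2 hd21
    norm_num at h2'
  have hle := Nat.le_of_dvd (by norm_num) hd21
  obtain ⟨k7, hk7⟩ := h7
  have hpos : 0 < Nat.card C := Nat.card_pos
  omega

theorem cent4 [IsSimpleGroup G] (h : Nat.card G = 168) (s : G) (hs : orderOf s = 4) :
    Nat.card (Subgroup.centralizer ({s} : Set G)) = 4 := by
  haveI : Fact (Nat.Prime 2) := ⟨Nat.prime_two⟩
  have hs1 : s ≠ 1 := by intro h1; rw [h1, orderOf_one] at hs; omega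
  have hs8 : s ^ 8 = 1 := by
    have e8 : (8 : ℕ) = 4 * 2 := by norm_num
    rw [e8, pow_mul, ← hs, pow_orderOf_eq_one, one_pow]
  have hp := Cfsg.Agent.S1004.cent2 h s hs1 hs8
  obtain ⟨R, hR⟩ := hp.exists_le_sylow
  obtain ⟨C, hC⟩ : ∃ C : Subgroup G, C = Subgroup.centralizer ({s} : Set G) := ⟨_, rfl⟩
  rw [← hC] at hR ⊢
  have hR8 : Nat.card (R : Subgroup G) = 8 := by
    have hh := Cfsg.Agent.Lib.Helper6.syl_card R 3 21 (by rw [h]; norm_num) (by norm_num)
    rw [hh]; norm_num
  have hd8 : Nat.card C ∣ 8 := by rw [← hR8]; exact Subgroup.card_dvd_of_le hR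
  have hsC : s ∈ C := by
    rw [hC, Subgroup.mem_centralizer_iff]
    intro y hy
    rw [Set.mem_singleton_iff] at hy
    rw [hy]
  have h4 : 4 ∣ Nat.card C := by
    have h1 := orderOf_dvd_natCard (⟨s, hsC⟩ : C)
    rwa [Subgroup.orderOf_mk, hs] at h1
  have hne8 : Nat.card C ≠ 8 := by
    intro h8
    have hCR : C = (R : Subgroup G) := Subgroup.eq_of_le_of_card_ge hR (by rw [h8, hR8])
    obtain ⟨z, hzR, hz1, hz2, hzc, hzu⟩ := Cfsg.Agent.S1005.syl_facts h R
    have hsz : s = z := by
      apply hzu s (by rw [← hCR]; exact hsC) hs1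
      intro t ht
      rw [← hCR, hC, Subgroup.mem_centralizer_iff] at ht
      exact (ht s (Set.mem_singleton s)).symm
    rw [← hsz] at hz2
    have hd2 : orderOf s ∣ 2 := orderOf_dvd_of_pow_eq_one (by rw [pow_two]; exact hz2)
    rw [hs] at hd2
    norm_num at hd2
  have hle := Nat.le_of_dvd (by norm_num) hd8
  obtain ⟨k4, hk4⟩ := h4
  have hpos : 0 < Nat.card C := Nat.card_pos
  omega

theorem zp3 (a y : G) (ha : orderOf a = 3) (hy : y ∈ Subgroup.zpowers a) (hy1 : y ≠ 1) :
    y = a ∨ y = a⁻¹ := by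
  obtain ⟨k, rfl⟩ := Subgroup.mem_zpowers_iff.mp hy
  have hk := zpow_mod_orderOf a k
  simp only [ha, Nat.cast_ofNat] at hk
  have h0 := Int.emod_nonneg k (by norm_num : (3 : ℤ) ≠ 0)
  have h3 := Int.emod_lt_of_pos k (by norm_num : (0 : ℤ) < 3)
  have hcases : k % 3 = 0 ∨ k % 3 = 1 ∨ k % 3 = 2 := by omega
  have ha3 : a ^ 3 = 1 := by rw [← ha]; exact pow_orderOf_eq_one a
  rcases hcases with hc | hc | hc
  · exfalso; apply hy1; rw [← hk, hc, zpow_zero]
  · left; rw [← hk, hc, zpow_one]
  · right; rw [← hk, hc, eq_inv_iff_mul_eq_one]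
    have e3 : a ^ (2 : ℤ) * a = a ^ 3 := by rw [zpow_ofNat]; exact (pow_succ a 2).symm
    rw [e3, ha3]

theorem inv3 [IsSimpleGroup G] (h : Nat.card G = 168) (a : G) (ha : orderOf a = 3) :
    IsConj a a⁻¹ := by
  haveI : Fact (Nat.Prime 3) := ⟨by norm_num⟩
  obtain ⟨n2, n3, n7⟩ := Cfsg.Agent.Lib.Helper6.s168_main h
  obtain ⟨Q, hQeq⟩ := Cfsg.Agent.Lib.Helper6.syl3_of_order3 h a ha
  have hN := Cfsg.Agent.Lib.Helper6.syl_norm_card Q
  rw [n3, h] at hN
  have hN6 : Nat.card (Subgroup.normalizer ((Q : Subgroup G) : Set G)) = 6 := by omega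
  have hc3 := cent3 h a ha
  have hex : ∃ n ∈ Subgroup.normalizer ((Q : Subgroup G) : Set G),
      n ∉ Subgroup.centralizer ({a} : Set G) := by
    by_contra hcon
    push Not at hcon
    have hle : Subgroup.normalizer ((Q : Subgroup G) : Set G) ≤
        Subgroup.centralizer ({a} : Set G) := hcon
    have hh := Subgroup.card_le_of_le hle
    omega
  obtain ⟨n, hnN, hnC⟩ := hex
  have haQ : a ∈ (Q : Subgroup G) := by rw [← hQeq]; exact Subgroup.mem_zpowers a
  have hnQ : n • Q = Q := Sylow.smul_eq_iff_mem_normalizer.mpr hnN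
  have hmem : n * a * n⁻¹ ∈ Subgroup.zpowers a := by
    have h1 : n * a * n⁻¹ ∈ ((n • Q : Sylow 3 G) : Subgroup G) := by
      rw [Sylow.coe_subgroup_smul, Subgroup.mem_smul_pointwise_iff_exists]
      exact ⟨a, haQ, by simp only [MulAut.smul_def, MulAut.conj_apply]⟩
    rw [hnQ] at h1
    rw [hQeq]; exact h1
  have hne1 : n * a * n⁻¹ ≠ 1 := by
    intro h1
    have h2 : orderOf (n * a * n⁻¹) = 3 := by rw [conj_order, ha]
    rw [h1, orderOf_one] at h2; omega
  rcases zp3 a _ ha hmem hne1 with h1 | h1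
  · exfalso; apply hnC
    rw [Subgroup.mem_centralizer_iff]
    intro y hy
    rw [Set.mem_singleton_iff] at hy
    rw [hy]
    calc a * n = n * a * n⁻¹ * n := by rw [h1]
      _ = n * a := by group
  · rw [isConj_iff]; exact ⟨n, h1⟩

theorem conj3 [IsSimpleGroup G] (h : Nat.card G = 168) (s t : G) (hs : orderOf s = 3)
    (ht : orderOf t = 3) : IsConj s t := by
  haveI : Fact (Nat.Prime 3) := ⟨by norm_num⟩
  obtain ⟨Q1, hQ1⟩ := Cfsg.Agent.Lib.Helper6.syl3_of_order3 h s hs
  obtain ⟨Q2, hQ2⟩ := Cfsg.Agent.Lib.Helper6.syl3_of_order3 h t ht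
  obtain ⟨g, hg⟩ := MulAction.exists_smul_eq G Q1 Q2
  have hmem : g * s * g⁻¹ ∈ Subgroup.zpowers t := by
    rw [hQ2, ← hg, Sylow.coe_subgroup_smul, Subgroup.mem_smul_pointwise_iff_exists]
    refine ⟨s, ?_, by simp only [MulAut.smul_def, MulAut.conj_apply]⟩
    rw [← hQ1]; exact Subgroup.mem_zpowers s
  have hne1 : g * s * g⁻¹ ≠ 1 := by
    intro h1
    have h2 : orderOf (g * s * g⁻¹) = 3 := by rw [conj_order, hs]
    rw [h1, orderOf_one] at h2; omega
  rcases zp3 t _ ht hmem hne1 with h1 | h1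
  · rw [isConj_iff]; exact ⟨g, h1⟩
  · have hc1 : IsConj s t⁻¹ := isConj_iff.mpr ⟨g, h1⟩
    exact hc1.trans (inv3 h t ht).symm

theorem conj4 [IsSimpleGroup G] (h : Nat.card G = 168) (s t : G) (hs : orderOf s = 4)
    (ht : orderOf t = 4) : IsConj s t := by
  haveI : Fact (Nat.Prime 2) := ⟨Nat.prime_two⟩
  have hsyl : ∀ y : G, orderOf y = 4 → ∃ R : Sylow 2 G, y ∈ (R : Subgroup G) := by
    intro y hy
    have hA : IsPGroup 2 (Subgroup.zpowers y) := by
      apply IsPGroup.of_card (n := 2)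
      rw [Nat.card_zpowers, hy]; norm_num
    obtain ⟨R, hR⟩ := hA.exists_le_sylow
    exact ⟨R, hR (Subgroup.mem_zpowers y)⟩
  have hsq : ∀ y : G, orderOf y = 4 → y * y ≠ 1 := by
    intro y hy h1
    have hd2 : orderOf y ∣ 2 := orderOf_dvd_of_pow_eq_one (by rw [pow_two]; exact h1)
    rw [hy] at hd2; norm_num at hd2
  obtain ⟨R1, hsR⟩ := hsyl s hs
  obtain ⟨R2, htR⟩ := hsyl t ht
  obtain ⟨g, hg⟩ := MulAction.exists_smul_eq G R1 R2
  obtain ⟨s', hs'⟩ : ∃ s' : G, s' = g * s * g⁻¹ := ⟨_, rfl⟩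
  have hs'R : s' ∈ (R2 : Subgroup G) := by
    rw [← hg, Sylow.coe_subgroup_smul, Subgroup.mem_smul_pointwise_iff_exists]
    exact ⟨s, hsR, by rw [hs']; simp only [MulAut.smul_def, MulAut.conj_apply]⟩
  have hs'o : orderOf s' = 4 := by rw [hs', conj_order, hs]
  obtain ⟨⟨e⟩, -, -⟩ := Cfsg.Agent.S1004.result h R2
  have hdec : ∀ y y' : DihedralGroup 4, y * y ≠ 1 → y' * y' ≠ 1 →
      ∃ c : DihedralGroup 4, c * y' * c⁻¹ = y := by decide
  have h1 : e ⟨t, htR⟩ * e ⟨t, htR⟩ ≠ 1 := by
    rw [← map_mul]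
    intro hh
    have h0 := e.injective (hh.trans (map_one e).symm)
    exact hsq t ht (congrArg Subtype.val h0)
  have h2 : e ⟨s', hs'R⟩ * e ⟨s', hs'R⟩ ≠ 1 := by
    rw [← map_mul]
    intro hh
    have h0 := e.injective (hh.trans (map_one e).symm)
    exact hsq s' hs'o (congrArg Subtype.val h0)
  obtain ⟨c, hc⟩ := hdec _ _ h1 h2
  have h3 : e.symm c * ⟨s', hs'R⟩ * (e.symm c)⁻¹ = ⟨t, htR⟩ := by
    apply e.injective
    rw [map_mul, map_mul, map_inv, e.apply_symm_apply]
    exact hc
  have h4 : ((e.symm c : (R2 : Subgroup G)) : G) * s' * ((e.symm c : (R2 : Subgroup G)) : G)⁻¹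
      = t := congrArg Subtype.val h3
  rw [isConj_iff]
  refine ⟨((e.symm c : (R2 : Subgroup G)) : G) * g, ?_⟩
  rw [← h4, hs']
  group

end

/-- In a simple group of order 168 there are 56 elements of order 3, all conjugate; 42 elements of order 4, all conjugate; and 48 elements of order 7 falling into two conjugacy classes of size 24, an element of order 7 not being conjugate to its inverse. -/
theorem result {G : Type*} [Group G] [Finite G] [IsSimpleGroup G] (h : Nat.card G = 168) : Nat.card {g : G // orderOf g = 3} = 56 ∧ (∀ s t : G, orderOf s = 3 → orderOf t = 3 → IsConj s t) ∧ Nat.card {g : G // orderOf g = 4} = 42 ∧ (∀ s t : G, orderOf s = 4 → orderOf t = 4 → IsConj s t) ∧ Nat.card {g : G // orderOf g = 7} = 48 ∧ ∀ x : G, orderOf x = 7 → Nat.card {g : G // IsConj x g} = 24 ∧ ¬ IsConj x x⁻¹ := by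
  haveI : Fact (Nat.Prime 2) := ⟨Nat.prime_two⟩
  haveI : Fact (Nat.Prime 3) := ⟨by norm_num⟩
  haveI : Fact (Nat.Prime 7) := ⟨by norm_num⟩
  obtain ⟨hord, hc2, -⟩ := Cfsg.Agent.S1005.result h
  obtain ⟨a, ha⟩ := exists_prime_orderOf_dvd_card' (G := G) 3 (by rw [h]; norm_num)
  obtain ⟨T⟩ := (inferInstance : Nonempty (Sylow 2 G))
  obtain ⟨⟨e⟩, -, -⟩ := Cfsg.Agent.S1004.result h T
  obtain ⟨b, hb⟩ : ∃ b : G, orderOf b = 4 := by
    refine ⟨((e.symm (DihedralGroup.r 1) : (T : Subgroup G)) : G), ?_⟩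
    rw [Subgroup.orderOf_coe, ← e.orderOf_eq, e.apply_symm_apply, DihedralGroup.orderOf_r_one]
  have hcount : ∀ (y : G) (n c : ℕ), orderOf y = n →
      (∀ s t : G, orderOf s = n → orderOf t = n → IsConj s t) →
      Nat.card (Subgroup.centralizer ({y} : Set G)) = c →
      c * Nat.card {g : G // orderOf g = n} = 168 := by
    intro y n c hy hconj hcc
    have h1 := class_size y
    rw [hcc, h] at h1
    have h2 : Nat.card {g : G // orderOf g = n} = Nat.card {g : G // IsConj y g} := by
      apply Nat.card_congr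
      apply Equiv.subtypeEquivRight
      intro g
      constructor
      · intro hg; exact hconj y g hy hg
      · intro hg
        obtain ⟨c', hc'⟩ := isConj_iff.mp hg
        rw [← hc', conj_order, hy]
    rw [h2]; exact h1
  have h56 : Nat.card {g : G // orderOf g = 3} = 56 := by
    have hh := hcount a 3 3 ha (conj3 h) (cent3 h a ha)
    omega
  have h42 : Nat.card {g : G // orderOf g = 4} = 42 := by
    have hh := hcount b 4 4 hb (conj4 h) (cent4 h b hb)
    omega
  refine ⟨h56, conj3 h, h42, conj4 h, ?_, ?_⟩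
  · classical
    haveI : Fintype G := Fintype.ofFinite G
    have hfib := Finset.card_eq_sum_card_fiberwise (s := (Finset.univ : Finset G))
      (t := ({1, 2, 3, 4, 7} : Finset ℕ)) (f := orderOf) (by
        intro g _
        simp only [Finset.coe_insert, Finset.coe_singleton, Set.mem_insert_iff,
          Set.mem_singleton_iff, Finset.mem_insert, Finset.mem_singleton]
        exact hord g)
    rw [Finset.card_univ, ← Nat.card_eq_fintype_card, h] at hfib
    have hcf : ∀ n : ℕ, (Finset.univ.filter (fun g : G => orderOf g = n)).card =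
        Nat.card {g : G // orderOf g = n} := by
      intro n
      rw [Nat.card_eq_fintype_card, Fintype.card_subtype]
    have h1c : (Finset.univ.filter (fun g : G => orderOf g = 1)).card = 1 := by
      rw [Finset.card_eq_one]
      refine ⟨1, ?_⟩
      ext g
      simp only [Finset.mem_filter, Finset.mem_univ, true_and, Finset.mem_singleton,
        orderOf_eq_one_iff]
    rw [Finset.sum_insert (by decide), Finset.sum_insert (by decide),
      Finset.sum_insert (by decide), Finset.sum_insert (by decide), Finset.sum_singleton] at hfib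
    rw [h1c, hcf 2, hcf 3, hcf 4, hcf 7, hc2, h56, h42] at hfib
    omega
  · intro x hx
    obtain ⟨hc7, Q, hQeq, hN21⟩ := cent7 h x hx
    constructor
    · have h1 := class_size x
      rw [hc7, h] at h1
      omega
    · intro hconj
      obtain ⟨c, hc⟩ := isConj_iff.mp hconj
      have hxQ : x ∈ (Q : Subgroup G) := by rw [← hQeq]; exact Subgroup.mem_zpowers x
      have hcQ : c • Q = Q := by
        have h1 : c * x * c⁻¹ ∈ ((c • Q : Sylow 7 G) : Subgroup G) := by
          rw [Sylow.coe_subgroup_smul, Subgroup.mem_smul_pointwise_iff_exists]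
          exact ⟨x, hxQ, by simp only [MulAut.smul_def, MulAut.conj_apply]⟩
        rw [hc] at h1
        have h2 : x ∈ ((c • Q : Sylow 7 G) : Subgroup G) := by
          have hh := inv_mem h1; rwa [inv_inv] at hh
        have h3 : Subgroup.zpowers x ≤ ((c • Q : Sylow 7 G) : Subgroup G) := by
          rw [Subgroup.zpowers_le]; exact h2
        have hcard : ∀ P : Sylow 7 G, Nat.card (P : Subgroup G) = 7 := by
          intro P
          have hh := Cfsg.Agent.Lib.Helper6.syl_card P 1 24 (by rw [h]; norm_num) (by norm_num)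
          rw [hh, pow_one]
        have h4 : Subgroup.zpowers x = ((c • Q : Sylow 7 G) : Subgroup G) := by
          apply Subgroup.eq_of_le_of_card_ge h3
          rw [hcard, Nat.card_zpowers, hx]
        apply Sylow.ext
        rw [← h4, hQeq]
      have hcN : c ∈ Subgroup.normalizer ((Q : Subgroup G) : Set G) :=
        Sylow.smul_eq_iff_mem_normalizer.mp hcQ
      have hco : orderOf c ∣ 21 := by
        have h1 := orderOf_dvd_natCard (⟨c, hcN⟩ : Subgroup.normalizer ((Q : Subgroup G) : Set G))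
        rwa [Subgroup.orderOf_mk, hN21] at h1
      have e1 : c * x = x⁻¹ * c := by
        calc c * x = c * x * c⁻¹ * c := by group
          _ = x⁻¹ * c := by rw [hc]
      have e2 : c * x⁻¹ = x * c := by
        calc c * x⁻¹ = x * (x⁻¹ * c) * x⁻¹ := by group
          _ = x * (c * x) * x⁻¹ := by rw [e1]
          _ = x * c := by group
      have hc2x : Commute (c ^ 2) x := by
        show c ^ 2 * x = x * c ^ 2
        calc c ^ 2 * x = c * (c * x) := by rw [pow_two, mul_assoc]
          _ = c * (x⁻¹ * c) := by rw [e1]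
          _ = (c * x⁻¹) * c := by rw [mul_assoc]
          _ = x * c * c := by rw [e2]
          _ = x * c ^ 2 := by rw [pow_two, mul_assoc]
      have hodd : ¬ 2 ∣ orderOf c := by
        intro h2
        have h2' := dvd_trans h2 hco
        norm_num at h2'
      obtain ⟨m, hm⟩ : ∃ m, orderOf c + 1 = 2 * m := ⟨(orderOf c + 1) / 2, by omega⟩
      have hcm : c = (c ^ 2) ^ m := by
        rw [← pow_mul, ← hm, pow_succ, pow_orderOf_eq_one, one_mul]
      have hcx : Commute c x := by rw [hcm]; exact hc2x.pow_left m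
      have hxx : x = x⁻¹ := by
        rw [← hc]
        calc x = x * c * c⁻¹ := by group
          _ = c * x * c⁻¹ := by rw [hcx.eq]
      have hx2 : x * x = 1 := by
        calc x * x = x * x⁻¹ := by rw [← hxx]
          _ = 1 := mul_inv_cancel x
      have hd2 : orderOf x ∣ 2 := orderOf_dvd_of_pow_eq_one (by rw [pow_two]; exact hx2)
      rw [hx] at hd2
      norm_num at hd2


end Cfsg.Agent.S1006
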