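import Cfsg.Statements.S1012
import Mathlib
import Cfsg.Agent.Lib.Lead.PermIso
import Cfsg.Agent.Lib.Helper6.RealElt
-- import your own Cfsg.Agent.* helpers here

set_option autoImplicit false
open Cfsg

namespace Cfsg.Agent.S1012

/-- A group of order 24 containing no element of order 6 is isomorphic to the symmetric group of degree 4. -/
theorem result {G : Type*} [Group G] [Finite G] (h : Nat.card G = 24) (h6 : ∀ g : G, orderOf g ≠ 6) : Nonempty (G ≃* Equiv.Perm (Fin 4)) := by
  classical
  haveI : Fact (Nat.Prime 3) := ⟨by norm_num⟩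
  haveI : Fact (Nat.Prime 2) := ⟨by norm_num⟩
  have hC : ∀ x : G, orderOf x = 3 → Nat.card (Subgroup.centralizer ({x} : Set G)) = 3 := by
    intro x hx
    have hdvd : Nat.card (Subgroup.centralizer ({x} : Set G)) ∣ 24 :=
      h ▸ Subgroup.card_subgroup_dvd_card _
    have hxC : x ∈ Subgroup.centralizer ({x} : Set G) :=
      Subgroup.mem_centralizer_iff.2 (fun y hy => by rw [Set.mem_singleton_iff.1 hy])
    have h3 : 3 ∣ Nat.card (Subgroup.centralizer ({x} : Set G)) := by
      have := Subgroup.orderOf_dvd_natCard _ hxC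
      rwa [hx] at this
    have h2 : ¬ 2 ∣ Nat.card (Subgroup.centralizer ({x} : Set G)) := by
      intro h2
      obtain ⟨z, hz⟩ := exists_prime_orderOf_dvd_card' 2 h2
      have hzx : Commute x (z : G) := Subgroup.mem_centralizer_iff.1 z.2 x rfl
      have hz' : orderOf (z : G) = 2 := by rw [Subgroup.orderOf_coe]; exact hz
      have := hzx.orderOf_mul_eq_mul_orderOf_of_coprime (by rw [hx, hz']; norm_num)
      rw [hx, hz'] at this
      exact h6 _ this
    have hle : Nat.card (Subgroup.centralizer ({x} : Set G)) ≤ 24 := Nat.le_of_dvd (by norm_num) hdvd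
    generalize Nat.card (Subgroup.centralizer ({x} : Set G)) = c at *
    interval_cases c <;> omega
  obtain ⟨x, hx⟩ := exists_prime_orderOf_dvd_card' (G := G) 3 (h ▸ by norm_num)
  have hx3 : x ^ 3 = 1 := hx ▸ pow_orderOf_eq_one x
  have hx1 : x ≠ 1 := by
    intro e; rw [e, orderOf_one] at hx; omega
  have horb : (MulAction.orbit (ConjAct G) x).ncard = 8 := by
    rw [← Lib.Helper6.index_centralizer_eq_ncard_orbit]
    have := Subgroup.index_mul_card (Subgroup.centralizer ({x} : Set G))
    rw [hC x hx, h] at this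
    omega
  have hbig : ∀ N : Subgroup G, N.Normal → x ∈ N → 8 ≤ Nat.card N := by
    intro N hN hxN
    rw [← horb]
    have hsub : MulAction.orbit (ConjAct G) x ⊆ (N : Set G) := by
      rintro y ⟨g, rfl⟩
      exact hN.conj_mem x hxN _
    have := Set.ncard_le_ncard hsub (Set.toFinite _)
    rwa [← Nat.card_coe_set_eq] at this
  obtain ⟨Q, hQ⟩ := (IsPGroup.of_card (p := 3) (n := 1) (by rw [Nat.card_zpowers, hx, pow_one])
    : IsPGroup 3 (Subgroup.zpowers x)).exists_le_sylow
  have hxQ : x ∈ (Q : Subgroup G) := hQ (Subgroup.mem_zpowers x)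
  have hQcard : Nat.card (Q : Subgroup G) ≤ 3 := by
    obtain ⟨k, hk⟩ := (IsPGroup.iff_card.1 Q.isPGroup')
    have hdvd : Nat.card (Q : Subgroup G) ∣ 24 := h ▸ Subgroup.card_subgroup_dvd_card _
    rw [hk] at hdvd ⊢
    rcases k with _ | _ | k
    · norm_num
    · norm_num
    · exfalso
      have : 9 ∣ 24 := dvd_trans (Dvd.intro_left (3 ^ k) (by ring)) hdvd
      omega
  have hQeq : (Q : Subgroup G) = Subgroup.zpowers x := by
    symm
    apply Subgroup.eq_of_le_of_card_ge hQ
    rw [Nat.card_zpowers, hx]; exact hQcard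
  have hn3 : Nat.card (Sylow 3 G) = 4 := by
    have h1 := card_sylow_modEq_one 3 G
    have h2 : Nat.card (Sylow 3 G) = (Subgroup.normalizer ((Q : Subgroup G) : Set G)).index :=
      Sylow.card_eq_index_normalizer Q
    have h3 := Subgroup.index_mul_card (Subgroup.normalizer ((Q : Subgroup G) : Set G))
    rw [h] at h3
    have hne : Nat.card (Sylow 3 G) ≠ 1 := by
      intro h1'
      rw [h1'] at h2
      have hnorm : (Q : Subgroup G).Normal :=
        Subgroup.normalizer_eq_top_iff.1 (Subgroup.index_eq_one.1 h2.symm)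
      have := hbig _ hnorm hxQ
      omega
    have hdvd : Nat.card (Sylow 3 G) ∣ 24 := by rw [h2]; exact Dvd.intro _ h3
    have hle : Nat.card (Sylow 3 G) ≤ 24 := Nat.le_of_dvd (by norm_num) hdvd
    have h1' : Nat.card (Sylow 3 G) % 3 = 1 := h1
    generalize Nat.card (Sylow 3 G) = c at *
    interval_cases c <;> omega
  have hNcard : Nat.card (Subgroup.normalizer ((Q : Subgroup G) : Set G)) = 6 := by
    have h2 : Nat.card (Sylow 3 G) = (Subgroup.normalizer ((Q : Subgroup G) : Set G)).index :=
      Sylow.card_eq_index_normalizer Q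
    have h3 := Subgroup.index_mul_card (Subgroup.normalizer ((Q : Subgroup G) : Set G))
    rw [h, ← h2, hn3] at h3
    omega
  set φ : G →* Equiv.Perm (Sylow 3 G) := MulAction.toPermHom G (Sylow 3 G) with hφ
  have hKN : φ.ker ≤ Subgroup.normalizer ((Q : Subgroup G) : Set G) := by
    intro g hg
    rw [MonoidHom.mem_ker] at hg
    have : g • Q = Q := by
      have := congrArg (fun σ => σ Q) hg
      simpa [hφ] using this
    exact Sylow.smul_eq_iff_mem_normalizer.1 this
  have hxK : x ∉ φ.ker := by
    intro hxK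
    have h1 := hbig _ (MonoidHom.normal_ker φ) hxK
    have h2 := Subgroup.card_le_of_le hKN
    omega
  have hinj : Function.Injective φ := by
    rw [← MonoidHom.ker_eq_bot_iff, eq_bot_iff]
    intro g hg
    rw [Subgroup.mem_bot]
    by_contra hg1
    have hgN := hKN hg
    have hmem : g * x * g⁻¹ ∈ Subgroup.zpowers x := by
      rw [← hQeq]
      exact (Subgroup.mem_normalizer_iff.1 hgN x).1 hxQ
    obtain ⟨k, hk⟩ := (mem_powers_iff_mem_zpowers.2 hmem)
    have hk' : x ^ k = g * x * g⁻¹ := hk
    rw [← pow_mod_orderOf, hx] at hk'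
    have hk3 : k % 3 < 3 := Nat.mod_lt _ (by norm_num)
    have hxinv : x⁻¹ = x ^ 2 := by
      apply inv_eq_of_mul_eq_one_right
      rw [← pow_succ']; exact hx3
    interval_cases hkk : k % 3
    · rw [pow_zero] at hk'
      apply hx1
      have : x = g⁻¹ * (g * x * g⁻¹) * g := by group
      rw [this, ← hk']; group
    · rw [pow_one] at hk'
      have hgC : g ∈ Subgroup.centralizer ({x} : Set G) := by
        apply Subgroup.mem_centralizer_iff.2
        intro y hy
        rw [Set.mem_singleton_iff.1 hy]
        calc x * g = (g * x * g⁻¹) * g := by rw [← hk']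
          _ = g * x := by group
      have hCeq : Subgroup.zpowers x = Subgroup.centralizer ({x} : Set G) := by
        apply Subgroup.eq_of_le_of_card_ge
        · rw [Subgroup.zpowers_le]
          exact Subgroup.mem_centralizer_iff.2 (fun y hy => by rw [Set.mem_singleton_iff.1 hy])
        · rw [Nat.card_zpowers, hx, hC x hx]
      rw [← hCeq] at hgC
      obtain ⟨j, hj⟩ := (mem_powers_iff_mem_zpowers.2 hgC)
      have hj' : x ^ j = g := hj
      rw [← pow_mod_orderOf, hx] at hj'
      have hj3 : j % 3 < 3 := Nat.mod_lt _ (by norm_num)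
      interval_cases hjj : j % 3
      · exact hg1 (by rw [← hj', pow_zero])
      · apply hxK; rw [pow_one] at hj'; rw [hj']; exact hg
      · apply hxK
        have : x = g ^ 2 := by
          rw [← hj', ← pow_mul]
          calc x = x ^ 3 * x := by rw [hx3, one_mul]
            _ = x ^ (2 * 2) := by rw [← pow_succ]
        rw [this]; exact Subgroup.pow_mem _ hg 2
    · have h2 : x * g * x = g := by
        have h1 : g * x = x ^ 2 * g := by rw [hk']; group
        rw [mul_assoc, h1, ← mul_assoc, ← pow_succ', hx3, one_mul]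
      have h3 : g⁻¹ * (x * g * x⁻¹) = x := by
        have h4 : x * g = g * x⁻¹ := by
          calc x * g = (x * g * x) * x⁻¹ := by group
            _ = g * x⁻¹ := by rw [h2]
        calc g⁻¹ * (x * g * x⁻¹) = g⁻¹ * (g * x⁻¹ * x⁻¹) := by rw [h4]
          _ = x⁻¹ * x⁻¹ := by group
          _ = x ^ 2 * x ^ 2 := by rw [hxinv]
          _ = x ^ 3 * x := by rw [← pow_add, ← pow_succ]
          _ = x := by rw [hx3, one_mul]
      apply hxK
      rw [← h3]
      exact Subgroup.mul_mem _ (Subgroup.inv_mem _ hg)
        ((MonoidHom.normal_ker φ).conj_mem g hg x)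
  exact Lib.Lead.mulEquiv_perm_of_injective φ hinj 4 hn3 (h.trans (by decide))

end Cfsg.Agent.S1012
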