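import Mathlib
import Cfsg.Statements.S1007
import Cfsg.Agent.S1005
import Cfsg.Agent.S1012

set_option autoImplicit false
open Cfsg

namespace Cfsg.Agent.S1007


section
variable {G : Type*} [Group G] [Finite G]

theorem comm_of_sq (a b : G) (ha : a * a = 1) (hb : b * b = 1) (hab : (a * b) * (a * b) = 1) :
    a * b = b * a := by
  have h1 : (a * b)⁻¹ = a * b := inv_eq_of_mul_eq_one_right hab
  have ha' : a⁻¹ = a := inv_eq_of_mul_eq_one_right ha
  have hb' : b⁻¹ = b := inv_eq_of_mul_eq_one_right hb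
  rw [mul_inv_rev, ha', hb'] at h1
  exact h1.symm

theorem klein_sq (U : Subgroup G) (hU : IsKleinFour U) (x : G) (hx : x ∈ U) : x * x = 1 := by
  have h1 := Monoid.pow_exponent_eq_one (⟨x, hx⟩ : U)
  rw [hU.exponent_two] at h1
  have h2 := congrArg Subtype.val h1
  simpa [pow_two] using h2

theorem syl8 (h : Nat.card G = 168) (R : Sylow 2 G) : Nat.card (R : Subgroup G) = 8 := by
  haveI : Fact (Nat.Prime 2) := ⟨Nat.prime_two⟩
  have hh := Cfsg.Agent.Lib.Helper6.syl_card R 3 21 (by rw [h]; norm_num) (by norm_num)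
  rw [hh]; norm_num

theorem klein_norm (h : Nat.card G = 168) (R : Sylow 2 G) (V : Subgroup G) (hV : IsKleinFour V)
    (hVR : V ≤ (R : Subgroup G)) : (R : Subgroup G) ≤ Subgroup.normalizer (V : Set G) := by
  have hc : Nat.card (V.subgroupOf (R : Subgroup G)) = 4 := by
    rw [Nat.card_congr (Subgroup.subgroupOfEquivOfLe hVR).toEquiv]; exact hV.card_four
  have hi : (V.subgroupOf (R : Subgroup G)).index = 2 := by
    have h1 := Subgroup.card_mul_index (V.subgroupOf (R : Subgroup G))
    rw [hc, syl8 h R] at h1; omega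
  haveI := Subgroup.normal_of_index_eq_two hi
  exact Subgroup.le_normalizer_of_normal_subgroupOf hVR

theorem klein_N24 [IsSimpleGroup G] (h : Nat.card G = 168) (U : Subgroup G) (hU : IsKleinFour U) :
    Nat.card (Subgroup.normalizer (U : Set G)) = 24 := by
  haveI : Fact (Nat.Prime 2) := ⟨Nat.prime_two⟩
  have hU4 : Nat.card U = 4 := hU.card_four
  have hUp : IsPGroup 2 U := IsPGroup.of_card (n := 2) (by rw [hU4]; norm_num)
  obtain ⟨R, hUR⟩ := hUp.exists_le_sylow
  obtain ⟨z, hzR, hz1, hz2, hzc, hzu⟩ := Cfsg.Agent.S1005.syl_facts h R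
  obtain ⟨t, htU, ht1, htz⟩ : ∃ t ∈ U, t ≠ 1 ∧ t ≠ z := by
    by_contra hcon
    push Not at hcon
    have hsub : (U : Set G) ⊆ ({1, z} : Set G) := by
      intro x hx
      by_cases hx1 : x = 1
      · left; exact hx1
      · right; exact hcon x hx hx1
    have h1 : (U : Set G).ncard ≤ ({1, z} : Set G).ncard :=
      Set.ncard_le_ncard hsub (Set.toFinite _)
    have h2 : ({1, z} : Set G).ncard ≤ 2 := by
      have hh := Set.ncard_insert_le (1 : G) ({z} : Set G)
      rw [Set.ncard_singleton] at hh; exact hh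
    have h3 : (U : Set G).ncard = 4 := by
      rw [← hU4]; exact (Nat.card_coe_set_eq (U : Set G)).symm
    omega
  have ht2 : t * t = 1 := klein_sq U hU t htU
  obtain ⟨R', htR', hcR'⟩ := Cfsg.Agent.S1005.invol_central h t ht2 ht1
  have hne : R' ≠ R := by
    rintro rfl
    exact htz (hzu t htR' ht1 hcR')
  obtain ⟨-, -, hcent⟩ := Cfsg.Agent.S1004.result h R'
  have hCt := hcent t htR' ht1 hcR'
  have hUR' : U ≤ (R' : Subgroup G) := by
    intro x hx
    rw [← hCt, Subgroup.mem_centralizer_iff]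
    intro y hy
    rw [Set.mem_singleton_iff] at hy
    rw [hy]
    exact comm_of_sq t x ht2 (klein_sq U hU x hx) (klein_sq U hU (t * x) (U.mul_mem htU hx))
  have hRN := klein_norm h R U hU hUR
  have hR'N := klein_norm h R' U hU hUR'
  obtain ⟨N, hN⟩ : ∃ N : Subgroup G, N = Subgroup.normalizer (U : Set G) := ⟨_, rfl⟩
  rw [← hN] at hRN hR'N ⊢
  have h8 : 8 ∣ Nat.card N := by rw [← syl8 h R]; exact Subgroup.card_dvd_of_le hRN
  have h168 : Nat.card N ∣ 168 := by rw [← h]; exact Subgroup.card_subgroup_dvd_card N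
  have hne8 : Nat.card N ≠ 8 := by
    intro hc
    have e1 : (R : Subgroup G) = N := Subgroup.eq_of_le_of_card_ge hRN (by rw [hc, syl8 h R])
    have e2 : (R' : Subgroup G) = N := Subgroup.eq_of_le_of_card_ge hR'N (by rw [hc, syl8 h R'])
    exact hne (Sylow.ext (e2.trans e1.symm))
  have hne168 : Nat.card N ≠ 168 := by
    intro hc
    have htop : N = ⊤ := Subgroup.eq_top_of_card_eq N (by rw [hc, h])
    rw [hN, Subgroup.normalizer_eq_top_iff] at htop
    rcases htop.eq_bot_or_eq_top with hb | ht'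
    · rw [hb, Subgroup.card_bot] at hU4; omega
    · rw [ht', Subgroup.card_top, h] at hU4; omega
  have hne56 : Nat.card N ≠ 56 := by
    intro hc
    have hNtop : N ≠ ⊤ := by
      intro htop; rw [htop, Subgroup.card_top, h] at hc; omega
    have h1 := Cfsg.Agent.Lib.Helper1.card_dvd_factorial_index N hNtop
    have h2 := Subgroup.card_mul_index N
    rw [hc, h] at h2
    have h3 : N.index = 3 := by omega
    rw [h3, h] at h1
    norm_num [Nat.factorial] at h1
  obtain ⟨k, hk⟩ := h8
  rw [hk] at h168 hne8 hne168 hne56 ⊢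
  have hk21 : k ∣ 21 := by
    have e : (168 : ℕ) = 8 * 21 := by norm_num
    rw [e] at h168
    exact Nat.dvd_of_mul_dvd_mul_left (by norm_num) h168
  have hmemd : k ∈ Nat.divisors 21 := Nat.mem_divisors.mpr ⟨hk21, by norm_num⟩
  have hdv : Nat.divisors 21 = {1, 3, 7, 21} := by decide
  rw [hdv] at hmemd
  simp only [Finset.mem_insert, Finset.mem_singleton] at hmemd
  rcases hmemd with h1 | h3 | h7 | h21' <;> omega

theorem klein_not_conj [IsSimpleGroup G] (h : Nat.card G = 168) (T : Sylow 2 G)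
    (U W : Subgroup G) (hUT : U ≤ (T : Subgroup G)) (hWT : W ≤ (T : Subgroup G))
    (hU : IsKleinFour U) (hW : IsKleinFour W) (hne : U ≠ W) (g : G) :
    U.map (MulAut.conj g).toMonoidHom ≠ W := by
  haveI : Fact (Nat.Prime 2) := ⟨Nat.prime_two⟩
  intro heq
  obtain ⟨-, hNT, -⟩ := Cfsg.Agent.S1004.result h T
  have hmem : ∀ y : G, y ∈ ((g • T : Sylow 2 G) : Subgroup G) ↔
      ∃ s ∈ (T : Subgroup G), g * s * g⁻¹ = y := by
    intro y
    rw [Sylow.coe_subgroup_smul, Subgroup.mem_smul_pointwise_iff_exists]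
    simp only [MulAut.smul_def, MulAut.conj_apply]
  have hWmem : ∀ y : G, y ∈ W ↔ ∃ x ∈ U, g * x * g⁻¹ = y := by
    intro y
    rw [← heq, Subgroup.mem_map]
    simp only [MulEquiv.toMonoidHom_eq_coe, MonoidHom.coe_coe, MulEquiv.coe_toMonoidHom,
      MulAut.conj_apply]
  have hWgT : W ≤ ((g • T : Sylow 2 G) : Subgroup G) := by
    intro y hy
    obtain ⟨x, hxU, hxy⟩ := (hWmem y).mp hy
    exact (hmem y).mpr ⟨x, hUT hxU, hxy⟩
  obtain ⟨N, hN⟩ : ∃ N : Subgroup G, N = Subgroup.normalizer (W : Set G) := ⟨_, rfl⟩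
  have hTN : (T : Subgroup G) ≤ N := by rw [hN]; exact klein_norm h T W hW hWT
  have hgTN : ((g • T : Sylow 2 G) : Subgroup G) ≤ N := by
    rw [hN]; exact klein_norm h (g • T) W hW hWgT
  have hN24 : Nat.card N = 24 := by rw [hN]; exact klein_N24 h W hW
  have hfac : (Nat.card N).factorization 2 = 3 := by
    rw [hN24]
    have e : (24 : ℕ) = 2 ^ 3 * 3 := by norm_num
    rw [e, Nat.factorization_mul (by norm_num) (by norm_num),
      Nat.Prime.factorization_pow Nat.prime_two, Finsupp.add_apply, Finsupp.single_eq_same,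
      Nat.factorization_eq_zero_of_not_dvd (by norm_num : ¬ 2 ∣ 3)]
  have hc1 : Nat.card ((T : Subgroup G).subgroupOf N) = 2 ^ (Nat.card N).factorization 2 := by
    rw [hfac, Nat.card_congr (Subgroup.subgroupOfEquivOfLe hTN).toEquiv, syl8 h T]; norm_num
  have hc2 : Nat.card (((g • T : Sylow 2 G) : Subgroup G).subgroupOf N) =
      2 ^ (Nat.card N).factorization 2 := by
    rw [hfac, Nat.card_congr (Subgroup.subgroupOfEquivOfLe hgTN).toEquiv, syl8 h (g • T)]
    norm_num
  obtain ⟨n, hn⟩ := MulAction.exists_smul_eq N (Sylow.ofCard _ hc1) (Sylow.ofCard _ hc2)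
  have hconj : ∀ x ∈ (T : Subgroup G),
      (n : G) * x * (n : G)⁻¹ ∈ ((g • T : Sylow 2 G) : Subgroup G) := by
    intro x hx
    have h1 : (n * ⟨x, hTN hx⟩ * n⁻¹ : N) ∈
        ((n • Sylow.ofCard _ hc1 : Sylow 2 N) : Subgroup N) := by
      rw [Sylow.coe_subgroup_smul, Subgroup.mem_smul_pointwise_iff_exists]
      refine ⟨⟨x, hTN hx⟩, ?_, by simp only [MulAut.smul_def, MulAut.conj_apply]⟩
      rw [Sylow.coe_ofCard, Subgroup.mem_subgroupOf]
      exact hx
    rw [hn, Sylow.coe_ofCard, Subgroup.mem_subgroupOf] at h1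
    exact h1
  obtain ⟨c, hcdef⟩ : ∃ c : G, c = g⁻¹ * (n : G) := ⟨_, rfl⟩
  have hcT : c ∈ (T : Subgroup G) := by
    have hle : ((c • T : Sylow 2 G) : Subgroup G) ≤ (T : Subgroup G) := by
      intro y hy
      rw [Sylow.coe_subgroup_smul, Subgroup.mem_smul_pointwise_iff_exists] at hy
      obtain ⟨x, hx, hxy⟩ := hy
      simp only [MulAut.smul_def, MulAut.conj_apply] at hxy
      obtain ⟨s, hs, hse⟩ := (hmem _).mp (hconj x hx)
      have hys : y = s := by
        rw [← hxy, hcdef]
        calc g⁻¹ * (n : G) * x * (g⁻¹ * (n : G))⁻¹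
            = g⁻¹ * ((n : G) * x * (n : G)⁻¹) * g := by group
          _ = g⁻¹ * (g * s * g⁻¹) * g := by rw [hse]
          _ = s := by group
      rw [hys]; exact hs
    have hsm : c • T = T :=
      Sylow.ext (Subgroup.eq_of_le_of_card_ge hle (by rw [syl8 h T, syl8 h (c • T)]))
    have hcN : c ∈ Subgroup.normalizer ((T : Subgroup G) : Set G) :=
      Sylow.smul_eq_iff_mem_normalizer.mp hsm
    rw [hNT] at hcN; exact hcN
  have hnN : (n : G) ∈ Subgroup.normalizer (W : Set G) := by rw [← hN]; exact n.2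
  have hcNW : c ∈ Subgroup.normalizer (W : Set G) := klein_norm h T W hW hWT hcT
  have hUW : U ≤ W := by
    intro x hx
    have h1 : g * x * g⁻¹ ∈ W := (hWmem _).mpr ⟨x, hx, rfl⟩
    have hg : g = (n : G) * c⁻¹ := by rw [hcdef]; group
    have h2 : (n : G) * (c⁻¹ * x * c) * (n : G)⁻¹ ∈ W := by
      have e : (n : G) * (c⁻¹ * x * c) * (n : G)⁻¹ = g * x * g⁻¹ := by rw [hg]; group
      rw [e]; exact h1
    have h3 : c⁻¹ * x * c ∈ W := (Subgroup.mem_set_normalizer_iff.mp hnN _).mpr h2
    have h4 : c * (c⁻¹ * x * c) * c⁻¹ ∈ W := (Subgroup.mem_set_normalizer_iff.mp hcNW _).mp h3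
    have e4 : c * (c⁻¹ * x * c) * c⁻¹ = x := by group
    rw [e4] at h4; exact h4
  exact hne (Subgroup.eq_of_le_of_card_ge hUW (by rw [hU.card_four, hW.card_four]))

theorem klein_count [IsSimpleGroup G] (h : Nat.card G = 168) (T : Sylow 2 G) :
    Nat.card {U : Subgroup G // U ≤ (T : Subgroup G) ∧ IsKleinFour ↥U} = 2 := by
  haveI : Fact (Nat.Prime 2) := ⟨Nat.prime_two⟩
  obtain ⟨⟨e⟩, -, -⟩ := Cfsg.Agent.S1004.result h T
  obtain ⟨z, hzT, hz1, hz2, hzc, hzu⟩ := Cfsg.Agent.S1005.syl_facts h T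
  have hT8 := syl8 h T
  have hgen : ∀ p : ZMod 4, (p = 0 ∨ p = 1) → ∃ V : Subgroup G, V ≤ (T : Subgroup G) ∧
      IsKleinFour V ∧ (∀ x : G, x ∈ V ↔ x ∈ (T : Subgroup G) ∧
        ((e.symm (DihedralGroup.sr p) : (T : Subgroup G)) : G) * x =
          x * ((e.symm (DihedralGroup.sr p) : (T : Subgroup G)) : G)) := by
    intro p hp
    obtain ⟨tp, htp⟩ : ∃ tp : (T : Subgroup G), tp = e.symm (DihedralGroup.sr p) := ⟨_, rfl⟩
    rw [← htp]
    have hetp : e tp = DihedralGroup.sr p := by rw [htp, e.apply_symm_apply]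
    obtain ⟨V, hVdef⟩ : ∃ V : Subgroup G,
        V = Subgroup.centralizer ({(tp : G)} : Set G) ⊓ (T : Subgroup G) := ⟨_, rfl⟩
    have hVmem : ∀ x : G, x ∈ V ↔ x ∈ (T : Subgroup G) ∧ (tp : G) * x = x * (tp : G) := by
      intro x
      rw [hVdef, Subgroup.mem_inf, Subgroup.mem_centralizer_iff]
      constructor
      · rintro ⟨h1, h2⟩; exact ⟨h2, h1 _ rfl⟩
      · rintro ⟨h1, h2⟩
        refine ⟨?_, h1⟩
        intro y hy
        rw [Set.mem_singleton_iff] at hy
        rw [hy]; exact h2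
    have hVT : V ≤ (T : Subgroup G) := by rw [hVdef]; exact inf_le_right
    have hdec1 : ∀ q : ZMod 4, ∀ y : DihedralGroup 4,
        DihedralGroup.sr q * y = y * DihedralGroup.sr q → y * y = 1 := by decide
    have hsq : ∀ x ∈ V, x * x = 1 := by
      intro x hx
      obtain ⟨hxT, hxc⟩ := (hVmem x).mp hx
      have h1 : e tp * e ⟨x, hxT⟩ = e ⟨x, hxT⟩ * e tp := by
        rw [← map_mul, ← map_mul]
        congr 1
        exact Subtype.ext hxc
      rw [hetp] at h1
      have h2 := hdec1 p _ h1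
      rw [← map_mul] at h2
      have h3 := e.injective (h2.trans (map_one e).symm)
      exact congrArg Subtype.val h3
    have htp1 : (tp : G) ≠ 1 := by
      intro h1
      have h2 : tp = 1 := Subtype.ext h1
      have h3 : e tp = 1 := by rw [h2, map_one]
      rw [hetp] at h3
      revert h3; rcases hp with rfl | rfl <;> decide
    have hr1 : ¬ (tp * e.symm (DihedralGroup.r 1) = e.symm (DihedralGroup.r 1) * tp) := by
      intro h1
      have h2 := congrArg e h1
      rw [map_mul, map_mul, e.apply_symm_apply, hetp] at h2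
      revert h2; rcases hp with rfl | rfl <;> decide
    have htpz : (tp : G) ≠ z := by
      intro h1
      apply hr1
      apply Subtype.ext
      show (tp : G) * ((e.symm (DihedralGroup.r 1) : (T : Subgroup G)) : G) =
        ((e.symm (DihedralGroup.r 1) : (T : Subgroup G)) : G) * (tp : G)
      rw [h1]
      exact (hzc _ (e.symm (DihedralGroup.r 1)).2).symm
    have h3le : 3 ≤ Nat.card V := by
      have hsub : ({1, (tp : G), z} : Set G) ⊆ (V : Set G) := by
        intro x hx
        rcases hx with rfl | rfl | rfl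
        · exact V.one_mem
        · exact (hVmem _).mpr ⟨tp.2, rfl⟩
        · exact (hVmem _).mpr ⟨hzT, hzc _ tp.2⟩
      have h1 := Set.ncard_le_ncard hsub (Set.toFinite _)
      have h2 : ({1, (tp : G), z} : Set G).ncard = 3 :=
        Set.ncard_eq_three.mpr ⟨1, tp, z, fun hh => htp1 hh.symm, fun hh => hz1 hh.symm, htpz, rfl⟩
      have h3 : Nat.card V = (V : Set G).ncard := Nat.card_coe_set_eq (V : Set G)
      omega
    have hVd : Nat.card V ∣ 2 ^ 3 := by
      have hh := Subgroup.card_dvd_of_le hVT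
      rw [hT8] at hh
      have e8 : (2 : ℕ) ^ 3 = 8 := by norm_num
      rw [e8]; exact hh
    have hVne8 : Nat.card V ≠ 8 := by
      intro hc
      have hVT' : V = (T : Subgroup G) := Subgroup.eq_of_le_of_card_ge hVT (by rw [hc, hT8])
      apply hr1
      apply Subtype.ext
      have hmemr : ((e.symm (DihedralGroup.r 1) : (T : Subgroup G)) : G) ∈ V := by
        rw [hVT']; exact (e.symm (DihedralGroup.r 1)).2
      exact ((hVmem _).mp hmemr).2
    have hV4 : Nat.card V = 4 := by
      obtain ⟨k, hk, hk2⟩ := (Nat.dvd_prime_pow Nat.prime_two).mp hVd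
      rw [hk2] at h3le hVne8 ⊢
      interval_cases k
      · norm_num at h3le
      · norm_num at h3le
      · norm_num
      · norm_num at hVne8
    have hdvd : Monoid.exponent V ∣ 2 := by
      apply Monoid.exponent_dvd_of_forall_pow_eq_one
      intro x
      apply Subtype.ext
      have hh := hsq x.1 x.2
      simpa [pow_two] using hh
    have hne1 : Monoid.exponent V ≠ 1 := by
      intro h1
      rw [Monoid.exp_eq_one_iff] at h1
      have hh : Nat.card V ≤ 1 := Finite.card_le_one_iff_subsingleton.mpr h1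
      omega
    have hexp : Monoid.exponent V = 2 := by
      rcases (Nat.dvd_prime Nat.prime_two).mp hdvd with h1 | h1
      · exact absurd h1 hne1
      · exact h1
    exact ⟨V, hVT, ⟨hV4, hexp⟩, hVmem⟩
  obtain ⟨U0, hU0T, hU0K, hU0m⟩ := hgen 0 (Or.inl rfl)
  obtain ⟨U1, hU1T, hU1K, hU1m⟩ := hgen 1 (Or.inr rfl)
  have hne01 : U0 ≠ U1 := by
    intro heq
    have h1 : ((e.symm (DihedralGroup.sr 1) : (T : Subgroup G)) : G) ∈ U1 :=
      (hU1m _).mpr ⟨(e.symm (DihedralGroup.sr 1)).2, rfl⟩
    rw [← heq] at h1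
    have h2 := ((hU0m _).mp h1).2
    have h3 : e.symm (DihedralGroup.sr 0) * e.symm (DihedralGroup.sr 1) =
        e.symm (DihedralGroup.sr 1) * e.symm (DihedralGroup.sr 0) := Subtype.ext h2
    rw [← map_mul, ← map_mul] at h3
    have h4 := e.symm.injective h3
    revert h4; decide
  have hall : ∀ U : Subgroup G, U ≤ (T : Subgroup G) → IsKleinFour U → U = U0 ∨ U = U1 := by
    intro U hUT hUK
    have hdec2 : ∀ x y : DihedralGroup 4, x * x = 1 → y * y = 1 → (x * y) * (x * y) = 1 →
        (DihedralGroup.sr 0 * x = x * DihedralGroup.sr 0) ∨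
          (DihedralGroup.sr 1 * y = y * DihedralGroup.sr 1) := by decide
    have hsqU : ∀ x (hx : x ∈ U), e ⟨x, hUT hx⟩ * e ⟨x, hUT hx⟩ = 1 := by
      intro x hx
      rw [← map_mul]
      have hh : (⟨x, hUT hx⟩ * ⟨x, hUT hx⟩ : (T : Subgroup G)) = 1 :=
        Subtype.ext (klein_sq U hUK x hx)
      rw [hh, map_one]
    by_cases hc0 : ∀ x ∈ U, ((e.symm (DihedralGroup.sr 0) : (T : Subgroup G)) : G) * x =
        x * ((e.symm (DihedralGroup.sr 0) : (T : Subgroup G)) : G)
    · left
      apply Subgroup.eq_of_le_of_card_ge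
      · intro x hx; exact (hU0m x).mpr ⟨hUT hx, hc0 x hx⟩
      · rw [hU0K.card_four, hUK.card_four]
    · right
      push Not at hc0
      obtain ⟨x, hx, hxc⟩ := hc0
      apply Subgroup.eq_of_le_of_card_ge
      · intro y hy
        refine (hU1m y).mpr ⟨hUT hy, ?_⟩
        have hxy : x * y ∈ U := U.mul_mem hx hy
        have h1 := hdec2 (e ⟨x, hUT hx⟩) (e ⟨y, hUT hy⟩) (hsqU x hx) (hsqU y hy) (by
          have hh := hsqU (x * y) hxy
          rw [← map_mul]
          exact hh)
        rcases h1 with h1 | h1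
        · exfalso; apply hxc
          have h2 : e (e.symm (DihedralGroup.sr 0) * ⟨x, hUT hx⟩) =
              e (⟨x, hUT hx⟩ * e.symm (DihedralGroup.sr 0)) := by
            rw [map_mul, map_mul, e.apply_symm_apply]; exact h1
          exact congrArg Subtype.val (e.injective h2)
        · have h2 : e (e.symm (DihedralGroup.sr 1) * ⟨y, hUT hy⟩) =
              e (⟨y, hUT hy⟩ * e.symm (DihedralGroup.sr 1)) := by
            rw [map_mul, map_mul, e.apply_symm_apply]; exact h1
          exact congrArg Subtype.val (e.injective h2)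
      · rw [hU1K.card_four, hUK.card_four]
  rw [Nat.card_eq_two_iff]
  refine ⟨⟨U0, hU0T, hU0K⟩, ⟨U1, hU1T, hU1K⟩, ?_, ?_⟩
  · intro heq
    exact hne01 (congrArg Subtype.val heq)
  · ext ⟨U, hUT, hUK⟩
    simp only [Set.mem_insert_iff, Set.mem_singleton_iff, Set.mem_univ, iff_true]
    rcases hall U hUT hUK with h1 | h1
    · left; exact Subtype.ext h1
    · right; exact Subtype.ext h1

end

/-- Let G be a simple group of order 168 and T a Sylow 2-subgroup. Then T contains exactly two subgroups that are Klein four-groups; they are not conjugate in G; and the normalizer of every Klein four-subgroup of G is isomorphic to the symmetric group of degree 4. -/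
theorem result {G : Type*} [Group G] [Finite G] [IsSimpleGroup G] (h : Nat.card G = 168) (T : Sylow 2 G) : Nat.card {U : Subgroup G // U ≤ (T : Subgroup G) ∧ IsKleinFour ↥U} = 2 ∧ (∀ U W : Subgroup G, U ≤ (T : Subgroup G) → W ≤ (T : Subgroup G) → IsKleinFour ↥U → IsKleinFour ↥W → U ≠ W → ∀ g : G, U.map (MulAut.conj g).toMonoidHom ≠ W) ∧ ∀ U : Subgroup G, IsKleinFour ↥U → Nonempty (↥(Subgroup.normalizer (U : Set G)) ≃* Equiv.Perm (Fin 4)) := by
  refine ⟨klein_count h T, ?_, ?_⟩
  · intro U W hUT hWT hU hW hne g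
    exact klein_not_conj h T U W hUT hWT hU hW hne g
  · intro U hU
    have hc := klein_N24 h U hU
    obtain ⟨hord, -, -⟩ := Cfsg.Agent.S1005.result h
    apply Cfsg.Agent.S1012.result hc
    intro g hg
    rw [← Subgroup.orderOf_coe] at hg
    rcases hord (g : G) with h1 | h1 | h1 | h1 | h1 <;> omega


end Cfsg.Agent.S1007
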