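import Mathlib
import Cfsg.Statements.S1008
import Cfsg.Agent.S1006
import Cfsg.Agent.S1007

set_option autoImplicit false
open Cfsg

namespace Cfsg.Agent.S1008


section
variable {G : Type*} [Group G] [Finite G]

theorem mem_map_conj (A : Subgroup G) (g x : G) :
    x ∈ A.map (MulAut.conj g).toMonoidHom ↔ g⁻¹ * x * g ∈ A := by
  rw [Subgroup.mem_map]
  constructor
  · rintro ⟨a, ha, rfl⟩
    have e : g⁻¹ * ((MulAut.conj g).toMonoidHom a) * g = a := by
      simp only [MulEquiv.toMonoidHom_eq_coe, MonoidHom.coe_coe, MulAut.conj_apply]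
      group
    rw [e]; exact ha
  · intro hx
    refine ⟨g⁻¹ * x * g, hx, ?_⟩
    simp only [MulEquiv.toMonoidHom_eq_coe, MonoidHom.coe_coe, MulAut.conj_apply]
    group

theorem card_map_conj (A : Subgroup G) (g : G) :
    Nat.card (A.map (MulAut.conj g).toMonoidHom) = Nat.card A :=
  Subgroup.card_map_of_injective (by intro a b hab; exact (MulAut.conj g).injective hab)

theorem klein_of_sq (V : Subgroup G) (hc : Nat.card V = 4) (hsq : ∀ x ∈ V, x * x = 1) :
    IsKleinFour V := by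
  have hdvd : Monoid.exponent V ∣ 2 := by
    apply Monoid.exponent_dvd_of_forall_pow_eq_one
    intro x
    apply Subtype.ext
    have hh := hsq x.1 x.2
    simpa [pow_two] using hh
  have hne1 : Monoid.exponent V ≠ 1 := by
    intro h1
    rw [Monoid.exp_eq_one_iff] at h1
    have hh : Nat.card V ≤ 1 := Finite.card_le_one_iff_subsingleton.mpr h1
    omega
  have hexp : Monoid.exponent V = 2 := by
    rcases (Nat.dvd_prime Nat.prime_two).mp hdvd with h1 | h1
    · exact absurd h1 hne1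
    · exact h1
  exact ⟨hc, hexp⟩

theorem klein_conj (V : Subgroup G) (hV : IsKleinFour V) (g : G) :
    IsKleinFour (V.map (MulAut.conj g).toMonoidHom) := by
  apply klein_of_sq
  · rw [card_map_conj]; exact hV.card_four
  · intro x hx
    rw [mem_map_conj] at hx
    have h1 := Cfsg.Agent.S1007.klein_sq V hV _ hx
    calc x * x = g * ((g⁻¹ * x * g) * (g⁻¹ * x * g)) * g⁻¹ := by group
      _ = 1 := by rw [h1]; group

theorem norm_conj (A B : Subgroup G) (g : G) (hAB : ∀ x, x ∈ B ↔ g⁻¹ * x * g ∈ A) :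
    (Subgroup.normalizer (A : Set G)).map (MulAut.conj g).toMonoidHom ≤
      Subgroup.normalizer (B : Set G) := by
  intro y hy
  rw [mem_map_conj] at hy
  rw [Subgroup.mem_set_normalizer_iff]
  intro x
  have h1 := Subgroup.mem_set_normalizer_iff.mp hy (g⁻¹ * x * g)
  have e : g⁻¹ * y * g * (g⁻¹ * x * g) * (g⁻¹ * y * g)⁻¹ = g⁻¹ * (y * x * y⁻¹) * g := by group
  rw [e] at h1
  constructor
  · intro hx
    exact (hAB _).mpr (h1.mp ((hAB x).mp hx))
  · intro hx
    exact (hAB x).mpr (h1.mpr ((hAB _).mp hx))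

theorem smul_eq_of_conj_mem {p : ℕ} [Fact p.Prime] (Q : Sylow p G)
    (hQ : Nat.card (Q : Subgroup G) = p) (x m : G) (hx : x ∈ (Q : Subgroup G)) (hx1 : x ≠ 1)
    (hm : m * x * m⁻¹ ∈ (Q : Subgroup G)) : m • Q = Q := by
  have hp : p.Prime := Fact.out
  obtain ⟨y, hy⟩ : ∃ y : G, y = m * x * m⁻¹ := ⟨_, rfl⟩
  rw [← hy] at hm
  have hy1 : y ≠ 1 := by
    intro h1
    apply hx1
    rw [hy] at h1
    calc x = m⁻¹ * (m * x * m⁻¹) * m := by group
      _ = 1 := by rw [h1]; group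
  have hyo : orderOf y = p := by
    have h1 : orderOf (⟨y, hm⟩ : (Q : Subgroup G)) ∣ p := by
      have hh := orderOf_dvd_natCard (⟨y, hm⟩ : (Q : Subgroup G))
      exact hh.trans (dvd_of_eq hQ)
    rw [Subgroup.orderOf_mk] at h1
    rcases (Nat.dvd_prime hp).mp h1 with h2 | h2
    · exact absurd (orderOf_eq_one_iff.mp h2) hy1
    · exact h2
  have hymQ : y ∈ ((m • Q : Sylow p G) : Subgroup G) := by
    rw [Sylow.coe_subgroup_smul, Subgroup.mem_smul_pointwise_iff_exists]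
    exact ⟨x, hx, by rw [hy]; simp only [MulAut.smul_def, MulAut.conj_apply]⟩
  have hcm : Nat.card ((m • Q : Sylow p G) : Subgroup G) = p := by
    rw [Sylow.card_eq_multiplicity, ← Q.card_eq_multiplicity]; exact hQ
  have e1 : Subgroup.zpowers y = (Q : Subgroup G) :=
    Subgroup.eq_of_le_of_card_ge (by rw [Subgroup.zpowers_le]; exact hm)
      (by rw [hQ, Nat.card_zpowers, hyo])
  have e2 : Subgroup.zpowers y = ((m • Q : Sylow p G) : Subgroup G) :=
    Subgroup.eq_of_le_of_card_ge (by rw [Subgroup.zpowers_le]; exact hymQ)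
      (by rw [hcm, Nat.card_zpowers, hyo])
  exact Sylow.ext (e2.symm.trans e1)

theorem le_card_24 [IsSimpleGroup G] (h : Nat.card G = 168) (M : Subgroup G) (hM : M ≠ ⊤) :
    Nat.card M ≤ 24 := by
  have h1 := Cfsg.Agent.Lib.Helper1.card_dvd_factorial_index M hM
  have h2 := Subgroup.card_mul_index M
  rw [h] at h1 h2
  by_contra hcon
  push Not at hcon
  have hidx : M.index ≤ 6 := by
    by_contra h7
    push Not at h7
    have hh : 25 * 7 ≤ Nat.card M * M.index := Nat.mul_le_mul hcon h7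
    omega
  have h3 : M.index.factorial ∣ Nat.factorial 6 := Nat.factorial_dvd_factorial hidx
  have h4 : 168 ∣ Nat.factorial 6 := dvd_trans h1 h3
  norm_num [Nat.factorial] at h4

theorem iso_S4 [IsSimpleGroup G] (h : Nat.card G = 168) (M : Subgroup G) (hM : Nat.card M = 24) :
    Nonempty (↥M ≃* Equiv.Perm (Fin 4)) := by
  obtain ⟨hord, -, -⟩ := Cfsg.Agent.S1005.result h
  apply Cfsg.Agent.S1012.result hM
  intro g hg
  rw [← Subgroup.orderOf_coe] at hg
  rcases hord (g : G) with h1 | h1 | h1 | h1 | h1 <;> omega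

theorem coatom_eq (M L : Subgroup G) (hM : IsCoatom M) (hle : M ≤ L) (hL : L ≠ ⊤) : M = L := by
  by_contra hne
  exact hL (hM.2 L (lt_of_le_of_ne hle hne))

theorem le_norm7 [IsSimpleGroup G] (h : Nat.card G = 168) (M : Subgroup G) (hM : M ≠ ⊤)
    (x : G) (hxM : x ∈ M) (hx : orderOf x = 7) :
    ∃ Q : Sylow 7 G, Nat.card (Subgroup.normalizer ((Q : Subgroup G) : Set G)) = 21 ∧
      M ≤ Subgroup.normalizer ((Q : Subgroup G) : Set G) := by
  haveI : Fact (Nat.Prime 7) := ⟨by norm_num⟩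
  obtain ⟨-, Q, hQeq, hN21⟩ := Cfsg.Agent.S1006.cent7 h x hx
  have hxQ : x ∈ (Q : Subgroup G) := by rw [← hQeq]; exact Subgroup.mem_zpowers x
  have hQ7 : Nat.card (Q : Subgroup G) = 7 := by rw [← hQeq, Nat.card_zpowers, hx]
  have hx1 : x ≠ 1 := by intro h1; rw [h1, orderOf_one] at hx; omega
  have h24 := le_card_24 h M hM
  refine ⟨Q, hN21, ?_⟩
  intro m hm
  apply Sylow.smul_eq_iff_mem_normalizer.mp
  apply smul_eq_of_conj_mem Q hQ7 x m hxQ hx1
  by_contra hcon
  obtain ⟨y, hy⟩ : ∃ y : G, y = m * x * m⁻¹ := ⟨_, rfl⟩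
  rw [← hy] at hcon
  have hyM : y ∈ M := by rw [hy]; exact M.mul_mem (M.mul_mem hm hxM) (M.inv_mem hm)
  have hyo : orderOf y = 7 := by rw [hy, Cfsg.Agent.S1006.conj_order, hx]
  have hdisj : Disjoint (Subgroup.zpowers x) (Subgroup.zpowers y) := by
    rw [disjoint_iff]
    obtain ⟨I, hI⟩ : ∃ I : Subgroup G, I = Subgroup.zpowers x ⊓ Subgroup.zpowers y := ⟨_, rfl⟩
    rw [← hI]
    have hIx : I ≤ Subgroup.zpowers x := by rw [hI]; exact inf_le_left
    have hIy : I ≤ Subgroup.zpowers y := by rw [hI]; exact inf_le_right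
    have hd : Nat.card I ∣ 7 := by
      have hh := Subgroup.card_dvd_of_le hIx
      rwa [Nat.card_zpowers, hx] at hh
    rcases (Nat.dvd_prime (by norm_num : Nat.Prime 7)).mp hd with h1 | h7
    · exact Subgroup.eq_bot_of_card_eq I h1
    · exfalso
      have e1 : I = Subgroup.zpowers x :=
        Subgroup.eq_of_le_of_card_ge hIx (by rw [h7, Nat.card_zpowers, hx])
      have e2 : I = Subgroup.zpowers y :=
        Subgroup.eq_of_le_of_card_ge hIy (by rw [h7, Nat.card_zpowers, hyo])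
      apply hcon
      rw [← hQeq, ← e1, e2]
      exact Subgroup.mem_zpowers y
  have hinj := Subgroup.mul_injective_of_disjoint hdisj
  obtain ⟨f, hf⟩ : ∃ f : (Subgroup.zpowers x) × (Subgroup.zpowers y) → M,
      ∀ pq, ((f pq : M) : G) = (pq.1 : G) * (pq.2 : G) :=
    ⟨fun pq => ⟨(pq.1 : G) * (pq.2 : G), M.mul_mem ((Subgroup.zpowers_le.mpr hxM) pq.1.2)
      ((Subgroup.zpowers_le.mpr hyM) pq.2.2)⟩, fun pq => rfl⟩
  have hfinj : Function.Injective f := by
    intro a b hab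
    apply hinj
    show (a.1 : G) * (a.2 : G) = (b.1 : G) * (b.2 : G)
    rw [← hf a, ← hf b, hab]
  have hcard := Nat.card_le_card_of_injective f hfinj
  rw [Nat.card_prod, Nat.card_zpowers, Nat.card_zpowers, hx, hyo] at hcard
  omega

theorem coatom7 [IsSimpleGroup G] (h : Nat.card G = 168) (M : Subgroup G) (hM : IsCoatom M)
    (h7 : 7 ∣ Nat.card M) :
    ∃ (Q : Sylow 7 G) (x : G), M = Subgroup.normalizer ((Q : Subgroup G) : Set G) ∧
      Nat.card M = 21 ∧ x ∈ M ∧ orderOf x = 7 := by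
  haveI : Fact (Nat.Prime 7) := ⟨by norm_num⟩
  obtain ⟨x', hx'⟩ := exists_prime_orderOf_dvd_card' (G := M) 7 h7
  have hx : orderOf (x' : G) = 7 := by rw [Subgroup.orderOf_coe]; exact hx'
  obtain ⟨Q, hN21, hle⟩ := le_norm7 h M hM.1 (x' : G) x'.2 hx
  have hNtop : Subgroup.normalizer ((Q : Subgroup G) : Set G) ≠ ⊤ := by
    intro htop
    rw [htop, Subgroup.card_top, h] at hN21; omega
  have heq := coatom_eq M _ hM hle hNtop
  have h21 : Nat.card M = 21 := by rw [heq]; exact hN21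
  exact ⟨Q, (x' : G), heq, h21, x'.2, hx⟩

theorem klein_two [IsSimpleGroup G] (h : Nat.card G = 168) (T : Sylow 2 G) :
    ∃ U0 U1 : Subgroup G, U0 ≠ U1 ∧ U0 ≤ (T : Subgroup G) ∧ U1 ≤ (T : Subgroup G) ∧
      IsKleinFour U0 ∧ IsKleinFour U1 ∧
      ∀ U : Subgroup G, U ≤ (T : Subgroup G) → IsKleinFour U → U = U0 ∨ U = U1 := by
  obtain ⟨x, y, hxy, huniv⟩ := Nat.card_eq_two_iff.mp (Cfsg.Agent.S1007.klein_count h T)
  refine ⟨x.1, y.1, fun hh => hxy (Subtype.ext hh), x.2.1, y.2.1, x.2.2, y.2.2, ?_⟩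
  intro U hUT hUK
  have hmem : (⟨U, hUT, hUK⟩ : {U : Subgroup G // U ≤ (T : Subgroup G) ∧ IsKleinFour ↥U}) ∈
      ({x, y} : Set _) := by
    rw [huniv]; exact Set.mem_univ _
  rcases hmem with h1 | h1
  · left; exact congrArg Subtype.val h1
  · right; exact congrArg Subtype.val h1

theorem sq_central [IsSimpleGroup G] (h : Nat.card G = 168) (R : Sylow 2 G) (r : G)
    (hr : r ∈ (R : Subgroup G)) (hr2 : r * r ≠ 1) :
    ∀ t ∈ (R : Subgroup G), t * (r * r) = (r * r) * t := by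
  obtain ⟨⟨e⟩, -, -⟩ := Cfsg.Agent.S1004.result h R
  have hdec : ∀ y : DihedralGroup 4, y * y ≠ 1 →
      ∀ w : DihedralGroup 4, w * (y * y) = (y * y) * w := by decide
  intro t ht
  have h1 : e ⟨r, hr⟩ * e ⟨r, hr⟩ ≠ 1 := by
    rw [← map_mul]
    intro hh
    have h0 := e.injective (hh.trans (map_one e).symm)
    exact hr2 (congrArg Subtype.val h0)
  have h2 := hdec _ h1 (e ⟨t, ht⟩)
  rw [← map_mul, ← map_mul, ← map_mul] at h2
  exact congrArg Subtype.val (e.injective h2)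

theorem cnt {H : Type*} [Group H] [Finite H] (a : H) (ha : orderOf a = 3) (c : ℕ)
    (hca : Nat.card (Subgroup.centralizer ({a} : Set H)) = 3)
    (hca' : Nat.card (Subgroup.centralizer ({a⁻¹} : Set H)) = 3)
    (hH : Nat.card H = 3 * c) (K : Subgroup H) (hK : Nat.card K + 2 * c = Nat.card H)
    (hK3 : ∀ k ∈ K, orderOf k ≠ 3) (hnc : ¬ IsConj a a⁻¹) :
    ∀ g : H, orderOf g ≠ 3 → g ∈ K := by
  have h1 := Cfsg.Agent.S1006.class_size a
  have h2 := Cfsg.Agent.S1006.class_size a⁻¹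
  rw [hca, hH] at h1
  rw [hca', hH] at h2
  have hc1 : Nat.card {g : H // IsConj a g} = c := by omega
  have hc2 : Nat.card {g : H // IsConj a⁻¹ g} = c := by omega
  obtain ⟨A1, hA1⟩ : ∃ A1 : Set H, A1 = {g : H | IsConj a g} := ⟨_, rfl⟩
  obtain ⟨A2, hA2⟩ : ∃ A2 : Set H, A2 = {g : H | IsConj a⁻¹ g} := ⟨_, rfl⟩
  have hn1 : A1.ncard = c := by rw [hA1, ← hc1]; exact (Nat.card_coe_set_eq _).symm
  have hn2 : A2.ncard = c := by rw [hA2, ← hc2]; exact (Nat.card_coe_set_eq _).symm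
  have hnK : (K : Set H).ncard = Nat.card K := (Nat.card_coe_set_eq _).symm
  have hd12 : Disjoint A1 A2 := by
    rw [Set.disjoint_left]
    intro g hg1 hg2
    rw [hA1] at hg1
    rw [hA2] at hg2
    exact hnc (hg1.trans hg2.symm)
  have ho1 : ∀ g ∈ A1, orderOf g = 3 := by
    intro g hg
    rw [hA1] at hg
    obtain ⟨x, hx⟩ := isConj_iff.mp hg
    rw [← hx, Cfsg.Agent.S1006.conj_order, ha]
  have ho2 : ∀ g ∈ A2, orderOf g = 3 := by
    intro g hg
    rw [hA2] at hg
    obtain ⟨x, hx⟩ := isConj_iff.mp hg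
    rw [← hx, Cfsg.Agent.S1006.conj_order, orderOf_inv, ha]
  have hdK : Disjoint (A1 ∪ A2) (K : Set H) := by
    rw [Set.disjoint_left]
    intro g hg hgK
    rcases hg with hg | hg
    · exact hK3 g hgK (ho1 g hg)
    · exact hK3 g hgK (ho2 g hg)
  have hu1 : (A1 ∪ A2).ncard = c + c := by rw [Set.ncard_union_eq hd12, hn1, hn2]
  have hu2 : ((A1 ∪ A2) ∪ (K : Set H)).ncard = c + c + Nat.card K := by
    rw [Set.ncard_union_eq hdK, hu1, hnK]
  have hcompl := Set.ncard_add_ncard_compl ((A1 ∪ A2) ∪ (K : Set H))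
  have hz : (((A1 ∪ A2) ∪ (K : Set H))ᶜ).ncard = 0 := by omega
  have hempty : ((A1 ∪ A2) ∪ (K : Set H))ᶜ = ∅ := (Set.ncard_eq_zero (Set.toFinite _)).mp hz
  intro g hg
  have hmem : g ∈ (A1 ∪ A2) ∪ (K : Set H) := by
    by_contra hcon
    have hh : g ∈ ((A1 ∪ A2) ∪ (K : Set H))ᶜ := hcon
    rw [hempty] at hh
    exact hh
  rcases hmem with (h1' | h1') | h1'
  · exact absurd (ho1 g h1') hg
  · exact absurd (ho2 g h1') hg
  · exact h1'

theorem cent_sub (L : Subgroup G) (x : G) (hx : x ∈ L) (hxo : orderOf x = 3)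
    (hc : Nat.card (Subgroup.centralizer ({x} : Set G)) = 3) :
    Nat.card (Subgroup.centralizer ({(⟨x, hx⟩ : L)} : Set L)) = 3 := by
  obtain ⟨Z, hZ⟩ : ∃ Z : Subgroup L, Z = Subgroup.centralizer ({(⟨x, hx⟩ : L)} : Set L) :=
    ⟨_, rfl⟩
  rw [← hZ]
  have hle : Z.map L.subtype ≤ Subgroup.centralizer ({x} : Set G) := by
    intro y hy
    rw [Subgroup.mem_map] at hy
    obtain ⟨z, hz, rfl⟩ := hy
    rw [hZ, Subgroup.mem_centralizer_iff] at hz
    have h1 := hz ⟨x, hx⟩ (Set.mem_singleton _)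
    rw [Subgroup.mem_centralizer_iff]
    intro w hw
    rw [Set.mem_singleton_iff] at hw
    rw [hw]
    exact congrArg Subtype.val h1
  have h1 := Subgroup.card_le_of_le hle
  rw [Subgroup.card_map_of_injective (Subgroup.subtype_injective L), hc] at h1
  have hxZ : (⟨x, hx⟩ : L) ∈ Z := by
    rw [hZ, Subgroup.mem_centralizer_iff]
    intro w hw
    rw [Set.mem_singleton_iff] at hw
    rw [hw]
  have h3 : 3 ∣ Nat.card Z := by
    have h2 := orderOf_dvd_natCard (⟨⟨x, hx⟩, hxZ⟩ : Z)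
    rwa [Subgroup.orderOf_mk, Subgroup.orderOf_mk, hxo] at h2
  obtain ⟨k, hk⟩ := h3
  have hpos : 0 < Nat.card Z := Nat.card_pos
  omega

theorem inv_in [IsSimpleGroup G] (h : Nat.card G = 168) (L : Subgroup G) (T : Sylow 2 G)
    (hTL : (T : Subgroup G) ≤ L) (hL : Nat.card L = 24) (a : G) (haL : a ∈ L)
    (ha : orderOf a = 3) : ∃ d ∈ L, d * a * d⁻¹ = a⁻¹ := by
  haveI : Fact (Nat.Prime 2) := ⟨Nat.prime_two⟩
  by_contra hcon
  push Not at hcon
  have hT8 := Cfsg.Agent.S1007.syl8 h T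
  obtain ⟨-, hNT, -⟩ := Cfsg.Agent.S1004.result h T
  have ha' : orderOf a⁻¹ = 3 := by rw [orderOf_inv, ha]
  have hnc : ¬ IsConj (⟨a, haL⟩ : L) (⟨a, haL⟩ : L)⁻¹ := by
    intro hc
    obtain ⟨d, hd⟩ := isConj_iff.mp hc
    exact hcon (d : G) d.2 (congrArg Subtype.val hd)
  have hK8 : Nat.card ((T : Subgroup G).subgroupOf L) = 8 := by
    rw [Nat.card_congr (Subgroup.subgroupOfEquivOfLe hTL).toEquiv]; exact hT8
  have hmain := cnt (⟨a, haL⟩ : L) (by rw [Subgroup.orderOf_mk]; exact ha) 8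
    (cent_sub L a haL ha (Cfsg.Agent.S1006.cent3 h a ha))
    (cent_sub L a⁻¹ (L.inv_mem haL) ha' (Cfsg.Agent.S1006.cent3 h a⁻¹ ha'))
    (by omega) ((T : Subgroup G).subgroupOf L) (by omega)
    (by
      intro k hk
      rw [Subgroup.mem_subgroupOf] at hk
      have h1 := orderOf_dvd_natCard (⟨(k : G), hk⟩ : (T : Subgroup G))
      rw [Subgroup.orderOf_mk, Subgroup.orderOf_coe, hT8] at h1
      intro h3
      rw [h3] at h1
      norm_num at h1)
    hnc
  have hLT : L ≤ (T : Subgroup G) := by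
    intro n hn
    have hsm : n • T = T := by
      apply Sylow.ext
      apply Subgroup.eq_of_le_of_card_ge
      · intro y hy
        rw [Sylow.coe_subgroup_smul, Subgroup.mem_smul_pointwise_iff_exists] at hy
        obtain ⟨x, hx, hxy⟩ := hy
        simp only [MulAut.smul_def, MulAut.conj_apply] at hxy
        rw [← hxy]
        have hxL : n * x * n⁻¹ ∈ L := L.mul_mem (L.mul_mem hn (hTL hx)) (L.inv_mem hn)
        have ho : orderOf (⟨n * x * n⁻¹, hxL⟩ : L) ≠ 3 := by
          rw [Subgroup.orderOf_mk, Cfsg.Agent.S1006.conj_order]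
          have h1 := orderOf_dvd_natCard (⟨x, hx⟩ : (T : Subgroup G))
          rw [Subgroup.orderOf_mk, hT8] at h1
          intro h3
          rw [h3] at h1
          norm_num at h1
        have hh := hmain ⟨n * x * n⁻¹, hxL⟩ ho
        rw [Subgroup.mem_subgroupOf] at hh
        exact hh
      · rw [hT8, Cfsg.Agent.S1007.syl8 h (n • T)]
    have hnN : n ∈ Subgroup.normalizer ((T : Subgroup G) : Set G) :=
      Sylow.smul_eq_iff_mem_normalizer.mp hsm
    rw [hNT] at hnN; exact hnN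
  have hh := Subgroup.card_le_of_le hLT
  omega

theorem NQ_le [IsSimpleGroup G] (h : Nat.card G = 168) (L : Subgroup G) (a d : G)
    (ha : orderOf a = 3) (haL : a ∈ L) (hdL : d ∈ L) (hd : d * a * d⁻¹ = a⁻¹) (Q : Sylow 3 G)
    (hQ : Subgroup.zpowers a = (Q : Subgroup G)) :
    Subgroup.normalizer ((Q : Subgroup G) : Set G) ≤ L := by
  haveI : Fact (Nat.Prime 3) := ⟨by norm_num⟩
  obtain ⟨n2, n3, n7⟩ := Cfsg.Agent.Lib.Helper6.s168_main h
  have hN := Cfsg.Agent.Lib.Helper6.syl_norm_card Q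
  rw [n3, h] at hN
  have hN6 : Nat.card (Subgroup.normalizer ((Q : Subgroup G) : Set G)) = 6 := by omega
  have hQ3 : Nat.card (Q : Subgroup G) = 3 := by rw [← hQ, Nat.card_zpowers, ha]
  have haQ : a ∈ (Q : Subgroup G) := by rw [← hQ]; exact Subgroup.mem_zpowers a
  have ha1 : a ≠ 1 := by intro h1; rw [h1, orderOf_one] at ha; omega
  have hdN : d ∈ Subgroup.normalizer ((Q : Subgroup G) : Set G) := by
    apply Sylow.smul_eq_iff_mem_normalizer.mp
    apply smul_eq_of_conj_mem Q hQ3 a d haQ ha1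
    rw [hd]; exact (Q : Subgroup G).inv_mem haQ
  obtain ⟨Z, hZ⟩ : ∃ Z : Subgroup G,
      Z = Subgroup.normalizer ((Q : Subgroup G) : Set G) ⊓ L := ⟨_, rfl⟩
  have hZN : Z ≤ Subgroup.normalizer ((Q : Subgroup G) : Set G) := by rw [hZ]; exact inf_le_left
  have haZ : a ∈ Z := by rw [hZ]; exact ⟨Subgroup.le_normalizer haQ, haL⟩
  have hdZ : d ∈ Z := by rw [hZ]; exact ⟨hdN, hdL⟩
  have hd6 : Nat.card Z ∣ 6 := by rw [← hN6]; exact Subgroup.card_dvd_of_le hZN
  have h3 : 3 ∣ Nat.card Z := by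
    have h1 := orderOf_dvd_natCard (⟨a, haZ⟩ : Z)
    rwa [Subgroup.orderOf_mk, ha] at h1
  have hne3 : Nat.card Z ≠ 3 := by
    intro hc
    have e1 : Subgroup.zpowers a = Z :=
      Subgroup.eq_of_le_of_card_ge (by rw [Subgroup.zpowers_le]; exact haZ)
        (by rw [hc, Nat.card_zpowers, ha])
    rw [← e1] at hdZ
    obtain ⟨k, hk⟩ := Subgroup.mem_zpowers_iff.mp hdZ
    have hcomm : d * a = a * d := by rw [← hk]; exact ((Commute.refl a).zpow_left k).eq
    have hinv : a⁻¹ = a := by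
      rw [← hd, hcomm]; group
    have ha2 : a * a = 1 := by
      calc a * a = a⁻¹ * a := by rw [hinv]
        _ = 1 := inv_mul_cancel a
    have hd2 : orderOf a ∣ 2 := orderOf_dvd_of_pow_eq_one (by rw [pow_two]; exact ha2)
    rw [ha] at hd2; norm_num at hd2
  have h6 : Nat.card Z = 6 := by
    have hle := Nat.le_of_dvd (by norm_num) hd6
    obtain ⟨k, hk⟩ := h3
    have hpos : 0 < Nat.card Z := Nat.card_pos
    omega
  have e2 : Z = Subgroup.normalizer ((Q : Subgroup G) : Set G) :=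
    Subgroup.eq_of_le_of_card_ge hZN (by rw [h6, hN6])
  rw [← e2, hZ]; exact inf_le_right

theorem ord3_in_NQ [IsSimpleGroup G] (h : Nat.card G = 168) (a y : G) (ha : orderOf a = 3)
    (hy : orderOf y = 3) (Q : Sylow 3 G) (hQ : Subgroup.zpowers a = (Q : Subgroup G))
    (hyN : y ∈ Subgroup.normalizer ((Q : Subgroup G) : Set G)) : y ∈ Subgroup.zpowers a := by
  have haQ : a ∈ (Q : Subgroup G) := by rw [← hQ]; exact Subgroup.mem_zpowers a
  have hmem : y * a * y⁻¹ ∈ Subgroup.zpowers a := by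
    rw [hQ]; exact (Subgroup.mem_set_normalizer_iff.mp hyN a).mp haQ
  have hne1 : y * a * y⁻¹ ≠ 1 := by
    intro h1
    have h2 : orderOf (y * a * y⁻¹) = 3 := by rw [Cfsg.Agent.S1006.conj_order, ha]
    rw [h1, orderOf_one] at h2; omega
  have hy3 : y ^ 3 = 1 := by rw [← hy]; exact pow_orderOf_eq_one y
  have hcomm : y * a = a * y := by
    rcases Cfsg.Agent.S1006.zp3 a _ ha hmem hne1 with h1 | h1
    · calc y * a = y * a * y⁻¹ * y := by group
        _ = a * y := by rw [h1]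
    · exfalso
      have h2 : y ^ 3 * a * (y ^ 3)⁻¹ = a⁻¹ := by
        calc y ^ 3 * a * (y ^ 3)⁻¹ = y * (y * (y * a * y⁻¹) * y⁻¹) * y⁻¹ := by
              have e3 : y ^ 3 = y * y * y := by rw [pow_succ, pow_two]
              rw [e3]; simp only [mul_inv_rev, mul_assoc]
          _ = y * (y * a⁻¹ * y⁻¹) * y⁻¹ := by rw [h1]
          _ = y * (y * a * y⁻¹)⁻¹ * y⁻¹ := by group
          _ = y * (a⁻¹)⁻¹ * y⁻¹ := by rw [h1]
          _ = y * a * y⁻¹ := by rw [inv_inv]
          _ = a⁻¹ := h1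
      rw [hy3] at h2
      have h3 : a = a⁻¹ := by
        calc a = 1 * a * 1⁻¹ := by group
          _ = a⁻¹ := h2
      have ha2 : a * a = 1 := by
        calc a * a = a * a⁻¹ := by rw [← h3]
          _ = 1 := mul_inv_cancel a
      have hd2 : orderOf a ∣ 2 := orderOf_dvd_of_pow_eq_one (by rw [pow_two]; exact ha2)
      rw [ha] at hd2; norm_num at hd2
  have hc3 := Cfsg.Agent.S1006.cent3 h a ha
  have e1 : Subgroup.zpowers a = Subgroup.centralizer ({a} : Set G) := by
    apply Subgroup.eq_of_le_of_card_ge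
    · rw [Subgroup.zpowers_le, Subgroup.mem_centralizer_iff]
      intro w hw
      rw [Set.mem_singleton_iff] at hw
      rw [hw]
    · rw [hc3, Nat.card_zpowers, ha]
  rw [e1, Subgroup.mem_centralizer_iff]
  intro w hw
  rw [Set.mem_singleton_iff] at hw
  rw [hw]
  exact hcomm.symm

theorem exists_klein_NQ [IsSimpleGroup G] (h : Nat.card G = 168) (a : G) (ha : orderOf a = 3)
    (Q : Sylow 3 G) (hQ : Subgroup.zpowers a = (Q : Subgroup G)) :
    ∃ V : Subgroup G, IsKleinFour V ∧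
      Subgroup.normalizer ((Q : Subgroup G) : Set G) ≤ Subgroup.normalizer (V : Set G) := by
  haveI : Fact (Nat.Prime 2) := ⟨Nat.prime_two⟩
  haveI : Fact (Nat.Prime 3) := ⟨by norm_num⟩
  obtain ⟨T⟩ := (inferInstance : Nonempty (Sylow 2 G))
  obtain ⟨V0, _U1, _hne, hV0T, _h1, hV0K, _h2, _h3⟩ := klein_two h T
  have hN0 := Cfsg.Agent.S1007.klein_N24 h V0 hV0K
  obtain ⟨a0', ha0'⟩ := exists_prime_orderOf_dvd_card'
    (G := Subgroup.normalizer (V0 : Set G)) 3 (by rw [hN0]; norm_num)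
  have ha0 : orderOf (a0' : G) = 3 := by rw [Subgroup.orderOf_coe]; exact ha0'
  obtain ⟨g, hg⟩ := isConj_iff.mp (Cfsg.Agent.S1006.conj3 h (a0' : G) a ha0 ha)
  obtain ⟨V, hVdef⟩ : ∃ V : Subgroup G, V = V0.map (MulAut.conj g).toMonoidHom := ⟨_, rfl⟩
  have hVK : IsKleinFour V := by rw [hVdef]; exact klein_conj V0 hV0K g
  have hmem' : a ∈ (Subgroup.normalizer (V0 : Set G)).map (MulAut.conj g).toMonoidHom := by
    rw [mem_map_conj]
    have e : g⁻¹ * a * g = (a0' : G) := by rw [← hg]; group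
    rw [e]; exact a0'.2
  have haN : a ∈ Subgroup.normalizer (V : Set G) :=
    norm_conj V0 V g (fun x => by rw [hVdef]; exact mem_map_conj V0 g x) hmem'
  have hVT : V ≤ ((g • T : Sylow 2 G) : Subgroup G) := by
    intro x hx
    rw [hVdef, mem_map_conj] at hx
    rw [Sylow.coe_subgroup_smul, Subgroup.mem_smul_pointwise_iff_exists]
    refine ⟨g⁻¹ * x * g, hV0T hx, ?_⟩
    simp only [MulAut.smul_def, MulAut.conj_apply]
    group
  have hTN := Cfsg.Agent.S1007.klein_norm h (g • T) V hVK hVT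
  have hN24 := Cfsg.Agent.S1007.klein_N24 h V hVK
  obtain ⟨d, hdN, hd⟩ := inv_in h (Subgroup.normalizer (V : Set G)) (g • T) hTN hN24 a haN ha
  exact ⟨V, hVK, NQ_le h _ a d ha haN hdN hd Q hQ⟩

theorem order12 [IsSimpleGroup G] (h : Nat.card G = 168) (M : Subgroup G)
    (hM : Nat.card M = 12) :
    ∃ S : Subgroup G, IsKleinFour S ∧ M ≤ Subgroup.normalizer (S : Set G) := by
  haveI : Fact (Nat.Prime 2) := ⟨Nat.prime_two⟩
  haveI : Fact (Nat.Prime 3) := ⟨by norm_num⟩
  obtain ⟨n2, n3, n7⟩ := Cfsg.Agent.Lib.Helper6.s168_main h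
  obtain ⟨a', ha'⟩ := exists_prime_orderOf_dvd_card' (G := M) 3 (by rw [hM]; norm_num)
  obtain ⟨a, haeq⟩ : ∃ a : G, a = (a' : G) := ⟨_, rfl⟩
  have haM : a ∈ M := by rw [haeq]; exact a'.2
  have ha : orderOf a = 3 := by rw [haeq, Subgroup.orderOf_coe]; exact ha'
  have ha1 : a ≠ 1 := by intro h1; rw [h1, orderOf_one] at ha; omega
  have hainv : orderOf a⁻¹ = 3 := by rw [orderOf_inv, ha]
  obtain ⟨Q, hQ⟩ := Cfsg.Agent.Lib.Helper6.syl3_of_order3 h a ha
  have hQ3 : Nat.card (Q : Subgroup G) = 3 := by rw [← hQ, Nat.card_zpowers, ha]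
  have haQ : a ∈ (Q : Subgroup G) := by rw [← hQ]; exact Subgroup.mem_zpowers a
  have hN := Cfsg.Agent.Lib.Helper6.syl_norm_card Q
  rw [n3, h] at hN
  have hN6 : Nat.card (Subgroup.normalizer ((Q : Subgroup G) : Set G)) = 6 := by omega
  have hnc : ¬ IsConj (⟨a, haM⟩ : M) (⟨a, haM⟩ : M)⁻¹ := by
    intro hc
    obtain ⟨d, hd⟩ := isConj_iff.mp hc
    have hd' : (d : G) * a * (d : G)⁻¹ = a⁻¹ := congrArg Subtype.val hd
    have hNM := NQ_le h M a (d : G) ha haM d.2 hd' Q hQ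
    have hc6 : Nat.card ((Subgroup.normalizer ((Q : Subgroup G) : Set G)).subgroupOf M) = 6 := by
      rw [Nat.card_congr (Subgroup.subgroupOfEquivOfLe hNM).toEquiv]; exact hN6
    have hi : ((Subgroup.normalizer ((Q : Subgroup G) : Set G)).subgroupOf M).index = 2 := by
      have h1 := Subgroup.card_mul_index
        ((Subgroup.normalizer ((Q : Subgroup G) : Set G)).subgroupOf M)
      rw [hc6, hM] at h1; omega
    haveI := Subgroup.normal_of_index_eq_two hi
    have hMN : M ≤ Subgroup.normalizer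
        ((Subgroup.normalizer ((Q : Subgroup G) : Set G) : Subgroup G) : Set G) :=
      Subgroup.le_normalizer_of_normal_subgroupOf hNM
    have hMQ : M ≤ Subgroup.normalizer ((Q : Subgroup G) : Set G) := by
      intro m hm
      apply Sylow.smul_eq_iff_mem_normalizer.mp
      apply smul_eq_of_conj_mem Q hQ3 a m haQ ha1
      rw [← hQ]
      apply ord3_in_NQ h a _ ha (by rw [Cfsg.Agent.S1006.conj_order, ha]) Q hQ
      exact (Subgroup.mem_set_normalizer_iff.mp (hMN hm) a).mp (Subgroup.le_normalizer haQ)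
    have hh := Subgroup.card_le_of_le hMQ
    omega
  obtain ⟨K, hK⟩ := Sylow.exists_subgroup_card_pow_prime (G := M) 2 (n := 2)
    (by rw [hM]; norm_num)
  have hK4 : Nat.card K = 4 := by rw [hK]; norm_num
  have hK3 : ∀ k ∈ K, orderOf k ≠ 3 := by
    intro k hk h3
    have h1 := orderOf_dvd_natCard (⟨k, hk⟩ : K)
    rw [Subgroup.orderOf_mk, hK4, h3] at h1
    norm_num at h1
  have hmain := cnt (⟨a, haM⟩ : M) (by rw [Subgroup.orderOf_mk]; exact ha) 4
    (cent_sub M a haM ha (Cfsg.Agent.S1006.cent3 h a ha))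
    (cent_sub M a⁻¹ (M.inv_mem haM) hainv (Cfsg.Agent.S1006.cent3 h a⁻¹ hainv))
    (by omega) K (by omega) hK3 hnc
  obtain ⟨S, hSdef⟩ : ∃ S : Subgroup G, S = K.map M.subtype := ⟨_, rfl⟩
  have hS4 : Nat.card S = 4 := by
    rw [hSdef, Subgroup.card_map_of_injective (Subgroup.subtype_injective M)]; exact hK4
  have hSmem : ∀ x : G, x ∈ S ↔ ∃ hx : x ∈ M, (⟨x, hx⟩ : M) ∈ K := by
    intro x
    rw [hSdef, Subgroup.mem_map]
    constructor
    · rintro ⟨k, hk, rfl⟩
      exact ⟨k.2, hk⟩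
    · rintro ⟨hx, hk⟩
      exact ⟨⟨x, hx⟩, hk, rfl⟩
  have hSM : S ≤ M := by
    intro x hx
    exact ((hSmem x).mp hx).1
  have hSord : ∀ x ∈ S, orderOf x ≠ 3 := by
    intro x hx
    obtain ⟨hxM, hxK⟩ := (hSmem x).mp hx
    have hh := hK3 _ hxK
    rwa [Subgroup.orderOf_mk] at hh
  have hconj : ∀ m ∈ M, ∀ x ∈ S, m * x * m⁻¹ ∈ S := by
    intro m hm x hx
    have hxM := hSM hx
    have hcM : m * x * m⁻¹ ∈ M := M.mul_mem (M.mul_mem hm hxM) (M.inv_mem hm)
    refine (hSmem _).mpr ⟨hcM, ?_⟩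
    apply hmain
    rw [Subgroup.orderOf_mk, Cfsg.Agent.S1006.conj_order]
    exact hSord x hx
  have hSp : IsPGroup 2 S := IsPGroup.of_card (n := 2) (by rw [hS4]; norm_num)
  obtain ⟨R, hSR⟩ := hSp.exists_le_sylow
  obtain ⟨z, hzR, hz1, hz2, hzc, hzu⟩ := Cfsg.Agent.S1005.syl_facts h R
  have hsq : ∀ x ∈ S, x * x = 1 := by
    intro r hr
    by_contra hr2
    have hc1 := sq_central h R r (hSR hr) hr2
    have e1 : r * r = z :=
      hzu (r * r) ((R : Subgroup G).mul_mem (hSR hr) (hSR hr)) hr2 hc1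
    obtain ⟨y, hy⟩ : ∃ y : G, y = a * r * a⁻¹ := ⟨_, rfl⟩
    have hyS : y ∈ S := by rw [hy]; exact hconj a haM r hr
    have hyy : y * y = a * (r * r) * a⁻¹ := by rw [hy]; group
    have hy2 : y * y ≠ 1 := by
      rw [hyy]
      intro h1
      apply hr2
      calc r * r = a⁻¹ * (a * (r * r) * a⁻¹) * a := by group
        _ = 1 := by rw [h1]; group
    have hc2 := sq_central h R y (hSR hyS) hy2
    have e2 : y * y = z :=
      hzu (y * y) ((R : Subgroup G).mul_mem (hSR hyS) (hSR hyS)) hy2 hc2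
    have h3 : a * z * a⁻¹ = z := by
      calc a * z * a⁻¹ = a * (r * r) * a⁻¹ := by rw [e1]
        _ = y * y := hyy.symm
        _ = z := e2
    have hcz : z * a = a * z := by
      calc z * a = a * z * a⁻¹ * a := by rw [h3]
        _ = a * z := by group
    have hz8 : z ^ 8 = 1 := by
      have e8 : (8 : ℕ) = 2 * 4 := by norm_num
      rw [e8, pow_mul, pow_two, hz2, one_pow]
    have hp := Cfsg.Agent.S1004.cent2 h z hz1 hz8
    have haC : a ∈ Subgroup.centralizer ({z} : Set G) := by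
      rw [Subgroup.mem_centralizer_iff]
      intro w hw
      rw [Set.mem_singleton_iff] at hw
      rw [hw]; exact hcz
    obtain ⟨k, hk⟩ := hp ⟨a, haC⟩
    have hak : a ^ 2 ^ k = 1 := congrArg Subtype.val hk
    have hd3 : 3 ∣ 2 ^ k := by rw [← ha]; exact orderOf_dvd_of_pow_eq_one hak
    have hd3' := Nat.Prime.dvd_of_dvd_pow (by norm_num : Nat.Prime 3) hd3
    norm_num at hd3'
  have hSK : IsKleinFour S := klein_of_sq S hS4 hsq
  refine ⟨S, hSK, ?_⟩
  intro m hm
  rw [Subgroup.mem_set_normalizer_iff]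
  intro x
  constructor
  · intro hx; exact hconj m hm x hx
  · intro hx
    have h1 := hconj m⁻¹ (M.inv_mem hm) _ hx
    have e : m⁻¹ * (m * x * m⁻¹) * m⁻¹⁻¹ = x := by group
    rw [e] at h1; exact h1

theorem card24_of_coatom [IsSimpleGroup G] (h : Nat.card G = 168) (M : Subgroup G)
    (hM : IsCoatom M) (h7 : ¬ 7 ∣ Nat.card M) : Nat.card M = 24 := by
  haveI : Fact (Nat.Prime 2) := ⟨Nat.prime_two⟩
  haveI : Fact (Nat.Prime 3) := ⟨by norm_num⟩
  have hd168 : Nat.card M ∣ 168 := by rw [← h]; exact Subgroup.card_subgroup_dvd_card M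
  have hd24 : Nat.card M ∣ 24 := by
    have hcop : Nat.Coprime (Nat.card M) 7 :=
      ((Nat.Prime.coprime_iff_not_dvd (by norm_num)).mpr h7).symm
    apply hcop.dvd_of_dvd_mul_right
    have e : (24 * 7 : ℕ) = 168 := by norm_num
    rw [e]; exact hd168
  have hkey : ∀ V : Subgroup G, IsKleinFour V → M ≤ Subgroup.normalizer (V : Set G) →
      Nat.card M = 24 := by
    intro V hV hle
    have hN24 := Cfsg.Agent.S1007.klein_N24 h V hV
    have hNtop : Subgroup.normalizer (V : Set G) ≠ ⊤ := by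
      intro htop; rw [htop, Subgroup.card_top, h] at hN24; omega
    rw [coatom_eq M _ hM hle hNtop]; exact hN24
  by_cases h3 : 3 ∣ Nat.card M
  · obtain ⟨a', ha'⟩ := exists_prime_orderOf_dvd_card' (G := M) 3 h3
    obtain ⟨a, haeq⟩ : ∃ a : G, a = (a' : G) := ⟨_, rfl⟩
    have haM : a ∈ M := by rw [haeq]; exact a'.2
    have ha : orderOf a = 3 := by rw [haeq, Subgroup.orderOf_coe]; exact ha'
    obtain ⟨Q, hQ⟩ := Cfsg.Agent.Lib.Helper6.syl3_of_order3 h a ha
    have hQM : (Q : Subgroup G) ≤ M := by rw [← hQ, Subgroup.zpowers_le]; exact haM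
    have hQ3 : Nat.card (Q : Subgroup G) = 3 := by rw [← hQ, Nat.card_zpowers, ha]
    have hmemd : Nat.card M ∈ Nat.divisors 24 := Nat.mem_divisors.mpr ⟨hd24, by norm_num⟩
    have hdv : Nat.divisors 24 = {1, 2, 3, 4, 6, 8, 12, 24} := by decide
    rw [hdv] at hmemd
    simp only [Finset.mem_insert, Finset.mem_singleton] at hmemd
    obtain ⟨V, hVK, hNQV⟩ := exists_klein_NQ h a ha Q hQ
    rcases hmemd with c | c | c | c | c | c | c | c
    · rw [c] at h3; norm_num at h3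
    · rw [c] at h3; norm_num at h3
    · have e : (Q : Subgroup G) = M := Subgroup.eq_of_le_of_card_ge hQM (by rw [c, hQ3])
      apply hkey V hVK
      rw [← e]; exact le_trans Subgroup.le_normalizer hNQV
    · rw [c] at h3; norm_num at h3
    · have hc3' : Nat.card ((Q : Subgroup G).subgroupOf M) = 3 := by
        rw [Nat.card_congr (Subgroup.subgroupOfEquivOfLe hQM).toEquiv]; exact hQ3
      have hi : ((Q : Subgroup G).subgroupOf M).index = 2 := by
        have h1 := Subgroup.card_mul_index ((Q : Subgroup G).subgroupOf M)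
        rw [hc3', c] at h1; omega
      haveI := Subgroup.normal_of_index_eq_two hi
      have hMN : M ≤ Subgroup.normalizer ((Q : Subgroup G) : Set G) :=
        Subgroup.le_normalizer_of_normal_subgroupOf hQM
      exact hkey V hVK (le_trans hMN hNQV)
    · rw [c] at h3; norm_num at h3
    · obtain ⟨S, hSK, hMS⟩ := order12 h M c
      exact hkey S hSK hMS
    · exact c
  · have hd8 : Nat.card M ∣ 8 := by
      have hcop : Nat.Coprime (Nat.card M) 3 :=
        ((Nat.Prime.coprime_iff_not_dvd (by norm_num)).mpr h3).symm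
      apply hcop.dvd_of_dvd_mul_right
      have e : (8 * 3 : ℕ) = 24 := by norm_num
      rw [e]; exact hd24
    obtain ⟨k, hk, hk2⟩ := (Nat.dvd_prime_pow Nat.prime_two).mp
      (show Nat.card M ∣ 2 ^ 3 from hd8)
    have hMp : IsPGroup 2 M := IsPGroup.of_card hk2
    obtain ⟨T, hMT⟩ := hMp.exists_le_sylow
    obtain ⟨V0, _U1, _hne, hV0T, _h1, hV0K, _h2, _h3⟩ := klein_two h T
    have hTN := Cfsg.Agent.S1007.klein_norm h T V0 hV0K hV0T
    exact hkey V0 hV0K (le_trans hMT hTN)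

theorem part_a [IsSimpleGroup G] (h : Nat.card G = 168) (M : Subgroup G) (hM : IsCoatom M) :
    Nonempty (↥M ≃* Equiv.Perm (Fin 4)) ∨ (Nat.card ↥M = 21 ∧ ¬ IsMulCommutative ↥M) := by
  by_cases h7 : 7 ∣ Nat.card M
  · right
    obtain ⟨Q, x, heq, h21, hxM, hx⟩ := coatom7 h M hM h7
    refine ⟨h21, ?_⟩
    intro hc
    have hc7 := (Cfsg.Agent.S1006.cent7 h x hx).1
    have hle : M ≤ Subgroup.centralizer ({x} : Set G) := by
      intro m hm
      rw [Subgroup.mem_centralizer_iff]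
      intro y hy
      rw [Set.mem_singleton_iff] at hy
      rw [hy]
      have hh := hc.is_comm.comm (⟨x, hxM⟩ : M) ⟨m, hm⟩
      exact congrArg Subtype.val hh
    have hh := Subgroup.card_le_of_le hle
    omega
  · left
    exact iso_S4 h M (card24_of_coatom h M hM h7)

theorem part_b [IsSimpleGroup G] (h : Nat.card G = 168) (M M' : Subgroup G) (hM : IsCoatom M)
    (hM' : IsCoatom M') (hc : Nat.card M = 21) (hc' : Nat.card M' = 21) :
    ∃ g : G, M' = M.map (MulAut.conj g).toMonoidHom := by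
  haveI : Fact (Nat.Prime 7) := ⟨by norm_num⟩
  obtain ⟨Q, x, heq, -, -, -⟩ := coatom7 h M hM (by rw [hc]; norm_num)
  obtain ⟨Q', x', heq', -, -, -⟩ := coatom7 h M' hM' (by rw [hc']; norm_num)
  obtain ⟨g, hg⟩ := MulAction.exists_smul_eq G Q Q'
  refine ⟨g, ?_⟩
  symm
  apply Subgroup.eq_of_le_of_card_ge
  · rw [heq, heq']
    apply norm_conj
    intro y
    rw [← hg, Sylow.coe_subgroup_smul, Subgroup.mem_smul_pointwise_iff_exists]
    simp only [MulAut.smul_def, MulAut.conj_apply]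
    constructor
    · rintro ⟨s, hs, rfl⟩
      have e : g⁻¹ * (g * s * g⁻¹) * g = s := by group
      rw [e]; exact hs
    · intro hy
      exact ⟨g⁻¹ * y * g, hy, by group⟩
  · rw [card_map_conj, hc, hc']

theorem coatom_NV [IsSimpleGroup G] (h : Nat.card G = 168) (V : Subgroup G)
    (hV : IsKleinFour V) : IsCoatom (Subgroup.normalizer (V : Set G)) := by
  have hN24 := Cfsg.Agent.S1007.klein_N24 h V hV
  refine ⟨?_, ?_⟩
  · intro htop; rw [htop, Subgroup.card_top, h] at hN24; omega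
  · intro L hL
    have hd := Subgroup.card_dvd_of_le hL.le
    rw [hN24] at hd
    have hd168 : Nat.card L ∣ 168 := by rw [← h]; exact Subgroup.card_subgroup_dvd_card L
    have hne : Nat.card L ≠ 24 := by
      intro hc
      have hh := Subgroup.eq_of_le_of_card_ge hL.le (by rw [hc, hN24])
      exact hL.ne hh
    obtain ⟨k, hk⟩ := hd
    rw [hk] at hd168 hne
    have hk7 : k ∣ 7 := by
      have e : (168 : ℕ) = 24 * 7 := by norm_num
      rw [e] at hd168
      exact Nat.dvd_of_mul_dvd_mul_left (by norm_num) hd168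
    rcases (Nat.dvd_prime (by norm_num : Nat.Prime 7)).mp hk7 with h1 | h7
    · rw [h1] at hne; omega
    · apply Subgroup.eq_top_of_card_eq
      rw [h]; omega

theorem sup_eq_T [IsSimpleGroup G] (h : Nat.card G = 168) (T : Sylow 2 G) (U0 U1 : Subgroup G)
    (hne : U0 ≠ U1) (h0 : U0 ≤ (T : Subgroup G)) (h1 : U1 ≤ (T : Subgroup G))
    (hK0 : IsKleinFour U0) (hK1 : IsKleinFour U1) : U0 ⊔ U1 = (T : Subgroup G) := by
  have hle : U0 ⊔ U1 ≤ (T : Subgroup G) := sup_le h0 h1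
  apply Subgroup.eq_of_le_of_card_ge hle
  rw [Cfsg.Agent.S1007.syl8 h T]
  have hd4 : 4 ∣ Nat.card (U0 ⊔ U1 : Subgroup G) := by
    have hh := Subgroup.card_dvd_of_le (le_sup_left : U0 ≤ U0 ⊔ U1)
    rwa [hK0.card_four] at hh
  have hd8 : Nat.card (U0 ⊔ U1 : Subgroup G) ∣ 8 := by
    have hh := Subgroup.card_dvd_of_le hle
    rwa [Cfsg.Agent.S1007.syl8 h T] at hh
  have hne4 : Nat.card (U0 ⊔ U1 : Subgroup G) ≠ 4 := by
    intro hc
    have e0 : U0 = U0 ⊔ U1 :=
      Subgroup.eq_of_le_of_card_ge le_sup_left (by rw [hc, hK0.card_four])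
    have e1 : U1 = U0 ⊔ U1 :=
      Subgroup.eq_of_le_of_card_ge le_sup_right (by rw [hc, hK1.card_four])
    exact hne (e0.trans e1.symm)
  obtain ⟨k, hk⟩ := hd4
  have hle8 := Nat.le_of_dvd (by norm_num) hd8
  have hpos : 0 < Nat.card (U0 ⊔ U1 : Subgroup G) := Nat.card_pos
  omega

theorem norm_ne [IsSimpleGroup G] (h : Nat.card G = 168) (T : Sylow 2 G) (U0 U1 : Subgroup G)
    (hne : U0 ≠ U1) (h0 : U0 ≤ (T : Subgroup G)) (h1 : U1 ≤ (T : Subgroup G))
    (hK0 : IsKleinFour U0) (hK1 : IsKleinFour U1) :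
    Subgroup.normalizer (U0 : Set G) ≠ Subgroup.normalizer (U1 : Set G) := by
  haveI : Fact (Nat.Prime 2) := ⟨Nat.prime_two⟩
  intro heq
  obtain ⟨-, hNT, -⟩ := Cfsg.Agent.S1004.result h T
  have hsup := sup_eq_T h T U0 U1 hne h0 h1 hK0 hK1
  have hN24 := Cfsg.Agent.S1007.klein_N24 h U0 hK0
  have hle : Subgroup.normalizer (U0 : Set G) ≤ (T : Subgroup G) := by
    intro n hn
    have hn1 : n ∈ Subgroup.normalizer (U1 : Set G) := by rw [← heq]; exact hn
    have hsm : n • T = T := by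
      apply Sylow.ext
      symm
      apply Subgroup.eq_of_le_of_card_ge
      · rw [← hsup]
        apply sup_le
        · intro x hx
          rw [Sylow.coe_subgroup_smul, Subgroup.mem_smul_pointwise_iff_exists]
          refine ⟨n⁻¹ * x * n, h0 ((Subgroup.mem_set_normalizer_iff''.mp hn x).mp hx), ?_⟩
          simp only [MulAut.smul_def, MulAut.conj_apply]
          group
        · intro x hx
          rw [Sylow.coe_subgroup_smul, Subgroup.mem_smul_pointwise_iff_exists]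
          refine ⟨n⁻¹ * x * n, h1 ((Subgroup.mem_set_normalizer_iff''.mp hn1 x).mp hx), ?_⟩
          simp only [MulAut.smul_def, MulAut.conj_apply]
          group
      · rw [Cfsg.Agent.S1007.syl8 h T, Cfsg.Agent.S1007.syl8 h (n • T)]
    have hnN : n ∈ Subgroup.normalizer ((T : Subgroup G) : Set G) :=
      Sylow.smul_eq_iff_mem_normalizer.mp hsm
    rw [hNT] at hnN; exact hnN
  have hh := Subgroup.card_le_of_le hle
  rw [hN24, Cfsg.Agent.S1007.syl8 h T] at hh
  omega

theorem nonconj [IsSimpleGroup G] (h : Nat.card G = 168) (T : Sylow 2 G) (U0 U1 : Subgroup G)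
    (hne : U0 ≠ U1) (h0 : U0 ≤ (T : Subgroup G)) (h1 : U1 ≤ (T : Subgroup G))
    (hK0 : IsKleinFour U0) (hK1 : IsKleinFour U1) (g : G)
    (heq : Subgroup.normalizer (U1 : Set G) =
      (Subgroup.normalizer (U0 : Set G)).map (MulAut.conj g).toMonoidHom) : False := by
  haveI : Fact (Nat.Prime 2) := ⟨Nat.prime_two⟩
  obtain ⟨U, hUdef⟩ : ∃ U : Subgroup G, U = U0.map (MulAut.conj g).toMonoidHom := ⟨_, rfl⟩
  have hUK : IsKleinFour U := by rw [hUdef]; exact klein_conj U0 hK0 g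
  have hle : (Subgroup.normalizer (U0 : Set G)).map (MulAut.conj g).toMonoidHom ≤
      Subgroup.normalizer (U : Set G) :=
    norm_conj U0 U g (fun x => by rw [hUdef]; exact mem_map_conj U0 g x)
  have e1 : Subgroup.normalizer (U1 : Set G) = Subgroup.normalizer (U : Set G) := by
    rw [heq]
    apply Subgroup.eq_of_le_of_card_ge hle
    rw [card_map_conj, Cfsg.Agent.S1007.klein_N24 h U hUK, Cfsg.Agent.S1007.klein_N24 h U0 hK0]
  have hTN : (T : Subgroup G) ≤ Subgroup.normalizer (U : Set G) := by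
    rw [← e1]; exact Cfsg.Agent.S1007.klein_norm h T U1 hK1 h1
  have hUp : IsPGroup 2 U := IsPGroup.of_card (n := 2) (by rw [hUK.card_four]; norm_num)
  have hsup : IsPGroup 2 ((T : Subgroup G) ⊔ U : Subgroup G) :=
    IsPGroup.to_sup_of_normal_right' T.2 hUp hTN
  have hUT : U ≤ (T : Subgroup G) := by
    have hh := T.is_maximal' hsup le_sup_left
    calc U ≤ (T : Subgroup G) ⊔ U := le_sup_right
      _ = (T : Subgroup G) := hh
  by_cases hU0 : U0 = U
  · apply norm_ne h T U0 U1 hne h0 h1 hK0 hK1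
    rw [e1, ← hU0]
  · exact Cfsg.Agent.S1007.klein_not_conj h T U0 U h0 hUT hK0 hUK hU0 g hUdef.symm

theorem last_clause [IsSimpleGroup G] (h : Nat.card G = 168) (T : Sylow 2 G)
    (U0 U1 : Subgroup G)
    (hall : ∀ U : Subgroup G, U ≤ (T : Subgroup G) → IsKleinFour U → U = U0 ∨ U = U1)
    (M : Subgroup G) (hM24 : Nat.card M = 24) :
    ∃ g : G, M = (Subgroup.normalizer (U0 : Set G)).map (MulAut.conj g).toMonoidHom ∨
      M = (Subgroup.normalizer (U1 : Set G)).map (MulAut.conj g).toMonoidHom := by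
  haveI : Fact (Nat.Prime 2) := ⟨Nat.prime_two⟩
  obtain ⟨K, hK⟩ := Sylow.exists_subgroup_card_pow_prime (G := M) 2 (n := 3)
    (by rw [hM24]; norm_num)
  have hK8 : Nat.card (K.map M.subtype) = 8 := by
    rw [Subgroup.card_map_of_injective (Subgroup.subtype_injective M), hK]; norm_num
  have hKp : IsPGroup 2 (K.map M.subtype) := IsPGroup.of_card (n := 3) (by rw [hK8]; norm_num)
  obtain ⟨R, hKR⟩ := hKp.exists_le_sylow
  have hR8 := Cfsg.Agent.S1007.syl8 h R
  have hRK : K.map M.subtype = (R : Subgroup G) :=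
    Subgroup.eq_of_le_of_card_ge hKR (by rw [hR8, hK8])
  have hRM : (R : Subgroup G) ≤ M := by
    rw [← hRK]
    intro x hx
    rw [Subgroup.mem_map] at hx
    obtain ⟨k, -, rfl⟩ := hx
    exact k.2
  obtain ⟨-, hNR, -⟩ := Cfsg.Agent.S1004.result h R
  obtain ⟨m, hmM, hmR⟩ : ∃ m ∈ M, m ∉ (R : Subgroup G) := by
    by_contra hcon
    push Not at hcon
    have hle : M ≤ (R : Subgroup G) := hcon
    have hh := Subgroup.card_le_of_le hle
    omega
  obtain ⟨R', hR'⟩ : ∃ R' : Sylow 2 G, R' = m • R := ⟨_, rfl⟩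
  have hR'8 := Cfsg.Agent.S1007.syl8 h R'
  have hR'mem : ∀ y : G, y ∈ (R' : Subgroup G) ↔ ∃ s ∈ (R : Subgroup G), m * s * m⁻¹ = y := by
    intro y
    rw [hR', Sylow.coe_subgroup_smul, Subgroup.mem_smul_pointwise_iff_exists]
    simp only [MulAut.smul_def, MulAut.conj_apply]
  have hR'M : (R' : Subgroup G) ≤ M := by
    intro y hy
    obtain ⟨s, hs, rfl⟩ := (hR'mem y).mp hy
    exact M.mul_mem (M.mul_mem hmM (hRM hs)) (M.inv_mem hmM)
  have hRne : R' ≠ R := by
    intro heq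
    apply hmR
    have hh : m • R = R := by rw [← hR']; exact heq
    have hmN : m ∈ Subgroup.normalizer ((R : Subgroup G) : Set G) :=
      Sylow.smul_eq_iff_mem_normalizer.mp hh
    rw [hNR] at hmN; exact hmN
  obtain ⟨D, hD⟩ : ∃ D : Subgroup G, D = (R : Subgroup G) ⊓ (R' : Subgroup G) := ⟨_, rfl⟩
  have hDR : D ≤ (R : Subgroup G) := by rw [hD]; exact inf_le_left
  have hDR' : D ≤ (R' : Subgroup G) := by rw [hD]; exact inf_le_right
  have hDM : D ≤ M := le_trans hDR hRM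
  have hrel : ∀ H : Subgroup G, H ≤ M → Nat.card H * H.relIndex M = 24 := by
    intro H hH
    have h1 := Subgroup.card_mul_index (H.subgroupOf M)
    rw [Nat.card_congr (Subgroup.subgroupOfEquivOfLe hH).toEquiv, hM24] at h1
    exact h1
  have hri := Subgroup.relIndex_inf_le (H := (R : Subgroup G)) (K := (R' : Subgroup G)) (L := M)
  rw [← hD] at hri
  have h1 := hrel (R : Subgroup G) hRM
  have h2 := hrel (R' : Subgroup G) hR'M
  have h3 := hrel D hDM
  rw [hR8] at h1
  rw [hR'8] at h2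
  have hr1 : (R : Subgroup G).relIndex M = 3 := by omega
  have hr2 : (R' : Subgroup G).relIndex M = 3 := by omega
  rw [hr1, hr2] at hri
  have hDd : Nat.card D ∣ 2 ^ 3 := by
    have hh := Subgroup.card_dvd_of_le hDR
    rw [hR8] at hh
    have e8 : (2 : ℕ) ^ 3 = 8 := by norm_num
    rw [e8]; exact hh
  have hDne8 : Nat.card D ≠ 8 := by
    intro hc
    have e1 : D = (R : Subgroup G) := Subgroup.eq_of_le_of_card_ge hDR (by rw [hc, hR8])
    have e2 : D = (R' : Subgroup G) := Subgroup.eq_of_le_of_card_ge hDR' (by rw [hc, hR'8])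
    exact hRne (Sylow.ext (e2.symm.trans e1))
  have hD4 : Nat.card D = 4 := by
    obtain ⟨k, hk, hk2⟩ := (Nat.dvd_prime_pow Nat.prime_two).mp hDd
    rw [hk2] at h3 hDne8 ⊢
    interval_cases k
    · rw [pow_zero] at h3; omega
    · rw [pow_one] at h3; omega
    · norm_num
    · exact absurd (by norm_num) hDne8
  have hsqD : ∀ x ∈ D, x * x = 1 := by
    intro r hr
    by_contra hr2
    obtain ⟨-, -, hcentR⟩ := Cfsg.Agent.S1004.result h R
    obtain ⟨-, -, hcentR'⟩ := Cfsg.Agent.S1004.result h R'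
    have e1 := hcentR (r * r) ((R : Subgroup G).mul_mem (hDR hr) (hDR hr)) hr2
      (sq_central h R r (hDR hr) hr2)
    have e2 := hcentR' (r * r) ((R' : Subgroup G).mul_mem (hDR' hr) (hDR' hr)) hr2
      (sq_central h R' r (hDR' hr) hr2)
    exact hRne (Sylow.ext (e2.symm.trans e1))
  have hDK : IsKleinFour D := klein_of_sq D hD4 hsqD
  have hN24 := Cfsg.Agent.S1007.klein_N24 h D hDK
  have hRN := Cfsg.Agent.S1007.klein_norm h R D hDK hDR
  have hR'N := Cfsg.Agent.S1007.klein_norm h R' D hDK hDR'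
  obtain ⟨Z, hZ⟩ : ∃ Z : Subgroup G, Z = M ⊓ Subgroup.normalizer (D : Set G) := ⟨_, rfl⟩
  have hZM : Z ≤ M := by rw [hZ]; exact inf_le_left
  have hZN : Z ≤ Subgroup.normalizer (D : Set G) := by rw [hZ]; exact inf_le_right
  have hRZ : (R : Subgroup G) ≤ Z := by rw [hZ]; exact le_inf hRM hRN
  have hR'Z : (R' : Subgroup G) ≤ Z := by rw [hZ]; exact le_inf hR'M hR'N
  have hZ24 : Nat.card Z = 24 := by
    have hd8 := Subgroup.card_dvd_of_le hRZ
    rw [hR8] at hd8
    have hd24 := Subgroup.card_dvd_of_le hZM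
    rw [hM24] at hd24
    have hne8 : Nat.card Z ≠ 8 := by
      intro hc
      have e1 : (R : Subgroup G) = Z := Subgroup.eq_of_le_of_card_ge hRZ (by rw [hc, hR8])
      have e2 : (R' : Subgroup G) = Z := Subgroup.eq_of_le_of_card_ge hR'Z (by rw [hc, hR'8])
      exact hRne (Sylow.ext (e2.trans e1.symm))
    obtain ⟨k, hk⟩ := hd8
    have hk3 : k = 3 := by
      obtain ⟨j, hj⟩ := hd24
      rw [hk] at hj hne8
      have hkj : 8 * (k * j) = 8 * 3 := by rw [← mul_assoc]; omega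
      have hkj' : k * j = 3 := Nat.eq_of_mul_eq_mul_left (by norm_num) hkj
      have hk13 : k ∣ 3 := Dvd.intro j hkj'
      rcases (Nat.dvd_prime (by norm_num : Nat.Prime 3)).mp hk13 with hk1 | hk3
      · rw [hk1] at hne8; omega
      · exact hk3
    omega
  have eM : Z = M := Subgroup.eq_of_le_of_card_ge hZM (by rw [hZ24, hM24])
  have eN : Z = Subgroup.normalizer (D : Set G) :=
    Subgroup.eq_of_le_of_card_ge hZN (by rw [hZ24, hN24])
  have hMN : M = Subgroup.normalizer (D : Set G) := eM.symm.trans eN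
  obtain ⟨hh, hhT⟩ := MulAction.exists_smul_eq G T R
  have hRmem : ∀ y : G, y ∈ (R : Subgroup G) ↔ ∃ s ∈ (T : Subgroup G), hh * s * hh⁻¹ = y := by
    intro y
    rw [← hhT, Sylow.coe_subgroup_smul, Subgroup.mem_smul_pointwise_iff_exists]
    simp only [MulAut.smul_def, MulAut.conj_apply]
  obtain ⟨D', hD'⟩ : ∃ D' : Subgroup G, D' = D.map (MulAut.conj hh⁻¹).toMonoidHom := ⟨_, rfl⟩
  have hD'K : IsKleinFour D' := by rw [hD']; exact klein_conj D hDK hh⁻¹
  have hD'mem : ∀ x, x ∈ D' ↔ hh * x * hh⁻¹ ∈ D := by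
    intro x
    rw [hD', mem_map_conj, inv_inv]
  have hD'T : D' ≤ (T : Subgroup G) := by
    intro x hx
    obtain ⟨s, hs, hse⟩ := (hRmem _).mp (hDR ((hD'mem x).mp hx))
    have hxs : x = s := by
      calc x = hh⁻¹ * (hh * x * hh⁻¹) * hh := by group
        _ = hh⁻¹ * (hh * s * hh⁻¹) * hh := by rw [hse]
        _ = s := by group
    rw [hxs]; exact hs
  have hconjN : (Subgroup.normalizer (D' : Set G)).map (MulAut.conj hh).toMonoidHom = M := by
    rw [hMN]
    apply Subgroup.eq_of_le_of_card_ge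
    · apply norm_conj
      intro x
      rw [hD'mem]
      have e : hh * (hh⁻¹ * x * hh) * hh⁻¹ = x := by group
      rw [e]
    · rw [card_map_conj, hN24, Cfsg.Agent.S1007.klein_N24 h D' hD'K]
  refine ⟨hh, ?_⟩
  rcases hall D' hD'T hD'K with e | e
  · left; rw [← e]; exact hconjN.symm
  · right; rw [← e]; exact hconjN.symm

end

/-- In a simple group of order 168 every maximal subgroup is either isomorphic to the symmetric group of degree 4 or non-abelian of order 21; the maximal subgroups of order 21 form one conjugacy class and those isomorphic to the symmetric group of degree 4 form exactly two conjugacy classes. -/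
theorem result {G : Type*} [Group G] [Finite G] [IsSimpleGroup G] (h : Nat.card G = 168) : (∀ M : Subgroup G, IsCoatom M → Nonempty (↥M ≃* Equiv.Perm (Fin 4)) ∨ (Nat.card ↥M = 21 ∧ ¬ IsMulCommutative ↥M)) ∧ (∀ M M' : Subgroup G, IsCoatom M → IsCoatom M' → Nat.card ↥M = 21 → Nat.card ↥M' = 21 → ∃ g : G, M' = M.map (MulAut.conj g).toMonoidHom) ∧ ∃ M₁ M₂ : Subgroup G, IsCoatom M₁ ∧ IsCoatom M₂ ∧ Nonempty (↥M₁ ≃* Equiv.Perm (Fin 4)) ∧ Nonempty (↥M₂ ≃* Equiv.Perm (Fin 4)) ∧ (∀ g : G, M₂ ≠ M₁.map (MulAut.conj g).toMonoidHom) ∧ ∀ M : Subgroup G, IsCoatom M → Nonempty (↥M ≃* Equiv.Perm (Fin 4)) → ∃ g : G, M = M₁.map (MulAut.conj g).toMonoidHom ∨ M = M₂.map (MulAut.conj g).toMonoidHom := by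
  haveI : Fact (Nat.Prime 2) := ⟨Nat.prime_two⟩
  refine ⟨fun M hM => part_a h M hM, fun M M' hM hM' hc hc' => part_b h M M' hM hM' hc hc', ?_⟩
  obtain ⟨T⟩ := (inferInstance : Nonempty (Sylow 2 G))
  obtain ⟨U0, U1, hne, h0, h1, hK0, hK1, hall⟩ := klein_two h T
  refine ⟨Subgroup.normalizer (U0 : Set G), Subgroup.normalizer (U1 : Set G),
    coatom_NV h U0 hK0, coatom_NV h U1 hK1,
    iso_S4 h _ (Cfsg.Agent.S1007.klein_N24 h U0 hK0),
    iso_S4 h _ (Cfsg.Agent.S1007.klein_N24 h U1 hK1), ?_, ?_⟩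
  · intro g heq
    exact nonconj h T U0 U1 hne h0 h1 hK0 hK1 g heq
  · intro M hM hiso
    obtain ⟨e⟩ := hiso
    have hM24 : Nat.card M = 24 := by
      rw [Nat.card_congr e.toEquiv, Nat.card_eq_fintype_card, Fintype.card_perm,
        Fintype.card_fin]
      rfl
    exact last_clause h T U0 U1 hall M hM24


end Cfsg.Agent.S1008
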