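import Cfsg.Statements.S1009
import Cfsg.Agent.Lib.Helper2.Basic

set_option autoImplicit false
open Cfsg

namespace Cfsg.Agent.S1009

open Cfsg.Agent.Lib.Helper2 in
/-- Brodkey's Theorem: if a finite group has abelian Sylow p-subgroups, then there are two Sylow p-subgroups whose intersection equals the intersection of all Sylow p-subgroups. -/
theorem result {G : Type*} [Group G] [Finite G] (p : ℕ) [Fact p.Prime] (hab : ∀ P : Sylow p G, IsMulCommutative ↥(P : Subgroup G)) : ∃ P Q : Sylow p G, (P : Subgroup G) ⊓ (Q : Subgroup G) = ⨅ R : Sylow p G, (R : Subgroup G) := by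
  classical
  obtain ⟨⟨P, Q⟩, hmin⟩ := Finite.exists_min
    (fun PQ : Sylow p G × Sylow p G => Nat.card ((PQ.1 : Subgroup G) ⊓ (PQ.2 : Subgroup G) : Subgroup G))
  refine ⟨P, Q, le_antisymm ?_ ?_⟩
  · refine le_iInf fun R => ?_
    have hcomm : ∀ (S : Sylow p G) (g d : G), g ∈ (S : Subgroup G) → d ∈ (S : Subgroup G) →
        g * d = d * g := by
      intro S g d hg hd
      have := (hab S).is_comm.comm ⟨g, hg⟩ ⟨d, hd⟩
      exact congrArg Subtype.val this
    have hPN : (P : Subgroup G) ≤ Subgroup.normalizer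
        (((P : Subgroup G) ⊓ (Q : Subgroup G) : Subgroup G) : Set G) := by
      intro g hg
      rw [Subgroup.mem_normalizer_iff]
      intro d
      constructor
      · intro hd
        have h1 : g * d * g⁻¹ = d := by
          rw [hcomm P g d hg hd.1]; group
        rw [h1]; exact hd
      · intro hd
        have h2 := hcomm P g⁻¹ (g * d * g⁻¹) (inv_mem hg) hd.1
        have h1 : d = g * d * g⁻¹ := by
          calc d = g⁻¹ * (g * d * g⁻¹) * g := by group
            _ = g * d * g⁻¹ * g⁻¹ * g := by rw [h2]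
            _ = g * d * g⁻¹ := by group
        rw [h1]; exact hd
    have hQN : (Q : Subgroup G) ≤ Subgroup.normalizer
        (((P : Subgroup G) ⊓ (Q : Subgroup G) : Subgroup G) : Set G) := by
      intro g hg
      rw [Subgroup.mem_normalizer_iff]
      intro d
      constructor
      · intro hd
        have h1 : g * d * g⁻¹ = d := by
          rw [hcomm Q g d hg hd.2]; group
        rw [h1]; exact hd
      · intro hd
        have h2 := hcomm Q g⁻¹ (g * d * g⁻¹) (inv_mem hg) hd.2
        have h1 : d = g * d * g⁻¹ := by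
          calc d = g⁻¹ * (g * d * g⁻¹) * g := by group
            _ = g * d * g⁻¹ * g⁻¹ * g := by rw [h2]
            _ = g * d * g⁻¹ := by group
        rw [h1]; exact hd
    -- the normalizer
    obtain ⟨S, hS⟩ := IsPGroup.exists_le_sylow
      (P := (((R : Subgroup G) ⊓ Subgroup.normalizer
        (((P : Subgroup G) ⊓ (Q : Subgroup G) : Subgroup G) : Set G)).subgroupOf
          (Subgroup.normalizer (((P : Subgroup G) ⊓ (Q : Subgroup G) : Subgroup G) : Set G))))
      (p := p) (by
        have h1 : IsPGroup p ((R : Subgroup G) ⊓ Subgroup.normalizer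
          (((P : Subgroup G) ⊓ (Q : Subgroup G) : Subgroup G) : Set G) : Subgroup G) :=
          R.isPGroup'.to_le inf_le_left
        exact h1.comap_subtype)
    obtain ⟨x, hx⟩ := MulAction.exists_smul_eq
      (Subgroup.normalizer (((P : Subgroup G) ⊓ (Q : Subgroup G) : Subgroup G) : Set G))
      S (P.subtype hPN)
    -- for y in R ⊓ N, x y x⁻¹ ∈ P
    have key : ∀ y : G, y ∈ (R : Subgroup G) → y ∈ Subgroup.normalizer
        (((P : Subgroup G) ⊓ (Q : Subgroup G) : Subgroup G) : Set G) →
        (x : G) * y * (x : G)⁻¹ ∈ (P : Subgroup G) := by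
      intro y hyR hyN
      have h1 : (⟨y, hyN⟩ : Subgroup.normalizer
          (((P : Subgroup G) ⊓ (Q : Subgroup G) : Subgroup G) : Set G)) ∈ (S : Subgroup _) := by
        apply hS
        rw [Subgroup.mem_subgroupOf]
        exact ⟨hyR, hyN⟩
      have h2 : x * ⟨y, hyN⟩ * x⁻¹ ∈ ((x • S : Sylow p _) : Subgroup _) := by
        rw [mem_smul_sylow]
        convert h1 using 1
        group
      rw [hx] at h2
      rw [Sylow.coe_subtype, Subgroup.mem_subgroupOf] at h2
      simpa using h2
    -- R' = x • R
    have hle : (((x : G) • R : Sylow p G) : Subgroup G) ⊓ (Q : Subgroup G) ≤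
        (P : Subgroup G) ⊓ (Q : Subgroup G) := by
      intro z hz
      refine ⟨?_, hz.2⟩
      have hz1 := (mem_smul_sylow R (x : G) z).mp hz.1
      have hzN : (x : G)⁻¹ * z * (x : G) ∈ Subgroup.normalizer
          (((P : Subgroup G) ⊓ (Q : Subgroup G) : Subgroup G) : Set G) :=
        mul_mem (mul_mem (inv_mem x.2) (hQN hz.2)) x.2
      have := key _ hz1 hzN
      have e : (x : G) * ((x : G)⁻¹ * z * (x : G)) * (x : G)⁻¹ = z := by group
      rw [e] at this
      exact this
    have hmin' := hmin (((x : G) • R : Sylow p G), Q)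
    simp only at hmin'
    have heq := Subgroup.eq_of_le_of_card_ge hle hmin'
    intro d hd
    have hxN := x.2
    rw [Subgroup.mem_normalizer_iff] at hxN
    have hd' : (x : G) * d * (x : G)⁻¹ ∈ (P : Subgroup G) ⊓ (Q : Subgroup G) := (hxN d).mp hd
    have hd'' : (x : G) * d * (x : G)⁻¹ ∈ (((x : G) • R : Sylow p G) : Subgroup G) ⊓ (Q : Subgroup G) :=
      heq.symm ▸ hd'
    have := (mem_smul_sylow R (x : G) _).mp hd''.1
    have e : (x : G)⁻¹ * ((x : G) * d * (x : G)⁻¹) * (x : G) = d := by group
    rw [e] at this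
    exact this
  · exact le_inf (iInf_le _ P) (iInf_le _ Q)

end Cfsg.Agent.S1009
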