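import Cfsg.Statements.S1013
import Mathlib
import Cfsg.Agent.Lib.Helper6.Comm
import Cfsg.Agent.Lib.Helper6.PSub

set_option autoImplicit false
open Cfsg

namespace Cfsg.Agent.S1013

universe u

/-- a nontrivial normal subgroup of a faithful transitive group of prime degree is transitive -/
theorem trans_of_normal {X α : Type*} [Group X] [MulAction X α] [FaithfulSMul X α]
    [MulAction.IsPretransitive X α] (hα : (Nat.card α).Prime) (K : Subgroup X) [K.Normal]
    (hK : K ≠ ⊥) : MulAction.IsPretransitive K α := by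
  haveI := MulAction.IsPreprimitive.of_prime_card (G := X) hα
  apply MulAction.IsQuasiPreprimitive.isPretransitive_of_normal
  intro h
  apply hK
  rw [eq_bot_iff]
  intro k hk
  rw [Subgroup.mem_bot]
  apply FaithfulSMul.eq_of_smul_eq_smul (α := α)
  intro a
  have h1 : a ∈ MulAction.fixedPoints K α := by rw [h]; trivial
  rw [one_smul]
  exact h1 ⟨k, hk⟩

theorem dvd_card_of_trans {X α : Type*} [Group X] [Finite X] [MulAction X α]
    [MulAction.IsPretransitive X α] [Nonempty α] : Nat.card α ∣ Nat.card X := by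
  obtain ⟨a⟩ := ‹Nonempty α›
  rw [← MulAction.index_stabilizer_of_transitive X a]
  exact Subgroup.index_dvd_card _

open Cfsg.Agent.Lib.Helper6 in
theorem simple_of_prime_degree {X α : Type*} [Group X] [Finite X] [MulAction X α]
    [FaithfulSMul X α] [MulAction.IsPretransitive X α] {p : ℕ} [Fact p.Prime]
    (hα : Nat.card α = p) (hp2 : ¬ p ^ 2 ∣ Nat.card X) (P : Sylow p X)
    (hn : 1 < Nat.card (Sylow p X))
    (ht : (((P : Subgroup X).subgroupOf (Subgroup.normalizer ((P : Subgroup X) : Set X))).index).Prime) :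
    IsSimpleGroup X := by
  classical
  have hp : p.Prime := Fact.out
  have hαp : (Nat.card α).Prime := by rw [hα]; exact hp
  haveI : Nonempty α := by
    have : Nat.card α ≠ 0 := by rw [hα]; exact hp.ne_zero
    exact (Nat.card_ne_zero.mp this).1
  have hpX : p ∣ Nat.card X := by rw [← hα]; exact dvd_card_of_trans
  have hcardS : ∀ Q : Sylow p X, Nat.card Q = p := by
    intro Q
    obtain ⟨n, hn⟩ := IsPGroup.iff_card.mp Q.isPGroup'
    have h1 : p ∣ Nat.card Q := Q.dvd_card_of_dvd_card hpX
    have h2 : Nat.card Q ∣ Nat.card X := Subgroup.card_subgroup_dvd_card _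
    rw [hn] at h1 h2
    have hn1 : n ≠ 0 := by
      rintro rfl
      rw [pow_zero] at h1
      exact hp.one_lt.ne' (Nat.dvd_one.mp h1)
    have hn2 : n < 2 := by
      by_contra hcon
      exact hp2 ((pow_dvd_pow p (not_lt.mp hcon)).trans h2)
    have : n = 1 := by omega
    rw [hn, this, pow_one]
  haveI : Nontrivial X := by
    by_contra hcon
    rw [not_nontrivial_iff_subsingleton] at hcon
    have : Subsingleton (Sylow p X) := ⟨fun A B => Sylow.ext (Subsingleton.elim _ _)⟩
    have h1 : Nat.card (Sylow p X) ≤ 1 := Finite.card_le_one_iff_subsingleton.mpr this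
    omega
  refine ⟨fun K hKn => ?_⟩
  by_cases hK : K = ⊥
  · exact Or.inl hK
  right
  haveI := hKn
  haveI hKt : MulAction.IsPretransitive K α := trans_of_normal hαp K hK
  have hpK : p ∣ Nat.card K := by rw [← hα]; exact dvd_card_of_trans
  -- P ≤ K
  have hPK : (P : Subgroup X) ≤ K := by
    obtain ⟨x, hx⟩ := exists_prime_orderOf_dvd_card' p hpK
    have hxp : IsPGroup p (Subgroup.zpowers (x : X)) := by
      rw [IsPGroup.iff_card, Nat.card_zpowers, Subgroup.orderOf_coe, hx]
      exact ⟨1, (pow_one p).symm⟩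
    obtain ⟨Q, hQ⟩ := hxp.exists_le_sylow
    have hQeq : Subgroup.zpowers (x : X) = (Q : Subgroup X) := by
      apply Subgroup.eq_of_le_of_card_ge hQ
      rw [hcardS Q, Nat.card_zpowers, Subgroup.orderOf_coe, hx]
    have hQK : (Q : Subgroup X) ≤ K := by
      rw [← hQeq, Subgroup.zpowers_le]; exact x.2
    obtain ⟨g, hg⟩ := MulAction.exists_smul_eq X Q P
    intro y hy
    have hy' : y ∈ ((g • Q : Sylow p X) : Subgroup X) := by rw [hg]; exact hy
    rw [sylow_smul_mem_iff] at hy'
    have h1 : y = g * (g⁻¹ * y * g) * g⁻¹ := by group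
    rw [h1]
    exact hKn.conj_mem _ (hQK hy') g
  have hfr : Subgroup.normalizer ((P : Subgroup X) : Set X) ⊔ K = ⊤ :=
    Sylow.normalizer_sup_eq_top' P hPK
  by_cases hNK : Subgroup.normalizer ((P : Subgroup X) : Set X) ≤ K
  · rw [sup_eq_right.mpr hNK] at hfr
    exact hfr
  exfalso
  set N : Subgroup X := Subgroup.normalizer ((P : Subgroup X) : Set X) with hNdef
  have hPN : (P : Subgroup X) ≤ N := Subgroup.le_normalizer
  have hKN : K ⊓ N ≤ (P : Subgroup X) := by
    have h1 := Subgroup.relIndex_mul_relIndex (P : Subgroup X) (K ⊓ N) N (le_inf hPK hPN)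
      inf_le_right
    have h2 : (P : Subgroup X).relIndex N = ((P : Subgroup X).subgroupOf N).index := rfl
    rw [h2] at h1
    have h3 : (K ⊓ N).relIndex N ≠ 1 := by
      intro h
      rw [Subgroup.relIndex_eq_one] at h
      exact hNK (h.trans inf_le_left)
    have h4 : (P : Subgroup X).relIndex (K ⊓ N) = 1 := by
      rcases (Nat.dvd_prime ht).mp (Dvd.intro_left _ h1) with h | h
      · exact absurd h h3
      · rw [h] at h1
        have hpos : 0 < ((P : Subgroup X).subgroupOf N).index := ht.pos
        nlinarith [h1]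
    exact Subgroup.relIndex_eq_one.mp h4
  -- Burnside in K
  set P' : Sylow p K := P.subtype hPK with hP'def
  have hP'coe : (P' : Subgroup K) = (P : Subgroup X).subgroupOf K := Sylow.coe_subtype _ _
  have hP'card : Nat.card (P' : Subgroup K) = p := by
    rw [hP'coe, Nat.card_congr (Subgroup.subgroupOfEquivOfLe hPK).toEquiv]
    exact hcardS P
  have hP'comm : ∀ a ∈ (P' : Subgroup K), ∀ b ∈ (P' : Subgroup K), a * b = b * a := by
    intro a ha b hb
    haveI : IsCyclic (P' : Subgroup K) := isCyclic_of_prime_card hP'card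
    have := IsCyclic.commGroup.mul_comm (⟨a, ha⟩ : (P' : Subgroup K)) ⟨b, hb⟩
    exact congrArg Subtype.val this
  have hPc : Subgroup.normalizer ((P' : Subgroup K) : Set K) ≤
      Subgroup.centralizer ((P' : Subgroup K) : Set K) := by
    intro n hn
    have hnP : n ∈ (P' : Subgroup K) := by
      rw [hP'coe, Subgroup.mem_subgroupOf]
      apply hKN
      refine ⟨n.2, ?_⟩
      apply mem_normalizer_of_conj_mem
      intro y hy
      have hyK : y ∈ K := hPK hy
      have h1 : (⟨y, hyK⟩ : K) ∈ (P' : Subgroup K) := by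
        rw [hP'coe, Subgroup.mem_subgroupOf]; exact hy
      have h2 := (Subgroup.mem_normalizer_iff.mp hn ⟨y, hyK⟩).mp h1
      rw [hP'coe, Subgroup.mem_subgroupOf] at h2
      exact h2
    rw [Subgroup.mem_centralizer_iff]
    intro b hb
    exact hP'comm b hb n hnP
  have hcompl := MonoidHom.ker_transferSylow_isComplement' P' hPc
  set T : Subgroup K := (MonoidHom.transferSylow P' hPc).ker with hTdef
  have hTcard : Nat.card T * p = Nat.card K := by
    rw [← hP'card]; exact hcompl.card_mul_card
  have hTbot : T = ⊥ := by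
    by_contra hT
    haveI : MulAction.IsPretransitive T α := trans_of_normal hαp T hT
    have h1 : p ∣ Nat.card T := by rw [← hα]; exact dvd_card_of_trans
    apply hp2
    have h2 : p ^ 2 ∣ Nat.card K := by
      rw [← hTcard, pow_two]; exact Nat.mul_dvd_mul_right h1 p
    exact h2.trans (Subgroup.card_subgroup_dvd_card K)
  have hKcard : Nat.card K = p := by
    rw [← hTcard, hTbot, Subgroup.card_bot, one_mul]
  have hPeq : (P : Subgroup X) = K := by
    apply Subgroup.eq_of_le_of_card_ge hPK
    rw [hKcard]; exact (hcardS P).ge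
  have hPn : (P : Subgroup X).Normal := by rw [hPeq]; exact hKn
  haveI := Sylow.unique_of_normal P hPn
  rw [Nat.card_unique] at hn
  exact lt_irrefl _ hn


/-- Let G be a transitive permutation group of prime degree p having more than one Sylow p-subgroup, and suppose a Sylow p-subgroup P has prime index in its normalizer. Then G is simple. -/
theorem result {α : Type*} [Fintype α] [DecidableEq α] {p : ℕ} [Fact p.Prime] (hα : Fintype.card α = p) (G : Subgroup (Equiv.Perm α)) [MulAction.IsPretransitive ↥G α] (P : Sylow p ↥G) (hn : 1 < Nat.card (Sylow p ↥G)) (ht : (((P : Subgroup ↥G).subgroupOf (Subgroup.normalizer ((P : Subgroup ↥G) : Set ↥G))).index).Prime) : IsSimpleGroup ↥G := by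
  classical
  have hp : p.Prime := Fact.out
  have hα' : Nat.card α = p := by rw [Nat.card_eq_fintype_card]; exact hα
  have hp2 : ¬ p ^ 2 ∣ Nat.card ↥G := by
    intro h
    have h1 : Nat.card ↥G ∣ Nat.card (Equiv.Perm α) := Subgroup.card_subgroup_dvd_card G
    rw [Nat.card_eq_fintype_card (α := Equiv.Perm α), Fintype.card_perm, hα] at h1
    have h2 : p ^ 2 ∣ p.factorial := h.trans h1
    obtain ⟨m, hm⟩ : ∃ m, p = m + 1 := ⟨p - 1, (Nat.succ_pred_eq_of_pos hp.pos).symm⟩
    rw [hm, Nat.factorial_succ, pow_two] at h2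
    have h3 : m + 1 ∣ m.factorial := Nat.dvd_of_mul_dvd_mul_left (Nat.succ_pos m) h2
    rw [← hm] at h3
    have h4 := (Nat.Prime.dvd_factorial hp).mp h3
    omega
  exact simple_of_prime_degree hα' hp2 P hn ht

end Cfsg.Agent.S1013
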