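import Cfsg.Statements.S1014
import Mathlib
set_option autoImplicit false
open Cfsg

namespace Cfsg.Agent.S1014


theorem arith (n : ℕ) (h1 : n ∣ 48) (h2 : n % 23 = 1) (h3 : n ≠ 1) : n = 24 := by
  have h4 : n ≤ 48 := Nat.le_of_dvd (by norm_num) h1
  interval_cases n <;> first | rfl | omega
theorem result {G : Type*} [Group G] [Finite G] [IsSimpleGroup G] : Nat.card G ≠ 1104 := by

  classical
  intro hG
  haveI : Fact (Nat.Prime 23) := ⟨by norm_num⟩
  have hfac : (1104 : ℕ).factorization 23 = 1 := by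
    have h : (1104 : ℕ) = 23 ^ 1 * 48 := by norm_num
    rw [h, Nat.factorization_mul (by norm_num) (by norm_num),
      Nat.Prime.factorization_pow (by norm_num)]
    simp [Nat.factorization_eq_zero_of_not_dvd]
  have hSc : ∀ P : Sylow 23 G, Nat.card (P : Subgroup G) = 23 := by
    intro P
    rw [Sylow.card_eq_multiplicity, hG, hfac]
    norm_num
  obtain ⟨P⟩ : Nonempty (Sylow 23 G) := inferInstance
  have hP := hSc P
  have hn1 : Nat.card (Sylow 23 G) ≡ 1 [MOD 23] := card_sylow_modEq_one 23 G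
  have hn2 : Nat.card (Sylow 23 G) ∣ (P : Subgroup G).index := Sylow.card_dvd_index P
  have hPi : (P : Subgroup G).index = 48 := by
    have := Subgroup.card_mul_index (P : Subgroup G)
    rw [hG, hP] at this; omega
  rw [hPi] at hn2
  have hPtop : (P : Subgroup G) ≠ ⊤ := by
    intro h1
    rw [h1, Subgroup.card_top, hG] at hP; omega
  have hPbot : (P : Subgroup G) ≠ ⊥ := by
    intro h; rw [h] at hP; simp at hP
  have hn3 : Nat.card (Sylow 23 G) ≠ 1 := by
    intro h1
    haveI : Subsingleton (Sylow 23 G) := Finite.card_le_one_iff_subsingleton.mp (by omega)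
    have hnorm : (P : Subgroup G).Normal := Sylow.normal_of_subsingleton P
    rcases hnorm.eq_bot_or_eq_top with h | h
    · exact hPbot h
    · exact hPtop h
  have hn : Nat.card (Sylow 23 G) = 24 := arith _ hn2 hn1 hn3
  obtain ⟨N, hN⟩ : ∃ N : Subgroup G, N = Subgroup.normalizer ((P : Subgroup G) : Set G) :=
    ⟨_, rfl⟩
  have hNi : N.index = 24 := by
    rw [hN, ← hn]; exact (Sylow.card_eq_index_normalizer P).symm
  have hNc : Nat.card N = 46 := by
    have := Subgroup.card_mul_index N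
    rw [hG, hNi] at this; omega
  have hPN : (P : Subgroup G) ≤ N := hN ▸ Subgroup.le_normalizer
  have hPcomm : ∀ a ∈ (P : Subgroup G), ∀ b ∈ (P : Subgroup G), a * b = b * a := by
    intro a ha b hb
    haveI : IsCyclic ↥(P : Subgroup G) := isCyclic_of_prime_card (p := 23) hP
    have h1 := (IsCyclic.isMulCommutative (α := ↥(P : Subgroup G))).is_comm.comm ⟨a, ha⟩ ⟨b, hb⟩
    exact congrArg Subtype.val h1
  have hBurn : ¬ (Subgroup.normalizer ((P : Subgroup G) : Set G) ≤
      Subgroup.centralizer ((P : Subgroup G) : Set G)) := by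
    intro hle
    have hc := MonoidHom.ker_transferSylow_isComplement' P hle
    have hcard := hc.card_mul_card
    rw [hG] at hcard
    have hP' : Nat.card ↥(P : Subgroup G) = 23 := hP
    have hK : Nat.card (MonoidHom.transferSylow P hle).ker = 48 := by
      have h23 : Nat.card (MonoidHom.transferSylow P hle).ker * 23 = 1104 := by
        have h := hcard
        simpa [hP'] using h
      omega
    rcases (MonoidHom.normal_ker (MonoidHom.transferSylow P hle)).eq_bot_or_eq_top with h | h
    · rw [h] at hK; simp at hK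
    · rw [h, Subgroup.card_top, hG] at hK; omega
  obtain ⟨Q₀, hQ₀⟩ : ∃ Q₀ : Sylow 23 G, Q₀ ≠ P := by
    by_contra hcon
    push Not at hcon
    haveI : Subsingleton (Sylow 23 G) := ⟨fun a b => (hcon a).trans (hcon b).symm⟩
    have : Nat.card (Sylow 23 G) ≤ 1 := Finite.card_le_one_iff_subsingleton.mpr this
    omega
  have hQ := hSc Q₀
  have hPQ : (P : Subgroup G) ⊓ (Q₀ : Subgroup G) = ⊥ := by
    by_contra hne
    have hdvd : Nat.card ↥((P : Subgroup G) ⊓ (Q₀ : Subgroup G)) ∣ 23 := by
      have h := Subgroup.card_dvd_of_le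
        (inf_le_left : (P : Subgroup G) ⊓ (Q₀ : Subgroup G) ≤ (P : Subgroup G))
      rwa [hP] at h
    have h1 : Nat.card ↥((P : Subgroup G) ⊓ (Q₀ : Subgroup G)) ≠ 1 :=
      fun h => hne (Subgroup.card_eq_one.mp h)
    have h23 : Nat.card ↥((P : Subgroup G) ⊓ (Q₀ : Subgroup G)) = 23 := by
      rcases (Nat.dvd_prime (by norm_num : Nat.Prime 23)).mp hdvd with h | h
      · exact absurd h h1
      · exact h
    have hPle : (P : Subgroup G) ≤ (Q₀ : Subgroup G) := by
      have h2 : (P : Subgroup G) ⊓ (Q₀ : Subgroup G) = (P : Subgroup G) :=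
        Subgroup.eq_of_le_of_card_ge inf_le_left (by rw [h23, hP])
      rw [← h2]; exact inf_le_right
    exact hQ₀ (Sylow.ext (Subgroup.eq_of_le_of_card_ge hPle (by rw [hP, hQ]))).symm
  have hsubH : ∀ H : Subgroup G, H ≤ N → MulAction.orbit (↥H) Q₀ ⊆ Set.univ \ {P} := by
    intro H hH
    rintro R ⟨g, rfl⟩
    refine ⟨trivial, ?_⟩
    intro h
    apply hQ₀
    have h1 : (g : G) • Q₀ = P := h
    have h2 : ((g : G)⁻¹) • P = P :=
      Sylow.smul_eq_iff_mem_normalizer.mpr (hN ▸ N.inv_mem (hH g.2))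
    calc Q₀ = (g : G)⁻¹ • ((g : G) • Q₀) := (inv_smul_smul _ _).symm
      _ = (g : G)⁻¹ • P := congrArg (fun R => (g : G)⁻¹ • R) h1
      _ = P := h2
  have hcompl : (Set.univ \ {P} : Set (Sylow 23 G)).ncard = 23 := by
    rw [Set.ncard_sdiff_singleton_of_mem (Set.mem_univ P), Set.ncard_univ, hn]
  have horbP : MulAction.orbit (↥(P : Subgroup G)) Q₀ = Set.univ \ {P} := by
    apply Set.eq_of_subset_of_ncard_le (hsubH _ hPN) _ (Set.toFinite _)
    rw [hcompl]
    have hstab := MulAction.index_stabilizer (↥(P : Subgroup G)) Q₀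
    have hmul := Subgroup.card_mul_index (MulAction.stabilizer (↥(P : Subgroup G)) Q₀)
    rw [hstab, hP] at hmul
    have hS1 : Nat.card (MulAction.stabilizer (↥(P : Subgroup G)) Q₀) = 1 := by
      obtain ⟨S', hS'⟩ : ∃ S' : Subgroup G, S' =
        (MulAction.stabilizer (↥(P : Subgroup G)) Q₀).map (P : Subgroup G).subtype := ⟨_, rfl⟩
      have hS'P : S' ≤ (P : Subgroup G) := by rw [hS']; exact Subgroup.map_subtype_le _
      have hS'pg : IsPGroup 23 S' := P.isPGroup'.to_le hS'P
      have hS'Q : S' ≤ (Q₀ : Subgroup G) := by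
        rw [← hS'pg.sylow_mem_fixedPoints_iff]
        rintro ⟨s, hs⟩
        rw [hS'] at hs
        obtain ⟨t, ht, rfl⟩ := hs
        exact MulAction.mem_stabilizer_iff.mp ht
      have hcard : Nat.card S' = Nat.card (MulAction.stabilizer (↥(P : Subgroup G)) Q₀) := by
        rw [hS']
        exact Subgroup.card_map_of_injective (Subgroup.subtype_injective _)
      have hle : S' ≤ (P : Subgroup G) ⊓ (Q₀ : Subgroup G) := le_inf hS'P hS'Q
      rw [hPQ, le_bot_iff] at hle
      rw [← hcard, hle, Subgroup.card_bot]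
    rw [hS1] at hmul
    omega
  have horbN : MulAction.orbit (↥N) Q₀ = Set.univ \ {P} := by
    apply le_antisymm (hsubH N le_rfl)
    rw [← horbP]
    rintro R ⟨x, rfl⟩
    exact ⟨⟨x, hPN x.2⟩, rfl⟩
  have hSN2 : Nat.card (MulAction.stabilizer (↥N) Q₀) = 2 := by
    have hstab := MulAction.index_stabilizer (↥N) Q₀
    have hmul := Subgroup.card_mul_index (MulAction.stabilizer (↥N) Q₀)
    rw [hstab, horbN, hcompl, hNc] at hmul
    omega
  obtain ⟨t'', ht''1, huniq⟩ := (Nat.card_eq_two_iff' (1 : MulAction.stabilizer (↥N) Q₀)).mp hSN2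
  obtain ⟨t, ht⟩ : ∃ t : G, t = ((t'' : ↥N) : G) := ⟨_, rfl⟩
  have htN : t ∈ N := by rw [ht]; exact (t'' : ↥N).2
  have ht1 : t ≠ 1 := by
    intro h
    apply ht''1
    apply Subtype.ext; apply Subtype.ext
    rw [← ht, h]; rfl
  have htt : t * t = 1 := by
    have h1 : t'' ^ 2 = 1 := by rw [← hSN2]; exact pow_card_eq_one'
    have h2 : (((t'' ^ 2 : MulAction.stabilizer (↥N) Q₀) : ↥N) : G) = 1 := by rw [h1]; rfl
    rw [pow_two] at h2
    rw [ht]; exact h2
  have hto : orderOf t = 2 := orderOf_eq_prime (by rw [pow_two]; exact htt) ht1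
  have htQ : t • Q₀ = Q₀ := by
    have h1 : (t'' : ↥N) • Q₀ = Q₀ := MulAction.mem_stabilizer_iff.mp t''.2
    rw [ht]; exact h1
  have htP : t • P = P := Sylow.smul_eq_iff_mem_normalizer.mpr (hN ▸ htN)
  have hnc : ∀ x ∈ (P : Subgroup G), x ≠ 1 → t * x ≠ x * t := by
    intro x hx hx1 hcomm
    apply hBurn
    have hzx : Subgroup.zpowers x = (P : Subgroup G) := by
      apply Subgroup.eq_of_le_of_card_ge (Subgroup.zpowers_le.mpr hx)
      rw [hP, Nat.card_zpowers]
      have h1 : orderOf x ∣ 23 := by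
        have h := Subgroup.orderOf_dvd_natCard (P : Subgroup G) hx
        rwa [hP] at h
      rcases (Nat.dvd_prime (by norm_num : Nat.Prime 23)).mp h1 with h | h
      · exact absurd (orderOf_eq_one_iff.mp h) hx1
      · rw [h]
    have htC : t ∈ Subgroup.centralizer ((P : Subgroup G) : Set G) := by
      rw [Subgroup.mem_centralizer_iff]
      intro y hy
      rw [SetLike.mem_coe, ← hzx] at hy
      obtain ⟨k, rfl⟩ := Subgroup.mem_zpowers_iff.mp hy
      exact (Commute.zpow_left (show Commute x t from hcomm.symm) k).eq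
    have hPC : (P : Subgroup G) ≤ Subgroup.centralizer ((P : Subgroup G) : Set G) := by
      intro y hy
      rw [Subgroup.mem_centralizer_iff]
      intro z hz
      exact hPcomm z hz y hy
    obtain ⟨D, hD⟩ : ∃ D : Subgroup G,
      D = Subgroup.centralizer ((P : Subgroup G) : Set G) ⊓ N := ⟨_, rfl⟩
    have hPD : (P : Subgroup G) ≤ D := hD ▸ le_inf hPC hPN
    have htD : t ∈ D := hD ▸ Subgroup.mem_inf.mpr ⟨htC, htN⟩
    have h23 : 23 ∣ Nat.card D := by
      have h := Subgroup.card_dvd_of_le hPD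
      rwa [hP] at h
    have h2 : 2 ∣ Nat.card D := by
      have := Subgroup.orderOf_dvd_natCard D htD
      rwa [hto] at this
    have hDN : D ≤ N := hD ▸ inf_le_right
    have hpos : 0 < Nat.card D := Nat.card_pos
    have hDeq : D = N := Subgroup.eq_of_le_of_card_ge hDN (by rw [hNc]; omega)
    rw [← hN, ← hDeq, hD]; exact inf_le_left
  have hfixed : ∀ R : Sylow 23 G, t • R = R → R = P ∨ R = Q₀ := by
    intro R hR
    by_cases hRP : R = P
    · left; exact hRP
    · right
      have hRorb : R ∈ MulAction.orbit (↥(P : Subgroup G)) Q₀ := by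
        rw [horbP]; exact ⟨trivial, hRP⟩
      obtain ⟨x, hx⟩ := hRorb
      have hx' : (x : G) • Q₀ = R := hx
      have hy : ((x : G)⁻¹ * t * (x : G)) • Q₀ = Q₀ := by
        rw [mul_smul, mul_smul, hx', hR, ← hx', inv_smul_smul]
      have hyN : (x : G)⁻¹ * t * (x : G) ∈ N :=
        N.mul_mem (N.mul_mem (N.inv_mem (hPN x.2)) htN) (hPN x.2)
      have hyS : (⟨(x : G)⁻¹ * t * (x : G), hyN⟩ : ↥N) ∈ MulAction.stabilizer (↥N) Q₀ := hy
      have hy1 : (⟨⟨(x : G)⁻¹ * t * (x : G), hyN⟩, hyS⟩ : MulAction.stabilizer (↥N) Q₀) ≠ 1 := by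
        intro h
        have h' : (x : G)⁻¹ * t * (x : G) = 1 := congrArg (fun z : MulAction.stabilizer (↥N) Q₀ => ((z : ↥N) : G)) h
        apply ht1
        calc t = (x : G) * ((x : G)⁻¹ * t * (x : G)) * (x : G)⁻¹ := by group
          _ = 1 := by rw [h']; group
      have heq := huniq _ hy1
      have heq' : (x : G)⁻¹ * t * (x : G) = t := by
        have h' : (x : G)⁻¹ * t * (x : G) = ((t'' : ↥N) : G) :=
          congrArg (fun z : MulAction.stabilizer (↥N) Q₀ => ((z : ↥N) : G)) heq
        exact h'.trans ht.symm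
      have hcomm : t * (x : G) = (x : G) * t := by
        calc t * (x : G) = (x : G) * ((x : G)⁻¹ * t * (x : G)) := by group
          _ = (x : G) * t := by rw [heq']
      have hx1 : (x : G) = 1 := by
        by_contra hx1
        exact hnc _ x.2 hx1 hcomm
      rw [← hx', hx1, one_smul]
  letI : Fintype (Sylow 23 G) := Fintype.ofFinite _
  obtain ⟨σ, hσ⟩ : ∃ σ : Equiv.Perm (Sylow 23 G), σ = MulAction.toPerm t := ⟨_, rfl⟩
  have hσapp : ∀ R, σ R = t • R := fun R => by rw [hσ]; rfl
  have hσ2 : σ ^ 2 = 1 := by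
    ext R
    rw [pow_two, Equiv.Perm.mul_apply, hσapp, hσapp, smul_smul, htt, one_smul]; rfl
  have hfixset : Function.fixedPoints σ = {P, Q₀} := by
    ext R
    rw [Function.mem_fixedPoints_iff, hσapp]
    constructor
    · intro h; rcases hfixed R h with h | h <;> simp [h]
    · rintro (h | h)
      · rw [h]; exact htP
      · rw [Set.mem_singleton_iff] at h; rw [h]; exact htQ
  have hσ1 : σ ≠ 1 := by
    intro h
    have h1 : Function.fixedPoints σ = Set.univ := by
      ext R; simp [Function.mem_fixedPoints_iff, h]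
    rw [hfixset] at h1
    have h2 := congrArg Set.ncard h1
    rw [Set.ncard_pair (Ne.symm hQ₀), Set.ncard_univ, hn] at h2
    omega
  have hord : orderOf σ = 2 := orderOf_eq_prime hσ2 hσ1
  obtain ⟨k, hk⟩ := Equiv.Perm.cycleType_prime_order (σ := σ) (by rw [hord]; exact Nat.prime_two)
  rw [hord] at hk
  have hsign := Equiv.Perm.sign_of_cycleType_eq_replicate (σ := σ) (n := 2) (by norm_num)
    (by rw [hk, Multiset.card_replicate])
  rw [if_neg (by decide)] at hsign
  have hc1 : Fintype.card (Sylow 23 G) = 24 := by rw [Fintype.card_eq_nat_card, hn]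
  have hc2 : Fintype.card (Function.fixedPoints σ) = 2 := by
    rw [Fintype.card_eq_nat_card, Nat.card_coe_set_eq, hfixset, Set.ncard_pair (Ne.symm hQ₀)]
  rw [hc1, hc2] at hsign
  have hsign' : Equiv.Perm.sign σ = -1 := by rw [hsign]; rfl
  obtain ⟨φ, hφ⟩ : ∃ φ : G →* ℤˣ,
    φ = (Equiv.Perm.sign).comp (MulAction.toPermHom G (Sylow 23 G)) := ⟨_, rfl⟩
  have hφt : φ t = -1 := by
    rw [hφ]
    show Equiv.Perm.sign (MulAction.toPerm t) = -1
    rw [← hσ]; exact hsign'
  rcases (MonoidHom.normal_ker φ).eq_bot_or_eq_top with h | h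
  · obtain ⟨x, hx⟩ := exists_prime_orderOf_dvd_card' (G := G) 23 (by rw [hG]; norm_num)
    have h1 : x ^ 2 ∈ φ.ker := by
      rw [MonoidHom.mem_ker, map_pow]
      exact Int.units_sq (φ x)
    rw [h, Subgroup.mem_bot] at h1
    have h2 : orderOf x ∣ 2 := orderOf_dvd_of_pow_eq_one h1
    rw [hx] at h2
    omega
  · have h1 : t ∈ φ.ker := by rw [h]; trivial
    rw [MonoidHom.mem_ker, hφt] at h1
    exact absurd h1 (by decide)

end Cfsg.Agent.S1014
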