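import Cfsg.Statements.S1015
import Mathlib
import Cfsg.Agent.Lib.Helper1.AltIso
import Cfsg.Agent.Lib.Lead.Hall
set_option autoImplicit false
open Cfsg

namespace Cfsg.Agent.S1015


theorem arith (n : ℕ) (h1 : n ∣ 48) (h2 : n % 5 = 1) (h3 : 1200 ∣ n.factorial) : n = 16 := by
  have h4 : n ≤ 48 := Nat.le_of_dvd (by norm_num) h1
  interval_cases n <;> first | rfl | omega | (exfalso; revert h3; decide)

theorem le_norm_of_comm {G : Type*} [Group G] (A D : Subgroup G) (hDA : D ≤ A)
    (hc : ∀ a ∈ A, ∀ b ∈ A, a * b = b * a) : A ≤ Subgroup.normalizer (D : Set G) := by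
  intro g hg
  rw [Subgroup.mem_normalizer_iff]
  intro d
  constructor
  · intro hd
    have h1 : g * d * g⁻¹ = d := by rw [hc g hg d (hDA hd)]; group
    rw [h1]; exact hd
  · intro hd
    have h2 := hc g⁻¹ (inv_mem hg) (g * d * g⁻¹) (hDA hd)
    have h1 : d = g * d * g⁻¹ := by
      calc d = g⁻¹ * (g * d * g⁻¹) * g := by group
        _ = g * d * g⁻¹ * g⁻¹ * g := by rw [h2]
        _ = g * d * g⁻¹ := by group
    rw [h1]; exact hd
theorem result {G : Type*} [Group G] [Finite G] [IsSimpleGroup G] : Nat.card G ≠ 1200 := by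

  classical
  intro hG
  haveI : Fact (Nat.Prime 5) := ⟨by norm_num⟩
  have hfac : (1200 : ℕ).factorization 5 = 2 := by
    have h : (1200 : ℕ) = 5^2 * 48 := by norm_num
    rw [h, Nat.factorization_mul (by norm_num) (by norm_num), Nat.Prime.factorization_pow (by norm_num)]
    simp [Nat.factorization_eq_zero_of_not_dvd]
  have hSc : ∀ P : Sylow 5 G, Nat.card (P : Subgroup G) = 25 := by
    intro P
    rw [Sylow.card_eq_multiplicity, hG, hfac]
    norm_num
  have hidx : ∀ H : Subgroup G, H ≠ ⊤ → 150 ≤ Nat.card H → False := by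
    intro H hH h150
    have h1 := Cfsg.Agent.Lib.Helper1.card_dvd_factorial_index H hH
    have h2 := Subgroup.card_mul_index H
    rw [hG] at h1 h2
    have h3 : H.index ≤ 8 := by nlinarith
    have h4 : (1200:ℕ) ∣ Nat.factorial 8 := h1.trans (Nat.factorial_dvd_factorial h3)
    revert h4; decide
  obtain ⟨P⟩ : Nonempty (Sylow 5 G) := inferInstance
  have hP := hSc P
  have hn1 : Nat.card (Sylow 5 G) ≡ 1 [MOD 5] := card_sylow_modEq_one 5 G
  have hn2 : Nat.card (Sylow 5 G) ∣ (P : Subgroup G).index := Sylow.card_dvd_index P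
  have hPi : (P : Subgroup G).index = 48 := by
    have := Subgroup.card_mul_index (P : Subgroup G)
    rw [hG, hP] at this; omega
  rw [hPi] at hn2
  have hNi : (Subgroup.normalizer ((P : Subgroup G) : Set G)).index = Nat.card (Sylow 5 G) :=
    (Sylow.card_eq_index_normalizer P).symm
  have hPtop : (P : Subgroup G) ≠ ⊤ := by
    intro h1
    rw [h1, Subgroup.card_top, hG] at hP; omega
  have hNtop : Subgroup.normalizer ((P : Subgroup G) : Set G) ≠ ⊤ := by
    intro h
    have hnorm : (P : Subgroup G).Normal := Subgroup.normalizer_eq_top_iff.mp h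
    rcases hnorm.eq_bot_or_eq_top with h1 | h1
    · rw [h1] at hP; simp at hP
    · exact hPtop h1
  have hdvd := Cfsg.Agent.Lib.Helper1.card_dvd_factorial_index _ hNtop
  rw [hNi, hG] at hdvd
  have hn : Nat.card (Sylow 5 G) = 16 := arith _ hn2 hn1 hdvd
  obtain ⟨Q, hQP⟩ : ∃ Q : Sylow 5 G, Q ≠ P := by
    by_contra hcon
    push_neg at hcon
    haveI : Subsingleton (Sylow 5 G) := ⟨fun a b => (hcon a).trans (hcon b).symm⟩
    have : Nat.card (Sylow 5 G) ≤ 1 := Finite.card_le_one_iff_subsingleton.mpr this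
    omega
  have hQ := hSc Q
  have horb : (MulAction.orbit (↥(P : Subgroup G)) Q).ncard ≤ 15 := by
    have hsub : MulAction.orbit (↥(P : Subgroup G)) Q ⊆ Set.univ \ {P} := by
      rintro R ⟨g, rfl⟩
      refine ⟨trivial, ?_⟩
      intro h
      apply hQP
      have h1 : (g : G) • Q = P := h
      have h2 : ((g : G)⁻¹) • P = P :=
        Sylow.smul_eq_iff_mem_normalizer.mpr (Subgroup.le_normalizer (inv_mem g.2))
      calc Q = (g : G)⁻¹ • ((g : G) • Q) := (inv_smul_smul _ _).symm
        _ = (g : G)⁻¹ • P := congrArg (fun R => (g : G)⁻¹ • R) h1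
        _ = P := h2
    have h1 := Set.ncard_le_ncard hsub (Set.toFinite _)
    have h2 : (Set.univ \ {P} : Set (Sylow 5 G)).ncard = Nat.card (Sylow 5 G) - 1 := by
      rw [Set.ncard_diff_singleton_of_mem (Set.mem_univ P), Set.ncard_univ]
    omega
  have hstab := MulAction.index_stabilizer (↥(P : Subgroup G)) Q
  have hmul := Subgroup.card_mul_index (MulAction.stabilizer (↥(P : Subgroup G)) Q)
  rw [hstab, hP] at hmul
  have hS2 : 2 ≤ Nat.card (MulAction.stabilizer (↥(P : Subgroup G)) Q) := by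
    by_contra hlt
    push_neg at hlt
    have : Nat.card (MulAction.stabilizer (↥(P : Subgroup G)) Q) ≤ 1 := by omega
    nlinarith
  obtain ⟨D, hD⟩ : ∃ D : Subgroup G, D = (P : Subgroup G) ⊓ (Q : Subgroup G) := ⟨_, rfl⟩
  have hDP : D ≤ (P : Subgroup G) := hD ▸ inf_le_left
  have hDQ : D ≤ (Q : Subgroup G) := hD ▸ inf_le_right
  have hD2 : 2 ≤ Nat.card D := by
    obtain ⟨S', hS'⟩ : ∃ S' : Subgroup G, S' =
      (MulAction.stabilizer (↥(P : Subgroup G)) Q).map (P : Subgroup G).subtype := ⟨_, rfl⟩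
    have hS'P : S' ≤ (P : Subgroup G) := by rw [hS']; exact Subgroup.map_subtype_le _
    have hS'pg : IsPGroup 5 S' := P.isPGroup'.to_le hS'P
    have hS'Q : S' ≤ (Q : Subgroup G) := by
      rw [← hS'pg.sylow_mem_fixedPoints_iff]
      rintro ⟨s, hs⟩
      rw [hS'] at hs
      obtain ⟨t, ht, rfl⟩ := hs
      exact MulAction.mem_stabilizer_iff.mp ht
    have hcard : Nat.card S' = Nat.card (MulAction.stabilizer (↥(P : Subgroup G)) Q) := by
      rw [hS']
      exact Subgroup.card_map_of_injective (Subgroup.subtype_injective _)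
    have hle : S' ≤ D := by rw [hD]; exact le_inf hS'P hS'Q
    have := Subgroup.card_le_of_le hle
    omega
  have hDbot : D ≠ ⊥ := by
    intro h; rw [h] at hD2; simp at hD2
  have hDtop : D ≠ ⊤ := by
    intro h; apply hPtop; rw [eq_top_iff, ← h]; exact hDP
  have hcP : ∀ a ∈ (P : Subgroup G), ∀ b ∈ (P : Subgroup G), a * b = b * a := by
    intro a ha b hb
    have := IsPGroup.commutative_of_card_eq_prime_sq (p := 5) (G := ↥(P : Subgroup G))
      (by rw [hP]; norm_num) ⟨a, ha⟩ ⟨b, hb⟩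
    exact congrArg Subtype.val this
  have hcQ : ∀ a ∈ (Q : Subgroup G), ∀ b ∈ (Q : Subgroup G), a * b = b * a := by
    intro a ha b hb
    have := IsPGroup.commutative_of_card_eq_prime_sq (p := 5) (G := ↥(Q : Subgroup G))
      (by rw [hQ]; norm_num) ⟨a, ha⟩ ⟨b, hb⟩
    exact congrArg Subtype.val this
  obtain ⟨M, hM⟩ : ∃ M : Subgroup G, M = Subgroup.normalizer (D : Set G) := ⟨_, rfl⟩
  have hPM : (P : Subgroup G) ≤ M := hM ▸ le_norm_of_comm _ _ hDP hcP
  have hQM : (Q : Subgroup G) ≤ M := hM ▸ le_norm_of_comm _ _ hDQ hcQ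
  have hMtop : M ≠ ⊤ := by
    intro h
    rw [hM] at h
    have hnorm : D.Normal := Subgroup.normalizer_eq_top_iff.mp h
    rcases hnorm.eq_bot_or_eq_top with h1 | h1
    · exact hDbot h1
    · exact hDtop h1
  apply hidx M hMtop
  have hne : P.subtype hPM ≠ Q.subtype hQM := by
    intro h
    apply hQP
    have hPQ : (P : Subgroup G) ≤ (Q : Subgroup G) := by
      intro x hx
      have h1 : (⟨x, hPM hx⟩ : M) ∈ ((P.subtype hPM : Sylow 5 M) : Subgroup M) := by
        rw [Sylow.coe_subtype, Subgroup.mem_subgroupOf]; exact hx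
      rw [h, Sylow.coe_subtype, Subgroup.mem_subgroupOf] at h1
      exact h1
    symm
    exact Sylow.ext (Subgroup.eq_of_le_of_card_ge hPQ (by rw [hP, hQ]))
  have hm1 : Nat.card (Sylow 5 M) ≡ 1 [MOD 5] := card_sylow_modEq_one 5 M
  have hm2 : Nat.card (Sylow 5 M) ∣ ((P.subtype hPM : Sylow 5 M) : Subgroup M).index :=
    Sylow.card_dvd_index _
  have hm3 : 2 ≤ Nat.card (Sylow 5 M) := by
    by_contra hlt
    push_neg at hlt
    haveI : Subsingleton (Sylow 5 M) := Finite.card_le_one_iff_subsingleton.mp (by omega)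
    exact hne (Subsingleton.elim _ _)
  have hm4 : Nat.card ((P.subtype hPM : Sylow 5 M) : Subgroup M) = 25 := by
    rw [Sylow.coe_subtype, ← hP]
    exact Cfsg.Agent.Lib.Lead.card_subgroupOf_of_le hPM
  have hm5 := Subgroup.card_mul_index ((P.subtype hPM : Sylow 5 M) : Subgroup M)
  rw [hm4] at hm5
  have hm6 : 6 ≤ Nat.card (Sylow 5 M) := by
    have : Nat.card (Sylow 5 M) % 5 = 1 := hm1
    omega
  have hpos : 0 < ((P.subtype hPM : Sylow 5 M) : Subgroup M).index := by
    rcases Nat.eq_zero_or_pos ((P.subtype hPM : Sylow 5 M) : Subgroup M).index with h0 | h0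
    · rw [h0] at hm5
      have := Nat.card_pos (α := M)
      omega
    · exact h0
  have hm7 : 6 ≤ ((P.subtype hPM : Sylow 5 M) : Subgroup M).index :=
    le_trans hm6 (Nat.le_of_dvd hpos hm2)
  nlinarith

end Cfsg.Agent.S1015
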