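import Cfsg.Statements.S1018
import Mathlib
import Cfsg.Agent.Lib.Lead.BaerSuzuki
import Cfsg.Agent.Lib.Lead.Frob2
-- import your own Cfsg.Agent.* helpers here

set_option autoImplicit false
open Cfsg

namespace Cfsg.Agent.S1018

/-- Let P be a Sylow p-subgroup of order p of a finite group G, and consider the action of G on the left cosets of the normalizer N of P. Then every element of order p fixes exactly one coset, and an element of N that does not centralize P fixes at most as many cosets as there are orbits of P. -/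
theorem result {G : Type*} [Group G] [Finite G] (p : ℕ) [Fact p.Prime] (P : Sylow p G) (hP : Nat.card ↥(P : Subgroup G) = p) : (∀ y : G, orderOf y = p → Nat.card (MulAction.fixedBy (G ⧸ Subgroup.normalizer ((P : Subgroup G) : Set G)) y) = 1) ∧ ∀ x : G, x ∈ Subgroup.normalizer ((P : Subgroup G) : Set G) → x ∉ Subgroup.centralizer ((P : Subgroup G) : Set G) → Nat.card (MulAction.fixedBy (G ⧸ Subgroup.normalizer ((P : Subgroup G) : Set G)) x) ≤ Nat.card (MulAction.orbitRel.Quotient ↥(P : Subgroup G) (G ⧸ Subgroup.normalizer ((P : Subgroup G) : Set G))) := by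
  classical
  have hp := (Fact.out : p.Prime)
  obtain ⟨Nm, hNm⟩ : ∃ Nm : Subgroup G, Nm = Subgroup.normalizer ((P : Subgroup G) : Set G) :=
    ⟨_, rfl⟩
  rw [← hNm]
  have hPle : (P : Subgroup G) ≤ Nm := by rw [hNm]; exact Subgroup.le_normalizer
  have hfix : ∀ (y g : G), y • (g : G ⧸ Nm) = (g : G ⧸ Nm) ↔ g⁻¹ * y * g ∈ Nm := by
    intro y g
    rw [MulAction.Quotient.smul_coe, QuotientGroup.eq, smul_eq_mul, ← Nm.inv_mem_iff]
    have : ((y * g)⁻¹ * g)⁻¹ = g⁻¹ * y * g := by group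
    rw [this]
  have hpz : ∀ (u : G) (k : ℕ), u ^ (p ^ k) = 1 → IsPGroup p (Subgroup.zpowers u) := by
    intro u k hu
    rintro ⟨w, hw⟩
    obtain ⟨m, rfl⟩ := Subgroup.mem_zpowers_iff.1 hw
    refine ⟨k, Subtype.ext ?_⟩
    show (u ^ m) ^ (p ^ k) = 1
    rw [← zpow_natCast, ← zpow_mul, mul_comm, zpow_mul, zpow_natCast, hu, one_zpow]
  have hF2 : ∀ (u : G) (k : ℕ), u ^ (p ^ k) = 1 → u ∈ Nm → u ∈ (P : Subgroup G) := by
    intro u k hu huN
    have h1 := (hpz u k hu).inf_normalizer_sylow P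
    have h2 : u ∈ Subgroup.zpowers u ⊓ (P : Subgroup G) := by
      rw [← h1]
      exact ⟨Subgroup.mem_zpowers u, hNm ▸ huN⟩
    exact h2.2
  have hgen : ∀ c ∈ (P : Subgroup G), c ≠ 1 → ∀ h ∈ (P : Subgroup G), ∃ k : ℤ, c ^ k = h := by
    intro c hc hc1 h hh
    have := mem_zpowers_of_prime_card (G := (P : Subgroup G)) hP (g := ⟨c, hc⟩) (g' := ⟨h, hh⟩)
      (fun e => hc1 (congrArg Subtype.val e))
    obtain ⟨k, hk⟩ := Subgroup.mem_zpowers_iff.1 this
    exact ⟨k, by simpa using congrArg Subtype.val hk⟩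
  have hnorm : ∀ (c w : G), c ∈ (P : Subgroup G) → c ≠ 1 → w * c * w⁻¹ ∈ (P : Subgroup G) →
      w ∈ Nm := by
    intro c w hc hc1 hw
    rw [hNm]
    apply Lib.Lead.mem_normalizer_of_conj_le
    intro d hd
    obtain ⟨k, rfl⟩ := hgen c hc hc1 d hd
    have : w * c ^ k * w⁻¹ = (w * c * w⁻¹) ^ k := by rw [conj_zpow]
    rw [this]
    exact Subgroup.zpow_mem _ hw k
  have hPp : ∀ c ∈ (P : Subgroup G), c ^ (p ^ 1) = 1 := by
    intro c hc
    have : (⟨c, hc⟩ : (P : Subgroup G)) ^ p = 1 := by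
      have := pow_card_eq_one' (G := (P : Subgroup G)) (x := ⟨c, hc⟩)
      rwa [hP] at this
    rw [pow_one]
    simpa using congrArg Subtype.val this
  have hconjp : ∀ (c g : G), c ^ (p ^ 1) = 1 → (g⁻¹ * c * g) ^ (p ^ 1) = 1 := by
    intro c g hc
    have : g⁻¹ * c * g = g⁻¹ * c * g⁻¹⁻¹ := by rw [inv_inv]
    rw [this, conj_pow, hc]; group
  refine ⟨?_, ?_⟩
  · intro y hy
    have hy1 : y ≠ 1 := by
      intro h; rw [h, orderOf_one] at hy; exact hp.one_lt.ne hy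
    have hyp : y ^ (p ^ 1) = 1 := by rw [pow_one, ← hy]; exact pow_orderOf_eq_one y
    rw [Nat.card_eq_one_iff_unique]
    constructor
    · constructor
      rintro ⟨z₁, hz₁⟩ ⟨z₂, hz₂⟩
      apply Subtype.ext
      show z₁ = z₂
      obtain ⟨g₁, rfl⟩ := QuotientGroup.mk_surjective z₁
      obtain ⟨g₂, rfl⟩ := QuotientGroup.mk_surjective z₂
      have h1 : g₁⁻¹ * y * g₁ ∈ Nm := (hfix y g₁).1 hz₁
      have h2 : g₂⁻¹ * y * g₂ ∈ Nm := (hfix y g₂).1 hz₂
      have hu1 : g₁⁻¹ * y * g₁ ∈ (P : Subgroup G) := hF2 _ 1 (hconjp y g₁ hyp) h1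
      have hu2 : g₂⁻¹ * y * g₂ ∈ (P : Subgroup G) := hF2 _ 1 (hconjp y g₂ hyp) h2
      have hu2ne : g₂⁻¹ * y * g₂ ≠ 1 := by
        intro h
        apply hy1
        have : y = g₂ * (g₂⁻¹ * y * g₂) * g₂⁻¹ := by group
        rw [this, h]; group
      have hc : g₁⁻¹ * g₂ ∈ Nm := by
        apply hnorm (g₂⁻¹ * y * g₂) _ hu2 hu2ne
        have : g₁⁻¹ * g₂ * (g₂⁻¹ * y * g₂) * (g₁⁻¹ * g₂)⁻¹ = g₁⁻¹ * y * g₁ := by group
        rw [this]; exact hu1
      exact QuotientGroup.eq.2 hc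
    · have hZ : IsPGroup p (Subgroup.zpowers y) := hpz y 1 hyp
      obtain ⟨Q, hQ⟩ := hZ.exists_le_sylow
      obtain ⟨g, hg⟩ := MulAction.exists_smul_eq G P Q
      have hyQ : y ∈ (Q : Subgroup G) := hQ (Subgroup.mem_zpowers y)
      rw [← hg] at hyQ
      have : g⁻¹ * y * g ∈ (P : Subgroup G) := (Lib.Lead.frob_mem_conj_smul _ g y).1 hyQ
      exact ⟨⟨(g : G ⧸ Nm), (hfix y g).2 (hPle this)⟩⟩
  · intro x hx hxC
    apply Nat.card_le_card_of_injective (fun z : MulAction.fixedBy (G ⧸ Nm) x =>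
      (Quotient.mk'' (z : G ⧸ Nm) : MulAction.orbitRel.Quotient (P : Subgroup G) (G ⧸ Nm)))
    rintro ⟨z₁, hz₁⟩ ⟨z₂, hz₂⟩ h
    apply Subtype.ext
    show z₁ = z₂
    have h' : z₁ ∈ MulAction.orbit (P : Subgroup G) z₂ := Quotient.exact' h
    obtain ⟨⟨u, hu⟩, rfl⟩ := h'
    obtain ⟨g, rfl⟩ := QuotientGroup.mk_surjective z₂
    have e1 : ((⟨u, hu⟩ : (P : Subgroup G)) • (g : G ⧸ Nm)) = ((u * g : G) : G ⧸ Nm) := rfl
    show ((⟨u, hu⟩ : (P : Subgroup G)) • (g : G ⧸ Nm)) = (g : G ⧸ Nm)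
    have hz₁' : x • ((u * g : G) : G ⧸ Nm) = ((u * g : G) : G ⧸ Nm) := hz₁
    rw [e1]
    have h1 : (u * g)⁻¹ * x * (u * g) ∈ Nm := (hfix x (u * g)).1 hz₁'
    have h2 : g⁻¹ * x * g ∈ Nm := (hfix x g).1 hz₂
    by_cases hgN : g ∈ Nm
    · rw [QuotientGroup.eq]
      have : (u * g)⁻¹ * g = g⁻¹ * u⁻¹ * g := by group
      rw [this]
      exact Nm.mul_mem (Nm.mul_mem (Nm.inv_mem hgN) (Nm.inv_mem (hPle hu))) hgN
    · have hcP : x⁻¹ * u⁻¹ * x * u ∈ (P : Subgroup G) := by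
        have hxinv : x⁻¹ ∈ Subgroup.normalizer ((P : Subgroup G) : Set G) :=
          Subgroup.inv_mem _ (hNm ▸ hx)
        have := (Subgroup.mem_normalizer_iff.1 hxinv u⁻¹).1 (Subgroup.inv_mem _ hu)
        rw [inv_inv] at this
        exact Subgroup.mul_mem _ this hu
      have hgc : g⁻¹ * (x⁻¹ * u⁻¹ * x * u) * g ∈ Nm := by
        have : g⁻¹ * (x⁻¹ * u⁻¹ * x * u) * g
            = (g⁻¹ * x * g)⁻¹ * ((u * g)⁻¹ * x * (u * g)) := by group
        rw [this]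
        exact Nm.mul_mem (Nm.inv_mem h2) h1
      have hgcP : g⁻¹ * (x⁻¹ * u⁻¹ * x * u) * g ∈ (P : Subgroup G) :=
        hF2 _ 1 (hconjp _ g (hPp _ hcP)) hgc
      have hc1 : x⁻¹ * u⁻¹ * x * u = 1 := by
        by_contra hc1
        apply hgN
        have : g⁻¹ ∈ Nm := hnorm _ g⁻¹ hcP hc1 (by rw [inv_inv]; exact hgcP)
        simpa using Nm.inv_mem this
      have hcomm : x * u = u * x := by
        calc x * u = u * x * (x⁻¹ * u⁻¹ * x * u) := by group
          _ = u * x := by rw [hc1, mul_one]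
      by_cases hu1 : u = 1
      · rw [hu1, one_mul]
      · exfalso
        apply hxC
        rw [Subgroup.mem_centralizer_iff]
        intro h hh
        obtain ⟨k, rfl⟩ := hgen u hu hu1 h hh
        exact (Commute.zpow_left (show Commute u x from hcomm.symm) k).eq

end Cfsg.Agent.S1018
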