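import Cfsg.Statements.S1019
import Mathlib

set_option autoImplicit false
open Cfsg

namespace Cfsg.Agent.S1019

/-- Let H be a subgroup of a finite group G and x an element of H. In the action of G on the left cosets of H, the number of cosets fixed by x, multiplied by the size of the conjugacy class of x, equals the index of H multiplied by the number of conjugates of x that lie in H. -/
theorem result {G : Type*} [Group G] [Finite G] (H : Subgroup G) (x : G) (hx : x ∈ H) : Nat.card (MulAction.fixedBy (G ⧸ H) x) * Nat.card {g : G // IsConj x g} = H.index * Nat.card {g : G // IsConj x g ∧ g ∈ H} := by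
  classical
  have := Fintype.ofFinite G
  have hZpos : 0 < (Finset.univ.filter (fun c : G => c⁻¹ * x * c = x)).card :=
    Finset.card_pos.mpr ⟨1, by simp⟩
  have hfiber : ∀ y : G, IsConj x y →
      (Finset.univ.filter (fun g : G => g⁻¹ * x * g = y)).card
        = (Finset.univ.filter (fun c : G => c⁻¹ * x * c = x)).card := by
    intro y hy
    obtain ⟨g₀, hg₀⟩ := isConj_iff.mp hy
    apply Finset.card_bij (fun g _ => g * g₀)
    · intro g hg
      simp only [Finset.mem_filter, Finset.mem_univ, true_and] at hg ⊢
      have e : (g * g₀)⁻¹ * x * (g * g₀) = g₀⁻¹ * (g⁻¹ * x * g) * g₀ := by group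
      rw [e, hg, ← hg₀]; group
    · intro a _ b _ h
      exact mul_right_cancel h
    · intro c hc
      simp only [Finset.mem_filter, Finset.mem_univ, true_and] at hc
      refine ⟨c * g₀⁻¹, ?_, by group⟩
      simp only [Finset.mem_filter, Finset.mem_univ, true_and]
      have e : (c * g₀⁻¹)⁻¹ * x * (c * g₀⁻¹) = g₀ * (c⁻¹ * x * c) * g₀⁻¹ := by group
      rw [e, hc, hg₀]
  have hconj : ∀ g : G, IsConj x (g⁻¹ * x * g) := fun g => isConj_iff.mpr ⟨g⁻¹, by group⟩
  -- count G
  have h1 : Nat.card G = Nat.card {g : G // IsConj x g} *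
      (Finset.univ.filter (fun c : G => c⁻¹ * x * c = x)).card := by
    rw [Nat.card_eq_fintype_card, Nat.card_eq_fintype_card, Fintype.card_subtype,
      ← Finset.card_univ,
      Finset.card_eq_sum_card_fiberwise (f := fun g : G => g⁻¹ * x * g)
        (s := Finset.univ) (t := Finset.univ.filter (fun y : G => IsConj x y))
        (fun g _ => by simpa using hconj g)]
    rw [Finset.sum_congr rfl (fun y hy => hfiber y (by simpa using hy)), Finset.sum_const,
      smul_eq_mul]
  -- count S
  have h2 : (Finset.univ.filter (fun g : G => g⁻¹ * x * g ∈ H)).card =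
      Nat.card {g : G // IsConj x g ∧ g ∈ H} *
      (Finset.univ.filter (fun c : G => c⁻¹ * x * c = x)).card := by
    rw [Nat.card_eq_fintype_card, Fintype.card_subtype,
      Finset.card_eq_sum_card_fiberwise (f := fun g : G => g⁻¹ * x * g)
        (s := Finset.univ.filter (fun g : G => g⁻¹ * x * g ∈ H))
        (t := Finset.univ.filter (fun y : G => IsConj x y ∧ y ∈ H))
        (fun g hg => by
          simp only [Finset.coe_filter, Finset.mem_univ, true_and, Set.mem_ofPred_eq] at hg ⊢
          exact ⟨hconj g, hg⟩)]
    rw [Finset.sum_congr rfl (fun y hy => ?_), Finset.sum_const, smul_eq_mul]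
    simp only [Finset.mem_filter, Finset.mem_univ, true_and] at hy
    rw [← hfiber y hy.1]
    congr 1
    ext g
    simp only [Finset.mem_filter, Finset.mem_univ, true_and]
    constructor
    · rintro ⟨-, h⟩; exact h
    · intro h; exact ⟨h ▸ hy.2, h⟩
  have h3 : (Finset.univ.filter (fun g : G => g⁻¹ * x * g ∈ H)).card =
      Nat.card H * Nat.card (MulAction.fixedBy (G ⧸ H) x) := by
    rw [← QuotientGroup.card_preimage_mk, Nat.card_eq_fintype_card, ← Fintype.card_subtype]
    apply Fintype.card_congr
    apply Equiv.subtypeEquivRight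
    intro g
    simp only [Set.mem_preimage, MulAction.mem_fixedBy]
    show g⁻¹ * x * g ∈ H ↔ (QuotientGroup.mk (x * g) : G ⧸ H) = QuotientGroup.mk g
    rw [QuotientGroup.eq]
    have e : (x * g)⁻¹ * g = (g⁻¹ * x * g)⁻¹ := by group
    rw [e, inv_mem_iff]
  have h4 : H.index * Nat.card H = Nat.card G := H.index_mul_card
  have hHpos : 0 < Nat.card H := Nat.card_pos
  generalize (Finset.univ.filter (fun c : G => c⁻¹ * x * c = x)).card = Z at *
  generalize (Finset.univ.filter (fun g : G => g⁻¹ * x * g ∈ H)).card = S at *
  generalize Nat.card {g : G // IsConj x g} = Cl at *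
  generalize Nat.card {g : G // IsConj x g ∧ g ∈ H} = T at *
  generalize Nat.card (MulAction.fixedBy (G ⧸ H) x) = F at *
  generalize Nat.card H = h at *
  generalize H.index = i at *
  generalize Nat.card G = n at *
  have : (F * Cl) * (h * Z) = (i * T) * (h * Z) := by
    calc (F * Cl) * (h * Z) = (h * F) * (Cl * Z) := by ring
      _ = S * n := by rw [← h3, ← h1]
      _ = (T * Z) * (i * h) := by rw [h2, h4]
      _ = (i * T) * (h * Z) := by ring
  exact Nat.eq_of_mul_eq_mul_right (Nat.mul_pos hHpos hZpos) this

end Cfsg.Agent.S1019
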