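import Cfsg.Statements.S1035
import Mathlib
import Cfsg.Agent.Lib.Helper3.ChevTorusData7

set_option autoImplicit false
open Cfsg

namespace Cfsg.Agent.S1035

open Cfsg.Lie Cfsg.Agent.Lib.Helper3

/-- `d · |H| = (q - 1)^rank` over a field with `q` elements, with `d = 1` (G₂, F₄, E₈), `gcd(3, q-1)` (E₆), `gcd(2, q-1)` (E₇, B₂), `gcd(2, q-1)²` (D₄). -/
theorem result {F : Type*} [Field F] [Fintype F] {q : ℕ} (hq : Fintype.card F = q)
    (p : Cfsg.Lie.ChevalleyDatum × ℕ)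
    (hp : p ∈ [(Cfsg.Lie.chevG2, 1), (Cfsg.Lie.chevF4, 1), (Cfsg.Lie.chevE8, 1), (Cfsg.Lie.chevE6, Nat.gcd 3 (q - 1)),
      (Cfsg.Lie.chevE7, Nat.gcd 2 (q - 1)), (Cfsg.Lie.chevB2, Nat.gcd 2 (q - 1)), (Cfsg.Lie.chevD4, Nat.gcd 2 (q - 1) ^ 2)]) :
    p.2 * Nat.card (p.1.diagonalSubgroup F) = (q - 1) ^ p.1.rank := by

  simp only [List.mem_cons, List.not_mem_nil, or_false] at hp
  rcases hp with h | h | h | h | h | h | h
  · subst h
    have h1 := card_diagonal_of_smith (F := F) chevG2 hq (by simp) 2 rfl smCG2 smPG2 smPiG2 smQG2 smQiG2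
      smDG2 smCartG2 smPPiG2 smPiPG2 smQiQG2 smEqG2 smSpanG2
    have h2 : (∏ j, Nat.gcd (q - 1) (smDG2 j)) = 1 := by
      simp [Fin.prod_univ_succ, smDG2]
    rw [h2] at h1
    exact h1
  · subst h
    have h1 := card_diagonal_of_smith (F := F) chevF4 hq (by simp) 4 rfl smCF4 smPF4 smPiF4 smQF4 smQiF4
      smDF4 smCartF4 smPPiF4 smPiPF4 smQiQF4 smEqF4 smSpanF4
    have h2 : (∏ j, Nat.gcd (q - 1) (smDF4 j)) = 1 := by
      simp [Fin.prod_univ_succ, smDF4]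
    rw [h2] at h1
    exact h1
  · subst h
    have h1 := card_diagonal_of_smith (F := F) chevE8 hq (by simp) 8 rfl smCE8 smPE8 smPiE8 smQE8 smQiE8
      smDE8 smCartE8 smPPiE8 smPiPE8 smQiQE8 smEqE8 smSpanE8
    have h2 : (∏ j, Nat.gcd (q - 1) (smDE8 j)) = 1 := by
      simp [Fin.prod_univ_succ, smDE8]
    rw [h2] at h1
    exact h1
  · subst h
    have h1 := card_diagonal_of_smith (F := F) chevE6 hq (by simp) 6 rfl smCE6 smPE6 smPiE6 smQE6 smQiE6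
      smDE6 smCartE6 smPPiE6 smPiPE6 smQiQE6 smEqE6 smSpanE6
    have h2 : (∏ j, Nat.gcd (q - 1) (smDE6 j)) = Nat.gcd 3 (q - 1) := by
      simp [Fin.prod_univ_succ, smDE6, Nat.gcd_comm]
    rw [h2] at h1
    exact h1
  · subst h
    have h1 := card_diagonal_of_smith (F := F) chevE7 hq (by simp) 7 rfl smCE7 smPE7 smPiE7 smQE7 smQiE7
      smDE7 smCartE7 smPPiE7 smPiPE7 smQiQE7 smEqE7 smSpanE7
    have h2 : (∏ j, Nat.gcd (q - 1) (smDE7 j)) = Nat.gcd 2 (q - 1) := by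
      simp [Fin.prod_univ_succ, smDE7, Nat.gcd_comm]
    rw [h2] at h1
    exact h1
  · subst h
    have h1 := card_diagonal_of_smith (F := F) chevB2 hq (by simp) 2 rfl smCB2 smPB2 smPiB2 smQB2 smQiB2
      smDB2 smCartB2 smPPiB2 smPiPB2 smQiQB2 smEqB2 smSpanB2
    have h2 : (∏ j, Nat.gcd (q - 1) (smDB2 j)) = Nat.gcd 2 (q - 1) := by
      simp [Fin.prod_univ_succ, smDB2, Nat.gcd_comm]
    rw [h2] at h1
    exact h1
  · subst h
    have h1 := card_diagonal_of_smith (F := F) chevD4 hq (by simp) 4 rfl smCD4 smPD4 smPiD4 smQD4 smQiD4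
      smDD4 smCartD4 smPPiD4 smPiPD4 smQiQD4 smEqD4 smSpanD4
    have h2 : (∏ j, Nat.gcd (q - 1) (smDD4 j)) = Nat.gcd 2 (q - 1) ^ 2 := by
      simp [Fin.prod_univ_succ, smDD4, Nat.gcd_comm, pow_two]
    rw [h2] at h1
    exact h1


end Cfsg.Agent.S1035
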