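import Cfsg.Statements.S1043
import Mathlib
import Cfsg.Agent.Lib.Helper3.ChevAddChk
import Cfsg.Agent.Lib.Helper3.ChevBN

set_option autoImplicit false
open Cfsg

namespace Cfsg.Agent.S1043

theorem chk_all : ∀ D ∈ [Cfsg.Lie.chevG2, Cfsg.Lie.chevB2, Cfsg.Lie.chevD4, Cfsg.Lie.chevF4, Cfsg.Lie.chevE6, Cfsg.Lie.chevE7, Cfsg.Lie.chevE8], Cfsg.Agent.Lib.Helper3.chkNegPos D = true := by
  decide +kernel

/-- `B ≤ G`, `N ≤ G` and `B ⊔ N = G` for the Chevalley group `G` generated by all root elements. -/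
theorem result {F : Type*} [Field F] (D : Cfsg.Lie.ChevalleyDatum) (hD : D ∈ [Cfsg.Lie.chevG2, Cfsg.Lie.chevB2, Cfsg.Lie.chevD4, Cfsg.Lie.chevF4, Cfsg.Lie.chevE6, Cfsg.Lie.chevE7, Cfsg.Lie.chevE8]) :
    D.borelSubgroup F ≤ D.group F ∧ D.monomialSubgroup F ≤ D.group F ∧ D.borelSubgroup F ⊔ D.monomialSubgroup F = D.group F := by
  have h1 := Cfsg.Agent.Lib.Helper3.chkAdd_all D hD
  exact ⟨Cfsg.Agent.Lib.Helper3.borel_le_group D h1, Cfsg.Agent.Lib.Helper3.monomial_le_group D h1,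
    Cfsg.Agent.Lib.Helper3.borel_sup_monomial D h1 (chk_all D hD)⟩

end Cfsg.Agent.S1043
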