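import Cfsg.Statements.S1118
import Cfsg.Agent.Lib.Helper2.RankOne

set_option autoImplicit false
open Cfsg

namespace Cfsg.Agent.S1118

open Cfsg.Agent.Lib.Helper2.RankOne in
/-- In the rank-one set-up (`G` finite and doubly transitive on `Ω`, `t` an involution moving `a`, `Q` normal in `G_a` with `G_a = Q D`, `Q ⊓ D = 1` for the two-point stabiliser `D = G_a ⊓ G_{t • a}`, `|Q|` even, `|D|` odd), the normaliser of a subset of `Q` containing a non-identity element lies in `G_a`; consequently `N_G(Q) = N_G(G_a) = G_a`. -/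
theorem result {G Ω : Type*} [Group G] [Finite G] [MulAction G Ω] {a : Ω} {t : G} {Q : Subgroup G}
    (hS : Cfsg.IsRankOneSetup G Ω a t Q) :
    (∀ X : Set G, X ⊆ (Q : Set G) → (∃ x ∈ X, x ≠ 1) → Subgroup.normalizer X ≤ MulAction.stabilizer G a) ∧
      Subgroup.normalizer (Q : Set G) = MulAction.stabilizer G a ∧
      Subgroup.normalizer (MulAction.stabilizer G a : Set G) = MulAction.stabilizer G a := by
  have h1 : ∀ X : Set G, X ⊆ (Q : Set G) → (∃ x ∈ X, x ≠ 1) →
      Subgroup.normalizer X ≤ MulAction.stabilizer G a := by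
    intro X hXQ ⟨x, hxX, hx1⟩ n hn
    rw [Subgroup.mem_set_normalizer_iff] at hn
    have h2 : n * x * n⁻¹ ∈ X := (hn x).mp hxX
    have h3 : n * x * n⁻¹ ≠ 1 := by
      intro h
      apply hx1
      have : x = n⁻¹ * (n * x * n⁻¹) * n := by group
      rw [this, h]; group
    have h4 : (n * x * n⁻¹) • (n • a) = n • a := by
      rw [mul_smul, mul_smul, inv_smul_smul, Q_fix hS x (hXQ hxX)]
    exact MulAction.mem_stabilizer_iff.mpr (Q_fixed_eq hS _ (hXQ h2) h3 _ h4)
  refine ⟨h1, ?_, ?_⟩
  · apply le_antisymm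
    · exact h1 (Q : Set G) (le_refl _) (Q_ne_bot hS)
    · intro h hh
      rw [Subgroup.mem_normalizer_iff]
      intro x
      constructor
      · intro hx; exact hS.conj_mem h hh x hx
      · intro hx
        have := hS.conj_mem h⁻¹ (inv_mem hh) _ hx
        have e : h⁻¹ * (h * x * h⁻¹) * h⁻¹⁻¹ = x := by group
        rwa [e] at this
  · apply le_antisymm
    · intro n hn
      rw [Subgroup.mem_normalizer_iff] at hn
      obtain ⟨x, hx, hx1⟩ := Q_ne_bot hS
      have h2 : n * x * n⁻¹ ∈ MulAction.stabilizer G a := (hn x).mp (hS.le hx)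
      -- x fixes n⁻¹ • a
      have h3 : x • (n⁻¹ • a) = n⁻¹ • a := by
        have h4 := MulAction.mem_stabilizer_iff.mp h2
        rw [mul_smul, mul_smul] at h4
        calc x • n⁻¹ • a = n⁻¹ • (n • x • n⁻¹ • a) := by rw [inv_smul_smul]
          _ = n⁻¹ • a := by rw [h4]
      have h5 := Q_fixed_eq hS x hx hx1 _ h3
      have h6 : n⁻¹ ∈ MulAction.stabilizer G a := MulAction.mem_stabilizer_iff.mpr h5
      simpa using inv_mem h6
    · exact Subgroup.le_normalizer

end Cfsg.Agent.S1118
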