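import Cfsg.Statements.S1121
import Cfsg.Agent.Lib.Helper2.RankOne
import Cfsg.Agent.Lib.Helper2.Isolated

set_option autoImplicit false
open Cfsg

namespace Cfsg.Agent.S1121

open Cfsg.Agent.Lib.Helper2.RankOne Cfsg.Agent.Lib.Helper2 in
theorem part1 {G Ω : Type*} [Group G] [Finite G] [MulAction G Ω] {a : Ω} {t : G} {Q : Subgroup G}
    (hS : Cfsg.IsRankOneSetup G Ω a t Q) (s u : G) (hs : s ∈ MulAction.stabilizer G a)
    (hs1 : s ≠ 1) (hss : s * s = 1) (hu : u ∉ MulAction.stabilizer G a) (huu : u * u = 1) :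
    Odd (orderOf (s * u)) := by
  rw [← Nat.not_even_iff_odd]
  rintro ⟨m, hm⟩
  have hsinv : s⁻¹ = s := inv_eq_of_mul_eq_one_left hss
  have huinv : u⁻¹ = u := inv_eq_of_mul_eq_one_left huu
  have hsr : s * (s * u) * s⁻¹ = (s * u)⁻¹ := by
    rw [mul_inv_rev, hsinv, huinv, ← mul_assoc, hss, one_mul]
  have hur : u * (s * u) * u⁻¹ = (s * u)⁻¹ := by
    rw [mul_inv_rev, hsinv, huinv, mul_assoc, mul_assoc, huu, mul_one]
  have hmpos : 0 < m := by
    have := orderOf_pos (s * u); omega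
  have hz1 : (s * u) ^ m ≠ 1 := by
    intro h1
    have h2 := orderOf_dvd_of_pow_eq_one h1
    have := Nat.le_of_dvd hmpos h2; omega
  have hzz : (s * u) ^ m * (s * u) ^ m = 1 := by
    rw [← pow_add, ← hm, pow_orderOf_eq_one]
  have hsz : s * (s * u) ^ m * s⁻¹ = (s * u) ^ m := by
    rw [inv_conj_pow s (s * u) hsr m]; exact inv_eq_of_mul_eq_one_left hzz
  have huz : u * (s * u) ^ m * u⁻¹ = (s * u) ^ m := by
    rw [inv_conj_pow u (s * u) hur m]; exact inv_eq_of_mul_eq_one_left hzz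
  generalize (s * u) ^ m = z at hz1 hzz hsz huz
  have hsQ : s ∈ Q := invol_mem_Q hS s hs hss
  have hsz' : s * z = z * s := by
    calc s * z = (s * z * s⁻¹) * s := by group
      _ = z * s := by rw [hsz]
  have huz' : u * z = z * u := by
    calc u * z = (u * z * u⁻¹) * u := by group
      _ = z * u := by rw [huz]
  have hza : z • a = a := by
    apply Q_fixed_eq hS s hsQ hs1
    rw [← mul_smul, hsz', mul_smul, Q_fix hS s hsQ]
  have hzQ : z ∈ Q := invol_mem_Q hS z (MulAction.mem_stabilizer_iff.mpr hza) hzz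
  apply hu
  rw [MulAction.mem_stabilizer_iff]
  apply Q_fixed_eq hS z hzQ hz1
  rw [← mul_smul, ← huz', mul_smul, hza]

open Cfsg.Agent.Lib.Helper2.RankOne Cfsg.Agent.Lib.Helper2 in
theorem conj_t {G Ω : Type*} [Group G] [Finite G] [MulAction G Ω] {a : Ω} {t : G} {Q : Subgroup G}
    (hS : Cfsg.IsRankOneSetup G Ω a t Q) (u : G) (hu1 : u ≠ 1) (huu : u * u = 1) :
    ∃ g : G, g * u * g⁻¹ = t := by
  have hΩ : Finite Ω := by
    apply Nat.finite_of_card_ne_zero
    rw [card_Omega hS]; omega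
  have hord : orderOf u = 2 := orderOf_eq_prime (by rw [pow_two]; exact huu) hu1
  have hp : IsPGroup 2 (Subgroup.zpowers u) := by
    apply IsPGroup.of_card (n := 1)
    rw [Nat.card_zpowers, hord, pow_one]
  have hmod := hp.card_modEq_card_fixedPoints Ω
  have hoddΩ : Nat.card Ω % 2 = 1 := by
    rw [card_Omega hS]
    obtain ⟨k, hk⟩ := hS.even_card
    omega
  have hfix : Nat.card (MulAction.fixedPoints (Subgroup.zpowers u) Ω) ≠ 0 := by
    intro h0
    rw [Nat.ModEq, h0, hoddΩ] at hmod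
    omega
  have hne : Nonempty (MulAction.fixedPoints (Subgroup.zpowers u) Ω) := by
    by_contra hemp
    rw [not_nonempty_iff] at hemp
    exact hfix Nat.card_of_isEmpty
  obtain ⟨⟨c, hc⟩⟩ := hne
  have huc : u • c = c := hc ⟨u, Subgroup.mem_zpowers u⟩
  have := hS.two_transitive
  have hpre : MulAction.IsPretransitive G Ω := MulAction.isPretransitive_of_is_two_pretransitive
  obtain ⟨g, hg⟩ := MulAction.exists_smul_eq G a c
  have hs : g⁻¹ * u * g ∈ MulAction.stabilizer G a := by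
    rw [MulAction.mem_stabilizer_iff, mul_smul, mul_smul, hg, huc, ← hg, inv_smul_smul]
  have hs1 : g⁻¹ * u * g ≠ 1 := by
    intro h
    apply hu1
    have : u = g * (g⁻¹ * u * g) * g⁻¹ := by group
    rw [this, h]; group
  have hss : (g⁻¹ * u * g) * (g⁻¹ * u * g) = 1 := by
    have : (g⁻¹ * u * g) * (g⁻¹ * u * g) = g⁻¹ * (u * u) * g := by group
    rw [this, huu]; group
  obtain ⟨j, hj⟩ := part1 hS (g⁻¹ * u * g) t hs hs1 hss hS.not_mem hS.mul_self
  have h1 := invol_conj_of_odd (g⁻¹ * u * g) t hss hS.mul_self j hj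
  generalize (g⁻¹ * u * g * t) ^ j = X at h1
  refine ⟨X * g⁻¹, ?_⟩
  have e : X * g⁻¹ * u * (X * g⁻¹)⁻¹ = X * (g⁻¹ * u * g) * X⁻¹ := by group
  rw [e, h1]

/-- In the rank-one set-up (`G` finite and doubly transitive on `Ω`, `t` an involution moving `a`, `Q` normal in `G_a` with `G_a = Q D`, `Q ⊓ D = 1` for the two-point stabiliser `D = G_a ⊓ G_{t • a}`, `|Q|` even, `|D|` odd): if `s` is an involution of `G_a` and `u` an involution outside `G_a`, then `s u` has odd order; and any two involutions of `G` are conjugate. -/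
theorem result {G Ω : Type*} [Group G] [Finite G] [MulAction G Ω] {a : Ω} {t : G} {Q : Subgroup G}
    (hS : Cfsg.IsRankOneSetup G Ω a t Q) :
    (∀ s u : G, s ∈ MulAction.stabilizer G a → s ≠ 1 → s * s = 1 → u ∉ MulAction.stabilizer G a → u ≠ 1 → u * u = 1 → Odd (orderOf (s * u))) ∧
      ∀ u v : G, u ≠ 1 → u * u = 1 → v ≠ 1 → v * v = 1 → ∃ g : G, g * u * g⁻¹ = v := by
  refine ⟨fun s u hs hs1 hss hu _ huu => part1 hS s u hs hs1 hss hu huu, ?_⟩
  intro u v hu1 huu hv1 hvv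
  obtain ⟨g, hg⟩ := conj_t hS u hu1 huu
  obtain ⟨h, hh⟩ := conj_t hS v hv1 hvv
  refine ⟨h⁻¹ * g, ?_⟩
  have e : h⁻¹ * g * u * (h⁻¹ * g)⁻¹ = h⁻¹ * (g * u * g⁻¹) * h := by group
  rw [e, hg, ← hh]; group

end Cfsg.Agent.S1121
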