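import Cfsg.Statements.S1122
import Cfsg.Agent.Lib.Helper2.RankOne3

set_option autoImplicit false
open Cfsg

namespace Cfsg.Agent.S1122

open Cfsg.Agent.Lib.Helper2.RankOne

theorem exists_k {G Ω : Type*} [Group G] [Finite G] [MulAction G Ω] {a : Ω} {t : G} {Q : Subgroup G}
    (hS : Cfsg.IsRankOneSetup G Ω a t Q) (s s' : G)
    (hs : s ∈ Cfsg.involutionsIn (MulAction.stabilizer G a : Set G))
    (hs' : s' ∈ Cfsg.involutionsIn (MulAction.stabilizer G a : Set G)) :
    ∃ k ∈ Cfsg.invertedBy (MulAction.stabilizer G a ⊓ MulAction.stabilizer G (t • a)) t,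
      k⁻¹ * s * k = s' := by
  have htt := hS.mul_self
  have htinv := t_inv hS
  obtain ⟨hsa, hs1, hss⟩ := hs
  obtain ⟨hs'a, hs'1, hs's'⟩ := hs'
  obtain ⟨w, hww, hwsw, hwa, -⟩ := midpoint hS s s' hsa hs1 hss hs'a hs'1 hs's'
  have hwinv : w⁻¹ = w := inv_eq_of_mul_eq_one_left hww
  have hwb : w • (t • a) = a := by rw [← hwa, ← mul_smul, hww, one_smul]
  refine ⟨w * t, ⟨?_, ?_⟩, ?_⟩
  · refine Subgroup.mem_inf.mpr ⟨?_, ?_⟩
    · rw [MulAction.mem_stabilizer_iff, mul_smul, hwb]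
    · rw [MulAction.mem_stabilizer_iff, mul_smul, tt_smul hS, hwa]
  · rw [mul_inv_rev, htinv, hwinv, mul_assoc, mul_assoc, htt, mul_one]
  · rw [mul_inv_rev, htinv, hwinv]
    have h1 : t * w * s * (w * t) = t * (w * s * w⁻¹) * t := by rw [hwinv]; group
    rw [h1, hwsw]
    have h2 : t * (t * s' * t) * t = (t * t) * s' * (t * t) := by group
    rw [h2, htt, one_mul, mul_one]

theorem conj_mem_I {G Ω : Type*} [Group G] [MulAction G Ω] {a : Ω} (s k : G)
    (hs : s ∈ Cfsg.involutionsIn (MulAction.stabilizer G a : Set G))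
    (hk : k ∈ MulAction.stabilizer G a) :
    k⁻¹ * s * k ∈ Cfsg.involutionsIn (MulAction.stabilizer G a : Set G) := by
  obtain ⟨hsa, hs1, hss⟩ := hs
  refine ⟨mul_mem (mul_mem (inv_mem hk) hsa) hk, ?_, ?_⟩
  · intro h
    apply hs1
    have : s = k * (k⁻¹ * s * k) * k⁻¹ := by group
    rw [this, h]; group
  · have : k⁻¹ * s * k * (k⁻¹ * s * k) = k⁻¹ * (s * s) * k := by group
    rw [this, hss]; group

theorem k_eq_w {G Ω : Type*} [Group G] [Finite G] [MulAction G Ω] {a : Ω} {t : G} {Q : Subgroup G}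
    (hS : Cfsg.IsRankOneSetup G Ω a t Q) (s₀ s' w : G)
    (hww : w * w = 1) (hwsw : w * s₀ * w⁻¹ = t * s' * t) (hwa : w • a = t • a)
    (hwc : ∀ c : G, c * s₀ = s₀ * c → c * (t * s' * t) = (t * s' * t) * c → c * w = w * c)
    (k : G) (hk : k ∈ Cfsg.invertedBy (MulAction.stabilizer G a ⊓ MulAction.stabilizer G (t • a)) t)
    (hks : k⁻¹ * s₀ * k = s') : k * t = w := by
  have htt := hS.mul_self
  have htinv := t_inv hS
  have hwinv : w⁻¹ = w := inv_eq_of_mul_eq_one_left hww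
  have hwb : w • (t • a) = a := by rw [← hwa, ← mul_smul, hww, one_smul]
  obtain ⟨hkD, hkinv⟩ := hk
  rw [htinv] at hkinv
  have huu : (k * t) * (k * t) = 1 := by
    calc (k * t) * (k * t) = k * (t * k * t) := by group
      _ = 1 := by rw [hkinv, mul_inv_cancel]
  have huinv : (k * t)⁻¹ = k * t := inv_eq_of_mul_eq_one_left huu
  have hu' : k * t = t * k⁻¹ := by
    calc k * t = (k * t)⁻¹ := huinv.symm
      _ = t⁻¹ * k⁻¹ := mul_inv_rev _ _
      _ = t * k⁻¹ := by rw [htinv]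
  have husu : (k * t) * s₀ * (k * t)⁻¹ = t * s' * t := by
    have h1 : (t * k⁻¹) * s₀ * (t * k⁻¹)⁻¹ = t * (k⁻¹ * s₀ * k) * t⁻¹ := by group
    rw [hu', h1, hks, htinv]
  have hua : (k * t) • a = t • a := by
    rw [mul_smul]; exact MulAction.mem_stabilizer_iff.mp (Subgroup.mem_inf.mp hkD).2
  have hub : (k * t) • (t • a) = a := by
    rw [mul_smul, tt_smul hS]; exact MulAction.mem_stabilizer_iff.mp (Subgroup.mem_inf.mp hkD).1
  generalize k * t = u at *
  generalize t * s' * t = v at *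
  have h1 : w * s₀ = v * w := by
    calc w * s₀ = (w * s₀ * w⁻¹) * w := by group
      _ = v * w := by rw [hwsw]
  have h2 : s₀ * w = w * v := by
    calc s₀ * w = w⁻¹ * (w * s₀) * w := by group
      _ = w⁻¹ * (v * w) * w := by rw [h1]
      _ = w * v * (w * w) := by rw [hwinv]; group
      _ = w * v := by rw [hww, mul_one]
  have h3 : u * s₀ = v * u := by
    calc u * s₀ = (u * s₀ * u⁻¹) * u := by group
      _ = v * u := by rw [husu]
  have h4 : u * v = s₀ * u := by
    calc u * v = u * (u * s₀ * u⁻¹) := by rw [husu]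
      _ = (u * u) * s₀ * u⁻¹ := by group
      _ = s₀ * u := by rw [huu, one_mul, huinv]
  have hc1 : (w * u) * s₀ = s₀ * (w * u) := by
    calc (w * u) * s₀ = w * (u * s₀) := by group
      _ = w * (v * u) := by rw [h3]
      _ = (w * v) * u := by group
      _ = (s₀ * w) * u := by rw [h2]
      _ = s₀ * (w * u) := by group
  have hc2 : (w * u) * v = v * (w * u) := by
    calc (w * u) * v = w * (u * v) := by group
      _ = w * (s₀ * u) := by rw [h4]
      _ = (w * s₀) * u := by group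
      _ = (v * w) * u := by rw [h1]
      _ = v * (w * u) := by group
  have h5 := hwc (w * u) hc1 hc2
  have h6 : u * w = w * u := by
    calc u * w = w⁻¹ * ((w * u) * w) := by group
      _ = w⁻¹ * (w * (w * u)) := by rw [h5]
      _ = w * u := by group
  have h7 : (w * u) * (w * u) = 1 := by
    calc (w * u) * (w * u) = w * (u * w) * u := by group
      _ = w * (w * u) * u := by rw [h6]
      _ = (w * w) * (u * u) := by group
      _ = 1 := by rw [hww, huu, one_mul]
  have hD : w * u ∈ MulAction.stabilizer G a ⊓ MulAction.stabilizer G (t • a) := by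
    refine Subgroup.mem_inf.mpr ⟨?_, ?_⟩
    · rw [MulAction.mem_stabilizer_iff, mul_smul, hua, hwb]
    · rw [MulAction.mem_stabilizer_iff, mul_smul, hub, hwa]
  have h8 := D_sq_eq_one hS (w * u) hD h7
  calc u = w⁻¹ * (w * u) := by group
    _ = w := by rw [h8, mul_one, hwinv]

/-- In the rank-one set-up (`G` finite and doubly transitive on `Ω`, `t` an involution moving `a`, `Q` normal in `G_a` with `G_a = Q D`, `Q ⊓ D = 1` for the two-point stabiliser `D = G_a ⊓ G_{t • a}`, `|Q|` even, `|D|` odd), with `K` the set of elements of `D` inverted by `t`: `|K|` is the number of involutions of `G_a`, and for each involution `s` of `G_a` the `K`-conjugates of `s` are all the involutions of `G_a`. -/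
theorem result {G Ω : Type*} [Group G] [Finite G] [MulAction G Ω] {a : Ω} {t : G} {Q : Subgroup G}
    (hS : Cfsg.IsRankOneSetup G Ω a t Q) :
    Nat.card (Cfsg.invertedBy (MulAction.stabilizer G a ⊓ MulAction.stabilizer G (t • a)) t) = Nat.card (Cfsg.involutionsIn (MulAction.stabilizer G a : Set G)) ∧
      ∀ s ∈ Cfsg.involutionsIn (MulAction.stabilizer G a : Set G), ∀ s' ∈ Cfsg.involutionsIn (MulAction.stabilizer G a : Set G),
        ∃ k ∈ Cfsg.invertedBy (MulAction.stabilizer G a ⊓ MulAction.stabilizer G (t • a)) t, k⁻¹ * s * k = s' := by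
  obtain ⟨s₀, hs₀Q, hs₀1, hs₀s₀⟩ := exists_invol hS
  have hs₀ : s₀ ∈ Cfsg.involutionsIn (MulAction.stabilizer G a : Set G) :=
    ⟨hS.le hs₀Q, hs₀1, hs₀s₀⟩
  refine ⟨?_, fun s hs s' hs' => exists_k hS s s' hs hs'⟩
  apply Nat.card_eq_of_bijective
    (fun k : ↥(Cfsg.invertedBy (MulAction.stabilizer G a ⊓ MulAction.stabilizer G (t • a)) t) =>
      (⟨(k : G)⁻¹ * s₀ * (k : G), conj_mem_I s₀ (k : G) hs₀ (Subgroup.mem_inf.mp k.2.1).1⟩ :
        ↥(Cfsg.involutionsIn (MulAction.stabilizer G a : Set G))))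
  constructor
  · rintro ⟨k, hk⟩ ⟨k', hk'⟩ h
    have h' : k⁻¹ * s₀ * k = k'⁻¹ * s₀ * k' := congrArg Subtype.val h
    have hs' := conj_mem_I s₀ k hs₀ (Subgroup.mem_inf.mp hk.1).1
    obtain ⟨w, hww, hwsw, hwa, hwc⟩ := midpoint hS s₀ (k⁻¹ * s₀ * k) hs₀.1 hs₀.2.1 hs₀.2.2
      hs'.1 hs'.2.1 hs'.2.2
    have e1 := k_eq_w hS s₀ (k⁻¹ * s₀ * k) w hww hwsw hwa hwc k hk rfl
    have e2 := k_eq_w hS s₀ (k⁻¹ * s₀ * k) w hww hwsw hwa hwc k' hk' h'.symm
    apply Subtype.ext
    exact mul_right_cancel (e1.trans e2.symm)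
  · rintro ⟨s', hs'⟩
    obtain ⟨k, hk, hks⟩ := exists_k hS s₀ s' hs₀ hs'
    exact ⟨⟨k, hk⟩, Subtype.ext hks⟩

end Cfsg.Agent.S1122
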