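import Cfsg.Statements.S1123
import Cfsg.Agent.Lib.Helper2.RankOne2

set_option autoImplicit false
open Cfsg

namespace Cfsg.Agent.S1123

open Cfsg.Agent.Lib.Helper2.RankOne in
/-- In the rank-one set-up (`G` finite and doubly transitive on `Ω`, `t` an involution moving `a`, `Q` normal in `G_a` with `G_a = Q D`, `Q ⊓ D = 1` for the two-point stabiliser `D = G_a ⊓ G_{t • a}`, `|Q|` even, `|D|` odd), there is a unique pair `(s, r)` with `s` an involution of `G_a`, `r ∈ Q` and `t s t = r⁻¹ t r`. -/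
theorem result {G Ω : Type*} [Group G] [Finite G] [MulAction G Ω] {a : Ω} {t : G} {Q : Subgroup G}
    (hS : Cfsg.IsRankOneSetup G Ω a t Q) :
    ∃! p : G × G, p.1 ∈ Cfsg.involutionsIn (MulAction.stabilizer G a : Set G) ∧ p.2 ∈ Q ∧
      t * p.1 * t = p.2⁻¹ * t * p.2 := by
  have htt := hS.mul_self
  have htinv := t_inv hS
  obtain ⟨c, hc⟩ := invol_fixed_point hS t hS.ne_one hS.mul_self
  have hca : c ≠ a := by
    rintro rfl
    exact hS.not_mem (MulAction.mem_stabilizer_iff.mpr hc)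
  obtain ⟨r, hr, hrc⟩ := exists_Q_smul hS c hca
  have hrc' : r⁻¹ • c = t • a := by rw [← hrc, inv_smul_smul]
  have hconj : t * r⁻¹ * t * r * t = (t * r⁻¹) * t * (t * r⁻¹)⁻¹ := by
    rw [mul_inv_rev, inv_inv, htinv]; group
  have hs_mem : t * r⁻¹ * t * r * t ∈ Cfsg.involutionsIn (MulAction.stabilizer G a : Set G) := by
    refine ⟨?_, ?_, ?_⟩
    · show t * r⁻¹ * t * r * t ∈ MulAction.stabilizer G a
      rw [MulAction.mem_stabilizer_iff, mul_smul, mul_smul, mul_smul, mul_smul, hrc, hc, hrc',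
        tt_smul hS]
    · rw [hconj]
      intro h
      apply hS.ne_one
      have : t = (t * r⁻¹)⁻¹ * ((t * r⁻¹) * t * (t * r⁻¹)⁻¹) * (t * r⁻¹) := by group
      rw [this, h]; group
    · rw [hconj]
      have : (t * r⁻¹) * t * (t * r⁻¹)⁻¹ * ((t * r⁻¹) * t * (t * r⁻¹)⁻¹)
          = (t * r⁻¹) * (t * t) * (t * r⁻¹)⁻¹ := by group
      rw [this, htt]; group
  have hs_eq : t * (t * r⁻¹ * t * r * t) * t = r⁻¹ * t * r := by
    have : t * (t * r⁻¹ * t * r * t) * t = (t * t) * r⁻¹ * t * r * (t * t) := by group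
    rw [this, htt]; group
  refine ⟨(t * r⁻¹ * t * r * t, r), ⟨hs_mem, hr, hs_eq⟩, ?_⟩
  rintro ⟨s', r'⟩ ⟨hs', hr', heq'⟩
  dsimp only at hs' hr' heq'
  obtain ⟨hs'a, hs'1, hs's'⟩ := hs'
  -- the fixed point
  have h1 : (r'⁻¹ * t * r') • (r'⁻¹ • c) = r'⁻¹ • c := by
    rw [mul_smul, mul_smul, smul_inv_smul, hc]
  rw [← heq', mul_smul, mul_smul] at h1
  have h2 : s' • (t • r'⁻¹ • c) = t • r'⁻¹ • c := by
    calc s' • (t • r'⁻¹ • c) = t • (t • s' • t • r'⁻¹ • c) := by rw [tt_smul hS]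
      _ = t • r'⁻¹ • c := by rw [h1]
  have h3 := invol_fix_unique hS s' hs'a hs'1 hs's' _ h2
  have h4 : r'⁻¹ • c = t • a := by
    calc r'⁻¹ • c = t • (t • r'⁻¹ • c) := by rw [tt_smul hS]
      _ = t • a := by rw [h3]
  have h4' : r' • (t • a) = c := by rw [← h4, smul_inv_smul]
  have h5 : (r⁻¹ * r') • (t • a) = t • a := by
    rw [mul_smul, h4', hrc']
  have h6 := Q_free hS _ (mul_mem (inv_mem hr) hr') _ (tsmul_ne hS) h5
  have hrr : r' = r := by
    have : r' = r * (r⁻¹ * r') := by group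
    rw [this, h6, mul_one]
  subst hrr
  have hss : s' = t * r'⁻¹ * t * r' * t := by
    have e1 : s' = t * (t * s' * t) * t := by
      have : t * (t * s' * t) * t = (t * t) * s' * (t * t) := by group
      rw [this, htt]; group
    rw [e1, heq']; group
  rw [hss]

end Cfsg.Agent.S1123
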