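import Cfsg.Statements.S1124
import Cfsg.Agent.Lib.Helper2.Isolated

set_option autoImplicit false
open scoped Pointwise
open Cfsg

namespace Cfsg.Agent.S1124

open Cfsg.Agent.Lib.Helper2 in
theorem exists_decomp {M : Type*} [Group M] (t : M) (htt : t * t = 1) (X : Subgroup M) (n : ℕ)
    (hXpow : ∀ x ∈ X, x ^ (2 * n + 1) = 1) (hnorm : ∀ x ∈ X, t * x * t⁻¹ ∈ X) (x : M) (hx : x ∈ X) :
    ∃ y z : M, y ∈ X ⊓ Subgroup.centralizer {t} ∧ z ∈ Cfsg.invertedBy X t ∧ x = y * z := by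
  have htinv : t⁻¹ = t := inv_eq_of_mul_eq_one_left htt
  have hwX : (t * x * t⁻¹)⁻¹ * x ∈ X := mul_mem (inv_mem (hnorm x hx)) hx
  have hwt : t * ((t * x * t⁻¹)⁻¹ * x) * t⁻¹ = ((t * x * t⁻¹)⁻¹ * x)⁻¹ := by
    have e1 : t * ((t * x * t⁻¹)⁻¹ * x) * t⁻¹ = (t * t) * x⁻¹ * (t⁻¹ * x * t⁻¹) := by group
    have e2 : ((t * x * t⁻¹)⁻¹ * x)⁻¹ = x⁻¹ * (t * x * t⁻¹) := by group
    rw [e1, e2, htt, one_mul, htinv]
  generalize hw : (t * x * t⁻¹)⁻¹ * x = w at hwX hwt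
  have hz2 : w ^ (n + 1) * w ^ (n + 1) = w := by
    rw [← pow_add]
    have : n + 1 + (n + 1) = (2 * n + 1) + 1 := by omega
    rw [this, pow_succ, hXpow w hwX, one_mul]
  have hzX : w ^ (n + 1) ∈ X := pow_mem hwX _
  have hzt : t * w ^ (n + 1) * t⁻¹ = (w ^ (n + 1))⁻¹ := inv_conj_pow t w hwt (n + 1)
  generalize w ^ (n + 1) = z at hz2 hzX hzt
  refine ⟨x * z⁻¹, z, ?_, ⟨hzX, hzt⟩, by group⟩
  refine Subgroup.mem_inf.mpr ⟨mul_mem hx (inv_mem hzX), ?_⟩
  rw [Subgroup.mem_centralizer_iff]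
  intro h hh
  rw [Set.mem_singleton_iff] at hh
  subst hh
  -- (h x h⁻¹) z = x z⁻¹
  have h1 : (h * x * h⁻¹) * z = x * z⁻¹ := by
    have : (h * x * h⁻¹) * z = (h * x * h⁻¹) * (z * z) * z⁻¹ := by group
    rw [this, hz2, ← hw]; group
  have h2 : h * z⁻¹ * h⁻¹ = z := by
    have : h * z⁻¹ * h⁻¹ = (h * z * h⁻¹)⁻¹ := by group
    rw [this, hzt, inv_inv]
  calc h * (x * z⁻¹) = (h * x * h⁻¹) * (h * z⁻¹ * h⁻¹) * h := by group
    _ = x * z⁻¹ * h := by rw [h2, h1]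

open Cfsg.Agent.Lib.Helper2 in
theorem unique_decomp {M : Type*} [Group M] (t : M) (htt : t * t = 1) (X : Subgroup M)
    (hXodd : ∀ x ∈ X, Odd (orderOf x)) (y z y' z' : M)
    (hy : y ∈ X ⊓ Subgroup.centralizer {t}) (hz : z ∈ Cfsg.invertedBy X t)
    (hy' : y' ∈ X ⊓ Subgroup.centralizer {t}) (hz' : z' ∈ Cfsg.invertedBy X t)
    (h : y * z = y' * z') : y = y' ∧ z = z' := by
  have htinv : t⁻¹ = t := inv_eq_of_mul_eq_one_left htt
  have key : ∀ y z : M, y ∈ X ⊓ Subgroup.centralizer {t} → z ∈ Cfsg.invertedBy X t →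
      z ^ 2 = (t * (y * z) * t⁻¹)⁻¹ * (y * z) := by
    intro y z hy hz
    have hyc := (Subgroup.mem_inf.mp hy).2
    rw [Subgroup.mem_centralizer_iff] at hyc
    have h1 : t * y = y * t := hyc t rfl
    have h2 : t * z * t⁻¹ = z⁻¹ := hz.2
    have e : t * (y * z) * t⁻¹ = (t * y) * t⁻¹ * (t * z * t⁻¹) := by group
    rw [e, h1, h2, pow_two]; group
  have hzz : z ^ 2 = z' ^ 2 := by rw [key y z hy hz, key y' z' hy' hz', h]
  have hz_eq : z = z' := eq_of_sq_eq_of_odd z z' (hXodd z hz.1) (hXodd z' hz'.1) hzz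
  subst hz_eq
  exact ⟨mul_right_cancel h, rfl⟩

/-- Let `t` be an element of order 2 of a finite group normalising a subgroup `X` of odd order, `Y = C_X(t)` and `Z` the set of elements of `X` inverted by `t`. Then `(y, z) ↦ y z` is a bijection `Y × Z → X`, so `|X| = |Y| |Z|`, and the subgroup generated by `Z` is normal in `X`. -/
theorem result {M : Type*} [Group M] [Finite M]
    (t : M) (ht : orderOf t = 2) (X : Subgroup M) (hodd : Odd (Nat.card X))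
    (hnorm : ∀ x ∈ X, t * x * t⁻¹ ∈ X) :
    (∀ x ∈ X, ∃! p : M × M, p.1 ∈ X ⊓ Subgroup.centralizer {t} ∧ p.2 ∈ Cfsg.invertedBy X t ∧ x = p.1 * p.2) ∧
      Nat.card X = Nat.card ↥(X ⊓ Subgroup.centralizer {t}) * Nat.card (Cfsg.invertedBy X t) ∧
      ∀ x ∈ X, MulAut.conj x • Subgroup.closure (Cfsg.invertedBy X t) = Subgroup.closure (Cfsg.invertedBy X t) := by
  classical
  have htt : t * t = 1 := by
    have := pow_orderOf_eq_one t
    rwa [ht, pow_two] at this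
  have htinv : t⁻¹ = t := inv_eq_of_mul_eq_one_left htt
  obtain ⟨n, hn⟩ := hodd
  have hXpow : ∀ x ∈ X, x ^ (2 * n + 1) = 1 := by
    intro x hx
    have h1 := pow_card_eq_one' (G := X) (x := ⟨x, hx⟩)
    rw [hn] at h1
    have h2 := congrArg Subtype.val h1
    simpa using h2
  have hXodd : ∀ x ∈ X, Odd (orderOf x) := by
    intro x hx
    exact Odd.of_dvd_nat ⟨n, rfl⟩ (orderOf_dvd_of_pow_eq_one (hXpow x hx))
  have hex := exists_decomp t htt X n hXpow hnorm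
  have huniq := unique_decomp t htt X hXodd
  refine ⟨?_, ?_, ?_⟩
  · intro x hx
    obtain ⟨y, z, hy, hz, hxyz⟩ := hex x hx
    refine ⟨(y, z), ⟨hy, hz, hxyz⟩, ?_⟩
    rintro ⟨y', z'⟩ ⟨hy', hz', hxyz'⟩
    have := huniq y' z' y z hy' hz' hy hz (hxyz'.symm.trans hxyz)
    exact Prod.ext this.1 this.2
  · rw [← Nat.card_prod]
    symm
    refine Nat.card_congr (Equiv.ofBijective
      (fun p : ↥(X ⊓ Subgroup.centralizer {t}) × ↥(Cfsg.invertedBy X t) =>
        (⟨(p.1 : M) * (p.2 : M), mul_mem (Subgroup.mem_inf.mp p.1.2).1 p.2.2.1⟩ : ↥X)) ⟨?_, ?_⟩)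
    · rintro ⟨⟨y, hy⟩, ⟨z, hz⟩⟩ ⟨⟨y', hy'⟩, ⟨z', hz'⟩⟩ h
      have h' : y * z = y' * z' := congrArg Subtype.val h
      have := huniq y z y' z' hy hz hy' hz' h'
      obtain ⟨rfl, rfl⟩ := this
      rfl
    · rintro ⟨x, hx⟩
      obtain ⟨y, z, hy, hz, hxyz⟩ := hex x hx
      exact ⟨(⟨y, hy⟩, ⟨z, hz⟩), Subtype.ext hxyz.symm⟩
  · -- normality
    have hA : ∀ y ∈ X ⊓ Subgroup.centralizer {t}, ∀ m ∈ Subgroup.closure (Cfsg.invertedBy X t),
        y * m * y⁻¹ ∈ Subgroup.closure (Cfsg.invertedBy X t) := by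
      intro y hy m hm
      have hyX := (Subgroup.mem_inf.mp hy).1
      have hyc := (Subgroup.mem_inf.mp hy).2
      rw [Subgroup.mem_centralizer_iff] at hyc
      have h1 : t * y = y * t := hyc t rfl
      induction hm using Subgroup.closure_induction with
      | mem z hz =>
        apply Subgroup.subset_closure
        refine ⟨mul_mem (mul_mem hyX hz.1) (inv_mem hyX), ?_⟩
        have h2 : t * z * t⁻¹ = z⁻¹ := hz.2
        have h3 : t * y⁻¹ * t⁻¹ = y⁻¹ := by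
          have : t * y⁻¹ * t⁻¹ = y⁻¹ * (y * t) * y⁻¹ * t⁻¹ := by group
          rw [this, ← h1]; group
        have e : t * (y * z * y⁻¹) * t⁻¹ = (t * y) * t⁻¹ * (t * z * t⁻¹) * (t * y⁻¹ * t⁻¹) := by
          group
        rw [e, h1, h2, h3]; group
      | one => simp
      | mul a b _ _ iha ihb =>
        have e : y * (a * b) * y⁻¹ = (y * a * y⁻¹) * (y * b * y⁻¹) := by group
        rw [e]; exact mul_mem iha ihb
      | inv a _ iha =>
        have e : y * a⁻¹ * y⁻¹ = (y * a * y⁻¹)⁻¹ := by group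
        rw [e]; exact inv_mem iha
    have hB : ∀ x ∈ X, ∀ m ∈ Subgroup.closure (Cfsg.invertedBy X t),
        x * m * x⁻¹ ∈ Subgroup.closure (Cfsg.invertedBy X t) := by
      intro x hx m hm
      obtain ⟨y, z, hy, hz, hxyz⟩ := hex x hx
      have hzc : z ∈ Subgroup.closure (Cfsg.invertedBy X t) := Subgroup.subset_closure hz
      have e : x * m * x⁻¹ = y * (z * m * z⁻¹) * y⁻¹ := by rw [hxyz]; group
      rw [e]
      exact hA y hy _ (mul_mem (mul_mem hzc hm) (inv_mem hzc))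
    intro x hx
    ext m
    rw [Subgroup.mem_pointwise_smul_iff_inv_smul_mem]
    have e1 : (MulAut.conj x)⁻¹ • m = x⁻¹ * m * x⁻¹⁻¹ := by
      simp [MulAut.smul_def]
    rw [e1]
    constructor
    · intro h
      have := hB x hx _ h
      have e : x * (x⁻¹ * m * x⁻¹⁻¹) * x⁻¹ = m := by group
      rwa [e] at this
    · intro h
      exact hB x⁻¹ (inv_mem hx) m h

end Cfsg.Agent.S1124
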