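import Cfsg.Statements.S1125
import Cfsg.Agent.Lib.Helper2.RankOne4

set_option autoImplicit false
open Cfsg

namespace Cfsg.Agent.S1125

open Cfsg.Agent.Lib.Helper2.RankOne

/-- The element of `Q` moving `t • a` to a fixed point of `X ⊆ D` centralises `X`. -/
theorem Q_centralizing {G Ω : Type*} [Group G] [Finite G] [MulAction G Ω] {a : Ω} {t : G}
    {Q : Subgroup G} (hS : Cfsg.IsRankOneSetup G Ω a t Q) (X : Set G)
    (hX : X ⊆ ((MulAction.stabilizer G a ⊓ MulAction.stabilizer G (t • a) : Subgroup G) : Set G))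
    (c : Ω) (hc : ∀ x ∈ X, x • c = c) (y : G) (hy : y ∈ Q) (hyc : y • (t • a) = c) :
    y ∈ Subgroup.centralizer X := by
  rw [Subgroup.mem_centralizer_iff]
  intro x hx
  have hxD := hX hx
  have hxa : x ∈ MulAction.stabilizer G a := (Subgroup.mem_inf.mp hxD).1
  have hxb : x • (t • a) = t • a := MulAction.mem_stabilizer_iff.mp (Subgroup.mem_inf.mp hxD).2
  have hxb' : x⁻¹ • (t • a) = t • a := by rw [inv_smul_eq_iff, hxb]
  have hz : y⁻¹ * (x * y * x⁻¹) ∈ Q := mul_mem (inv_mem hy) (hS.conj_mem x hxa y hy)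
  have hzfix : (y⁻¹ * (x * y * x⁻¹)) • (t • a) = t • a := by
    rw [mul_smul, mul_smul, mul_smul, hxb', hyc, hc x hx, inv_smul_eq_iff, hyc]
  have hz1 := Q_free hS _ hz _ (tsmul_ne hS) hzfix
  have : x * y = y * (y⁻¹ * (x * y * x⁻¹)) * x := by group
  rw [this, hz1, mul_one]

/-- In the rank-one set-up (`G` finite and doubly transitive on `Ω`, `t` an involution moving `a`, `Q` normal in `G_a` with `G_a = Q D`, `Q ⊓ D = 1` for the two-point stabiliser `D = G_a ⊓ G_{t • a}`, `|Q|` even, `|D|` odd), let `X ⊆ D` fix at least three points of `Ω`. Then `C_G(X)` is doubly transitive on the fixed-point set of `X`, `|C_Q(X)|` is even, and `C_{G_a}(X) = C_Q(X) C_D(X)`. -/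
theorem result {G Ω : Type*} [Group G] [Finite G] [MulAction G Ω] {a : Ω} {t : G} {Q : Subgroup G}
    (hS : Cfsg.IsRankOneSetup G Ω a t Q)
    (X : Set G) (hX : X ⊆ ((MulAction.stabilizer G a ⊓ MulAction.stabilizer G (t • a)) : Set G))
    (h3 : ∃ b c d : Ω, b ≠ c ∧ b ≠ d ∧ c ≠ d ∧ ∀ x ∈ X, x • b = b ∧ x • c = c ∧ x • d = d) :
    (∀ b₁ b₂ c₁ c₂ : Ω, (∀ x ∈ X, x • b₁ = b₁ ∧ x • b₂ = b₂ ∧ x • c₁ = c₁ ∧ x • c₂ = c₂) →
        b₁ ≠ b₂ → c₁ ≠ c₂ → ∃ g ∈ Subgroup.centralizer X, g • b₁ = c₁ ∧ g • b₂ = c₂) ∧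
      Even (Nat.card ↥(Subgroup.centralizer X ⊓ Q)) ∧
      (Subgroup.centralizer X ⊓ Q) ⊔ (Subgroup.centralizer X ⊓ (MulAction.stabilizer G a ⊓ MulAction.stabilizer G (t • a))) = Subgroup.centralizer X ⊓ MulAction.stabilizer G a := by
  have hXa : ∀ x ∈ X, x • a = a := fun x hx =>
    MulAction.mem_stabilizer_iff.mp (Subgroup.mem_inf.mp (hX hx)).1
  have hXb : ∀ x ∈ X, x • (t • a) = t • a := fun x hx =>
    MulAction.mem_stabilizer_iff.mp (Subgroup.mem_inf.mp (hX hx)).2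
  refine ⟨fun b₁ b₂ c₁ c₂ hfix hb hc => two_trans_centralizer hS X h3 b₁ b₂ c₁ c₂ hfix hb hc,
    ?_, ?_⟩
  · obtain ⟨u, huC, huu, hua, hub⟩ := exists_swap_invol hS X hX h3
    have hu1 : u ≠ 1 := by
      rintro rfl
      rw [one_smul] at hua
      exact tsmul_ne hS hua.symm
    obtain ⟨p₀, hp₀⟩ := invol_fixed_point hS u hu1 huu
    have huC' := Subgroup.mem_centralizer_iff.mp huC
    have hXp₀ : ∀ x ∈ X, x • p₀ = p₀ := by
      intro x hx
      apply invol_fixed_unique hS u hu1 huu p₀ (x • p₀) hp₀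
      rw [← mul_smul, ← huC' x hx, mul_smul, hp₀]
    have hp₀a : p₀ ≠ a := by
      rintro rfl
      rw [hp₀] at hua
      exact tsmul_ne hS hua.symm
    obtain ⟨g₀, hg₀C, hg₀p, -⟩ := two_trans_centralizer hS X h3 p₀ a a (t • a)
      (fun x hx => ⟨hXp₀ x hx, hXa x hx, hXa x hx, hXb x hx⟩) hp₀a (tsmul_ne hS).symm
    have hg₀inv : g₀⁻¹ • a = p₀ := by rw [inv_smul_eq_iff, hg₀p]
    have hsa : g₀ * u * g₀⁻¹ ∈ MulAction.stabilizer G a := by
      rw [MulAction.mem_stabilizer_iff, mul_smul, mul_smul, hg₀inv, hp₀, hg₀p]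
    have hss : (g₀ * u * g₀⁻¹) * (g₀ * u * g₀⁻¹) = 1 := by
      have : (g₀ * u * g₀⁻¹) * (g₀ * u * g₀⁻¹) = g₀ * (u * u) * g₀⁻¹ := by group
      rw [this, huu]; group
    have hs1 : g₀ * u * g₀⁻¹ ≠ 1 := by
      intro h
      apply hu1
      have : u = g₀⁻¹ * (g₀ * u * g₀⁻¹) * g₀ := by group
      rw [this, h]; group
    have hsQ : g₀ * u * g₀⁻¹ ∈ Q := invol_mem_Q hS _ hsa hss
    have hsC : g₀ * u * g₀⁻¹ ∈ Subgroup.centralizer X :=
      mul_mem (mul_mem hg₀C huC) (inv_mem hg₀C)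
    have hord : orderOf (⟨g₀ * u * g₀⁻¹, Subgroup.mem_inf.mpr ⟨hsC, hsQ⟩⟩ :
        ↥(Subgroup.centralizer X ⊓ Q)) = 2 := by
      apply orderOf_eq_prime
      · apply Subtype.ext
        rw [Subgroup.coe_pow, pow_two]
        exact hss
      · intro h
        exact hs1 (congrArg Subtype.val h)
    rw [even_iff_two_dvd, ← hord]
    exact orderOf_dvd_natCard _
  · apply le_antisymm
    · exact sup_le (inf_le_inf_left _ hS.le) (inf_le_inf_left _ inf_le_left)
    · intro g hg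
      obtain ⟨hgC, hga⟩ := Subgroup.mem_inf.mp hg
      have hgC' := Subgroup.mem_centralizer_iff.mp hgC
      have hga' := MulAction.mem_stabilizer_iff.mp hga
      have hc : ∀ x ∈ X, x • (g • (t • a)) = g • (t • a) := by
        intro x hx
        rw [← mul_smul, hgC' x hx, mul_smul, hXb x hx]
      have hca : g • (t • a) ≠ a := by
        intro h
        apply tsmul_ne hS
        have h1 : g⁻¹ • a = t • a := by rw [inv_smul_eq_iff]; exact h.symm
        rw [← h1, inv_smul_eq_iff, hga']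
      obtain ⟨y, hy, hyc⟩ := exists_Q_smul hS _ hca
      have hyC := Q_centralizing hS X hX _ hc y hy hyc
      have hdD : y⁻¹ * g ∈ MulAction.stabilizer G a ⊓ MulAction.stabilizer G (t • a) := by
        refine Subgroup.mem_inf.mpr ⟨mul_mem (inv_mem (hS.le hy)) hga, ?_⟩
        rw [MulAction.mem_stabilizer_iff, mul_smul, inv_smul_eq_iff, hyc]
      have hdC : y⁻¹ * g ∈ Subgroup.centralizer X := mul_mem (inv_mem hyC) hgC
      have hg_eq : g = y * (y⁻¹ * g) := by group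
      rw [hg_eq]
      exact Subgroup.mul_mem_sup (Subgroup.mem_inf.mpr ⟨hyC, hy⟩)
        (Subgroup.mem_inf.mpr ⟨hdC, hdD⟩)

end Cfsg.Agent.S1125
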