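import Cfsg.Statements.S1127
import Cfsg.Agent.Lib.Helper2.RankOne3
import Cfsg.Agent.S1122
import Cfsg.Agent.S1123

set_option autoImplicit false
open Cfsg

namespace Cfsg.Agent.S1127

open Cfsg.Agent.Lib.Helper2.RankOne

/-- Injectivity of `k ↦ k⁻¹ s k` on the inverted set. -/
theorem psi_inj {G Ω : Type*} [Group G] [Finite G] [MulAction G Ω] {a : Ω} {t : G} {Q : Subgroup G}
    (hS : Cfsg.IsRankOneSetup G Ω a t Q) (s : G)
    (hs : s ∈ Cfsg.involutionsIn (MulAction.stabilizer G a : Set G)) (k k' : G)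
    (hk : k ∈ Cfsg.invertedBy (MulAction.stabilizer G a ⊓ MulAction.stabilizer G (t • a)) t)
    (hk' : k' ∈ Cfsg.invertedBy (MulAction.stabilizer G a ⊓ MulAction.stabilizer G (t • a)) t)
    (h : k⁻¹ * s * k = k'⁻¹ * s * k') : k = k' := by
  have hs' := Cfsg.Agent.S1122.conj_mem_I s k hs (Subgroup.mem_inf.mp hk.1).1
  obtain ⟨w, hww, hwsw, hwa, hwc⟩ := midpoint hS s (k⁻¹ * s * k) hs.1 hs.2.1 hs.2.2
    hs'.1 hs'.2.1 hs'.2.2
  have e1 := Cfsg.Agent.S1122.k_eq_w hS s (k⁻¹ * s * k) w hww hwsw hwa hwc k hk rfl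
  have e2 := Cfsg.Agent.S1122.k_eq_w hS s (k⁻¹ * s * k) w hww hwsw hwa hwc k' hk' h.symm
  exact mul_right_cancel (e1.trans e2.symm)

/-- An element of `G_a` commuting with `t` commutes with the structure involution. -/
theorem comm_s_of_comm_t {G Ω : Type*} [Group G] [Finite G] [MulAction G Ω] {a : Ω} {t : G}
    {Q : Subgroup G} (hS : Cfsg.IsRankOneSetup G Ω a t Q) (s r : G)
    (hs : s ∈ Cfsg.involutionsIn (MulAction.stabilizer G a : Set G)) (hr : r ∈ Q)
    (heq : t * s * t = r⁻¹ * t * r) (e : G) (he : e ∈ MulAction.stabilizer G a)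
    (het : e * t = t * e) : e * s * e⁻¹ = s := by
  have hu := Cfsg.Agent.S1123.result hS
  have he' : e⁻¹ * t = t * e⁻¹ := by
    calc e⁻¹ * t = e⁻¹ * (t * e) * e⁻¹ := by group
      _ = e⁻¹ * (e * t) * e⁻¹ := by rw [het]
      _ = t * e⁻¹ := by group
  have hs' : e * s * e⁻¹ ∈ Cfsg.involutionsIn (MulAction.stabilizer G a : Set G) := by
    have := Cfsg.Agent.S1122.conj_mem_I s e⁻¹ hs (inv_mem he)
    rwa [inv_inv] at this
  have heq' : t * (e * s * e⁻¹) * t = (e * r * e⁻¹)⁻¹ * t * (e * r * e⁻¹) := by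
    calc t * (e * s * e⁻¹) * t = (t * e) * s * (e⁻¹ * t) := by group
      _ = (e * t) * s * (t * e⁻¹) := by rw [het, he']
      _ = e * (t * s * t) * e⁻¹ := by group
      _ = e * (r⁻¹ * t * r) * e⁻¹ := by rw [heq]
      _ = e * r⁻¹ * (t * e⁻¹) * e * r * e⁻¹ := by group
      _ = e * r⁻¹ * (e⁻¹ * t) * e * r * e⁻¹ := by rw [he']
      _ = (e * r * e⁻¹)⁻¹ * t * (e * r * e⁻¹) := by group
  have h1 : ((e * s * e⁻¹, e * r * e⁻¹) : G × G) = (s, r) :=
    hu.unique (y₁ := (e * s * e⁻¹, e * r * e⁻¹)) (y₂ := (s, r))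
      ⟨hs', hS.conj_mem e he r hr, heq'⟩ ⟨hs, hr, heq⟩
  exact congrArg Prod.fst h1

/-- An element of `D` commuting with the structure involution commutes with `t`. -/
theorem comm_t_of_comm_s {G Ω : Type*} [Group G] [Finite G] [MulAction G Ω] {a : Ω} {t : G}
    {Q : Subgroup G} (hS : Cfsg.IsRankOneSetup G Ω a t Q) (s r : G)
    (hs : s ∈ Cfsg.involutionsIn (MulAction.stabilizer G a : Set G)) (hr : r ∈ Q)
    (heq : t * s * t = r⁻¹ * t * r) (d : G)
    (hd : d ∈ MulAction.stabilizer G a ⊓ MulAction.stabilizer G (t • a))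
    (hds : d * s = s * d) : d * t = t * d := by
  have htt := hS.mul_self
  have htinv := t_inv hS
  have hda := MulAction.mem_stabilizer_iff.mp (Subgroup.mem_inf.mp hd).1
  have hdb := MulAction.mem_stabilizer_iff.mp (Subgroup.mem_inf.mp hd).2
  have hda' : d⁻¹ • a = a := MulAction.mem_stabilizer_iff.mp (inv_mem (Subgroup.mem_inf.mp hd).1)
  have hdb' : d⁻¹ • (t • a) = t • a :=
    MulAction.mem_stabilizer_iff.mp (inv_mem (Subgroup.mem_inf.mp hd).2)
  -- k₁ = d t d⁻¹ t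
  have hk₁D : d * t * d⁻¹ * t ∈ MulAction.stabilizer G a ⊓ MulAction.stabilizer G (t • a) := by
    refine Subgroup.mem_inf.mpr ⟨?_, ?_⟩
    · rw [MulAction.mem_stabilizer_iff, mul_smul, mul_smul, mul_smul, hdb', tt_smul hS, hda]
    · rw [MulAction.mem_stabilizer_iff, mul_smul, mul_smul, mul_smul, tt_smul hS, hda', hdb]
  have hk₁inv : t * (d * t * d⁻¹ * t) * t⁻¹ = (d * t * d⁻¹ * t)⁻¹ := by
    rw [mul_inv_rev, mul_inv_rev, mul_inv_rev, inv_inv, htinv]
    have : t * (d * t * d⁻¹ * t) * t = t * d * t * d⁻¹ * (t * t) := by group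
    rw [this, htt]; group
  have hodd : Odd (orderOf (d * t * d⁻¹ * t)) := by
    have h4 : (⟨d * t * d⁻¹ * t, hk₁D⟩ :
        ↥(MulAction.stabilizer G a ⊓ MulAction.stabilizer G (t • a))) ^
        Nat.card ↥(MulAction.stabilizer G a ⊓ MulAction.stabilizer G (t • a)) = 1 :=
      pow_card_eq_one'
    have h5 : (((⟨d * t * d⁻¹ * t, hk₁D⟩ :
        ↥(MulAction.stabilizer G a ⊓ MulAction.stabilizer G (t • a))) ^
        Nat.card ↥(MulAction.stabilizer G a ⊓ MulAction.stabilizer G (t • a)) :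
        ↥(MulAction.stabilizer G a ⊓ MulAction.stabilizer G (t • a))) : G) = 1 := by
      rw [h4]; rfl
    rw [Subgroup.coe_pow] at h5
    exact Odd.of_dvd_nat hS.odd_card (orderOf_dvd_of_pow_eq_one h5)
  obtain ⟨j, hj⟩ := hodd
  have hkD : (d * t * d⁻¹ * t) ^ j ∈ MulAction.stabilizer G a ⊓ MulAction.stabilizer G (t • a) :=
    pow_mem hk₁D j
  have hkinv := Cfsg.Agent.Lib.Helper2.inv_conj_pow t (d * t * d⁻¹ * t) hk₁inv j
  have hk2 : (d * t * d⁻¹ * t) ^ j * (d * t * d⁻¹ * t) ^ j = (d * t * d⁻¹ * t)⁻¹ := by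
    have h1 : (d * t * d⁻¹ * t) ^ (2 * j) * (d * t * d⁻¹ * t) = 1 := by
      rw [← pow_succ, ← hj, pow_orderOf_eq_one]
    rw [← pow_add, ← two_mul]
    exact eq_inv_of_mul_eq_one_left h1
  generalize (d * t * d⁻¹ * t) ^ j = k at hkD hkinv hk2
  -- k⁻¹ t k = d t d⁻¹
  have hconj : k⁻¹ * t * k = d * t * d⁻¹ := by
    have h1 : t * k = k⁻¹ * t := by
      calc t * k = (t * k * t⁻¹) * t := by group
        _ = k⁻¹ * t := by rw [hkinv]
    calc k⁻¹ * t * k = k⁻¹ * (t * k) := by group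
      _ = k⁻¹ * (k⁻¹ * t) := by rw [h1]
      _ = (k * k)⁻¹ * t := by group
      _ = (d * t * d⁻¹ * t) * t := by rw [hk2, inv_inv]
      _ = d * t * d⁻¹ * (t * t) := by group
      _ = d * t * d⁻¹ := by rw [htt, mul_one]
  -- e = k d commutes with t
  have het : (k * d) * t = t * (k * d) := by
    calc (k * d) * t = k * (d * t * d⁻¹) * d := by group
      _ = k * (k⁻¹ * t * k) * d := by rw [hconj]
      _ = t * (k * d) := by group
  have heD : k * d ∈ MulAction.stabilizer G a := mul_mem (Subgroup.mem_inf.mp hkD).1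
    (Subgroup.mem_inf.mp hd).1
  have h1 := comm_s_of_comm_t hS s r hs hr heq (k * d) heD het
  have h2 : k * s * k⁻¹ = s := by
    calc k * s * k⁻¹ = k * (s * d) * d⁻¹ * k⁻¹ := by group
      _ = k * (d * s) * d⁻¹ * k⁻¹ := by rw [hds]
      _ = (k * d) * s * (k * d)⁻¹ := by group
      _ = s := h1
  have h3 : k⁻¹ * s * k = (1 : G)⁻¹ * s * 1 := by
    rw [inv_one, one_mul, mul_one]
    calc k⁻¹ * s * k = k⁻¹ * (k * s * k⁻¹) * k := by rw [h2]
      _ = s := by group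
  have h1K : (1 : G) ∈ Cfsg.invertedBy (MulAction.stabilizer G a ⊓ MulAction.stabilizer G (t • a)) t :=
    ⟨one_mem _, by simp⟩
  have hk1 : k = 1 := psi_inj hS s hs k 1 ⟨hkD, hkinv⟩ h1K h3
  rw [hk1, inv_one, one_mul, mul_one] at hconj
  calc d * t = (d * t * d⁻¹) * d := by group
    _ = t * d := by rw [← hconj]

/-- In the rank-one set-up (`G` finite and doubly transitive on `Ω`, `t` an involution moving `a`, `Q` normal in `G_a` with `G_a = Q D`, `Q ⊓ D = 1` for the two-point stabiliser `D = G_a ⊓ G_{t • a}`, `|Q|` even, `|D|` odd): if `s` is an involution of `G_a` and `r ∈ Q` satisfy `t s t = r⁻¹ t r`, then `C_D(t) = C_D(s)`; moreover `C_D(t) ⊓ C_D(K) = C_D(I ∩ G_a)`, where `K` is the set of elements of `D` inverted by `t` and `I ∩ G_a` the set of involutions of `G_a`. -/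
theorem result {G Ω : Type*} [Group G] [Finite G] [MulAction G Ω] {a : Ω} {t : G} {Q : Subgroup G}
    (hS : Cfsg.IsRankOneSetup G Ω a t Q) :
    (∀ s r : G, s ∈ Cfsg.involutionsIn (MulAction.stabilizer G a : Set G) → r ∈ Q → t * s * t = r⁻¹ * t * r →
        (MulAction.stabilizer G a ⊓ MulAction.stabilizer G (t • a)) ⊓ Subgroup.centralizer {t} = (MulAction.stabilizer G a ⊓ MulAction.stabilizer G (t • a)) ⊓ Subgroup.centralizer {s}) ∧
      (MulAction.stabilizer G a ⊓ MulAction.stabilizer G (t • a)) ⊓ Subgroup.centralizer {t} ⊓ Subgroup.centralizer (Cfsg.invertedBy (MulAction.stabilizer G a ⊓ MulAction.stabilizer G (t • a)) t) =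
        (MulAction.stabilizer G a ⊓ MulAction.stabilizer G (t • a)) ⊓ Subgroup.centralizer (Cfsg.involutionsIn (MulAction.stabilizer G a : Set G)) := by
  constructor
  · intro s r hs hr heq
    ext d
    simp only [Subgroup.mem_inf, Subgroup.mem_centralizer_iff, Set.mem_singleton_iff, forall_eq]
    constructor
    · rintro ⟨hd, hdt⟩
      refine ⟨hd, ?_⟩
      have h1 := comm_s_of_comm_t hS s r hs hr heq d hd.1 hdt.symm
      calc s * d = (d * s * d⁻¹) * d := by rw [h1]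
        _ = d * s := by group
    · rintro ⟨hd, hds⟩
      exact ⟨hd, (comm_t_of_comm_s hS s r hs hr heq d (Subgroup.mem_inf.mpr hd) hds.symm).symm⟩
  · obtain ⟨⟨s₀, r₀⟩, ⟨hs₀, hr₀, heq₀⟩, -⟩ := Cfsg.Agent.S1123.result hS
    dsimp only at hs₀ hr₀ heq₀
    ext d
    simp only [Subgroup.mem_inf, Subgroup.mem_centralizer_iff, Set.mem_singleton_iff, forall_eq]
    constructor
    · rintro ⟨⟨hd, hdt⟩, hdK⟩
      refine ⟨hd, ?_⟩
      intro s' hs'
      have h1 := comm_s_of_comm_t hS s₀ r₀ hs₀ hr₀ heq₀ d hd.1 hdt.symm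
      obtain ⟨k, hk, hks⟩ := Cfsg.Agent.S1122.exists_k hS s₀ s' hs₀ hs'
      have hdk : k * d = d * k := hdK k hk
      have hdk' : d * k⁻¹ = k⁻¹ * d := by
        calc d * k⁻¹ = k⁻¹ * (k * d) * k⁻¹ := by group
          _ = k⁻¹ * (d * k) * k⁻¹ := by rw [hdk]
          _ = k⁻¹ * d := by group
      rw [← hks]
      calc k⁻¹ * s₀ * k * d = k⁻¹ * s₀ * (k * d) := by group
        _ = k⁻¹ * s₀ * (d * k) := by rw [hdk]
        _ = k⁻¹ * (d * s₀ * d⁻¹) * (d * k) := by rw [h1]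
        _ = (k⁻¹ * d) * s₀ * k := by group
        _ = (d * k⁻¹) * s₀ * k := by rw [hdk']
        _ = d * (k⁻¹ * s₀ * k) := by group
    · rintro ⟨hd, hdI⟩
      have hds₀ : d * s₀ = s₀ * d := (hdI s₀ hs₀).symm
      have hdt := comm_t_of_comm_s hS s₀ r₀ hs₀ hr₀ heq₀ d (Subgroup.mem_inf.mpr hd) hds₀
      refine ⟨⟨hd, hdt.symm⟩, ?_⟩
      intro k hk
      have hdt' : t * d⁻¹ = d⁻¹ * t := by
        calc t * d⁻¹ = d⁻¹ * (d * t) * d⁻¹ := by group
          _ = d⁻¹ * (t * d) * d⁻¹ := by rw [hdt]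
          _ = d⁻¹ * t := by group
      have hk' : d * k * d⁻¹ ∈
          Cfsg.invertedBy (MulAction.stabilizer G a ⊓ MulAction.stabilizer G (t • a)) t := by
        refine ⟨mul_mem (mul_mem (Subgroup.mem_inf.mpr hd) hk.1) (inv_mem (Subgroup.mem_inf.mpr hd)), ?_⟩
        have hk2 : t * k * t⁻¹ = k⁻¹ := hk.2
        calc t * (d * k * d⁻¹) * t⁻¹ = (t * d) * k * d⁻¹ * t⁻¹ := by group
          _ = (d * t) * k * d⁻¹ * t⁻¹ := by rw [hdt]
          _ = d * t * k * (t * d)⁻¹ := by group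
          _ = d * t * k * (d * t)⁻¹ := by rw [hdt]
          _ = d * (t * k * t⁻¹) * d⁻¹ := by group
          _ = d * k⁻¹ * d⁻¹ := by rw [hk2]
          _ = (d * k * d⁻¹)⁻¹ := by group
      have hs' := Cfsg.Agent.S1122.conj_mem_I s₀ k hs₀ (Subgroup.mem_inf.mp hk.1).1
      have hds' : (k⁻¹ * s₀ * k) * d = d * (k⁻¹ * s₀ * k) := hdI _ hs'
      have h3 : (d * k * d⁻¹)⁻¹ * s₀ * (d * k * d⁻¹) = k⁻¹ * s₀ * k := by
        have hds₀' : d⁻¹ * s₀ = s₀ * d⁻¹ := by
          calc d⁻¹ * s₀ = d⁻¹ * (s₀ * d) * d⁻¹ := by group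
            _ = d⁻¹ * (d * s₀) * d⁻¹ := by rw [hds₀]
            _ = s₀ * d⁻¹ := by group
        calc (d * k * d⁻¹)⁻¹ * s₀ * (d * k * d⁻¹) = d * k⁻¹ * (d⁻¹ * s₀) * d * k * d⁻¹ := by group
          _ = d * k⁻¹ * (s₀ * d⁻¹) * d * k * d⁻¹ := by rw [hds₀']
          _ = d * (k⁻¹ * s₀ * k) * d⁻¹ := by group
          _ = (k⁻¹ * s₀ * k) * d * d⁻¹ := by rw [hds']
          _ = k⁻¹ * s₀ * k := by group
      have h4 := psi_inj hS s₀ hs₀ (d * k * d⁻¹) k hk' hk h3
      calc k * d = (d * k * d⁻¹) * d := by rw [h4]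
        _ = d * k := by group

end Cfsg.Agent.S1127
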