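import Cfsg.Statements.S1128
import Cfsg.Agent.Lib.Helper2.RankOne4

set_option autoImplicit false
open Cfsg

namespace Cfsg.Agent.S1128

open Cfsg.Agent.Lib.Helper2.RankOne in
/-- In the rank-one set-up (`G` finite and doubly transitive on `Ω`, `t` an involution moving `a`, `Q` normal in `G_a` with `G_a = Q D`, `Q ⊓ D = 1` for the two-point stabiliser `D = G_a ⊓ G_{t • a}`, `|Q|` even, `|D|` odd), with the action faithful and `G` containing two distinct commuting involutions: every non-identity element of `D` inverted by `t` acts fixed-point-freely on `Q`. -/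
theorem result {G Ω : Type*} [Group G] [Finite G] [MulAction G Ω] [FaithfulSMul G Ω] {a : Ω} {t : G} {Q : Subgroup G}
    (hS : Cfsg.IsRankOneSetup G Ω a t Q)
    (h2 : ∃ x y : G, x ≠ 1 ∧ y ≠ 1 ∧ x ≠ y ∧ x * x = 1 ∧ y * y = 1 ∧ x * y = y * x)
    (x : G) (hx : x ∈ Cfsg.invertedBy (MulAction.stabilizer G a ⊓ MulAction.stabilizer G (t • a)) t) (hx1 : x ≠ 1) :
    Q ⊓ Subgroup.centralizer {x} = ⊥ := by
  rw [eq_bot_iff]
  intro y hy
  rw [Subgroup.mem_bot]
  by_contra hy1
  obtain ⟨hyQ, hyC⟩ := Subgroup.mem_inf.mp hy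
  rw [Subgroup.mem_centralizer_iff] at hyC
  have hxy : x * y = y * x := hyC x rfl
  obtain ⟨hxD, hxinv⟩ := hx
  have hxa := MulAction.mem_stabilizer_iff.mp (Subgroup.mem_inf.mp hxD).1
  have hxb := MulAction.mem_stabilizer_iff.mp (Subgroup.mem_inf.mp hxD).2
  have htt := hS.mul_self
  have htinv := t_inv hS
  -- three fixed points of {x}
  have h3 : ∃ b c d : Ω, b ≠ c ∧ b ≠ d ∧ c ≠ d ∧
      ∀ x' ∈ ({x} : Set G), x' • b = b ∧ x' • c = c ∧ x' • d = d := by
    refine ⟨a, t • a, y • (t • a), (tsmul_ne hS).symm, ?_, ?_, ?_⟩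
    · intro h
      apply tsmul_ne hS
      have h1 : y⁻¹ • a = t • a := by rw [inv_smul_eq_iff]; exact h
      rw [← h1]; exact Q_fix hS _ (inv_mem hyQ)
    · intro h
      exact hy1 (Q_free hS y hyQ _ (tsmul_ne hS) h.symm)
    · intro x' hx'
      rw [Set.mem_singleton_iff] at hx'
      subst hx'
      refine ⟨hxa, hxb, ?_⟩
      rw [← mul_smul, hxy, mul_smul, hxb]
  have hXD : ({x} : Set G) ⊆
      ((MulAction.stabilizer G a ⊓ MulAction.stabilizer G (t • a) : Subgroup G) : Set G) := by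
    intro x' hx'
    rw [Set.mem_singleton_iff] at hx'
    subst hx'
    exact hxD
  obtain ⟨u, huC, huu, hua, hub⟩ := exists_swap_invol hS {x} hXD h3
  have hxu : x * u = u * x := Subgroup.mem_centralizer_iff.mp huC x rfl
  have huinv : u⁻¹ = u := inv_eq_of_mul_eq_one_left huu
  have hk₂D : u * t ∈ MulAction.stabilizer G a ⊓ MulAction.stabilizer G (t • a) := by
    refine Subgroup.mem_inf.mpr ⟨?_, ?_⟩
    · rw [MulAction.mem_stabilizer_iff, mul_smul, hub]
    · rw [MulAction.mem_stabilizer_iff, mul_smul, tt_smul hS, hua]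
  have hinv2 : (u * t) * x * (u * t)⁻¹ = x⁻¹ := by
    have hux : u * x⁻¹ = x⁻¹ * u := by
      calc u * x⁻¹ = x⁻¹ * (x * u) * x⁻¹ := by group
        _ = x⁻¹ * (u * x) * x⁻¹ := by rw [hxu]
        _ = x⁻¹ * u := by group
    calc (u * t) * x * (u * t)⁻¹ = u * (t * x * t⁻¹) * u⁻¹ := by group
      _ = u * x⁻¹ * u⁻¹ := by rw [hxinv]
      _ = x⁻¹ * u * u⁻¹ := by rw [hux]
      _ = x⁻¹ := by group
  exact hx1 (D_inverted_eq_one hS (u * t) x hk₂D hxD hinv2)

end Cfsg.Agent.S1128
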