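import Cfsg.Statements.S1134
import Cfsg.Agent.Lib.Helper2.RankOne4

set_option autoImplicit false
open Cfsg

namespace Cfsg.Agent.S1134

open Cfsg.Agent.Lib.Helper2.RankOne in
/-- An involution `u` swapping `a` and `t • a` is conjugate to `t` by a power of `u * t`. -/
theorem swap_invol_conj_pow {G Ω : Type*} [Group G] [Finite G] [MulAction G Ω] {a : Ω} {t : G}
    {Q : Subgroup G} (hS : Cfsg.IsRankOneSetup G Ω a t Q) (u : G) (huu : u * u = 1)
    (hua : u • a = t • a) (hub : u • (t • a) = a) :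
    ∃ j : ℕ, (u * t) ^ j ∈ MulAction.stabilizer G a ⊓ MulAction.stabilizer G (t • a) ∧
      ((u * t) ^ j)⁻¹ * t * (u * t) ^ j = u := by
  have htt := hS.mul_self
  have htinv := t_inv hS
  have huinv : u⁻¹ = u := inv_eq_of_mul_eq_one_left huu
  have hk₁D : u * t ∈ MulAction.stabilizer G a ⊓ MulAction.stabilizer G (t • a) := by
    refine Subgroup.mem_inf.mpr ⟨?_, ?_⟩
    · rw [MulAction.mem_stabilizer_iff, mul_smul, hub]
    · rw [MulAction.mem_stabilizer_iff, mul_smul, tt_smul hS, hua]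
  have hk₁inv : t * (u * t) * t⁻¹ = (u * t)⁻¹ := by
    rw [mul_inv_rev, htinv, huinv, mul_assoc, mul_assoc, htt, mul_one]
  obtain ⟨j, hj⟩ := D_odd_order hS (u * t) hk₁D
  have hkD : (u * t) ^ j ∈ MulAction.stabilizer G a ⊓ MulAction.stabilizer G (t • a) :=
    pow_mem hk₁D j
  have hkinv := Cfsg.Agent.Lib.Helper2.inv_conj_pow t (u * t) hk₁inv j
  have hk2 : (u * t) ^ j * (u * t) ^ j = (u * t)⁻¹ := by
    have h1 : (u * t) ^ (2 * j) * (u * t) = 1 := by
      rw [← pow_succ, ← hj, pow_orderOf_eq_one]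
    rw [← pow_add, ← two_mul]
    exact eq_inv_of_mul_eq_one_left h1
  refine ⟨j, hkD, ?_⟩
  generalize (u * t) ^ j = k at hkD hkinv hk2
  have h1 : t * k = k⁻¹ * t := by
    calc t * k = (t * k * t⁻¹) * t := by group
      _ = k⁻¹ * t := by rw [hkinv]
  calc k⁻¹ * t * k = k⁻¹ * (t * k) := by group
    _ = k⁻¹ * (k⁻¹ * t) := by rw [h1]
    _ = (k * k)⁻¹ * t := by group
    _ = (u * t) * t := by rw [hk2, inv_inv]
    _ = u * (t * t) := by group
    _ = u := by rw [htt, mul_one]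

open Cfsg.Agent.Lib.Helper2.RankOne in
/-- In the rank-one set-up (`G` finite and doubly transitive on `Ω`, `t` an involution moving `a`, `Q` normal in `G_a` with `G_a = Q D`, `Q ⊓ D = 1` for the two-point stabiliser `D = G_a ⊓ G_{t • a}`, `|Q|` even, `|D|` odd), with the action faithful and `G` containing two distinct commuting involutions, with `V = C_D(t)`: subsets of `V` conjugate in `G` are conjugate in `V`. -/
theorem result {G Ω : Type*} [Group G] [Finite G] [MulAction G Ω] [FaithfulSMul G Ω] {a : Ω} {t : G} {Q : Subgroup G}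
    (hS : Cfsg.IsRankOneSetup G Ω a t Q)
    (h2 : ∃ x y : G, x ≠ 1 ∧ y ≠ 1 ∧ x ≠ y ∧ x * x = 1 ∧ y * y = 1 ∧ x * y = y * x)
    (X : Set G) (hX : X ⊆ (((MulAction.stabilizer G a ⊓ MulAction.stabilizer G (t • a)) ⊓ Subgroup.centralizer {t} : Subgroup G) : Set G)) (g : G)
    (hY : (fun x => g * x * g⁻¹) '' X ⊆ (((MulAction.stabilizer G a ⊓ MulAction.stabilizer G (t • a)) ⊓ Subgroup.centralizer {t} : Subgroup G) : Set G)) :
    ∃ v ∈ (MulAction.stabilizer G a ⊓ MulAction.stabilizer G (t • a)) ⊓ Subgroup.centralizer {t}, (fun x => v * x * v⁻¹) '' X = (fun x => g * x * g⁻¹) '' X := by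
  have htt := hS.mul_self
  have htinv := t_inv hS
  have hXD : X ⊆ ((MulAction.stabilizer G a ⊓ MulAction.stabilizer G (t • a) : Subgroup G) : Set G) :=
    fun x hx => (Subgroup.mem_inf.mp (hX hx)).1
  have hXa : ∀ x ∈ X, x • a = a := fun x hx =>
    MulAction.mem_stabilizer_iff.mp (Subgroup.mem_inf.mp (hXD hx)).1
  have hXb : ∀ x ∈ X, x • (t • a) = t • a := fun x hx =>
    MulAction.mem_stabilizer_iff.mp (Subgroup.mem_inf.mp (hXD hx)).2
  have hXt : ∀ x ∈ X, t * x = x * t := fun x hx =>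
    Subgroup.mem_centralizer_iff.mp (Subgroup.mem_inf.mp (hX hx)).2 t rfl
  -- the fixed point of t
  obtain ⟨c₀, hc₀⟩ := invol_fixed_point hS t hS.ne_one htt
  have hc₀a : c₀ ≠ a := by
    rintro rfl
    exact tsmul_ne hS hc₀
  have hc₀b : c₀ ≠ t • a := by
    intro h
    rw [h, tt_smul hS] at hc₀
    exact tsmul_ne hS hc₀.symm
  have hXc₀ : ∀ x ∈ X, x • c₀ = c₀ := by
    intro x hx
    apply invol_fixed_unique hS t hS.ne_one htt c₀ (x • c₀) hc₀
    rw [← mul_smul, hXt x hx, mul_smul, hc₀]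
  have h3 : ∃ b c d : Ω, b ≠ c ∧ b ≠ d ∧ c ≠ d ∧ ∀ x ∈ X, x • b = b ∧ x • c = c ∧ x • d = d :=
    ⟨a, t • a, c₀, (tsmul_ne hS).symm, hc₀a.symm, hc₀b.symm,
      fun x hx => ⟨hXa x hx, hXb x hx, hXc₀ x hx⟩⟩
  -- Y fixes a and t • a
  have hYmem : ∀ x ∈ X, g * x * g⁻¹ ∈
      (MulAction.stabilizer G a ⊓ MulAction.stabilizer G (t • a)) ⊓ Subgroup.centralizer {t} :=
    fun x hx => hY ⟨x, hx, rfl⟩
  have hXga : ∀ x ∈ X, x • (g⁻¹ • a) = g⁻¹ • a := by
    intro x hx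
    have h1 := MulAction.mem_stabilizer_iff.mp
      (Subgroup.mem_inf.mp (Subgroup.mem_inf.mp (hYmem x hx)).1).1
    rw [mul_smul, mul_smul] at h1
    calc x • g⁻¹ • a = g⁻¹ • (g • x • g⁻¹ • a) := by rw [inv_smul_smul]
      _ = g⁻¹ • a := by rw [h1]
  have hXgb : ∀ x ∈ X, x • (g⁻¹ • (t • a)) = g⁻¹ • (t • a) := by
    intro x hx
    have h1 := MulAction.mem_stabilizer_iff.mp
      (Subgroup.mem_inf.mp (Subgroup.mem_inf.mp (hYmem x hx)).1).2
    rw [mul_smul, mul_smul] at h1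
    calc x • g⁻¹ • (t • a) = g⁻¹ • (g • x • g⁻¹ • (t • a)) := by rw [inv_smul_smul]
      _ = g⁻¹ • (t • a) := by rw [h1]
  obtain ⟨c, hcC, hca, hcb⟩ := two_trans_centralizer hS X h3 a (t • a) (g⁻¹ • a) (g⁻¹ • (t • a))
    (fun x hx => ⟨hXa x hx, hXb x hx, hXga x hx, hXgb x hx⟩) (tsmul_ne hS).symm
    (fun h => tsmul_ne hS (smul_left_cancel g⁻¹ h).symm)
  have hcC' := Subgroup.mem_centralizer_iff.mp hcC
  have hda : (g * c) • a = a := by rw [mul_smul, hca, smul_inv_smul]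
  have hdb : (g * c) • (t • a) = t • a := by rw [mul_smul, hcb, smul_inv_smul]
  have hda' : (g * c)⁻¹ • a = a := by rw [inv_smul_eq_iff, hda]
  have hdb' : (g * c)⁻¹ • (t • a) = t • a := by rw [inv_smul_eq_iff, hdb]
  have hdx : ∀ x ∈ X, (g * c) * x * (g * c)⁻¹ = g * x * g⁻¹ := by
    intro x hx
    calc (g * c) * x * (g * c)⁻¹ = g * (c * x) * c⁻¹ * g⁻¹ := by group
      _ = g * (x * c) * c⁻¹ * g⁻¹ := by rw [hcC' x hx]
      _ = g * x * g⁻¹ := by group
  generalize g * c = d at hda hdb hda' hdb' hdx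
  -- t' = d⁻¹ t d
  have ht't' : (d⁻¹ * t * d) * (d⁻¹ * t * d) = 1 := by
    have : (d⁻¹ * t * d) * (d⁻¹ * t * d) = d⁻¹ * (t * t) * d := by group
    rw [this, htt]; group
  have ht'a : (d⁻¹ * t * d) • a = t • a := by
    rw [mul_smul, mul_smul, hda, hdb']
  have ht'b : (d⁻¹ * t * d) • (t • a) = a := by
    rw [mul_smul, mul_smul, hdb, tt_smul hS, hda']
  have ht'C : d⁻¹ * t * d ∈ Subgroup.centralizer X := by
    rw [Subgroup.mem_centralizer_iff]
    intro x hx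
    have hy : t * (g * x * g⁻¹) = (g * x * g⁻¹) * t :=
      Subgroup.mem_centralizer_iff.mp (Subgroup.mem_inf.mp (hYmem x hx)).2 t rfl
    rw [← hdx x hx] at hy
    calc x * (d⁻¹ * t * d) = d⁻¹ * ((d * x * d⁻¹) * t) * d := by group
      _ = d⁻¹ * (t * (d * x * d⁻¹)) * d := by rw [hy]
      _ = d⁻¹ * t * d * x := by group
  have htC : t ∈ Subgroup.centralizer X := by
    rw [Subgroup.mem_centralizer_iff]
    intro x hx
    exact (hXt x hx).symm
  obtain ⟨j, hkD, hkconj⟩ := swap_invol_conj_pow hS (d⁻¹ * t * d) ht't' ht'a ht'b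
  have hkC : ((d⁻¹ * t * d) * t) ^ j ∈ Subgroup.centralizer X := pow_mem (mul_mem ht'C htC) j
  have hkC' := Subgroup.mem_centralizer_iff.mp hkC
  generalize ((d⁻¹ * t * d) * t) ^ j = k at hkD hkconj hkC'
  have hdD : d ∈ MulAction.stabilizer G a ⊓ MulAction.stabilizer G (t • a) :=
    Subgroup.mem_inf.mpr ⟨MulAction.mem_stabilizer_iff.mpr hda, MulAction.mem_stabilizer_iff.mpr hdb⟩
  refine ⟨d * k⁻¹, Subgroup.mem_inf.mpr ⟨mul_mem hdD (inv_mem hkD), ?_⟩, ?_⟩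
  · rw [Subgroup.mem_centralizer_iff]
    intro h hh
    rw [Set.mem_singleton_iff] at hh
    subst hh
    calc h * (d * k⁻¹) = d * (d⁻¹ * h * d) * k⁻¹ := by group
      _ = d * (k⁻¹ * h * k) * k⁻¹ := by rw [hkconj]
      _ = d * k⁻¹ * h := by group
  · apply Set.image_congr
    intro x hx
    show d * k⁻¹ * x * (d * k⁻¹)⁻¹ = g * x * g⁻¹
    rw [← hdx x hx]
    calc d * k⁻¹ * x * (d * k⁻¹)⁻¹ = d * k⁻¹ * (x * k) * d⁻¹ := by group
      _ = d * k⁻¹ * (k * x) * d⁻¹ := by rw [hkC' x hx]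
      _ = d * x * d⁻¹ := by group

end Cfsg.Agent.S1134
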