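import Cfsg.Statements.S1140
import Mathlib

set_option autoImplicit false
open Cfsg

namespace Cfsg.Agent.S1140

theorem linind40 {F : Type*} [Field F] :
    LinearIndependent F (fun σ : F ≃+* F => ((σ : F →+* F) : F → F)) := by
  have h := linearIndependent_monoidHom F F
  have hinj : Function.Injective (fun σ : F ≃+* F => ((σ : F →+* F) : F →* F)) := by
    intro σ τ h
    ext x
    exact DFunLike.congr_fun h x
  exact h.comp _ hinj

noncomputable def Phi40 (F : Type*) [Field F] [Fintype (F ≃+* F)] (c : (F ≃+* F) → F) :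
    F →+ F :=
  AddMonoidHom.mk' (fun x => ∑ σ : F ≃+* F, c σ * σ x)
    (by intro x y; simp only [map_add, mul_add, Finset.sum_add_distrib])

theorem Phi40_apply (F : Type*) [Field F] [Fintype (F ≃+* F)] (c : (F ≃+* F) → F) (x : F) :
    Phi40 F c x = ∑ σ : F ≃+* F, c σ * σ x := rfl

theorem Phi40_add (F : Type*) [Field F] [Fintype (F ≃+* F)] (c d : (F ≃+* F) → F) :
    Phi40 F (c + d) = Phi40 F c + Phi40 F d := by
  ext x
  rw [AddMonoidHom.add_apply, Phi40_apply, Phi40_apply, Phi40_apply, ← Finset.sum_add_distrib]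
  apply Finset.sum_congr rfl
  intro σ _
  rw [Pi.add_apply, add_mul]

theorem Phi40_inj (F : Type*) [Field F] [Fintype (F ≃+* F)] :
    Function.Injective (Phi40 F) := by
  intro c d h
  have hli := linind40 (F := F)
  rw [Fintype.linearIndependent_iff] at hli
  have key : ∑ i : F ≃+* F, (c - d) i • (fun σ : F ≃+* F => ((σ : F →+* F) : F → F)) i = 0 := by
    funext x
    have hx := DFunLike.congr_fun h x
    rw [Phi40_apply, Phi40_apply] at hx
    have e1 : (∑ i : F ≃+* F, (c - d) i • (fun σ : F ≃+* F => ((σ : F →+* F) : F → F)) i) x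
        = ∑ σ : F ≃+* F, c σ * σ x - ∑ σ : F ≃+* F, d σ * σ x := by
      rw [Finset.sum_apply, ← Finset.sum_sub_distrib]
      apply Finset.sum_congr rfl
      intro σ _
      show (c σ - d σ) * σ x = c σ * σ x - d σ * σ x
      ring
    simp only [e1, hx, sub_self, Pi.zero_apply]
  have h0 := hli (c - d) key
  funext σ
  have h1 := h0 σ
  rw [Pi.sub_apply, sub_eq_zero] at h1
  exact h1

theorem card_aut_ge40 (F : Type*) [Field F] [Fintype F] [CharP F 2] :
    ∃ n : ℕ, n ≤ Nat.card (F ≃+* F) ∧ Nat.card (F →+ F) ≤ Nat.card F ^ n ∧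
      Finite (F →+ F) := by
  classical
  letI : Algebra (ZMod 2) F := ZMod.algebra F 2
  haveI : Finite (F ≃+* F) :=
    Finite.of_injective (fun σ : F ≃+* F => (σ : F → F)) DFunLike.coe_injective
  have b := Module.finBasis (ZMod 2) F
  have hinj : Function.Injective
      (fun (f : F →+ F) (i : Fin (Module.finrank (ZMod 2) F)) => f (b i)) := by
    intro f g h
    have h1 : AddMonoidHom.toZModLinearMap 2 f = AddMonoidHom.toZModLinearMap 2 g := by
      apply b.ext
      intro i
      exact congrFun h i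
    ext x
    exact DFunLike.congr_fun h1 x
  refine ⟨Module.finrank (ZMod 2) F, ?_, ?_, Finite.of_injective _ hinj⟩
  · rw [← IsGalois.card_aut_eq_finrank (ZMod 2) F]
    apply Nat.card_le_card_of_injective (fun e : F ≃ₐ[ZMod 2] F => (e : F ≃+* F))
    intro e₁ e₂ h
    have h' : (e₁ : F ≃+* F) = (e₂ : F ≃+* F) := h
    ext x
    exact DFunLike.congr_fun h' x
  · have h2 := Nat.card_le_card_of_injective _ hinj
    rw [Nat.card_fun, Nat.card_fin] at h2
    exact h2

theorem surj40 (F : Type*) [Field F] [Fintype F] [CharP F 2] [Fintype (F ≃+* F)] :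
    Function.Bijective (Phi40 F) := by
  obtain ⟨n, hn, hcard, hfin⟩ := card_aut_ge40 F
  haveI := hfin
  apply (Phi40_inj F).bijective_of_nat_card_le
  rw [Nat.card_fun]
  have hpos : 0 < Nat.card F := Nat.card_pos
  exact hcard.trans (Nat.pow_le_pow_right hpos hn)

/-- For a finite field `F` of characteristic 2, the automorphisms of `F`, viewed as additive maps `F → F`, are linearly independent over `F` (acting on values) every additive endomorphism of `F` is an `F`-linear combination of them, and every biadditive map `F → F → F` is an `F`-combination of the maps `(x, y) ↦ σ(x) τ(y)`. -/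
theorem result {F : Type*} [Field F] [Fintype F] [CharP F 2] :
    LinearIndependent F (fun σ : F ≃+* F => ((σ : F →+* F) : F → F)) ∧
      (∀ f : F →+ F, ∃ (s : Finset (F ≃+* F)) (c : (F ≃+* F) → F), ∀ x : F, f x = ∑ σ ∈ s, c σ * σ x) ∧
      ∀ B : F →+ F →+ F, ∃ (s : Finset ((F ≃+* F) × (F ≃+* F))) (c : (F ≃+* F) × (F ≃+* F) → F),
        ∀ x y : F, B x y = ∑ p ∈ s, c p * (p.1 x * p.2 y) := by
  classical
  haveI : Finite (F ≃+* F) :=
    Finite.of_injective (fun σ : F ≃+* F => (σ : F → F)) DFunLike.coe_injective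
  letI : Fintype (F ≃+* F) := Fintype.ofFinite _
  have hbij := surj40 F
  refine ⟨linind40, ?_, ?_⟩
  · intro f
    obtain ⟨c, hc⟩ := hbij.2 f
    exact ⟨Finset.univ, c, fun x => (DFunLike.congr_fun hc x).symm⟩
  · intro B
    have hsurj := hbij.2
    have hinj := hbij.1
    choose c hc using fun x : F => hsurj (B x)
    have hadd : ∀ x y, c (x + y) = c x + c y := by
      intro x y
      apply hinj
      rw [hc, map_add, Phi40_add, hc, hc]
    have h2 : ∀ τ : F ≃+* F, ∃ d : (F ≃+* F) → F, ∀ x, c x τ = ∑ σ : F ≃+* F, d σ * σ x := by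
      intro τ
      obtain ⟨d, hd⟩ := hsurj (AddMonoidHom.mk' (fun x => c x τ)
        (by intro x y; rw [hadd]; rfl))
      exact ⟨d, fun x => (DFunLike.congr_fun hd x).symm⟩
    choose d hd using h2
    refine ⟨Finset.univ, fun p => d p.2 p.1, fun x y => ?_⟩
    have e1 : B x y = ∑ τ : F ≃+* F, c x τ * τ y := (DFunLike.congr_fun (hc x) y).symm
    rw [e1, Fintype.sum_prod_type, Finset.sum_comm]
    apply Finset.sum_congr rfl
    intro τ _
    rw [hd τ x, Finset.sum_mul]
    apply Finset.sum_congr rfl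
    intro σ _
    show d τ σ * σ x * τ y = d τ σ * (σ x * τ y)
    ring

end Cfsg.Agent.S1140
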