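import Cfsg.Statements.S1160
import Mathlib
import Cfsg.Agent.Lib.Lead.NormalEA

set_option autoImplicit false
open Cfsg

namespace Cfsg.Agent.S1160


section nrmsec
variable {P E : Type*} [Group P] [AddCommGroup E] [DistribMulAction P E]

/-- the norm operator of an element -/
def nrm (p : ℕ) (b : P) (v : E) : E := ∑ k ∈ Finset.range p, b ^ k • v

theorem nrm_fixed (p : ℕ) (b : P) (hb : b ^ p = 1) (v : E) : b • nrm p b v = nrm p b v := by
  unfold nrm
  rw [Finset.smul_sum]
  have h1 : ∀ k : ℕ, b • b ^ k • v = b ^ (k + 1) • v := fun k => by rw [pow_succ', mul_smul]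
  simp only [h1]
  have h2 : ∑ k ∈ Finset.range (p + 1), b ^ k • v = ∑ k ∈ Finset.range p, b ^ k • v + b ^ p • v :=
    Finset.sum_range_succ (fun k => b ^ k • v) p
  have h3 : ∑ k ∈ Finset.range (p + 1), b ^ k • v
      = ∑ k ∈ Finset.range p, b ^ (k + 1) • v + b ^ 0 • v :=
    Finset.sum_range_succ' (fun k => b ^ k • v) p
  rw [h2, hb, pow_zero] at h3
  exact (add_right_cancel h3).symm

theorem nrm_of_fixed (p : ℕ) (b : P) (v : E) (hv : b • v = v) : nrm p b v = p • v := by
  unfold nrm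
  have h1 : ∀ k : ℕ, b ^ k • v = v := by
    intro k
    induction k with
    | zero => rw [pow_zero, one_smul]
    | succ k ih => rw [pow_succ, mul_smul, hv, ih]
  simp only [h1]
  rw [Finset.sum_const, Finset.card_range]

theorem smul_nrm_comm (p : ℕ) (b g : P) (hbg : g * b = b * g) (v : E) :
    g • nrm p b v = nrm p b (g • v) := by
  unfold nrm
  rw [Finset.smul_sum]
  refine Finset.sum_congr rfl (fun k _ => ?_)
  rw [← mul_smul, ← mul_smul]
  congr 1
  exact ((show Commute g b from hbg).pow_right k).eq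

theorem nrm_add (p : ℕ) (b : P) (u v : E) : nrm p b (u + v) = nrm p b u + nrm p b v := by
  unfold nrm
  simp only [smul_add]
  rw [Finset.sum_add_distrib]

theorem nrm_sub (p : ℕ) (b : P) (u v : E) : nrm p b (u - v) = nrm p b u - nrm p b v := by
  unfold nrm
  simp only [smul_sub]
  rw [Finset.sum_sub_distrib]

end nrmsec

theorem central_fpf {P E : Type*} [Group P] [Finite P] [AddCommGroup E]
    [DistribMulAction P E] [FaithfulSMul P E]
    {p : ℕ} (hpE : ∀ v : E, p • v = 0 → v = 0)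
    (hconst : ∀ a b : E, a ≠ 0 → b ≠ 0 →
      Nat.card (MulAction.stabilizer P a) = Nat.card (MulAction.stabilizer P b))
    (b : P) (hbc : ∀ g : P, g * b = b * g) (hb1 : b ≠ 1) (hbp : b ^ p = 1) (v₁ : E)
    (hv₁ : b • v₁ = v₁) : v₁ = 0 := by
  by_contra hv₁0
  obtain ⟨u, hu⟩ : ∃ u : E, b • u ≠ u := by
    by_contra hall
    push_neg at hall
    exact hb1 (FaithfulSMul.eq_of_smul_eq_smul (fun u : E => by rw [hall u, one_smul]))
  obtain ⟨v₂, hv₂def⟩ : ∃ v₂ : E, v₂ = u - b • u := ⟨_, rfl⟩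
  have hN2 : nrm p b v₂ = 0 := by
    rw [hv₂def, nrm_sub, ← smul_nrm_comm p b b rfl u, nrm_fixed p b hbp u, sub_self]
  have hv₂0 : v₂ ≠ 0 := by
    rw [hv₂def]; intro h; exact hu (sub_eq_zero.1 h).symm
  have hbv₂ : b • v₂ ≠ v₂ := by
    intro h
    have h1 := nrm_of_fixed p b v₂ h
    rw [hN2] at h1
    exact hv₂0 (hpE v₂ h1.symm)
  have hw0 : v₁ + v₂ ≠ 0 := by
    intro h
    apply hbv₂
    have h2 : v₂ = -v₁ := eq_neg_of_add_eq_zero_right h
    rw [h2, smul_neg, hv₁]
  have hle : MulAction.stabilizer P (v₁ + v₂) ≤ MulAction.stabilizer P v₁ := by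
    intro g hg
    rw [MulAction.mem_stabilizer_iff] at hg ⊢
    have h1 := congrArg (nrm p b) hg
    rw [← smul_nrm_comm p b g (hbc g), nrm_add, hN2, add_zero, nrm_of_fixed p b v₁ hv₁,
      smul_comm g p v₁] at h1
    have h2 : p • (g • v₁ - v₁) = 0 := by rw [nsmul_sub, h1, sub_self]
    exact sub_eq_zero.1 (hpE _ h2)
  have heq : MulAction.stabilizer P (v₁ + v₂) = MulAction.stabilizer P v₁ :=
    Subgroup.eq_of_le_of_card_ge hle (hconst _ _ hv₁0 hw0).le
  have hb_mem : b ∈ MulAction.stabilizer P (v₁ + v₂) := by rw [heq]; exact hv₁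
  rw [MulAction.mem_stabilizer_iff, smul_add, hv₁] at hb_mem
  exact hbv₂ (add_left_cancel hb_mem)

/-- Let `p ≠ 2` be prime and `P` a finite `p`-group acting faithfully by additive automorphisms on a finite elementary abelian `q`-group `E` (`q` prime), such that `|P_a|` is the same for all `a ≠ 0`. Then `P` is cyclic and every non-identity element of `P` fixes only `0`. -/
theorem result {P E : Type*} [Group P] [Finite P]
    [AddCommGroup E] [Finite E] [DistribMulAction P E] [FaithfulSMul P E]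
    {p q : ℕ} [Fact p.Prime] (hp2 : p ≠ 2) (hP : IsPGroup p P) (hq : q.Prime) (hE : ∀ e : E, q • e = 0)
    (hconst : ∀ a b : E, a ≠ 0 → b ≠ 0 →
      Nat.card (MulAction.stabilizer P a) = Nat.card (MulAction.stabilizer P b)) :
    IsCyclic P ∧ ∀ g : P, g ≠ 1 → ∀ a : E, g • a = a → a = 0 := by
  have hp : p.Prime := Fact.out
  by_cases hPtriv : ∀ g : P, g = 1
  · refine ⟨?_, fun g hg => absurd (hPtriv g) hg⟩
    haveI : Subsingleton P := ⟨fun a b => by rw [hPtriv a, hPtriv b]⟩
    infer_instance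
  push_neg at hPtriv
  obtain ⟨g₁, hg₁⟩ := hPtriv
  obtain ⟨e₀, he₀⟩ : ∃ e : E, e ≠ 0 := by
    by_contra hall
    push_neg at hall
    exact hg₁ (FaithfulSMul.eq_of_smul_eq_smul (fun u : E => by rw [hall u, smul_zero, smul_zero]))
  have hqp : q ≠ p := by
    intro hqp
    have hE' : ∀ e : E, p • e = 0 := fun e => hqp ▸ hE e
    have hdvd : p ∣ Nat.card E := by
      have h1 : addOrderOf e₀ ∣ p := addOrderOf_dvd_of_nsmul_eq_zero (hE' e₀)
      have h2 : addOrderOf e₀ = p := by
        rcases (Nat.dvd_prime hp).1 h1 with h | h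
        · exact absurd (AddMonoid.addOrderOf_eq_one_iff.1 h) he₀
        · exact h
      rw [← h2]; exact addOrderOf_dvd_natCard e₀
    have hfix : p ∣ Nat.card (MulAction.fixedPoints P E) := by
      have := hP.card_modEq_card_fixedPoints E
      exact (Nat.modEq_zero_iff_dvd).1 (this.symm.trans ((Nat.modEq_zero_iff_dvd).2 hdvd))
    obtain ⟨a, haF, ha0⟩ : ∃ a : E, a ∈ MulAction.fixedPoints P E ∧ a ≠ 0 := by
      by_contra hno
      push_neg at hno
      have h1 : Nat.card (MulAction.fixedPoints P E) = 1 := by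
        rw [Nat.card_eq_one_iff_unique]
        exact ⟨⟨fun x y => Subtype.ext ((hno x.1 x.2).trans (hno y.1 y.2).symm)⟩,
          ⟨⟨0, fun g => smul_zero g⟩⟩⟩
      rw [h1] at hfix
      exact hp.one_lt.ne' (Nat.dvd_one.1 hfix)
    have hall : ∀ b : E, b ≠ 0 → ∀ g : P, g • b = b := by
      intro b hb g
      have h1 : MulAction.stabilizer P a = ⊤ := by
        rw [eq_top_iff]; intro g _; exact haF g
      have h2 : MulAction.stabilizer P b = ⊤ := by
        apply Subgroup.eq_of_le_of_card_ge le_top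
        rw [hconst b a hb ha0, h1]
      have h3 : g ∈ MulAction.stabilizer P b := by rw [h2]; trivial
      exact h3
    exact hg₁ (FaithfulSMul.eq_of_smul_eq_smul (fun u : E => by
      by_cases hu : u = 0
      · rw [hu, smul_zero, smul_zero]
      · rw [hall u hu g₁, one_smul]))
  have hpE : ∀ v : E, p • v = 0 → v = 0 := by
    intro v hv
    have h1 : addOrderOf v ∣ p := addOrderOf_dvd_of_nsmul_eq_zero hv
    have h2 : addOrderOf v ∣ q := addOrderOf_dvd_of_nsmul_eq_zero (hE v)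
    have h3 : addOrderOf v ∣ Nat.gcd p q := Nat.dvd_gcd h1 h2
    rw [Nat.Coprime.gcd_eq_one ((Nat.coprime_primes hp hq).2 (Ne.symm hqp))] at h3
    exact AddMonoid.addOrderOf_eq_one_iff.1 (Nat.dvd_one.1 h3)
  have hcyc : IsCyclic P := by
    by_contra hnc
    obtain ⟨A, hAn, hAea, hAcard⟩ :=
      Cfsg.Agent.Lib.Lead.exists_normal_elemAb_sq p hp2 _ P rfl hP hnc
    haveI := hAn
    have hAcomm : ∀ a ∈ A, ∀ a' ∈ A, a * a' = a' * a := fun a ha a' ha' =>
      congrArg Subtype.val (hAea.1.is_comm.comm ⟨a, ha⟩ ⟨a', ha'⟩)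
    have hAp : ∀ a ∈ A, a ^ p = 1 := hAea.2
    have hAbot : A ≠ ⊥ := by
      intro h
      rw [h, Subgroup.card_bot] at hAcard
      exact (Nat.one_lt_pow two_ne_zero hp.one_lt).ne hAcard
    obtain ⟨z, hzA, hzc, hzord⟩ := Cfsg.Agent.Lib.Lead.exists_central_order_p hP A hAbot
    have hz1 : z ≠ 1 := by
      intro h; rw [h, orderOf_one] at hzord; exact hp.one_lt.ne hzord
    have hzc' : ∀ g : P, g * z = z * g := fun g => Subgroup.mem_center_iff.1 hzc g
    have hzfix : ∀ v : E, z • v = v → v = 0 := fun v hv =>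
      central_fpf hpE hconst z hzc' hz1 (hAp z hzA) v hv
    -- (†)
    have dag : ∀ a ∈ A, ∀ a' ∈ A, a ≠ 1 → ∀ u : E, u ≠ 0 → a • u = u → a' • u = u →
        a' ∈ Subgroup.zpowers a := by
      intro a ha a' ha' ha1 u hu hau ha'u
      obtain ⟨S, hSdef⟩ : ∃ S : Subgroup P, S = MulAction.stabilizer P u ⊓ A := ⟨_, rfl⟩
      have hSA : S ≤ A := by rw [hSdef]; exact inf_le_right
      have hSne : S ≠ A := by
        intro h
        have hz : z ∈ S := by rw [h]; exact hzA
        rw [hSdef] at hz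
        exact hu (hzfix u (MulAction.mem_stabilizer_iff.1 (Subgroup.mem_inf.1 hz).1))
      have hle : Subgroup.zpowers a ≤ S := by
        rw [Subgroup.zpowers_le, hSdef]
        exact Subgroup.mem_inf.2 ⟨MulAction.mem_stabilizer_iff.2 hau, ha⟩
      have hcardZ : Nat.card (Subgroup.zpowers a) = p := by
        rw [Nat.card_zpowers]
        exact orderOf_eq_prime (hAp a ha) ha1
      have hcardS : Nat.card S ≤ p := by
        have hd : Nat.card S ∣ p ^ 2 := by rw [← hAcard]; exact Subgroup.card_dvd_of_le hSA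
        obtain ⟨i, hi, hSi⟩ := (Nat.dvd_prime_pow hp).1 hd
        rcases Nat.lt_or_ge i 2 with hi2 | hi2
        · rw [hSi]
          calc p ^ i ≤ p ^ 1 := Nat.pow_le_pow_right hp.pos (by omega)
            _ = p := pow_one p
        · exfalso
          apply hSne
          apply Subgroup.eq_of_le_of_card_ge hSA
          rw [hAcard, hSi]
          exact Nat.pow_le_pow_right hp.pos hi2
      have hSeq : Subgroup.zpowers a = S :=
        Subgroup.eq_of_le_of_card_ge hle (by rw [hcardZ]; exact hcardS)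
      rw [hSeq, hSdef]
      exact Subgroup.mem_inf.2 ⟨MulAction.mem_stabilizer_iff.2 ha'u, ha'⟩
    have gen : ∀ c ∈ A, c ≠ 1 → ∀ c' ∈ A, c' ≠ 1 → ∀ u : E, c' • u = u → nrm p c u ≠ 0 →
        c' ∈ Subgroup.zpowers c ∧ c ∈ Subgroup.zpowers c' := by
      intro c hc hc1 c' hc' hc'1 u hu h0
      have f1 : c • nrm p c u = nrm p c u := nrm_fixed p c (hAp c hc) _
      have f2 : c' • nrm p c u = nrm p c u := by
        rw [smul_nrm_comm p c c' (hAcomm c' hc' c hc), hu]
      exact ⟨dag c hc c' hc' hc1 _ h0 f1 f2, dag c' hc' c hc hc'1 _ h0 f2 f1⟩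
    -- some nonidentity element of A fixes a nonzero vector
    obtain ⟨b, hbA, hb1, v₁, hv₁0, hbv₁⟩ : ∃ b ∈ A, b ≠ 1 ∧ ∃ v : E, v ≠ 0 ∧ b • v = v := by
      by_contra hno
      have hfpf : ∀ a ∈ A, a ≠ 1 → ∀ v : E, a • v = v → v = 0 := by
        intro a ha ha1 v hv
        by_contra hv0
        exact hno ⟨a, ha, ha1, v, hv0, hv⟩
      obtain ⟨b₀, hb₀A, hb₀z⟩ : ∃ b₀ ∈ A, b₀ ∉ Subgroup.zpowers z := by
        by_contra hno2
        push_neg at hno2
        have hle : A ≤ Subgroup.zpowers z := fun x hx => hno2 x hx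
        have h1 := Nat.le_of_dvd Nat.card_pos (Subgroup.card_dvd_of_le hle)
        rw [hAcard, Nat.card_zpowers, hzord] at h1
        have h2 := hp.two_le
        nlinarith
      have hbz : ∀ i : ℕ, b₀ * z ^ i ≠ 1 := by
        intro i h
        apply hb₀z
        have h1 : b₀ = (z ^ i)⁻¹ := eq_inv_of_mul_eq_one_left h
        rw [h1]
        exact Subgroup.inv_mem _ (Subgroup.pow_mem _ (Subgroup.mem_zpowers z) i)
      have hbzA : ∀ i : ℕ, b₀ * z ^ i ∈ A := fun i => A.mul_mem hb₀A (A.pow_mem hzA i)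
      have hS0 : ∑ i ∈ Finset.range p, nrm p (b₀ * z ^ i) e₀ = 0 := by
        apply Finset.sum_eq_zero
        intro i _
        exact hfpf _ (hbzA i) (hbz i) _ (nrm_fixed p _ (hAp _ (hbzA i)) e₀)
      have hexp : ∀ i k : ℕ, (b₀ * z ^ i) ^ k • e₀ = b₀ ^ k • (z ^ k) ^ i • e₀ := by
        intro i k
        have hc : Commute b₀ (z ^ i) := (show Commute b₀ z from hzc' b₀).pow_right i
        rw [hc.mul_pow, ← pow_mul, mul_comm i k, pow_mul, mul_smul]
      have hS1 : ∑ i ∈ Finset.range p, nrm p (b₀ * z ^ i) e₀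
          = ∑ k ∈ Finset.range p, b₀ ^ k • nrm p (z ^ k) e₀ := by
        unfold nrm
        simp only [hexp]
        rw [Finset.sum_comm]
        refine Finset.sum_congr rfl (fun k _ => ?_)
        rw [Finset.smul_sum]
      have hS2 : ∑ k ∈ Finset.range p, b₀ ^ k • nrm p (z ^ k) e₀ = p • e₀ := by
        rw [Finset.sum_eq_single 0]
        · rw [pow_zero, pow_zero, one_smul, nrm_of_fixed p 1 e₀ (one_smul _ _)]
        · intro k hk hk0
          have hk' : k < orderOf z := by rw [hzord]; exact Finset.mem_range.1 hk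
          have hzk1 : z ^ k ≠ 1 := pow_ne_one_of_lt_orderOf hk0 hk'
          have hzkp : (z ^ k) ^ p = 1 := by rw [← pow_mul, mul_comm, pow_mul, hAp z hzA, one_pow]
          rw [hfpf _ (A.pow_mem hzA k) hzk1 _ (nrm_fixed p _ hzkp e₀), smul_zero]
        · intro h; exact absurd (Finset.mem_range.2 hp.pos) h
      rw [hS1, hS2] at hS0
      exact he₀ (hpE e₀ hS0)
    -- a second, independent one
    obtain ⟨b', hb'A, hb'1, hb'b, v₂, hv₂0, hb'v₂⟩ : ∃ b' ∈ A, b' ≠ 1 ∧ b' ∉ Subgroup.zpowers b ∧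
        ∃ v : E, v ≠ 0 ∧ b' • v = v := by
      by_contra hno
      have hall : ∀ a ∈ A, a ≠ 1 → ∀ v : E, v ≠ 0 → a • v = v → a ∈ Subgroup.zpowers b := by
        intro a ha ha1 v hv0 hv
        by_contra hnot
        exact hno ⟨a, ha, ha1, hnot, v, hv0, hv⟩
      have hconj : ∀ x : P, x * b * x⁻¹ ∈ Subgroup.zpowers b := by
        intro x
        apply hall (x * b * x⁻¹) (hAn.conj_mem b hbA x) (by
          intro h; apply hb1
          have h1 : b = x⁻¹ * (x * b * x⁻¹) * x := by group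
          rw [h1, h]; group) (x • v₁) (by
          intro h; apply hv₁0
          have h1 : v₁ = x⁻¹ • x • v₁ := by rw [inv_smul_smul]
          rw [h1, h, smul_zero])
        rw [← mul_smul, inv_mul_cancel_right, mul_smul, hbv₁]
      haveI hbn : (Subgroup.zpowers b).Normal := by
        constructor
        intro y hy x
        obtain ⟨i, rfl⟩ := Subgroup.mem_zpowers_iff.mp hy
        rw [← conj_zpow]
        exact Subgroup.zpow_mem _ (hconj x) i
      have hne : Subgroup.zpowers b ≠ ⊥ := by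
        intro h
        apply hb1
        have h1 := Subgroup.mem_zpowers b
        rw [h, Subgroup.mem_bot] at h1
        exact h1
      obtain ⟨z', hz'b, hz'c, hz'ord⟩ :=
        Cfsg.Agent.Lib.Lead.exists_central_order_p hP (Subgroup.zpowers b) hne
      have hz'1 : z' ≠ 1 := by
        intro h; rw [h, orderOf_one] at hz'ord; exact hp.one_lt.ne hz'ord
      have hz'fix : z' • v₁ = v₁ := by
        have h1 : Subgroup.zpowers b ≤ MulAction.stabilizer P v₁ :=
          Subgroup.zpowers_le.2 (MulAction.mem_stabilizer_iff.2 hbv₁)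
        exact MulAction.mem_stabilizer_iff.1 (h1 hz'b)
      exact hv₁0 (central_fpf hpE hconst z' (fun g => Subgroup.mem_center_iff.1 hz'c g) hz'1
        (by rw [← hz'ord]; exact pow_orderOf_eq_one _) v₁ hz'fix)
    have hind : ∀ u : E, b • u = u → b' • u = u → u = 0 := by
      intro u hbu hb'u
      by_contra hu
      exact hb'b (dag b hbA b' hb'A hb1 u hu hbu hb'u)
    have hbb' : b * b' = b' * b := hAcomm b hbA b' hb'A
    have hNbv₂ : nrm p b v₂ = 0 := by
      apply hind
      · exact nrm_fixed p b (hAp b hbA) v₂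
      · rw [smul_nrm_comm p b b' hbb'.symm, hb'v₂]
    have hNb'v₁ : nrm p b' v₁ = 0 := by
      apply hind
      · rw [smul_nrm_comm p b' b hbb', hbv₁]
      · exact nrm_fixed p b' (hAp b' hb'A) v₁
    have hw0 : v₁ + v₂ ≠ 0 := by
      intro h
      have h2 : v₂ = -v₁ := eq_neg_of_add_eq_zero_right h
      apply hv₂0
      apply hind
      · rw [h2, smul_neg, hbv₁]
      · exact hb'v₂
    have ztrans : ∀ {x y w : P}, x ∈ Subgroup.zpowers y → y ∈ Subgroup.zpowers w →
        x ∈ Subgroup.zpowers w :=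
      fun {x y w} hxy hyw => (Subgroup.zpowers_le.2 hyw) hxy
    have fixpow : ∀ {x y : P} {u : E}, x ∈ Subgroup.zpowers y → y • u = u → x • u = u := by
      intro x y u hxy hyu
      have h1 : Subgroup.zpowers y ≤ MulAction.stabilizer P u :=
        Subgroup.zpowers_le.2 (MulAction.mem_stabilizer_iff.2 hyu)
      exact MulAction.mem_stabilizer_iff.1 (h1 hxy)
    have hpv₁ : p • v₁ ≠ 0 := fun h => hv₁0 (hpE _ h)
    have hpv₂ : p • v₂ ≠ 0 := fun h => hv₂0 (hpE _ h)
    have hstab : ∀ g : P, g • (v₁ + v₂) = v₁ + v₂ → g • v₁ = v₁ ∧ g • v₂ = v₂ := by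
      intro g hg
      rw [smul_add] at hg
      obtain ⟨b₁, hb₁def⟩ : ∃ b₁ : P, b₁ = g * b * g⁻¹ := ⟨_, rfl⟩
      obtain ⟨b₂, hb₂def⟩ : ∃ b₂ : P, b₂ = g * b' * g⁻¹ := ⟨_, rfl⟩
      have hb₁A : b₁ ∈ A := by rw [hb₁def]; exact hAn.conj_mem b hbA g
      have hb₂A : b₂ ∈ A := by rw [hb₂def]; exact hAn.conj_mem b' hb'A g
      have hb₁1 : b₁ ≠ 1 := by
        intro h; apply hb1
        have h1 : b = g⁻¹ * b₁ * g := by rw [hb₁def]; group
        rw [h1, h]; group
      have hb₂1 : b₂ ≠ 1 := by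
        intro h; apply hb'1
        have h1 : b' = g⁻¹ * b₂ * g := by rw [hb₂def]; group
        rw [h1, h]; group
      have hb₁u : b₁ • g • v₁ = g • v₁ := by
        rw [hb₁def, ← mul_smul, inv_mul_cancel_right, mul_smul, hbv₁]
      have hb₂u : b₂ • g • v₂ = g • v₂ := by
        rw [hb₂def, ← mul_smul, inv_mul_cancel_right, mul_smul, hb'v₂]
      have hX : nrm p b (g • v₁) + nrm p b (g • v₂) = p • v₁ := by
        rw [← nrm_add, hg, nrm_add, hNbv₂, add_zero, nrm_of_fixed p b v₁ hbv₁]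
      have hY : nrm p b' (g • v₁) + nrm p b' (g • v₂) = p • v₂ := by
        rw [← nrm_add, hg, nrm_add, hNb'v₁, zero_add, nrm_of_fixed p b' v₂ hb'v₂]
      have hXor : nrm p b (g • v₁) ≠ 0 ∨ nrm p b (g • v₂) ≠ 0 := by
        by_contra h
        push_neg at h
        rw [h.1, h.2, add_zero] at hX
        exact hpv₁ hX.symm
      have hYor : nrm p b' (g • v₁) ≠ 0 ∨ nrm p b' (g • v₂) ≠ 0 := by
        by_contra h
        push_neg at h
        rw [h.1, h.2, add_zero] at hY
        exact hpv₂ hY.symm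
      rcases hXor with hx | hx <;> rcases hYor with hy | hy
      · exact absurd (ztrans (gen b' hb'A hb'1 b₁ hb₁A hb₁1 _ hb₁u hy).2
          (gen b hbA hb1 b₁ hb₁A hb₁1 _ hb₁u hx).1) hb'b
      · have hbu₁ : b • g • v₁ = g • v₁ :=
          fixpow (gen b hbA hb1 b₁ hb₁A hb₁1 _ hb₁u hx).2 hb₁u
        have hb'u₂ : b' • g • v₂ = g • v₂ :=
          fixpow (gen b' hb'A hb'1 b₂ hb₂A hb₂1 _ hb₂u hy).2 hb₂u
        have hd : g • v₁ - v₁ = v₂ - g • v₂ := by
          rw [sub_eq_sub_iff_add_eq_add, hg, add_comm]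
        have hd0 : g • v₁ - v₁ = 0 := by
          apply hind
          · rw [smul_sub, hbu₁, hbv₁]
          · rw [hd, smul_sub, hb'v₂, hb'u₂]
        have h1 : g • v₁ = v₁ := sub_eq_zero.1 hd0
        refine ⟨h1, ?_⟩
        rw [h1] at hg
        exact add_left_cancel hg
      · exfalso
        have hb₂b : b₂ ∈ Subgroup.zpowers b := (gen b hbA hb1 b₂ hb₂A hb₂1 _ hb₂u hx).1
        have hb₁b' := gen b' hb'A hb'1 b₁ hb₁A hb₁1 _ hb₁u hy
        obtain ⟨M, hM⟩ : ∃ M : Submonoid P, ∀ h : P, h ∈ M ↔ h * b * h⁻¹ ∈ Subgroup.zpowers b :=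
          ⟨{ carrier := {h | h * b * h⁻¹ ∈ Subgroup.zpowers b}
             mul_mem' := by
               intro h₁ h₂ hh₁ hh₂
               obtain ⟨j, hj⟩ := Subgroup.mem_zpowers_iff.1 hh₂
               show h₁ * h₂ * b * (h₁ * h₂)⁻¹ ∈ Subgroup.zpowers b
               have e : h₁ * h₂ * b * (h₁ * h₂)⁻¹ = (h₁ * b * h₁⁻¹) ^ j := by
                 rw [conj_zpow, hj]; group
               rw [e]
               exact Subgroup.zpow_mem _ hh₁ j
             one_mem' := by
               show 1 * b * 1⁻¹ ∈ Subgroup.zpowers b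
               rw [one_mul, inv_one, mul_one]; exact Subgroup.mem_zpowers b }, fun h => Iff.rfl⟩
        have hgg : g * g ∈ M := by
          rw [hM]
          obtain ⟨m, hm⟩ := Subgroup.mem_zpowers_iff.1 hb₁b'.1
          have e : g * g * b * (g * g)⁻¹ = b₂ ^ m := by
            rw [hb₂def, conj_zpow, hm, hb₁def]; group
          rw [e]
          exact Subgroup.zpow_mem _ hb₂b m
        obtain ⟨k, hk⟩ := hP g
        have hodd : Odd (p ^ k) := (hp.odd_of_ne_two hp2).pow
        obtain ⟨n', hn'⟩ := hodd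
        have hgM : g ∈ M := by
          have h1 : (g * g) ^ (n' + 1) = g := by
            rw [← pow_two, ← pow_mul, show 2 * (n' + 1) = (2 * n' + 1) + 1 by ring, ← hn',
              pow_succ, hk, one_mul]
          rw [← h1]
          exact M.pow_mem hgg _
        rw [hM, ← hb₁def] at hgM
        exact hb'b (ztrans hb₁b'.2 hgM)
      · exact absurd (ztrans (gen b' hb'A hb'1 b₂ hb₂A hb₂1 _ hb₂u hy).2
          (gen b hbA hb1 b₂ hb₂A hb₂1 _ hb₂u hx).1) hb'b
    have hle₁ : MulAction.stabilizer P (v₁ + v₂) ≤ MulAction.stabilizer P v₁ :=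
      fun g hg => (hstab g hg).1
    have hle₂ : MulAction.stabilizer P (v₁ + v₂) ≤ MulAction.stabilizer P v₂ :=
      fun g hg => (hstab g hg).2
    have heq₁ := Subgroup.eq_of_le_of_card_ge hle₁ (hconst _ _ hv₁0 hw0).le
    have heq₂ := Subgroup.eq_of_le_of_card_ge hle₂ (hconst _ _ hv₂0 hw0).le
    have hb2 : b ∈ MulAction.stabilizer P v₂ := by
      rw [← heq₂, heq₁]; exact hbv₁
    exact hv₂0 (hind v₂ hb2 hb'v₂)
  refine ⟨hcyc, ?_⟩
  intro g hg a hga
  by_contra ha0
  have hex : ∃ k : ℕ, g ^ p ^ k = 1 := hP g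
  obtain ⟨j, hj1, hjmin⟩ : ∃ j : ℕ, g ^ p ^ j = 1 ∧ ∀ m < j, g ^ p ^ m ≠ 1 := by
    classical
    exact ⟨Nat.find hex, Nat.find_spec hex, fun m hm => Nat.find_min hex hm⟩
  cases j with
  | zero => rw [pow_zero, pow_one] at hj1; exact hg hj1
  | succ j' =>
    have hz1 : g ^ p ^ j' ≠ 1 := hjmin j' (Nat.lt_succ_self j')
    have hzp : (g ^ p ^ j') ^ p = 1 := by rw [← pow_mul, ← pow_succ]; exact hj1
    have hzc : ∀ h : P, h * g ^ p ^ j' = g ^ p ^ j' * h := fun h =>
      (IsCyclic.commGroup (α := P)).mul_comm h _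
    have hfix : (g ^ p ^ j') • a = a := by
      have h1 : g ^ p ^ j' ∈ MulAction.stabilizer P a :=
        Subgroup.pow_mem _ (MulAction.mem_stabilizer_iff.2 hga) _
      exact h1
    exact ha0 (central_fpf hpE hconst _ hzc hz1 hzp a hfix)

end Cfsg.Agent.S1160
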