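import Cfsg.Statements.S1165
import Cfsg.Agent.Lib.Helper2.RankOne

set_option autoImplicit false
open Cfsg

namespace Cfsg.Agent.S1165

open Cfsg.Agent.Lib.Helper2.RankOne in
/-- In the rank-one set-up (`G` finite and doubly transitive on `Ω`, `t` an involution moving `a`, `Q` normal in `G_a` with `G_a = Q D`, `Q ⊓ D = 1` for the two-point stabiliser `D = G_a ⊓ G_{t • a}`, `|Q|` even, `|D|` odd): every `x ∈ Q`, `x ≠ 1`, determines unique `g, f ∈ Q`, `h ∈ D` with `t x t = g h t f` (a consequence of the canonical form). For these: (H1) the `f`-part of `x⁻¹` is `g⁻¹`; (H2) the `f`-part of `f` is `x`; (H3) for `a ∈ D` the `f`-part of `a⁻¹ x a` is `(t a t)⁻¹ f (t a t)`; (H4) the `h`-part of `a⁻¹ x a` is `(t a t)⁻¹ h a`, that of `x⁻¹` is `t h⁻¹ t`, and that of `f` is `h⁻¹`. -/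
theorem result {G Ω : Type*} [Group G] [Finite G] [MulAction G Ω] {a : Ω} {t : G} {Q : Subgroup G}
    (hS : Cfsg.IsRankOneSetup G Ω a t Q)
    (x g h f : G) (hx : x ∈ Q) (hx1 : x ≠ 1) (hg : g ∈ Q) (hh : h ∈ (MulAction.stabilizer G a ⊓ MulAction.stabilizer G (t • a))) (hf : f ∈ Q)
    (heq : t * x * t = g * h * t * f) :
    (∀ g₁ h₁ f₁ : G, g₁ ∈ Q → h₁ ∈ (MulAction.stabilizer G a ⊓ MulAction.stabilizer G (t • a)) → f₁ ∈ Q → t * x⁻¹ * t = g₁ * h₁ * t * f₁ →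
        f₁ = g⁻¹ ∧ h₁ = t * h⁻¹ * t) ∧
      (∀ g₂ h₂ f₂ : G, g₂ ∈ Q → h₂ ∈ (MulAction.stabilizer G a ⊓ MulAction.stabilizer G (t • a)) → f₂ ∈ Q → t * f * t = g₂ * h₂ * t * f₂ →
        f₂ = x ∧ h₂ = h⁻¹) ∧
      ∀ c ∈ (MulAction.stabilizer G a ⊓ MulAction.stabilizer G (t • a)), ∀ g₃ h₃ f₃ : G, g₃ ∈ Q → h₃ ∈ (MulAction.stabilizer G a ⊓ MulAction.stabilizer G (t • a)) → f₃ ∈ Q →
        t * (c⁻¹ * x * c) * t = g₃ * h₃ * t * f₃ →
          f₃ = (t * c * t)⁻¹ * f * (t * c * t) ∧ h₃ = (t * c * t)⁻¹ * h * c := by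
  have htt := hS.mul_self
  have htinv := t_inv hS
  refine ⟨?_, ?_, ?_⟩
  · intro g₁ h₁ f₁ hg₁ hh₁ hf₁ heq₁
    have e1 : t * x⁻¹ * t = f⁻¹ * (t * h⁻¹ * t) * t * g⁻¹ := by
      have h1 : t * x⁻¹ * t = (t * x * t)⁻¹ := by
        rw [mul_inv_rev, mul_inv_rev, htinv, mul_assoc]
      rw [h1, heq]
      have h2 : f⁻¹ * (t * h⁻¹ * t) * t * g⁻¹ = f⁻¹ * t * h⁻¹ * (t * t) * g⁻¹ := by group
      rw [h2, htt, mul_inv_rev, mul_inv_rev, mul_inv_rev, htinv]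
      group
    have := canon3_unique hS g₁ f⁻¹ h₁ (t * h⁻¹ * t) f₁ g⁻¹ hg₁ (inv_mem hf) hh₁
      (D_conj_t hS _ (inv_mem hh)) hf₁ (inv_mem hg) (heq₁.symm.trans e1)
    exact ⟨this.2.2, this.2.1⟩
  · intro g₂ h₂ f₂ hg₂ hh₂ hf₂ heq₂
    have hf' : f = t⁻¹ * h⁻¹ * g⁻¹ * (t * x * t) := by rw [heq]; group
    have e2 : t * f * t = (h⁻¹ * g⁻¹ * h) * h⁻¹ * t * x := by
      calc t * f * t = t * (t⁻¹ * h⁻¹ * g⁻¹ * (t * x * t)) * t := by rw [← hf']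
        _ = h⁻¹ * g⁻¹ * t * x * (t * t) := by group
        _ = (h⁻¹ * g⁻¹ * h) * h⁻¹ * t * x := by rw [htt]; group
    have hmem : h⁻¹ * g⁻¹ * h ∈ Q := by
      have := hS.conj_mem h⁻¹ (inv_mem (Subgroup.mem_inf.mp hh).1) g⁻¹ (inv_mem hg)
      rwa [inv_inv] at this
    have := canon3_unique hS g₂ (h⁻¹ * g⁻¹ * h) h₂ h⁻¹ f₂ x hg₂ hmem hh₂ (inv_mem hh) hf₂ hx
      (heq₂.symm.trans e2)
    exact ⟨this.2.2, this.2.1⟩
  · intro c hc g₃ h₃ f₃ hg₃ hh₃ hf₃ heq₃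
    have hdD := D_conj_t hS c hc
    have htd : t * (t * c * t) = c * t := by
      rw [← mul_assoc, ← mul_assoc, htt, one_mul]
    have hdi : t * c⁻¹ * t = (t * c * t)⁻¹ := by
      rw [mul_inv_rev, mul_inv_rev, htinv, mul_assoc]
    have e0 : t * (c⁻¹ * x * c) * t = (t * c⁻¹ * t) * (t * x * t) * (t * c * t) := by
      have h1 : (t * c⁻¹ * t) * (t * x * t) * (t * c * t)
          = t * c⁻¹ * (t * t) * x * (t * t) * c * t := by group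
      rw [h1, htt]; group
    rw [hdi, heq] at e0
    generalize t * c * t = d at *
    have e3 : t * (c⁻¹ * x * c) * t = (d⁻¹ * g * d) * (d⁻¹ * h * c) * t * (d⁻¹ * f * d) := by
      calc t * (c⁻¹ * x * c) * t = d⁻¹ * (g * h * t * f) * d := e0
        _ = d⁻¹ * g * h * (t * d) * (d⁻¹ * f * d) := by group
        _ = d⁻¹ * g * h * (c * t) * (d⁻¹ * f * d) := by rw [htd]
        _ = (d⁻¹ * g * d) * (d⁻¹ * h * c) * t * (d⁻¹ * f * d) := by group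
    have hm1 : d⁻¹ * g * d ∈ Q := by
      have := hS.conj_mem d⁻¹ (inv_mem (Subgroup.mem_inf.mp hdD).1) g hg
      rwa [inv_inv] at this
    have hm2 : d⁻¹ * f * d ∈ Q := by
      have := hS.conj_mem d⁻¹ (inv_mem (Subgroup.mem_inf.mp hdD).1) f hf
      rwa [inv_inv] at this
    have := canon3_unique hS g₃ (d⁻¹ * g * d) h₃ (d⁻¹ * h * c) f₃ (d⁻¹ * f * d) hg₃ hm1 hh₃
      (mul_mem (mul_mem (inv_mem hdD) hh) hc) hf₃ hm2 (heq₃.symm.trans e3)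
    exact ⟨this.2.2, this.2.1⟩

end Cfsg.Agent.S1165
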