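import Cfsg.Statements.S1166
import Cfsg.Agent.Lib.Helper2.RankOne

set_option autoImplicit false
open Cfsg

namespace Cfsg.Agent.S1166

open Cfsg.Agent.Lib.Helper2.RankOne in
/-- In the rank-one set-up (`G` finite and doubly transitive on `Ω`, `t` an involution moving `a`, `Q` normal in `G_a` with `G_a = Q D`, `Q ⊓ D = 1` for the two-point stabiliser `D = G_a ⊓ G_{t • a}`, `|Q|` even, `|D|` odd), with `t x t = g_x h_x t f_x` and `t y t = g_y h_y t f_y` (`g, f ∈ Q`, `h ∈ D`) for `x, y ∈ Q ∖ 1` with `x y ≠ 1`: then `z = f_x g_y ≠ 1`, and if `t z t = g_z h_z t f_z` and `t (x y) t = g' h' t f'` then `f' = (t h_y t)⁻¹ f_z (t h_y t) f_y` and `h' = h_x h_z h_y` (H6). -/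
theorem result {G Ω : Type*} [Group G] [Finite G] [MulAction G Ω] {a : Ω} {t : G} {Q : Subgroup G}
    (hS : Cfsg.IsRankOneSetup G Ω a t Q)
    (x y gx hx fx gy hy fy : G) (hxQ : x ∈ Q) (hx1 : x ≠ 1) (hyQ : y ∈ Q) (hy1 : y ≠ 1) (hxy : x * y ≠ 1)
    (hgx : gx ∈ Q) (hhx : hx ∈ (MulAction.stabilizer G a ⊓ MulAction.stabilizer G (t • a))) (hfx : fx ∈ Q) (ex : t * x * t = gx * hx * t * fx)
    (hgy : gy ∈ Q) (hhy : hy ∈ (MulAction.stabilizer G a ⊓ MulAction.stabilizer G (t • a))) (hfy : fy ∈ Q) (ey : t * y * t = gy * hy * t * fy) :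
    fx * gy ≠ 1 ∧
      ∀ gz hz fz g' h' f' : G, gz ∈ Q → hz ∈ (MulAction.stabilizer G a ⊓ MulAction.stabilizer G (t • a)) → fz ∈ Q → t * (fx * gy) * t = gz * hz * t * fz →
        g' ∈ Q → h' ∈ (MulAction.stabilizer G a ⊓ MulAction.stabilizer G (t • a)) → f' ∈ Q → t * (x * y) * t = g' * h' * t * f' →
          f' = (t * hy * t)⁻¹ * fz * (t * hy * t) * fy ∧ h' = hx * hz * hy := by
  have htt := hS.mul_self
  have htinv := t_inv hS
  have hdD := D_conj_t hS hy hhy
  have htd : t * (t * hy * t) = hy * t := by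
    rw [← mul_assoc, ← mul_assoc, htt, one_mul]
  have e0 : t * (x * y) * t = gx * hx * (t * (fx * gy) * t) * (t * hy * t) * fy := by
    have h1 : t * (x * y) * t = (t * x * t) * (t * y * t) := by
      have : (t * x * t) * (t * y * t) = t * x * (t * t) * y * t := by group
      rw [this, htt]; group
    rw [h1, ex, ey]
    have h2 : gx * hx * (t * (fx * gy) * t) * (t * hy * t) * fy
        = gx * hx * t * fx * gy * (t * t) * hy * t * fy := by group
    rw [h2, htt]; group
  constructor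
  · intro hz1
    apply hxy
    rw [hz1, mul_one, htt, mul_one] at e0
    have hmem : t * (x * y) * t ∈ MulAction.stabilizer G a := by
      rw [e0]
      exact mul_mem (mul_mem (mul_mem (hS.le hgx) (Subgroup.mem_inf.mp hhx).1)
        (Subgroup.mem_inf.mp hdD).1) (hS.le hfy)
    have h3 := MulAction.mem_stabilizer_iff.mp hmem
    rw [mul_smul, mul_smul] at h3
    have h4 : (x * y) • (t • a) = t • a := by
      calc (x * y) • (t • a) = t • (t • (x * y) • t • a) := by rw [tt_smul hS]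
        _ = t • a := by rw [h3]
    exact Q_free hS _ (mul_mem hxQ hyQ) _ (tsmul_ne hS) h4
  · intro gz hz fz g' h' f' hgz hhz hfz ez hg' hh' hf' e'
    rw [ez] at e0
    generalize t * hy * t = d at *
    have e3 : t * (x * y) * t
        = (gx * (hx * gz * hx⁻¹)) * (hx * hz * hy) * t * (d⁻¹ * fz * d * fy) := by
      calc t * (x * y) * t = gx * hx * (gz * hz * t * fz) * d * fy := e0
        _ = gx * hx * gz * hz * (t * d) * (d⁻¹ * fz * d) * fy := by group
        _ = gx * hx * gz * hz * (hy * t) * (d⁻¹ * fz * d) * fy := by rw [htd]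
        _ = (gx * (hx * gz * hx⁻¹)) * (hx * hz * hy) * t * (d⁻¹ * fz * d * fy) := by group
    have hm1 : gx * (hx * gz * hx⁻¹) ∈ Q :=
      mul_mem hgx (hS.conj_mem hx (Subgroup.mem_inf.mp hhx).1 gz hgz)
    have hm2 : d⁻¹ * fz * d * fy ∈ Q := by
      have := hS.conj_mem d⁻¹ (inv_mem (Subgroup.mem_inf.mp hdD).1) fz hfz
      rw [inv_inv] at this
      exact mul_mem this hfy
    have := canon3_unique hS g' (gx * (hx * gz * hx⁻¹)) h' (hx * hz * hy) f' (d⁻¹ * fz * d * fy)
      hg' hm1 hh' (mul_mem (mul_mem hhx hhz) hhy) hf' hm2 (e'.symm.trans e3)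
    exact ⟨this.2.2, this.2.1⟩

end Cfsg.Agent.S1166
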