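import Cfsg.Statements.S1168
import Mathlib
import Cfsg.Agent.S1140

set_option autoImplicit false
open Cfsg

namespace Cfsg.Agent.S1168

noncomputable def gam68 (F : Type*) [Field F] [Fintype (F ≃+* F)]
    (c : (F ≃+* F) → (F ≃+* F) → F) (x y : F) : F :=
  ∑ τ : F ≃+* F, ∑ σ : F ≃+* F, c τ σ * (σ x * τ y)

theorem gam_add_c68 (F : Type*) [Field F] [Fintype (F ≃+* F)]
    (c c' : (F ≃+* F) → (F ≃+* F) → F) (x y : F) :
    gam68 F (fun τ σ => c τ σ + c' τ σ) x y = gam68 F c x y + gam68 F c' x y := by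
  unfold gam68
  simp only [add_mul, Finset.sum_add_distrib]

theorem gam_transpose68 (F : Type*) [Field F] [Fintype (F ≃+* F)]
    (c : (F ≃+* F) → (F ≃+* F) → F) (x y : F) :
    gam68 F (fun τ σ => c σ τ) x y = gam68 F c y x := by
  unfold gam68
  rw [Finset.sum_comm]
  apply Finset.sum_congr rfl
  intro τ _
  apply Finset.sum_congr rfl
  intro σ _
  ring

theorem gam_add_left68 (F : Type*) [Field F] [Fintype (F ≃+* F)]
    (c : (F ≃+* F) → (F ≃+* F) → F) (x x' y : F) :
    gam68 F c (x + x') y = gam68 F c x y + gam68 F c x' y := by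
  unfold gam68
  simp only [map_add, add_mul, mul_add, Finset.sum_add_distrib]

theorem gam_add_right68 (F : Type*) [Field F] [Fintype (F ≃+* F)]
    (c : (F ≃+* F) → (F ≃+* F) → F) (x y y' : F) :
    gam68 F c x (y + y') = gam68 F c x y + gam68 F c x y' := by
  unfold gam68
  simp only [map_add, mul_add, Finset.sum_add_distrib]

theorem uniq68 (F : Type*) [Field F] [Fintype (F ≃+* F)]
    (c : (F ≃+* F) → (F ≃+* F) → F) (h : ∀ x y, gam68 F c x y = 0) :
    ∀ τ σ, c τ σ = 0 := by
  have hz : ∀ a : (F ≃+* F) → F, (∀ y, ∑ σ : F ≃+* F, a σ * σ y = 0) → ∀ σ, a σ = 0 := by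
    intro a ha
    have h1 : Cfsg.Agent.S1140.Phi40 F a = Cfsg.Agent.S1140.Phi40 F 0 := by
      ext y
      rw [Cfsg.Agent.S1140.Phi40_apply, Cfsg.Agent.S1140.Phi40_apply, ha y]
      simp
    have h2 := Cfsg.Agent.S1140.Phi40_inj F h1
    intro σ
    exact congrFun h2 σ
  have h1 : ∀ x τ, ∑ σ : F ≃+* F, c τ σ * σ x = 0 := by
    intro x
    apply hz (fun τ => ∑ σ : F ≃+* F, c τ σ * σ x)
    intro y
    have h3 := h x y
    unfold gam68 at h3
    refine Eq.trans ?_ h3
    apply Finset.sum_congr rfl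
    intro τ _
    show (∑ σ : F ≃+* F, c τ σ * σ x) * τ y = ∑ σ : F ≃+* F, c τ σ * (σ x * τ y)
    rw [Finset.sum_mul]
    apply Finset.sum_congr rfl
    intro σ _
    ring
  intro τ
  exact hz (c τ) (fun x => h1 x τ)

theorem repr68 (F : Type*) [Field F] [Fintype F] [CharP F 2] [Fintype (F ≃+* F)]
    (B : F →+ F →+ F) :
    ∃ d : (F ≃+* F) → (F ≃+* F) → F, ∀ x y, B x y = gam68 F d x y := by
  have hbij := Cfsg.Agent.S1140.surj40 F
  have hsurj := hbij.2
  have hinj := hbij.1
  choose c hc using fun x : F => hsurj (B x)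
  have hadd : ∀ x y, c (x + y) = c x + c y := by
    intro x y
    apply hinj
    rw [hc, map_add, Cfsg.Agent.S1140.Phi40_add, hc, hc]
  have h2 : ∀ τ : F ≃+* F, ∃ d : (F ≃+* F) → F,
      ∀ x, c x τ = ∑ σ : F ≃+* F, d σ * σ x := by
    intro τ
    obtain ⟨d, hd⟩ := hsurj (AddMonoidHom.mk' (fun x => c x τ)
      (by intro x y; rw [hadd]; rfl))
    exact ⟨d, fun x => (DFunLike.congr_fun hd x).symm⟩
  choose d hd using h2
  refine ⟨d, fun x y => ?_⟩
  have e1 : B x y = ∑ τ : F ≃+* F, c x τ * τ y := (DFunLike.congr_fun (hc x) y).symm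
  rw [e1]
  unfold gam68
  apply Finset.sum_congr rfl
  intro τ _
  rw [hd τ x, Finset.sum_mul]
  apply Finset.sum_congr rfl
  intro σ _
  ring

theorem polar68 {F : Type*} [Field F] [CharP F 2] (q : F → F)
    (hq : ∀ x y z : F, q (x + y + z) + q (x + y) + q (x + z) + q (y + z) + q x + q y + q z = 0) :
    ∃ B : F →+ F →+ F, ∀ x y, B x y = q (x + y) + q x + q y := by
  have h2 : (2 : F) = 0 := CharTwo.two_eq_zero
  have hβ2 : ∀ x y z : F, q (x + (y + z)) + q x + q (y + z)
      = (q (x + y) + q x + q y) + (q (x + z) + q x + q z) := by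
    intro x y z
    have h := hq x y z
    rw [← add_assoc]
    linear_combination h - (q (x + y) + q (x + z) + q x + q y + q z) * h2
  have hβs : ∀ x y : F, q (x + y) + q x + q y = q (y + x) + q y + q x := by
    intro x y
    rw [add_comm x y]
    ring
  refine ⟨AddMonoidHom.mk' (fun x => AddMonoidHom.mk' (fun y => q (x + y) + q x + q y)
    (fun y z => hβ2 x y z)) ?_, fun x y => rfl⟩
  intro x x'
  ext y
  show q (x + x' + y) + q (x + x') + q y
    = (q (x + y) + q x + q y) + (q (x' + y) + q x' + q y)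
  exact (hβs (x + x') y).trans ((hβ2 y x x').trans (by rw [hβs x y, hβs x' y]))

/-- For a finite field `F` of characteristic 2: if `q : F → F` is quadratic over the prime field, i.e. `(x, y) ↦ q (x + y) + q x + q y` is additive in each variable, then `q x = Σ c_{σ,τ} σ(x) τ(x)` for some coefficients indexed by pairs of field automorphisms. -/
theorem result {F : Type*} [Field F] [Fintype F] [CharP F 2]
    (q : F → F)
    (hq : ∀ x y z : F, q (x + y + z) + q (x + y) + q (x + z) + q (y + z) + q x + q y + q z = 0) :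
    ∃ (s : Finset ((F ≃+* F) × (F ≃+* F))) (c : (F ≃+* F) × (F ≃+* F) → F),
      ∀ x : F, q x = ∑ p ∈ s, c p * (p.1 x * p.2 x) := by
  classical
  haveI : Finite (F ≃+* F) :=
    Finite.of_injective (fun σ : F ≃+* F => (σ : F → F)) DFunLike.coe_injective
  letI : Fintype (F ≃+* F) := Fintype.ofFinite _
  letI : LinearOrder (F ≃+* F) :=
    LinearOrder.lift' (fun σ => Fintype.equivFin (F ≃+* F) σ)
      (Fintype.equivFin (F ≃+* F)).injective
  have h2 : (2 : F) = 0 := CharTwo.two_eq_zero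
  have hq0 : q 0 = 0 := by
    have h := hq 0 0 0
    simp only [add_zero] at h
    linear_combination h - (3 * q 0) * h2
  obtain ⟨B, hB⟩ := polar68 q hq
  obtain ⟨d, hd⟩ := repr68 F B
  have hBs : ∀ x y, B x y = B y x := by
    intro x y
    rw [hB, hB, add_comm x y]
    ring
  have hBd : ∀ x, B x x = 0 := by
    intro x
    rw [hB]
    have hxx : x + x = 0 := by linear_combination x * h2
    rw [hxx, hq0]
    linear_combination (q x) * h2
  have hsymm : ∀ τ σ, d τ σ = d σ τ := by
    have h0 := uniq68 F (fun τ σ => d τ σ + d σ τ) (by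
      intro x y
      rw [gam_add_c68 F d (fun τ σ => d σ τ) x y, gam_transpose68 F d x y, ← hd x y, ← hd y x,
        hBs y x]
      linear_combination (B x y) * h2)
    intro τ σ
    have h1 : d τ σ + d σ τ = 0 := h0 τ σ
    linear_combination h1 - (d σ τ) * h2
  obtain ⟨w, hw⟩ : ∃ w : (F ≃+* F) → (F ≃+* F) → F,
      ∀ τ σ, w τ σ = if σ < τ then d τ σ else 0 :=
    ⟨fun τ σ => if σ < τ then d τ σ else 0, fun _ _ => rfl⟩
  obtain ⟨u, hu⟩ : ∃ u : (F ≃+* F) → (F ≃+* F) → F,
      ∀ τ σ, u τ σ = if σ = τ then d τ τ else 0 :=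
    ⟨fun τ σ => if σ = τ then d τ τ else 0, fun _ _ => rfl⟩
  have hdec : ∀ τ σ, d τ σ = w τ σ + w σ τ + u τ σ := by
    intro τ σ
    rw [hw, hw, hu]
    rcases lt_trichotomy σ τ with h | h | h
    · rw [if_pos h, if_neg (lt_asymm h), if_neg (ne_of_lt h)]; ring
    · rw [h]; simp
    · rw [if_neg (lt_asymm h), if_pos h, if_neg (ne_of_lt h).symm, hsymm τ σ]; ring
  have hgd : ∀ x y, gam68 F d x y = gam68 F w x y + gam68 F w y x + gam68 F u x y := by
    intro x y
    have e1 : d = fun τ σ => (w τ σ + w σ τ) + u τ σ := by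
      funext τ σ; exact hdec τ σ
    have e2 := gam_add_c68 F (fun τ σ => w τ σ + w σ τ) u x y
    have e3 := gam_add_c68 F w (fun τ σ => w σ τ) x y
    have e4 := gam_transpose68 F w x y
    rw [e1, e2, e3, e4]
  have hgu : ∀ x y, gam68 F u x y = ∑ τ : F ≃+* F, d τ τ * τ (x * y) := by
    intro x y
    unfold gam68
    apply Finset.sum_congr rfl
    intro τ _
    rw [Finset.sum_eq_single τ]
    · rw [hu, if_pos rfl, map_mul]
    · intro σ _ hσ
      rw [hu, if_neg hσ, zero_mul]
    · intro h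
      exact absurd (Finset.mem_univ τ) h
  have hsq_inj : Function.Injective (fun x : F => x * x) := by
    intro a b hab
    have hab' : a * a = b * b := hab
    have h3 : (a + b) * (a + b) = 0 := by linear_combination hab' + (a * b + b * b) * h2
    have h4 : a + b = 0 := mul_self_eq_zero.mp h3
    linear_combination h4 - b * h2
  have hsq_surj : ∀ t : F, ∃ x : F, x * x = t :=
    fun t => Finite.injective_iff_surjective.mp hsq_inj t
  have hgu0 : ∀ x y, gam68 F u x y = 0 := by
    intro x y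
    obtain ⟨z, hz⟩ := hsq_surj (x * y)
    have h1 := hgd z z
    rw [← hd, hBd] at h1
    have h3 : gam68 F u z z = 0 := by
      linear_combination (-(gam68 F w z z)) * h2 - h1
    rw [hgu] at h3 ⊢
    rw [← hz]
    exact h3
  have hBP : ∀ x y, B x y = gam68 F w x y + gam68 F w y x := by
    intro x y
    rw [hd, hgd, hgu0, add_zero]
  have hδ : ∀ x y, (q (x + y) + gam68 F w (x + y) (x + y))
      = (q x + gam68 F w x x) + (q y + gam68 F w y y) := by
    intro x y
    have h1 := hBP x y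
    rw [hB] at h1
    rw [gam_add_left68, gam_add_right68, gam_add_right68]
    linear_combination h1 + (gam68 F w x y + gam68 F w y x - q x - q y) * h2
  obtain ⟨Δ, hΔ⟩ : ∃ Δ : F →+ F, ∀ x, Δ x = q x + gam68 F w x x :=
    ⟨AddMonoidHom.mk' (fun x => q x + gam68 F w x x) hδ, fun _ => rfl⟩
  obtain ⟨ψ, hψ⟩ : ∃ ψ : F →+ F, ∀ x, ψ (x * x) = x := by
    have hadd : ∀ a b : F, (a + b) * (a + b) = a * a + b * b := by
      intro a b; linear_combination (a * b) * h2
    obtain ⟨S, hSdef⟩ : ∃ S : F →+ F, ∀ x, S x = x * x :=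
      ⟨AddMonoidHom.mk' (fun x => x * x) hadd, fun _ => rfl⟩
    have hSinj : Function.Injective S := by
      intro a b hab
      rw [hSdef, hSdef] at hab
      exact hsq_inj hab
    have hS : Function.Bijective S := ⟨hSinj, Finite.injective_iff_surjective.mp hSinj⟩
    refine ⟨(AddEquiv.ofBijective S hS).symm.toAddMonoidHom, fun x => ?_⟩
    rw [← hSdef x]
    exact (AddEquiv.ofBijective S hS).symm_apply_apply x
  obtain ⟨c₀, hc₀⟩ := (Cfsg.Agent.S1140.surj40 F).2 (Δ.comp ψ)
  have hΔrep : ∀ x, Δ x = ∑ ρ : F ≃+* F, c₀ ρ * (ρ x * ρ x) := by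
    intro x
    have h1 := DFunLike.congr_fun hc₀ (x * x)
    rw [Cfsg.Agent.S1140.Phi40_apply, AddMonoidHom.comp_apply, hψ] at h1
    rw [← h1]
    apply Finset.sum_congr rfl
    intro ρ _
    rw [map_mul]
  refine ⟨Finset.univ, fun p => w p.2 p.1 + (if p.1 = p.2 then c₀ p.1 else 0), fun x => ?_⟩
  have hqx : q x = Δ x + gam68 F w x x := by
    rw [hΔ]
    linear_combination (-(gam68 F w x x)) * h2
  rw [hqx, hΔrep, Fintype.sum_prod_type]
  have e1 : ∀ σ τ : F ≃+* F, (w τ σ + (if σ = τ then c₀ σ else 0)) * (σ x * τ x)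
      = w τ σ * (σ x * τ x) + (if σ = τ then c₀ σ * (σ x * σ x) else 0) := by
    intro σ τ
    by_cases h : σ = τ
    · rw [if_pos h, if_pos h, ← h]; ring
    · rw [if_neg h, if_neg h]; ring
  show ∑ ρ : F ≃+* F, c₀ ρ * (ρ x * ρ x) + gam68 F w x x
    = ∑ σ : F ≃+* F, ∑ τ : F ≃+* F, (w τ σ + (if σ = τ then c₀ σ else 0)) * (σ x * τ x)
  simp only [e1, Finset.sum_add_distrib, Finset.sum_ite_eq, Finset.mem_univ, if_true]
  unfold gam68
  rw [Finset.sum_comm, add_comm]

end Cfsg.Agent.S1168
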