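import Cfsg.Statements.S1176
import Cfsg.Agent.Lib.Helper2.Isolated

set_option autoImplicit false
open Cfsg

namespace Cfsg.Agent.S1176

open scoped commutatorElement in
theorem result {G : Type*} [Group G] [Finite G] (x₀ : G) (hx₀ : orderOf x₀ = 2) (ha : ∀ x : G, IsConj x₀ x → IsPGroup 2 ↥(Subgroup.closure {y : G | IsConj x₀ y ∧ Commute y x}) ∧ ⁅⁅Subgroup.closure {y : G | IsConj x₀ y ∧ Commute y x}, Subgroup.closure {y : G | IsConj x₀ y ∧ Commute y x}⁆, Subgroup.closure {y : G | IsConj x₀ y ∧ Commute y x}⁆ = ⊥) (hb : ∀ x y : G, IsConj x₀ x → IsConj x₀ y → x ≠ y → Commute x y → IsConj x₀ (x * y)) (x y : G) (hx : IsConj x₀ x) (hy : IsConj x₀ y) (heven : Even (orderOf (x * y))) (hgt : 2 < orderOf (x * y)) : orderOf (x * y) = 4 := by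
  have hx0 : x₀ * x₀ = 1 := by
    have h0 := pow_orderOf_eq_one x₀
    rw [hx₀, pow_two] at h0
    exact h0
  have hsq : ∀ a : G, IsConj x₀ a → a * a = 1 := by
    intro a ha'
    obtain ⟨c, hc⟩ := isConj_iff.mp ha'
    have e : a * a = c * (x₀ * x₀) * c⁻¹ := by rw [← hc]; group
    rw [e, hx0]; group
  have hxx := hsq x hx
  have hyy := hsq y hy
  have hxinv : x⁻¹ = x := inv_eq_of_mul_eq_one_left hxx
  have hyinv : y⁻¹ = y := inv_eq_of_mul_eq_one_left hyy
  obtain ⟨u, hu⟩ : ∃ u, u = x * y := ⟨_, rfl⟩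
  rw [← hu] at heven hgt ⊢
  obtain ⟨m, hm⟩ := heven
  have hm2 : 2 ≤ m := by omega
  obtain ⟨w, hw⟩ : ∃ w, w = u ^ m := ⟨_, rfl⟩
  have hw1 : w ≠ 1 := by
    rw [hw]; exact pow_ne_one_of_lt_orderOf (by omega) (by omega)
  have hww : (u ^ m)⁻¹ = u ^ m := by
    apply inv_eq_of_mul_eq_one_left
    rw [← pow_add, ← hm, pow_orderOf_eq_one]
  have hsr : x * u * x⁻¹ = u⁻¹ := by
    rw [hu, mul_inv_rev, hxinv, hyinv]
    have e : x * (x * y) * x = (x * x) * (y * x) := by group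
    rw [e, hxx, one_mul]
  have hsr' : y * u * y⁻¹ = u⁻¹ := by
    rw [hu, mul_inv_rev, hxinv, hyinv]
    have e : y * (x * y) * y = y * x * (y * y) := by group
    rw [e, hyy, mul_one]
  have hxw : x * w = w * x := by
    have h1 := Cfsg.Agent.Lib.Helper2.inv_conj_pow x u hsr m
    rw [hww, ← hw] at h1
    have e : x * w = (x * w * x⁻¹) * x := by group
    rw [e, h1]
  have hyw : y * w = w * y := by
    have h1 := Cfsg.Agent.Lib.Helper2.inv_conj_pow y u hsr' m
    rw [hww, ← hw] at h1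
    have e : y * w = (y * w * y⁻¹) * y := by group
    rw [e, h1]
  have hconj : IsConj x₀ (x * w) := by
    rcases Nat.even_or_odd' m with ⟨j, hj | hj⟩
    · have h1 := Cfsg.Agent.Lib.Helper2.pow_conj_of_inv x u hsr j
      rw [← hj, ← hw, ← hxw] at h1
      exact hx.trans (isConj_iff.mpr ⟨u ^ j, h1⟩)
    · have h1 := Cfsg.Agent.Lib.Helper2.pow_conj_of_inv y u hsr' (j + 1)
      have e : u ^ (2 * (j + 1)) * y = x * w := by
        rw [hxw, hw, hj]
        have e1 : u ^ (2 * (j + 1)) = u ^ (2 * j + 1) * u := by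
          rw [← pow_succ]; congr 1
        rw [e1, hu, mul_assoc, mul_assoc x y y, hyy, mul_one]
      rw [e] at h1
      exact hy.trans (isConj_iff.mpr ⟨u ^ (j + 1), h1⟩)
  have hne : x ≠ x * w := by
    intro h
    apply hw1
    have e : w = x⁻¹ * (x * w) := by group
    rw [e, ← h]; group
  have hcomm : Commute x (x * w) := by
    show x * (x * w) = x * w * x
    rw [mul_assoc, hxw]
  have hwD : IsConj x₀ w := by
    have h1 := hb x (x * w) hx hconj hne hcomm
    rwa [← mul_assoc, hxx, one_mul] at h1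
  obtain ⟨-, hcl⟩ := ha w hwD
  have hxW : x ∈ Subgroup.closure {y : G | IsConj x₀ y ∧ Commute y w} :=
    Subgroup.subset_closure ⟨hx, hxw⟩
  have hyW : y ∈ Subgroup.closure {y : G | IsConj x₀ y ∧ Commute y w} :=
    Subgroup.subset_closure ⟨hy, hyw⟩
  have h3 : ⁅⁅x, y⁆, x⁆ ∈ (⊥ : Subgroup G) := by
    rw [← hcl]
    exact Subgroup.commutator_mem_commutator (Subgroup.commutator_mem_commutator hxW hyW) hxW
  rw [Subgroup.mem_bot] at h3
  have e1 : ⁅x, y⁆ = u ^ 2 := by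
    rw [commutatorElement_def, hxinv, hyinv, hu, pow_two]; group
  have e2 : ⁅u ^ 2, x⁆ = u ^ 4 := by
    have h1 := Cfsg.Agent.Lib.Helper2.inv_conj_pow x u hsr 2
    have e3 : ⁅u ^ 2, x⁆ = u ^ 2 * (x * u ^ 2 * x⁻¹)⁻¹ := by
      rw [commutatorElement_def]; group
    rw [e3, h1, inv_inv, ← pow_add]
  rw [e1, e2] at h3
  have hdvd : orderOf u ∣ 4 := orderOf_dvd_of_pow_eq_one h3
  have hle : orderOf u ≤ 4 := Nat.le_of_dvd (by norm_num) hdvd
  omega

end Cfsg.Agent.S1176
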