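import Cfsg.Statements.S1177
import Cfsg.Agent.Lib.Helper2.Basic

set_option autoImplicit false
open Cfsg

namespace Cfsg.Agent.S1177

open Cfsg.Agent.Lib.Helper2 in
/-- Let A be a nontrivial elementary abelian 2-subgroup of a finite group G which is a T.I. set (each conjugate of A meets A trivially or equals A) and which does not commute elementwise with any conjugate of A other than A itself. Then for every a ∈ A, a ≠ 1, every conjugate of A contained in C_G(a) is equal to A (A is weakly closed in C_G(a)). -/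
theorem result {G : Type*} [Group G] [Finite G] (A : Subgroup G) (hA : Cfsg.IsElementaryAbelian 2 A) (hA1 : A ≠ ⊥) (hTI : ∀ g : G, A.map (MulAut.conj g).toMonoidHom ⊓ A = ⊥ ∨ A.map (MulAut.conj g).toMonoidHom = A) (hb : ∀ g : G, (∀ a ∈ A, ∀ b ∈ A.map (MulAut.conj g).toMonoidHom, a * b = b * a) → A.map (MulAut.conj g).toMonoidHom = A) (a : G) (ha : a ∈ A) (ha1 : a ≠ 1) (g : G) (hg : A.map (MulAut.conj g).toMonoidHom ≤ Subgroup.centralizer ({a} : Set G)) : A.map (MulAut.conj g).toMonoidHom = A := by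
  classical
  obtain ⟨hAc, hA2⟩ := hA
  have hcomm : ∀ u ∈ A, ∀ v ∈ A, u * v = v * u := by
    intro u hu v hv
    exact congrArg Subtype.val (hAc.is_comm.comm ⟨u, hu⟩ ⟨v, hv⟩)
  have hsq : ∀ u ∈ A, u * u = 1 := by
    intro u hu
    have := hA2 u hu
    rwa [pow_two] at this
  rcases hTI g with hbot | heq
  swap
  · exact heq
  -- elements of B square to one
  have hBsq : ∀ b ∈ A.map (MulAut.conj g).toMonoidHom, b * b = 1 := by
    intro b hb'
    have h1 := hsq _ ((mem_map_conj A g b).mp hb')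
    have : b * b = g * ((g⁻¹ * b * g) * (g⁻¹ * b * g)) * g⁻¹ := by group
    rw [this, h1]; group
  have hBinv : ∀ b ∈ A.map (MulAut.conj g).toMonoidHom, b⁻¹ = b := by
    intro b hb'
    rw [inv_eq_iff_mul_eq_one]; exact hBsq b hb'
  -- Step 1: every b ∈ B normalizes A
  have hBnorm : ∀ b ∈ A.map (MulAut.conj g).toMonoidHom,
      A.map (MulAut.conj b).toMonoidHom = A := by
    intro b hb'
    rcases hTI b with h | h
    · exfalso
      have hab : a * b = b * a := by
        have := hg hb'
        rw [Subgroup.mem_centralizer_iff] at this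
        exact this a rfl
      have : a ∈ A.map (MulAut.conj b).toMonoidHom ⊓ A := by
        refine Subgroup.mem_inf.mpr ⟨?_, ha⟩
        rw [mem_map_conj]
        have : b⁻¹ * a * b = a := by rw [mul_assoc, hab]; group
        rw [this]; exact ha
      rw [h] at this
      exact ha1 (Subgroup.mem_bot.mp this)
    · exact h
  have hBnorm' : ∀ b ∈ A.map (MulAut.conj g).toMonoidHom, ∀ u ∈ A, b * u * b⁻¹ ∈ A := by
    intro b hb' u hu
    have := conj_mem_map_conj A b u hu
    rw [hBnorm b hb'] at this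
    exact this
  -- Step 2
  have hS2 : ∀ x ∈ A, ∀ b ∈ A.map (MulAut.conj g).toMonoidHom, b ≠ 1 → x * b = b * x →
      ∀ b' ∈ A.map (MulAut.conj g).toMonoidHom, x * b' = b' * x := by
    intro x hx b hb' hb1 hxb b' hb''
    have hxB : A.map (MulAut.conj (g⁻¹ * x * g)).toMonoidHom = A := by
      rcases hTI (g⁻¹ * x * g) with h | h
      · exfalso
        have hb2 : g⁻¹ * b * g ∈ A := (mem_map_conj A g b).mp hb'
        have : g⁻¹ * b * g ∈ A.map (MulAut.conj (g⁻¹ * x * g)).toMonoidHom ⊓ A := by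
          refine Subgroup.mem_inf.mpr ⟨?_, hb2⟩
          rw [mem_map_conj]
          have e1 : (g⁻¹ * x * g)⁻¹ * (g⁻¹ * b * g) * (g⁻¹ * x * g)
              = g⁻¹ * (x⁻¹ * (b * x)) * g := by group
          rw [e1, ← hxb]
          have e2 : g⁻¹ * (x⁻¹ * (x * b)) * g = g⁻¹ * b * g := by group
          rw [e2]; exact hb2
        rw [h] at this
        have h1 := Subgroup.mem_bot.mp this
        apply hb1
        have e3 : b = g * (g⁻¹ * b * g) * g⁻¹ := by group
        rw [e3, h1]; group
      · exact h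
    have h1 : x * b' * x⁻¹ ∈ A.map (MulAut.conj g).toMonoidHom := by
      rw [mem_map_conj]
      have hb2 : g⁻¹ * b' * g ∈ A := (mem_map_conj A g b').mp hb''
      have := conj_mem_map_conj A (g⁻¹ * x * g) _ hb2
      rw [hxB] at this
      have e : g⁻¹ * (x * b' * x⁻¹) * g = g⁻¹ * x * g * (g⁻¹ * b' * g) * (g⁻¹ * x * g)⁻¹ := by
        group
      rw [e]; exact this
    have h2 : x * b' * x⁻¹ * b'⁻¹ ∈ A.map (MulAut.conj g).toMonoidHom ⊓ A := by
      refine Subgroup.mem_inf.mpr ⟨mul_mem h1 (inv_mem hb''), ?_⟩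
      have := hBnorm' b' hb'' x⁻¹ (inv_mem hx)
      have h3 := mul_mem hx this
      have e : x * b' * x⁻¹ * b'⁻¹ = x * (b' * x⁻¹ * b'⁻¹) := by group
      rw [e]; exact h3
    rw [hbot] at h2
    have h3 := Subgroup.mem_bot.mp h2
    calc x * b' = (x * b' * x⁻¹ * b'⁻¹) * b' * x := by group
      _ = b' * x := by rw [h3]; group
  -- Main
  apply hb g
  intro x hx b hb'
  by_cases hex : ∃ b₀ ∈ A.map (MulAut.conj g).toMonoidHom, b₀ ≠ 1 ∧ x * b₀ = b₀ * x
  · obtain ⟨b₀, hb₀, hb₀1, hxb₀⟩ := hex
    exact hS2 x hx b₀ hb₀ hb₀1 hxb₀ b hb'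
  · push Not at hex
    have hf : ∀ b' ∈ A.map (MulAut.conj g).toMonoidHom, x * (b' * x * b'⁻¹) ∈
        A ⊓ Subgroup.centralizer
          ((A.map (MulAut.conj g).toMonoidHom : Subgroup G) : Set G) := by
      intro b' hb''
      have hu : b' * x * b'⁻¹ ∈ A := hBnorm' b' hb'' x hx
      have hcA : x * (b' * x * b'⁻¹) ∈ A := mul_mem hx hu
      refine Subgroup.mem_inf.mpr ⟨hcA, ?_⟩
      rw [Subgroup.mem_centralizer_iff]
      intro y hy
      by_cases hb1 : b' = 1
      · subst hb1
        have : x * (1 * x * (1 : G)⁻¹) = 1 := by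
          simpa using hsq x hx
        rw [this]; simp
      · have hc : (x * (b' * x * b'⁻¹)) * b' = b' * (x * (b' * x * b'⁻¹)) := by
          have h1 : x * (b' * x * b'⁻¹) = (b' * x * b'⁻¹) * x := hcomm x hx _ hu
          have h2 : b' * (x * (b' * x * b'⁻¹)) = b' * b' * x * b'⁻¹ * x := by
            rw [h1]; group
          rw [h2, hBsq b' hb'', hBinv b' hb'']
          have e : x * (b' * x * b') * b' = x * b' * x * (b' * b') := by group
          rw [e, hBsq b' hb'']
          group
        exact (hS2 _ hcA b' hb'' hb1 hc y hy).symm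
    have hinj : Function.Injective
        (fun b' : ↥(A.map (MulAut.conj g).toMonoidHom) =>
          (⟨x * ((b' : G) * x * (b' : G)⁻¹), hf b'.1 b'.2⟩ :
            ↥(A ⊓ Subgroup.centralizer
              ((A.map (MulAut.conj g).toMonoidHom : Subgroup G) : Set G)))) := by
      intro b1 b2 h12
      have h1 : x * ((b1 : G) * x * (b1 : G)⁻¹) = x * ((b2 : G) * x * (b2 : G)⁻¹) :=
        congrArg Subtype.val h12
      have h2 : (b1 : G) * x * (b1 : G)⁻¹ = (b2 : G) * x * (b2 : G)⁻¹ := mul_left_cancel h1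
      have h3 : x * ((b2 : G)⁻¹ * (b1 : G)) = ((b2 : G)⁻¹ * (b1 : G)) * x := by
        have e : (b2 : G)⁻¹ * (b1 : G) * x = (b2 : G)⁻¹ * ((b1 : G) * x * (b1 : G)⁻¹) * (b1 : G) := by
          group
        rw [e, h2]; group
      have h4 : (b2 : G)⁻¹ * (b1 : G) = 1 := by
        by_contra hne
        exact hex _ (mul_mem (inv_mem b2.2) b1.2) hne h3
      apply Subtype.ext
      have : (b1 : G) = (b2 : G) * ((b2 : G)⁻¹ * (b1 : G)) := by group
      rw [this, h4, mul_one]
    have hcard := Nat.card_le_card_of_injective _ hinj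
    rw [card_map_conj] at hcard
    have hCA : A ⊓ Subgroup.centralizer
        ((A.map (MulAut.conj g).toMonoidHom : Subgroup G) : Set G) = A :=
      Subgroup.eq_of_le_of_card_ge inf_le_left hcard
    have hxC : x ∈ A ⊓ Subgroup.centralizer
        ((A.map (MulAut.conj g).toMonoidHom : Subgroup G) : Set G) := by
      rw [hCA]; exact hx
    have := (Subgroup.mem_inf.mp hxC).2
    rw [Subgroup.mem_centralizer_iff] at this
    exact (this b hb').symm

end Cfsg.Agent.S1177
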