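import Cfsg.Statements.S1178
import Cfsg.Agent.Lib.Helper2.Basic

set_option autoImplicit false
open Cfsg

namespace Cfsg.Agent.S1178

open Cfsg.Agent.Lib.Helper2 in
/-- Let A be a subgroup of a Sylow 2-subgroup S of the finite group G which is weakly closed in S. If a conjugate g A g⁻¹ commutes elementwise with A, then g A g⁻¹ = A. -/
theorem result {G : Type*} [Group G] [Finite G] (S : Sylow 2 G) (A : Subgroup G) (hW : Cfsg.IsWeaklyClosed A (S : Subgroup G)) (g : G) (hc : ∀ a ∈ A, ∀ b ∈ A.map (MulAut.conj g).toMonoidHom, a * b = b * a) : A.map (MulAut.conj g).toMonoidHom = A := by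
  obtain ⟨hAS, hwc⟩ := hW
  have hA2 : IsPGroup 2 A := S.isPGroup'.to_le hAS
  have hB2 : IsPGroup 2 (A.map (MulAut.conj g).toMonoidHom) := isPGroup_map_conj A g hA2
  -- A normalizes B
  have hnorm : A ≤ Subgroup.normalizer ((A.map (MulAut.conj g).toMonoidHom : Subgroup G) : Set G) := by
    intro a ha
    rw [Subgroup.mem_normalizer_iff]
    intro b
    constructor
    · intro hb
      have := hc a ha b hb
      have e : a * b * a⁻¹ = b := by rw [this]; group
      rw [e]; exact hb
    · intro hb
      have := hc a ha _ hb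
      have e : b = a * b * a⁻¹ := by
        have h2 : a * (a * b * a⁻¹) = a * b := by rw [this]; group
        exact (mul_left_cancel h2).symm
      rw [e]; exact hb
  have hAB : IsPGroup 2 (A ⊔ A.map (MulAut.conj g).toMonoidHom : Subgroup G) :=
    IsPGroup.to_sup_of_normal_right' hA2 hB2 hnorm
  obtain ⟨Q, hQ⟩ := hAB.exists_le_sylow
  obtain ⟨h, rfl⟩ := MulAction.exists_smul_eq G S Q
  have hAQ : A ≤ ((h • S : Sylow 2 G) : Subgroup G) := le_trans le_sup_left hQ
  have hBQ : A.map (MulAut.conj g).toMonoidHom ≤ ((h • S : Sylow 2 G) : Subgroup G) := le_trans le_sup_right hQ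
  -- h⁻¹ A h ≤ S
  have h1 : A.map (MulAut.conj h⁻¹).toMonoidHom ≤ (S : Subgroup G) := by
    intro x hx
    rw [mem_map_conj] at hx
    have := hAQ hx
    rw [mem_smul_sylow] at this
    simp only [inv_inv] at hx this
    convert this using 1
    group
  have h2 : A.map (MulAut.conj (h⁻¹ * g)).toMonoidHom ≤ (S : Subgroup G) := by
    intro x hx
    rw [mem_map_conj] at hx
    have hx' : h * x * h⁻¹ ∈ A.map (MulAut.conj g).toMonoidHom := by
      rw [mem_map_conj]
      convert hx using 1
      group
    have := hBQ hx'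
    rw [mem_smul_sylow] at this
    convert this using 1
    group
  have e1 := hwc _ h1
  have e2 := hwc _ h2
  -- now A^g = (A^(h⁻¹ g))^h = A^h = (A^(h⁻¹))^h = A
  calc A.map (MulAut.conj g).toMonoidHom
      = (A.map (MulAut.conj (h⁻¹ * g)).toMonoidHom).map (MulAut.conj h).toMonoidHom := by
        rw [map_conj_map_conj]; congr 3; group
    _ = (A.map (MulAut.conj h⁻¹).toMonoidHom).map (MulAut.conj h).toMonoidHom := by rw [e2, e1]
    _ = A := by
        rw [map_conj_map_conj]
        have : h * h⁻¹ = 1 := by group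
        rw [this, map_conj_one]

end Cfsg.Agent.S1178
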