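import Cfsg.Statements.S1181
import Cfsg.Agent.Lib.Helper2.Isolated

set_option autoImplicit false
open Cfsg

namespace Cfsg.Agent.S1181

open Cfsg.Agent.Lib.Helper2 in
/-- If `z` is isolated, `s` a conjugate of `z` and `z * s ∈ N`, then `s` is conjugate to `z` by an
element of `N`. -/
theorem key {G : Type*} [Group G] [Finite G] (z : G) (hz : Cfsg.IsIsolatedInvolution z)
    (N : Subgroup G) (g : G) (h : (z * (g * z * g⁻¹)) ^ 2 ∈ N) :
    z * (g * z * g⁻¹) ∈ N ∧ ∃ x ∈ N, x * z * x⁻¹ = g * z * g⁻¹ := by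
  have hodd := isolated_odd z hz 1 g
  simp only [one_mul, inv_one, mul_one] at hodd
  obtain ⟨j, hj⟩ := hodd
  have hzz := isolated_sq z hz
  have hss := isolated_conj_sq z hz g
  have hconjz := invol_conj_of_odd z (g * z * g⁻¹) hzz hss j hj
  have h1 : z * (g * z * g⁻¹) ∈ N := by
    have e : z * (g * z * g⁻¹) = ((z * (g * z * g⁻¹)) ^ 2) ^ (j + 1) := by
      rw [← pow_mul]
      have : 2 * (j + 1) = orderOf (z * (g * z * g⁻¹)) + 1 := by omega
      rw [this, pow_succ, pow_orderOf_eq_one, one_mul]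
    rw [e]; exact pow_mem h _
  exact ⟨h1, _, pow_mem h1 j, hconjz⟩

open Cfsg.Agent.Lib.Helper2 in
/-- Let z be an isolated involution of the finite group G and N a normal subgroup with z ∉ N. Then the centralizer of zN in G/N is the image of C_G(z), and zN is an isolated involution of G/N. -/
theorem result {G : Type*} [Group G] [Finite G] (z : G) (hz : Cfsg.IsIsolatedInvolution z) (N : Subgroup G) [N.Normal] (hzN : z ∉ N) : Subgroup.centralizer ({(QuotientGroup.mk z : G ⧸ N)} : Set (G ⧸ N)) = (Subgroup.centralizer ({z} : Set G)).map (QuotientGroup.mk' N) ∧ Cfsg.IsIsolatedInvolution (QuotientGroup.mk z : G ⧸ N) := by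
  have hzz := isolated_sq z hz
  have hzinv : z⁻¹ = z := inv_eq_of_mul_eq_one_left hzz
  constructor
  · ext xbar
    obtain ⟨g, rfl⟩ := QuotientGroup.mk_surjective xbar
    rw [Subgroup.mem_centralizer_iff, Subgroup.mem_map]
    constructor
    · intro hc
      have h1 : (QuotientGroup.mk z : G ⧸ N) * QuotientGroup.mk g = QuotientGroup.mk g * QuotientGroup.mk z :=
        hc _ rfl
      rw [← QuotientGroup.mk_mul, ← QuotientGroup.mk_mul, QuotientGroup.eq] at h1
      -- (z * g)⁻¹ * (g * z) ∈ N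
      have hss := isolated_conj_sq z hz g⁻¹
      have hsinv : (g⁻¹ * z * g⁻¹⁻¹)⁻¹ = g⁻¹ * z * g⁻¹⁻¹ := inv_eq_of_mul_eq_one_left hss
      have h2 : (z * (g⁻¹ * z * g⁻¹⁻¹)) ^ 2 ∈ N := by
        have e : z * (g⁻¹ * z * g⁻¹⁻¹) = z * ((z * g)⁻¹ * (g * z)) * z⁻¹ := by
          have : z * ((z * g)⁻¹ * (g * z)) * z⁻¹ = z * (g⁻¹ * z⁻¹ * g⁻¹⁻¹) := by group
          rw [this, hzinv]
        rw [e]
        exact pow_mem (Subgroup.Normal.conj_mem inferInstance _ h1 z) 2
      obtain ⟨-, x, hxN, hx⟩ := key z hz N g⁻¹ h2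
      refine ⟨g * x, ?_, ?_⟩
      · rw [Subgroup.mem_centralizer_iff]
        intro y hy
        rw [Set.mem_singleton_iff] at hy
        subst hy
        have e : x * y = g⁻¹ * y * g⁻¹⁻¹ * x := by rw [← hx]; group
        rw [mul_assoc, e]; group
      · show (QuotientGroup.mk (g * x) : G ⧸ N) = QuotientGroup.mk g
        rw [QuotientGroup.eq]
        have : (g * x)⁻¹ * g = x⁻¹ := by group
        rw [this]
        exact inv_mem hxN
    · rintro ⟨c, hc, hcg⟩ y hy
      rw [Set.mem_singleton_iff] at hy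
      subst hy
      rw [Subgroup.mem_centralizer_iff] at hc
      have h1 : z * c = c * z := hc z rfl
      have hcg' : (QuotientGroup.mk c : G ⧸ N) = QuotientGroup.mk g := hcg
      rw [← hcg', ← QuotientGroup.mk_mul, ← QuotientGroup.mk_mul, h1]
  · constructor
    · have : Fact (Nat.Prime 2) := ⟨Nat.prime_two⟩
      apply orderOf_eq_prime
      · rw [← QuotientGroup.mk_pow, pow_two, hzz]; rfl
      · intro h1
        apply hzN
        exact (QuotientGroup.eq_one_iff z).mp h1
    · intro gbar hcomm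
      obtain ⟨g, rfl⟩ := QuotientGroup.mk_surjective gbar
      have hss := isolated_conj_sq z hz g
      have hsinv : (g * z * g⁻¹)⁻¹ = g * z * g⁻¹ := inv_eq_of_mul_eq_one_left hss
      have h1 : (QuotientGroup.mk z : G ⧸ N) * QuotientGroup.mk (g * z * g⁻¹)
          = QuotientGroup.mk (g * z * g⁻¹) * QuotientGroup.mk z := by
        simpa using hcomm.eq
      rw [← QuotientGroup.mk_mul, ← QuotientGroup.mk_mul, QuotientGroup.eq] at h1
      have h2 : (z * (g * z * g⁻¹)) ^ 2 ∈ N := by
        have e : ∀ s : G, s⁻¹ = s → (z * s) ^ 2 = z * ((z * s)⁻¹ * (s * z)) * z⁻¹ := by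
          intro s hs
          rw [pow_two, mul_inv_rev, hs, hzinv]
          simp only [mul_assoc]
          rw [hzz, mul_one]
        rw [e _ hsinv]
        exact Subgroup.Normal.conj_mem inferInstance _ h1 z
      obtain ⟨h3, -⟩ := key z hz N g h2
      have h4 : (QuotientGroup.mk (z * (g * z * g⁻¹)) : G ⧸ N) = 1 :=
        (QuotientGroup.eq_one_iff _).mpr h3
      rw [QuotientGroup.mk_mul] at h4
      have h5 : (QuotientGroup.mk z : G ⧸ N) * QuotientGroup.mk z = 1 := by
        rw [← QuotientGroup.mk_mul, hzz]; rfl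
      have h6 : (QuotientGroup.mk (g * z * g⁻¹) : G ⧸ N) = QuotientGroup.mk z :=
        mul_left_cancel (h4.trans h5.symm)
      simpa using h6

end Cfsg.Agent.S1181
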