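import Cfsg.Statements.S1182
import Cfsg.Agent.Lib.Helper2.Isolated

set_option autoImplicit false
open Cfsg

namespace Cfsg.Agent.S1182

open Cfsg.Agent.Lib.Helper2 in
/-- Let z be an isolated involution of the finite group G and H a subgroup normalized by z. If x, y ∈ H both commute with z and y = h x h⁻¹ for some h ∈ H, then y = c x c⁻¹ for some c ∈ H commuting with z. -/
theorem result {G : Type*} [Group G] [Finite G] (z : G) (hz : Cfsg.IsIsolatedInvolution z) (H : Subgroup G) (hzH : z ∈ Subgroup.normalizer (H : Set G)) (x y : G) (hx : x ∈ H) (hy : y ∈ H) (hxz : Commute x z) (hyz : Commute y z) (h : G) (hh : h ∈ H) (hconj : h * x * h⁻¹ = y) : ∃ c ∈ H, Commute c z ∧ c * x * c⁻¹ = y := by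
  have hodd := isolated_odd z hz 1 h
  simp only [one_mul, inv_one, mul_one] at hodd
  obtain ⟨j, hj⟩ := hodd
  have hzz := isolated_sq z hz
  have hzinv : z⁻¹ = z := inv_eq_of_mul_eq_one_left hzz
  have hss := isolated_conj_sq z hz h
  have hconjz := invol_conj_of_odd z (h * z * h⁻¹) hzz hss j hj
  -- q ∈ H
  have hqH : z * (h * z * h⁻¹) ∈ H := by
    rw [Subgroup.mem_normalizer_iff] at hzH
    have h1 : z * h * z⁻¹ ∈ H := (hzH h).mp hh
    have h2 := mul_mem h1 (inv_mem hh)
    have e : z * (h * z * h⁻¹) = z * h * z⁻¹ * h⁻¹ := by rw [hzinv]; group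
    rw [e]; exact h2
  -- q commutes with y
  have hqy : Commute (z * (h * z * h⁻¹)) y := by
    have h1 : Commute z y := hyz.symm
    have h2 : Commute (h * z * h⁻¹) y := by
      have hxz' : x * z = z * x := hxz
      show h * z * h⁻¹ * y = y * (h * z * h⁻¹)
      rw [← hconj]
      have e1 : h * z * h⁻¹ * (h * x * h⁻¹) = h * (z * x) * h⁻¹ := by group
      have e2 : h * x * h⁻¹ * (h * z * h⁻¹) = h * (x * z) * h⁻¹ := by group
      rw [e1, e2, hxz']
    exact h1.mul_left h2
  have hqjy : Commute ((z * (h * z * h⁻¹)) ^ j) y := hqy.pow_left j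
  refine ⟨((z * (h * z * h⁻¹)) ^ j)⁻¹ * h, mul_mem (inv_mem (pow_mem hqH j)) hh, ?_, ?_⟩
  · show ((z * (h * z * h⁻¹)) ^ j)⁻¹ * h * z = z * (((z * (h * z * h⁻¹)) ^ j)⁻¹ * h)
    generalize (z * (h * z * h⁻¹)) ^ j = w at hconjz hqjy
    have e : h * z = w * z * w⁻¹ * h := by rw [hconjz]; group
    rw [mul_assoc, e]; group
  · generalize (z * (h * z * h⁻¹)) ^ j = w at hconjz hqjy
    have e : w⁻¹ * h * x * (w⁻¹ * h)⁻¹ = w⁻¹ * (h * x * h⁻¹) * w := by group
    rw [e, hconj]
    have : y * w = w * y := hqjy.symm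
    rw [mul_assoc, this]; group

end Cfsg.Agent.S1182
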