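import Cfsg.Statements.S1244
import Mathlib

set_option autoImplicit false
open Cfsg
open scoped IsMulCommutative

namespace Cfsg.Agent.S1244

theorem exists_index_two {G Q : Type*} [Group G] [Group Q] [Finite Q] (hQ : IsPGroup 2 Q)
    (f : G →* Q) (u : G) (hu : f u ≠ 1) : ∃ H : Subgroup G, H.index = 2 := by
  classical
  have hR : IsPGroup 2 f.range := hQ.to_subgroup _
  obtain ⟨n, hn⟩ := IsPGroup.iff_card.mp hR
  have hn0 : n ≠ 0 := by
    rintro rfl
    rw [pow_zero, Subgroup.card_eq_one] at hn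
    have : f u ∈ f.range := ⟨u, rfl⟩
    rw [hn] at this
    exact hu (Subgroup.mem_bot.mp this)
  obtain ⟨M, hM⟩ := Sylow.exists_subgroup_card_pow_prime 2 (G := f.range) (n := n - 1)
    (by rw [hn]; exact pow_dvd_pow 2 (Nat.sub_le n 1))
  refine ⟨M.comap f.rangeRestrict, ?_⟩
  rw [Subgroup.index_comap_of_surjective _ f.rangeRestrict_surjective]
  have h1 := M.card_mul_index
  rw [hM, hn] at h1
  have h2 : 2 ^ n = 2 ^ (n - 1) * 2 := by
    rw [← pow_succ]; congr 1; omega
  rw [h2] at h1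
  exact Nat.eq_of_mul_eq_mul_left (by positivity) h1


/-- Let G be a finite group with no subgroup of index 2 whose Sylow 2-subgroup S is commutative, and let R ≤ S be a subgroup whose 2-rank is exactly one less than the 2-rank r of S. Then every involution of S is conjugate, by an element of N_G(S), to an element of R. -/
theorem result {G : Type*} [Group G] [Finite G] (hG : ∀ H : Subgroup G, H.index ≠ 2) (S : Sylow 2 G) (hS : IsMulCommutative (S : Subgroup G)) (r : ℕ) (hr1 : 1 ≤ r) (hSr : Cfsg.PRankLE 2 r (S : Subgroup G) ∧ ¬ Cfsg.PRankLE 2 (r - 1) (S : Subgroup G)) (R : Subgroup G) (hRS : R ≤ S) (hRr : Cfsg.PRankLE 2 (r - 1) R ∧ (r = 1 ∨ ¬ Cfsg.PRankLE 2 (r - 2) R)) (t : G) (ht : orderOf t = 2) (htS : t ∈ S) : ∃ n ∈ Subgroup.normalizer ((S : Subgroup G) : Set G), n * t * n⁻¹ ∈ R := by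
  classical
  by_contra hcon
  push Not at hcon
  haveI := hS
  have hN : ∀ n, n ∈ Subgroup.normalizer ((S : Subgroup G) : Set G) →
      ∀ s ∈ (S : Subgroup G), n * s * n⁻¹ ∈ (S : Subgroup G) := by
    intro n hn s hs
    exact (Subgroup.mem_normalizer_iff.mp hn s).mp hs
  have hSN : (S : Subgroup G) ≤ Subgroup.normalizer ((S : Subgroup G) : Set G) :=
    Subgroup.le_normalizer
  have ht2 : t ^ 2 = 1 := by rw [← ht]; exact pow_orderOf_eq_one t
  have hcomm : ∀ a ∈ (S : Subgroup G), ∀ b ∈ (S : Subgroup G), a * b = b * a := by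
    intro a ha b hb
    have := mul_comm (⟨a, ha⟩ : ↥(S : Subgroup G)) ⟨b, hb⟩
    exact congrArg Subtype.val this
  -- parity
  have hpar : ∀ x ∈ (S : Subgroup G), ∀ y ∈ (S : Subgroup G), x ^ 2 = 1 → y ^ 2 = 1 →
      x ∉ R → y ∉ R → x * y ∈ R := by
    intro x hx y hy hx2 hy2 hxR hyR
    let Ω : Subgroup G :=
      { carrier := {z | z ∈ (S : Subgroup G) ∧ z ^ 2 = 1}
        mul_mem' := by
          rintro a b ⟨ha, ha2⟩ ⟨hb, hb2⟩
          refine ⟨mul_mem ha hb, ?_⟩
          rw [pow_two, show a * b * (a * b) = a * (b * a) * b by group, ← hcomm a ha b hb,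
            show a * (a * b) * b = a ^ 2 * b ^ 2 by rw [pow_two, pow_two]; group, ha2, hb2, one_mul]
        one_mem' := ⟨one_mem _, one_pow 2⟩
        inv_mem' := by
          rintro a ⟨ha, ha2⟩
          exact ⟨inv_mem ha, by rw [inv_pow, ha2, inv_one]⟩ }
    have hΩS : Ω ≤ S := fun z hz => hz.1
    have hcardΩ : Nat.card Ω ≤ 2 ^ r := by
      have h1 := hSr.1 (Ω.subgroupOf S)
        ⟨⟨fun a b => Subtype.ext (mul_comm (a : ↥(S : Subgroup G)) b)⟩⟩
        (fun a ha => by
          have h2 : ((a : ↥(S : Subgroup G)) : G) ^ 2 = 1 := (Subgroup.mem_subgroupOf.mp ha).2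
          exact Subtype.ext (by simpa using h2))
      rwa [Nat.card_congr (Subgroup.subgroupOfEquivOfLe hΩS).toEquiv] at h1
    have hcardR : 2 ^ r ≤ 2 * Nat.card (Ω ⊓ R : Subgroup G) := by
      rcases hRr.2 with h1 | h2
      · subst h1
        have := Nat.card_pos (α := (Ω ⊓ R : Subgroup G))
        omega
      · unfold Cfsg.PRankLE at h2
        push Not at h2
        obtain ⟨A, hAc, hAe, hAcard⟩ := h2
        have hle : A.map R.subtype ≤ Ω ⊓ R := by
          rintro _ ⟨a, ha, rfl⟩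
          refine ⟨⟨hRS a.2, ?_⟩, a.2⟩
          have := hAe a ha
          simpa using congrArg Subtype.val this
        have h3 : Nat.card A ≤ Nat.card (Ω ⊓ R : Subgroup G) := by
          rw [← Subgroup.card_map_of_injective (K := A) R.subtype_injective]
          exact Subgroup.card_le_of_le hle
        have hp : IsPGroup 2 (Ω ⊓ R : Subgroup G) := S.2.to_le (inf_le_left.trans hΩS)
        obtain ⟨j, hj⟩ := IsPGroup.iff_card.mp hp
        rw [hj] at h3 ⊢
        have hlt : r - 2 < j := by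
          by_contra hlt
          push Not at hlt
          have := Nat.pow_le_pow_right (by norm_num : 0 < 2) hlt
          omega
        calc 2 ^ r ≤ 2 ^ (j + 1) := Nat.pow_le_pow_right (by norm_num) (by omega)
          _ = 2 * 2 ^ j := by rw [pow_succ]; ring
    have hidx : ((Ω ⊓ R).subgroupOf Ω).index = 2 := by
      have h1 := ((Ω ⊓ R).subgroupOf Ω).card_mul_index
      rw [Nat.card_congr (Subgroup.subgroupOfEquivOfLe (inf_le_left : Ω ⊓ R ≤ Ω)).toEquiv] at h1
      have h2 : ((Ω ⊓ R).subgroupOf Ω).index ≠ 1 := by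
        intro h
        rw [Subgroup.index_eq_one, Subgroup.subgroupOf_eq_top] at h
        exact hxR (h ⟨hx, hx2⟩).2
      have h3 : ((Ω ⊓ R).subgroupOf Ω).index ≤ 2 := by
        by_contra h
        push Not at h
        have := Nat.card_pos (α := (Ω ⊓ R : Subgroup G))
        nlinarith
      have h4 : ((Ω ⊓ R).subgroupOf Ω).index ≠ 0 := Subgroup.index_ne_zero_of_finite
      omega
    have h5 : ((⟨x, hx, hx2⟩ : ↥Ω) * ⟨y, hy, hy2⟩) ∈ (Ω ⊓ R).subgroupOf Ω :=
      (Subgroup.mul_mem_iff_of_index_two hidx).mpr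
        ⟨fun h => absurd (Subgroup.mem_subgroupOf.mp h).2 hxR,
         fun h => absurd (Subgroup.mem_subgroupOf.mp h).2 hyR⟩
    exact (Subgroup.mem_subgroupOf.mp h5).2
  -- the norm of t over N / S
  letI : Fintype (↥(Subgroup.normalizer ((S : Subgroup G) : Set G)) ⧸
      (S : Subgroup G).subgroupOf (Subgroup.normalizer ((S : Subgroup G) : Set G))) :=
    Fintype.ofFinite _
  let f : (↥(Subgroup.normalizer ((S : Subgroup G) : Set G)) ⧸
      (S : Subgroup G).subgroupOf (Subgroup.normalizer ((S : Subgroup G) : Set G))) →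
      ↥(S : Subgroup G) :=
    fun q => ⟨(q.out : G) * t * (q.out : G)⁻¹, hN _ q.out.2 t htS⟩
  have hf2 : ∀ q, (f q) ^ 2 = 1 := by
    intro q
    apply Subtype.ext
    show ((q.out : G) * t * (q.out : G)⁻¹) ^ 2 = 1
    rw [pow_two, show (q.out : G) * t * (q.out : G)⁻¹ * ((q.out : G) * t * (q.out : G)⁻¹) =
      (q.out : G) * t ^ 2 * (q.out : G)⁻¹ by rw [pow_two]; group, ht2]
    group
  have hfR : ∀ q, ((f q : ↥(S : Subgroup G)) : G) ∉ R := fun q => hcon _ q.out.2
  have hF2 : ∀ F : Finset (↥(Subgroup.normalizer ((S : Subgroup G) : Set G)) ⧸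
      (S : Subgroup G).subgroupOf (Subgroup.normalizer ((S : Subgroup G) : Set G))),
      (∏ q ∈ F, f q) ^ 2 = 1 := by
    intro F
    rw [← Finset.prod_pow]
    exact Finset.prod_eq_one (fun q _ => hf2 q)
  have hprod : ∀ F : Finset (↥(Subgroup.normalizer ((S : Subgroup G) : Set G)) ⧸
      (S : Subgroup G).subgroupOf (Subgroup.normalizer ((S : Subgroup G) : Set G))),
      (((∏ q ∈ F, f q : ↥(S : Subgroup G)) : G) ∈ R ↔ Even F.card) := by
    intro F
    induction F using Finset.induction_on with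
    | empty => simp
    | insert a F ha ih =>
      rw [Finset.prod_insert ha, Finset.card_insert_of_notMem ha, Nat.even_add_one, ← ih]
      show ((f a : ↥(S : Subgroup G)) : G) * ((∏ q ∈ F, f q : ↥(S : Subgroup G)) : G) ∈ R ↔ _
      constructor
      · intro h1 h2
        exact hfR a ((Subgroup.mul_mem_cancel_right R h2).mp h1)
      · intro h1
        have h3 := congrArg Subtype.val (hF2 F)
        have h4 := congrArg Subtype.val (hf2 a)
        exact hpar _ (f a).2 _ (∏ q ∈ F, f q : ↥(S : Subgroup G)).2 (by simpa using h4)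
          (by simpa using h3) (hfR a) h1
  have hodd : ¬ Even (Finset.univ : Finset (↥(Subgroup.normalizer ((S : Subgroup G) : Set G)) ⧸
      (S : Subgroup G).subgroupOf (Subgroup.normalizer ((S : Subgroup G) : Set G)))).card := by
    rw [Finset.card_univ, ← Nat.card_eq_fintype_card]
    intro he
    have h1 : Nat.card (↥(Subgroup.normalizer ((S : Subgroup G) : Set G)) ⧸
      (S : Subgroup G).subgroupOf (Subgroup.normalizer ((S : Subgroup G) : Set G))) =
      (S : Subgroup G).relIndex (Subgroup.normalizer ((S : Subgroup G) : Set G)) := rfl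
    have h2 := Subgroup.relIndex_mul_index hSN
    rw [← h1] at h2
    have h3 : (2 : ℕ) ∣ (S : Subgroup G).index := by
      rw [← h2]
      exact Dvd.dvd.mul_right (even_iff_two_dvd.mp he) _
    exact S.not_dvd_index h3
  set u : ↥(S : Subgroup G) := ∏ q, f q with hu
  have huR : (u : G) ∉ R := fun h => hodd ((hprod Finset.univ).mp h)
  have hu2 : (u : G) ^ 2 = 1 := by
    show ((u ^ 2 : ↥(S : Subgroup G)) : G) = ((1 : ↥(S : Subgroup G)) : G)
    exact congrArg Subtype.val (hF2 Finset.univ)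
  have hu1 : (u : G) ≠ 1 := fun h => huR (h ▸ R.one_mem)
  -- invariance
  have hinv : ∀ m ∈ Subgroup.normalizer ((S : Subgroup G) : Set G), m * (u : G) * m⁻¹ = u := by
    intro m hm
    let c : ↥(S : Subgroup G) →* ↥(S : Subgroup G) :=
      { toFun := fun s => ⟨m * s * m⁻¹, hN m hm s s.2⟩
        map_one' := by apply Subtype.ext; simp
        map_mul' := by intro a b; apply Subtype.ext; simp }
    have h1 : c u = u := by
      rw [hu, map_prod]
      rw [← Equiv.prod_comp (MulAction.toPerm (⟨m, hm⟩ :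
        ↥(Subgroup.normalizer ((S : Subgroup G) : Set G)))) f]
      refine Finset.prod_congr rfl (fun q _ => ?_)
      apply Subtype.ext
      show m * ((q.out : G) * t * (q.out : G)⁻¹) * m⁻¹ =
        ((((⟨m, hm⟩ : ↥(Subgroup.normalizer ((S : Subgroup G) : Set G))) • q).out : G)) * t *
        ((((⟨m, hm⟩ : ↥(Subgroup.normalizer ((S : Subgroup G) : Set G))) • q).out : G))⁻¹
      have h2 : (((⟨m, hm⟩ : ↥(Subgroup.normalizer ((S : Subgroup G) : Set G))) • q).out)⁻¹ *
          ((⟨m, hm⟩ : ↥(Subgroup.normalizer ((S : Subgroup G) : Set G))) * q.out) ∈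
          (S : Subgroup G).subgroupOf (Subgroup.normalizer ((S : Subgroup G) : Set G)) := by
        rw [← QuotientGroup.eq, QuotientGroup.out_eq']
        conv_lhs => rw [← QuotientGroup.out_eq' q]
        rfl
      rw [Subgroup.mem_subgroupOf] at h2
      have h3 := hcomm _ h2 t htS
      have h4 : ((((⟨m, hm⟩ : ↥(Subgroup.normalizer ((S : Subgroup G) : Set G))) • q).out)⁻¹ *
          ((⟨m, hm⟩ : ↥(Subgroup.normalizer ((S : Subgroup G) : Set G))) * q.out) :
          ↥(Subgroup.normalizer ((S : Subgroup G) : Set G))) =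
          (((((⟨m, hm⟩ : ↥(Subgroup.normalizer ((S : Subgroup G) : Set G))) • q).out : G))⁻¹ *
          (m * (q.out : G)) : G) := rfl
      rw [h4] at h3
      generalize ((((⟨m, hm⟩ : ↥(Subgroup.normalizer ((S : Subgroup G) : Set G))) • q).out : G))
        = a at h3 ⊢
      generalize (q.out : G) = b at h3 ⊢
      have h5 : m * b * t = a * t * (a⁻¹ * (m * b)) := by
        calc m * b * t = a * (a⁻¹ * (m * b) * t) := by group
          _ = a * (t * (a⁻¹ * (m * b))) := by rw [h3]
          _ = a * t * (a⁻¹ * (m * b)) := by group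
      calc m * (b * t * b⁻¹) * m⁻¹ = (m * b * t) * b⁻¹ * m⁻¹ := by group
        _ = a * t * a⁻¹ := by rw [h5]; group
    exact congrArg Subtype.val h1
  -- transfer
  have key : ∀ (k : ℕ) (g₀ : G), g₀⁻¹ * (u : G) ^ k * g₀ ∈ (S : Subgroup G) →
      g₀⁻¹ * (u : G) ^ k * g₀ = (u : G) ^ k := by
    intro k g₀ h
    obtain ⟨n, hn, hn2⟩ := S.conj_eq_normalizer_conj_of_mem ((u : G) ^ k) g₀
      (pow_mem u.2 k) h
    rw [hn2]
    have h1 := hinv n⁻¹ (inv_mem hn)
    calc n⁻¹ * (u : G) ^ k * n = n⁻¹ * (u : G) ^ k * n⁻¹⁻¹ := by rw [inv_inv]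
      _ = (n⁻¹ * (u : G) * n⁻¹⁻¹) ^ k := conj_pow.symm
      _ = (u : G) ^ k := by rw [h1]
  have hV := MonoidHom.transfer_eq_pow (MonoidHom.id ↥(S : Subgroup G)) (u : G) key
  have hV1 : MonoidHom.transfer (MonoidHom.id ↥(S : Subgroup G)) (u : G) ≠ 1 := by
    rw [hV]
    intro h
    have h1 : (u : G) ^ (S : Subgroup G).index = 1 := congrArg Subtype.val h
    have h2 : orderOf (u : G) ∣ Nat.gcd 2 (S : Subgroup G).index :=
      Nat.dvd_gcd (orderOf_dvd_of_pow_eq_one hu2) (orderOf_dvd_of_pow_eq_one h1)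
    have h3 : Nat.gcd 2 (S : Subgroup G).index = 1 :=
      (Nat.Prime.coprime_iff_not_dvd Nat.prime_two).mpr S.not_dvd_index
    rw [h3, Nat.dvd_one, orderOf_eq_one_iff] at h2
    exact hu1 h2
  obtain ⟨H, hH⟩ := exists_index_two S.2 _ (u : G) hV1
  exact hG H hH

end Cfsg.Agent.S1244
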