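import Cfsg.Statements.S1183
import Mathlib
import Mathlib
import Cfsg.Agent.S1182
import Cfsg.Agent.S1244
import Cfsg.Agent.Lib.Helper6.Dih
import Cfsg.Agent.Lib.Helper5.ThompsonTransfer
import Cfsg.Agent.Lib.Lead.Transfer

set_option autoImplicit false
open Cfsg

namespace Cfsg.Agent.S1183


/-- Let z be an isolated involution of the finite group G and C = C_G(z). Then the subgroup of G generated by its elements of odd order is all of G if and only if the subgroup of C generated by its elements of odd order is all of C. -/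
theorem result {G : Type*} [Group G] [Finite G] (z : G) (hz : Cfsg.IsIsolatedInvolution z) : Cfsg.pResidual 2 G = ⊤ ↔ Cfsg.pResidual 2 ↥(Subgroup.centralizer ({z} : Set G)) = ⊤ := by
  classical
  have hzz : z * z = 1 := by
    have := pow_orderOf_eq_one z
    rwa [hz.1, pow_two] at this
  have hzC : z ∈ Subgroup.centralizer ({z} : Set G) := by
    rw [Subgroup.mem_centralizer_iff]
    intro h hh
    rw [Set.mem_singleton_iff] at hh
    rw [hh]
  have hCmem : ∀ g : G, g ∈ Subgroup.centralizer ({z} : Set G) ↔ z * g = g * z := by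
    intro g
    rw [Subgroup.mem_centralizer_iff]
    constructor
    · intro h; exact h z rfl
    · intro h y hy
      rw [Set.mem_singleton_iff] at hy
      rw [hy]; exact h
  -- the centraliser has odd index
  have hodd : Odd (Subgroup.centralizer ({z} : Set G)).index := by
    have hpg : IsPGroup 2 (Subgroup.zpowers z) :=
      IsPGroup.of_card (n := 1) (by rw [Nat.card_zpowers, hz.1, pow_one])
    have h1 := hpg.card_modEq_card_fixedPoints (G ⧸ Subgroup.centralizer ({z} : Set G))
    have h2 : Nat.card (MulAction.fixedPoints (Subgroup.zpowers z)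
        (G ⧸ Subgroup.centralizer ({z} : Set G))) = 1 := by
      have hall : ∀ q ∈ MulAction.fixedPoints (Subgroup.zpowers z)
          (G ⧸ Subgroup.centralizer ({z} : Set G)),
          q = (QuotientGroup.mk 1 : G ⧸ Subgroup.centralizer ({z} : Set G)) := by
        intro q hq
        obtain ⟨g, rfl⟩ := QuotientGroup.mk_surjective q
        have h3 := hq ⟨z, Subgroup.mem_zpowers z⟩
        have h4 : (QuotientGroup.mk (z * g) : G ⧸ Subgroup.centralizer ({z} : Set G)) =
            QuotientGroup.mk g := h3
        rw [QuotientGroup.eq] at h4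
        have h5 : g⁻¹ * z * g ∈ Subgroup.centralizer ({z} : Set G) := by
          have := inv_mem h4
          have e : ((z * g)⁻¹ * g)⁻¹ = g⁻¹ * z * g := by group
          rwa [e] at this
        have h6 := (hCmem _).mp h5
        have h7 := hz.2 g⁻¹ (by rw [inv_inv]; exact h6)
        rw [inv_inv] at h7
        rw [QuotientGroup.eq, mul_one]
        apply inv_mem
        rw [hCmem]
        have e2 : z * g = g * (g⁻¹ * z * g) := by group
        rw [e2, h7]
      rw [Nat.card_eq_one_iff_unique]
      refine ⟨⟨?_⟩, ⟨⟨QuotientGroup.mk 1, ?_⟩⟩⟩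
      · rintro ⟨a, ha⟩ ⟨b, hb⟩
        apply Subtype.ext
        show a = b
        rw [hall a ha, hall b hb]
      · intro w
        have hw : (w : G) ∈ Subgroup.centralizer ({z} : Set G) :=
          (Subgroup.zpowers_le.mpr hzC) w.2
        show (QuotientGroup.mk ((w : G) * 1) : G ⧸ Subgroup.centralizer ({z} : Set G)) =
          QuotientGroup.mk 1
        rw [QuotientGroup.eq]
        simpa using hw
    rw [h2, ← Subgroup.index_eq_card] at h1
    rw [Nat.odd_iff]
    exact h1
  have hmapR : ∀ c : ↥(Subgroup.centralizer ({z} : Set G)),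
      c ∈ Cfsg.pResidual 2 ↥(Subgroup.centralizer ({z} : Set G)) →
      (c : G) ∈ Cfsg.pResidual 2 G := by
    have hle : Cfsg.pResidual 2 ↥(Subgroup.centralizer ({z} : Set G)) ≤
        (Cfsg.pResidual 2 G).comap (Subgroup.centralizer ({z} : Set G)).subtype := by
      unfold Cfsg.pResidual
      rw [Subgroup.closure_le]
      intro c hc
      have hc' : Nat.Coprime (orderOf c) 2 := hc
      apply Subgroup.subset_closure
      show Nat.Coprime (orderOf (c : G)) 2
      rw [Subgroup.orderOf_coe]
      exact hc'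
    intro c hc
    exact hle hc
  constructor
  · intro hG
    by_contra hC
    haveI hRn := Cfsg.Agent.Lib.Lead.pResidual_normal 2 ↥(Subgroup.centralizer ({z} : Set G))
    obtain ⟨k, hk⟩ := Cfsg.Agent.Lib.Lead.pResidual_index
      (G := ↥(Subgroup.centralizer ({z} : Set G))) 2
    have hQ : IsPGroup 2 (↥(Subgroup.centralizer ({z} : Set G)) ⧸
        Cfsg.pResidual 2 ↥(Subgroup.centralizer ({z} : Set G))) :=
      IsPGroup.of_card (n := k) (by rw [← Subgroup.index_eq_card]; exact hk)
    obtain ⟨u, -, hu⟩ := SetLike.exists_of_lt (lt_top_iff_ne_top.mpr hC)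
    obtain ⟨M₀, hM₀⟩ := Cfsg.Agent.S1244.exists_index_two hQ
      (QuotientGroup.mk' (Cfsg.pResidual 2 ↥(Subgroup.centralizer ({z} : Set G)))) u
      (by
        intro h
        exact hu ((QuotientGroup.eq_one_iff u).mp h))
    haveI hM₀n : M₀.Normal := Subgroup.normal_of_index_eq_two hM₀
    obtain ⟨s₀, -, hs₀⟩ := SetLike.exists_of_lt (lt_top_iff_ne_top.mpr (by
      intro h
      rw [h, Subgroup.index_top] at hM₀
      omega : M₀ ≠ ⊤))
    have hMmem : ∀ (y : G) (hy : y ∈ Subgroup.centralizer ({z} : Set G)),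
        y ∈ M₀.map (Subgroup.centralizer ({z} : Set G)).subtype ↔ (⟨y, hy⟩ : ↥(Subgroup.centralizer ({z} : Set G))) ∈ M₀ := by
      intro y hy
      constructor
      · rintro ⟨m, hm, rfl⟩
        exact hm
      · intro h
        exact ⟨⟨y, hy⟩, h, rfl⟩
    have hpowM : ∀ k : ℕ, s₀ ^ k ∈ M₀ ↔ Even k := by
      intro k
      constructor
      · intro h
        by_contra hk
        obtain ⟨j, rfl⟩ := Nat.not_even_iff_odd.mp hk
        rw [pow_succ, pow_mul] at h
        have h2 : (s₀ ^ 2) ^ j ∈ M₀ := pow_mem (Subgroup.sq_mem_of_index_two hM₀ s₀) j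
        exact hs₀ ((Subgroup.mul_mem_cancel_left _ h2).mp h)
      · rintro ⟨j, rfl⟩
        rw [← two_mul, mul_comm, pow_mul]
        exact Subgroup.sq_mem_of_index_two hM₀ _
    obtain ⟨N, hN, hsN⟩ := Cfsg.Agent.Lib.Helper5.transfer_index_two
      (Subgroup.centralizer ({z} : Set G))
      (M₀.map (Subgroup.centralizer ({z} : Set G)).subtype)
      (by
        show ((M₀.map (Subgroup.centralizer ({z} : Set G)).subtype).comap
          (Subgroup.centralizer ({z} : Set G)).subtype).index = 2
        rw [Subgroup.comap_map_eq_self_of_injective (Subgroup.subtype_injective _)]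
        exact hM₀) hodd (s₀ : G)
      (by
        intro r k _ hmem
        have hsk : (s₀ : G) ^ k ∈ Subgroup.centralizer ({z} : Set G) := pow_mem s₀.2 k
        obtain ⟨c, -, hcz, hc⟩ := Cfsg.Agent.S1182.result z hz ⊤ (by
            rw [Subgroup.mem_normalizer_iff]
            intro h
            simp)
          ((s₀ : G) ^ k) (r⁻¹ * (s₀ : G) ^ k * r) (Subgroup.mem_top _) (Subgroup.mem_top _)
          ((hCmem _).mp hsk).symm ((hCmem _).mp hmem).symm r⁻¹ (Subgroup.mem_top _)
          (by rw [inv_inv])
        have hcC : c ∈ Subgroup.centralizer ({z} : Set G) := (hCmem c).mpr hcz.eq.symm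
        rw [hMmem _ hmem, ← hpowM k]
        have e : (⟨r⁻¹ * (s₀ : G) ^ k * r, hmem⟩ : ↥(Subgroup.centralizer ({z} : Set G))) =
            ⟨c, hcC⟩ * s₀ ^ k * ⟨c, hcC⟩⁻¹ := by
          apply Subtype.ext
          simp only [Subgroup.coe_mul, Subgroup.coe_pow, Subgroup.coe_inv]
          exact hc.symm
        rw [e]
        constructor
        · intro h
          have := hM₀n.conj_mem _ h (⟨c, hcC⟩ : ↥(Subgroup.centralizer ({z} : Set G)))⁻¹
          have e2 : (⟨c, hcC⟩ : ↥(Subgroup.centralizer ({z} : Set G)))⁻¹ *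
              (⟨c, hcC⟩ * s₀ ^ k * ⟨c, hcC⟩⁻¹) * (⟨c, hcC⟩ : ↥(Subgroup.centralizer ({z} : Set G)))⁻¹⁻¹ = s₀ ^ k := by group
          rwa [e2] at this
        · intro h
          exact hM₀n.conj_mem _ h _)
    have h1 := Cfsg.Agent.Lib.Helper6.pResidual_le_of_index_two N hN
    rw [hG, top_le_iff] at h1
    rw [h1, Subgroup.index_top] at hN
    omega
  · intro hC
    haveI hRn := Cfsg.Agent.Lib.Lead.pResidual_normal 2 G
    obtain ⟨k, hk⟩ := Cfsg.Agent.Lib.Lead.pResidual_index (G := G) 2
    have hle : Subgroup.centralizer ({z} : Set G) ≤ Cfsg.pResidual 2 G := by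
      intro c hc
      exact hmapR ⟨c, hc⟩ (by rw [hC]; exact Subgroup.mem_top _)
    have h1 := Subgroup.index_dvd_of_le hle
    rw [hk] at h1
    rcases Nat.eq_zero_or_pos k with h0 | h0
    · rw [h0, pow_zero, Subgroup.index_eq_one] at hk
      exact hk
    · exfalso
      have h2 : 2 ∣ (Subgroup.centralizer ({z} : Set G)).index :=
        dvd_trans (dvd_pow_self 2 (by omega)) h1
      rw [Nat.odd_iff] at hodd
      omega

end Cfsg.Agent.S1183
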