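import Cfsg.Statements.S1184
import Cfsg.Agent.Lib.Helper2.Isolated

set_option autoImplicit false
open Cfsg

namespace Cfsg.Agent.S1184

/-- The elements conjugating `r` to `r` or `r⁻¹` are closed under powers. -/
theorem pm_pow {G : Type*} [Group G] (r q : G)
    (hq : q * r * q⁻¹ = r ∨ q * r * q⁻¹ = r⁻¹) (j : ℕ) :
    q ^ j * r * (q ^ j)⁻¹ = r ∨ q ^ j * r * (q ^ j)⁻¹ = r⁻¹ := by
  induction j with
  | zero => left; simp
  | succ j ih =>
    have e : q ^ (j + 1) * r * (q ^ (j + 1))⁻¹ = q ^ j * (q * r * q⁻¹) * (q ^ j)⁻¹ := by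
      rw [pow_succ]; group
    rw [e]
    rcases hq with hq | hq
    · rw [hq]; exact ih
    · rw [hq]
      have e2 : q ^ j * r⁻¹ * (q ^ j)⁻¹ = (q ^ j * r * (q ^ j)⁻¹)⁻¹ := by group
      rw [e2]
      rcases ih with ih | ih
      · right; rw [ih]
      · left; rw [ih, inv_inv]

open Cfsg.Agent.Lib.Helper2 in
/-- Let z be an isolated involution of the finite group G. If s and t are distinct conjugates of z, then st does not commute with z. -/
theorem result {G : Type*} [Group G] [Finite G] (z : G) (hz : Cfsg.IsIsolatedInvolution z) (g h : G) (hne : g * z * g⁻¹ ≠ h * z * h⁻¹) : ¬ Commute (g * z * g⁻¹ * (h * z * h⁻¹)) z := by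
  intro hcomm
  have hodd := isolated_odd z hz 1 g
  simp only [one_mul, inv_one, mul_one] at hodd
  obtain ⟨j, hj⟩ := hodd
  have hoddr := isolated_odd z hz g h
  have hzz := isolated_sq z hz
  have hzinv : z⁻¹ = z := inv_eq_of_mul_eq_one_left hzz
  have hss := isolated_conj_sq z hz g
  have htt := isolated_conj_sq z hz h
  have hconjz := invol_conj_of_odd z (g * z * g⁻¹) hzz hss j hj
  generalize hs : g * z * g⁻¹ = s at *
  generalize ht : h * z * h⁻¹ = t at *
  have hsinv : s⁻¹ = s := inv_eq_of_mul_eq_one_left hss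
  have htinv : t⁻¹ = t := inv_eq_of_mul_eq_one_left htt
  have hsr : s * (s * t) * s⁻¹ = (s * t)⁻¹ := by
    rw [mul_inv_rev, hsinv, htinv, ← mul_assoc, hss, one_mul]
  have hzr : z * (s * t) * z⁻¹ = s * t := by
    have : s * t * z = z * (s * t) := hcomm
    rw [← this]; group
  have hq : (z * s) * (s * t) * (z * s)⁻¹ = s * t ∨ (z * s) * (s * t) * (z * s)⁻¹ = (s * t)⁻¹ := by
    right
    have e : (z * s) * (s * t) * (z * s)⁻¹ = z * (s * (s * t) * s⁻¹) * z⁻¹ := by group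
    rw [e, hsr]
    have e2 : z * (s * t)⁻¹ * z⁻¹ = (z * (s * t) * z⁻¹)⁻¹ := by group
    rw [e2, hzr]
  have hx := pm_pow (s * t) (z * s) hq j
  generalize (z * s) ^ j = x at hconjz hx
  generalize hr : s * t = r at *
  -- s * r * s⁻¹ = r
  have hsr' : s * r * s⁻¹ = r := by
    rw [← hconjz]
    rcases hx with hx | hx
    · have hx' : x⁻¹ * r * x = r := by
        calc x⁻¹ * r * x = x⁻¹ * (x * r * x⁻¹) * x := by rw [hx]
          _ = r := by group
      have e : x * z * x⁻¹ * r * (x * z * x⁻¹)⁻¹ = x * (z * (x⁻¹ * r * x) * z⁻¹) * x⁻¹ := by group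
      rw [e, hx', hzr, hx]
    · have hx' : x⁻¹ * r * x = r⁻¹ := by
        have : x⁻¹ * r⁻¹ * x = r := by
          calc x⁻¹ * r⁻¹ * x = x⁻¹ * (x * r * x⁻¹) * x := by rw [hx]
            _ = r := by group
        calc x⁻¹ * r * x = (x⁻¹ * r⁻¹ * x)⁻¹ := by group
          _ = r⁻¹ := by rw [this]
      have e : x * z * x⁻¹ * r * (x * z * x⁻¹)⁻¹ = x * (z * (x⁻¹ * r * x) * z⁻¹) * x⁻¹ := by group
      rw [e, hx']
      have e2 : z * r⁻¹ * z⁻¹ = (z * r * z⁻¹)⁻¹ := by group
      rw [e2, hzr]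
      have e3 : x * r⁻¹ * x⁻¹ = (x * r * x⁻¹)⁻¹ := by group
      rw [e3, hx, inv_inv]
  -- r = r⁻¹
  have hrr : r = r⁻¹ := hsr'.symm.trans hsr
  have hr2 : r ^ 2 = 1 := by
    rw [pow_two]
    calc r * r = r * r⁻¹ := by rw [← hrr]
      _ = 1 := mul_inv_cancel r
  have hr1 : r = 1 := by
    have h1 := orderOf_dvd_of_pow_eq_one hr2
    have h2 : Nat.Coprime 2 (orderOf r) := Nat.coprime_two_left.mpr hoddr
    have h3 : orderOf r ∣ Nat.gcd 2 (orderOf r) := Nat.dvd_gcd h1 dvd_rfl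
    rw [h2] at h3
    exact orderOf_eq_one_iff.mp (Nat.dvd_one.mp h3)
  apply hne
  rw [← hr] at hr1
  calc s = s * (t * t) := by rw [htt, mul_one]
    _ = (s * t) * t := by group
    _ = t := by rw [hr1, one_mul]

end Cfsg.Agent.S1184
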