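import Cfsg.Statements.S1185
import Cfsg.Agent.Lib.Helper2.Isolated

set_option autoImplicit false
open Cfsg

namespace Cfsg.Agent.S1185

/-- If `z` (an involution) inverts `k` and `g⁻¹ * k` centralizes `z` then `k^2 = g z g⁻¹ z`. -/
theorem sq_eq {G : Type*} [Group G] (z : G) (hzz : z * z = 1) (g k : G)
    (hinv : z * k * z⁻¹ = k⁻¹) (hc : g⁻¹ * k ∈ Subgroup.centralizer ({z} : Set G)) :
    k ^ 2 = g * z * g⁻¹ * z := by
  have hzinv : z⁻¹ = z := inv_eq_of_mul_eq_one_left hzz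
  rw [Subgroup.mem_centralizer_iff] at hc
  have h1 : z * (g⁻¹ * k) = g⁻¹ * k * z := hc z rfl
  have h2 : g * z * g⁻¹ = k * z * k⁻¹ := by
    calc g * z * g⁻¹ = g * (z * (g⁻¹ * k)) * k⁻¹ := by group
      _ = g * (g⁻¹ * k * z) * k⁻¹ := by rw [h1]
      _ = k * z * k⁻¹ := by group
  have h3 : z * k⁻¹ * z⁻¹ = k := by
    calc z * k⁻¹ * z⁻¹ = (z * k * z⁻¹)⁻¹ := by group
      _ = k := by rw [hinv, inv_inv]
  rw [h2, pow_two]
  calc k * k = k * (z * k⁻¹ * z⁻¹) := by rw [h3]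
    _ = k * z * k⁻¹ * z := by rw [hzinv]; group

open Cfsg.Agent.Lib.Helper2 in
/-- Let z be an isolated involution of the finite group G with centralizer C. Then for every g ∈ G there is exactly one element k in the coset gC that has odd order and is inverted by z. -/
theorem result {G : Type*} [Group G] [Finite G] (z : G) (hz : Cfsg.IsIsolatedInvolution z) (g : G) : ∃! k : G, (Odd (orderOf k) ∧ z * k * z⁻¹ = k⁻¹) ∧ g⁻¹ * k ∈ Subgroup.centralizer ({z} : Set G) := by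
  have hodd := isolated_odd z hz 1 g
  simp only [one_mul, inv_one, mul_one] at hodd
  have hzz := isolated_sq z hz
  have hzinv : z⁻¹ = z := inv_eq_of_mul_eq_one_left hzz
  have hss := isolated_conj_sq z hz g
  obtain ⟨j, hj⟩ := id hodd
  have hconjz := invol_conj_of_odd z (g * z * g⁻¹) hzz hss j hj
  have hsinv : (g * z * g⁻¹)⁻¹ = g * z * g⁻¹ := inv_eq_of_mul_eq_one_left hss
  have hzq : z * (z * (g * z * g⁻¹)) * z⁻¹ = (z * (g * z * g⁻¹))⁻¹ := by
    rw [mul_inv_rev, hsinv, hzinv, ← mul_assoc, hzz, one_mul]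
  have hex : (Odd (orderOf ((z * (g * z * g⁻¹)) ^ j)) ∧
      z * (z * (g * z * g⁻¹)) ^ j * z⁻¹ = ((z * (g * z * g⁻¹)) ^ j)⁻¹) ∧
      g⁻¹ * (z * (g * z * g⁻¹)) ^ j ∈ Subgroup.centralizer ({z} : Set G) := by
    refine ⟨⟨?_, ?_⟩, ?_⟩
    · exact Odd.of_dvd_nat hodd (orderOf_pow_dvd j)
    · exact inv_conj_pow z _ hzq j
    · rw [Subgroup.mem_centralizer_iff]
      intro y hy
      rw [Set.mem_singleton_iff] at hy
      subst hy
      generalize (y * (g * y * g⁻¹)) ^ j = w at hconjz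
      have e : w * y = g * y * g⁻¹ * w := by rw [← hconjz]; group
      rw [mul_assoc, e]; group
  refine ⟨(z * (g * z * g⁻¹)) ^ j, hex, ?_⟩
  rintro k' ⟨⟨hk'odd, hk'inv⟩, hk'c⟩
  apply eq_of_sq_eq_of_odd k' _ hk'odd hex.1.1
  rw [sq_eq z hzz g k' hk'inv hk'c, sq_eq z hzz g _ hex.1.2 hex.2]

end Cfsg.Agent.S1185
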