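import Cfsg.Statements.S1186
import Cfsg.Agent.Lib.Helper2.Isolated
import Cfsg.Agent.S1180
import Cfsg.Agent.S1184
import Cfsg.Agent.S1185

set_option autoImplicit false
open Cfsg

namespace Cfsg.Agent.S1186

open Cfsg.Agent.Lib.Helper2

/-- `z * k` is a conjugate of `z` when `z` inverts the odd-order element `k`. -/
theorem mul_inverted_conj {G : Type*} [Group G] (z k : G)
    (hinv : z * k * z⁻¹ = k⁻¹) (j : ℕ) (hj : orderOf k = 2 * j + 1) :
    k ^ j * z * (k ^ j)⁻¹ = z * k := by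
  rw [pow_conj_of_inv z k hinv j]
  have h1 : k ^ (2 * j) * k = 1 := by rw [← pow_succ, ← hj, pow_orderOf_eq_one]
  have h2 : k ^ (2 * j) = k⁻¹ := eq_inv_of_mul_eq_one_left h1
  rw [h2, ← hinv]; group

/-- The midpoint of `t` and `s t s⁻¹`. -/
noncomputable def mid {G : Type*} [Group G] (s t : G) : G :=
  (t * (s * t * s⁻¹)) ^ ((orderOf (t * (s * t * s⁻¹)) - 1) / 2) * t

theorem mid_props {G : Type*} [Group G] [Finite G] (z : G) (hz : Cfsg.IsIsolatedInvolution z)
    (s : G) (hss : s * s = 1) (g : G) :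
    (∃ y : G, y * z * y⁻¹ = mid s (g * z * g⁻¹)) ∧
    s * mid s (g * z * g⁻¹) = mid s (g * z * g⁻¹) * s ∧
    mid s (g * z * g⁻¹) * (g * z * g⁻¹) * (mid s (g * z * g⁻¹))⁻¹ = s * (g * z * g⁻¹) * s⁻¹ := by
  have hsinv : s⁻¹ = s := inv_eq_of_mul_eq_one_left hss
  have htt := isolated_conj_sq z hz g
  have ht't' := isolated_conj_sq z hz (s * g)
  have hodd := isolated_odd z hz g (s * g)
  have e : s * g * z * (s * g)⁻¹ = s * (g * z * g⁻¹) * s⁻¹ := by group
  rw [e] at ht't' hodd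
  obtain ⟨j, hj⟩ := hodd
  have hmid : mid s (g * z * g⁻¹)
      = (g * z * g⁻¹ * (s * (g * z * g⁻¹) * s⁻¹)) ^ j * (g * z * g⁻¹) := by
    unfold mid
    rw [hj]
    congr 2
    omega
  rw [hmid]
  generalize ht : g * z * g⁻¹ = t at *
  have hst' : s * (s * t * s⁻¹) * s⁻¹ = t := by
    have : s * (s * t * s⁻¹) * s⁻¹ = (s * s) * t * (s * s)⁻¹ := by group
    rw [this, hss]; group
  generalize ht' : s * t * s⁻¹ = t' at *
  have htinv : t⁻¹ = t := inv_eq_of_mul_eq_one_left htt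
  have ht'inv : t'⁻¹ = t' := inv_eq_of_mul_eq_one_left ht't'
  have htq : t * (t * t') * t⁻¹ = (t * t')⁻¹ := by
    rw [mul_inv_rev, htinv, ht'inv, ← mul_assoc, htt, one_mul]
  have hsq : s * (t * t') * s⁻¹ = (t * t')⁻¹ := by
    have : s * (t * t') * s⁻¹ = (s * t * s⁻¹) * (s * t' * s⁻¹) := by group
    rw [this, ht', hst', mul_inv_rev, htinv, ht'inv]
  have hx := invol_conj_of_odd t t' htt ht't' j hj
  have hsX := inv_conj_pow s (t * t') hsq j
  have htX := inv_conj_pow t (t * t') htq j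
  refine ⟨?_, ?_, ?_⟩
  · refine ⟨(t * t') ^ (j * (j + 1)) * g, ?_⟩
    have h1 : (t * t') ^ (j * (j + 1)) * g * z * ((t * t') ^ (j * (j + 1)) * g)⁻¹
        = (t * t') ^ (j * (j + 1)) * (g * z * g⁻¹) * ((t * t') ^ (j * (j + 1)))⁻¹ := by group
    rw [h1, ht, pow_conj_of_inv t (t * t') htq]
    congr 1
    have h2 : 2 * (j * (j + 1)) = (2 * j + 1) * j + j := by ring
    rw [h2, pow_add, pow_mul, ← hj, pow_orderOf_eq_one, one_pow, one_mul]
  · generalize (t * t') ^ j = X at hx hsX htX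
    calc s * (X * t) = (s * X * s⁻¹) * (s * t * s⁻¹) * s := by group
      _ = X⁻¹ * t' * s := by rw [hsX, ht']
      _ = X⁻¹ * (X * t * X⁻¹) * s := by rw [hx]
      _ = t * X⁻¹ * s := by group
      _ = t * (t * X * t⁻¹) * s := by rw [htX]
      _ = (t * t) * X * t⁻¹ * s := by group
      _ = X * t * s := by rw [htt, one_mul, htinv]
  · generalize (t * t') ^ j = X at hx hsX htX
    have : (X * t) * t * (X * t)⁻¹ = X * t * X⁻¹ := by group
    rw [this, hx]

/-- A conjugate of `z` is determined by where it conjugates a given conjugate of `z`. -/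
theorem conj_unique {G : Type*} [Group G] [Finite G] (z : G) (hz : Cfsg.IsIsolatedInvolution z)
    (g h y : G)
    (hEq : (g * z * g⁻¹) * (y * z * y⁻¹) * (g * z * g⁻¹)⁻¹
      = (h * z * h⁻¹) * (y * z * y⁻¹) * (h * z * h⁻¹)⁻¹) :
    g * z * g⁻¹ = h * z * h⁻¹ := by
  by_contra hne
  have hne' : (y⁻¹ * g) * z * (y⁻¹ * g)⁻¹ ≠ (y⁻¹ * h) * z * (y⁻¹ * h)⁻¹ := by
    intro h1
    apply hne
    have e1 : g * z * g⁻¹ = y * ((y⁻¹ * g) * z * (y⁻¹ * g)⁻¹) * y⁻¹ := by group
    have e2 : h * z * h⁻¹ = y * ((y⁻¹ * h) * z * (y⁻¹ * h)⁻¹) * y⁻¹ := by group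
    rw [e1, e2, h1]
  have h1 : ((y⁻¹ * g) * z * (y⁻¹ * g)⁻¹) * z * ((y⁻¹ * g) * z * (y⁻¹ * g)⁻¹)⁻¹
      = ((y⁻¹ * h) * z * (y⁻¹ * h)⁻¹) * z * ((y⁻¹ * h) * z * (y⁻¹ * h)⁻¹)⁻¹ := by
    have e1 : ((y⁻¹ * g) * z * (y⁻¹ * g)⁻¹) * z * ((y⁻¹ * g) * z * (y⁻¹ * g)⁻¹)⁻¹
        = y⁻¹ * ((g * z * g⁻¹) * (y * z * y⁻¹) * (g * z * g⁻¹)⁻¹) * y := by group
    have e2 : ((y⁻¹ * h) * z * (y⁻¹ * h)⁻¹) * z * ((y⁻¹ * h) * z * (y⁻¹ * h)⁻¹)⁻¹
        = y⁻¹ * ((h * z * h⁻¹) * (y * z * y⁻¹) * (h * z * h⁻¹)⁻¹) * y := by group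
    rw [e1, e2, hEq]
  have huu := isolated_conj_sq z hz (y⁻¹ * g)
  have hu := Cfsg.Agent.S1184.result z hz (y⁻¹ * g) (y⁻¹ * h) hne'
  generalize (y⁻¹ * g) * z * (y⁻¹ * g)⁻¹ = u at *
  generalize (y⁻¹ * h) * z * (y⁻¹ * h)⁻¹ = u' at *
  have huinv : u⁻¹ = u := inv_eq_of_mul_eq_one_left huu
  apply hu
  have hc : Commute (u'⁻¹ * u) z := by
    show u'⁻¹ * u * z = z * (u'⁻¹ * u)
    calc u'⁻¹ * u * z = u'⁻¹ * (u * z * u⁻¹) * u := by group
      _ = u'⁻¹ * (u' * z * u'⁻¹) * u := by rw [h1]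
      _ = z * (u'⁻¹ * u) := by group
  have hc' := hc.inv_left
  have e : (u'⁻¹ * u)⁻¹ = u * u' := by rw [mul_inv_rev, inv_inv, huinv]
  rw [e] at hc'
  exact hc'

/-- Let z be an isolated involution of the finite group G, C = C_G(z), K the set of elements of odd order inverted by z, and s an involution of C. Then |G| = |C| · |C_K(sz)| · |C_K(s)|. -/
theorem result {G : Type*} [Group G] [Finite G] (z : G) (hz : Cfsg.IsIsolatedInvolution z) (s : G) (hs : orderOf s = 2) (hsz : Commute s z) : Nat.card G = Nat.card (Subgroup.centralizer ({z} : Set G)) * Nat.card {k : G // Odd (orderOf k) ∧ z * k * z⁻¹ = k⁻¹ ∧ Commute k (s * z)} * Nat.card {k : G // Odd (orderOf k) ∧ z * k * z⁻¹ = k⁻¹ ∧ Commute k s} := by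
  classical
  have := Fintype.ofFinite G
  have hss : s * s = 1 := by
    have := pow_orderOf_eq_one s
    rwa [hs, pow_two] at this
  have hsinv : s⁻¹ = s := inv_eq_of_mul_eq_one_left hss
  have hzz := isolated_sq z hz
  have hzinv : z⁻¹ = z := inv_eq_of_mul_eq_one_left hzz
  -- Step A
  have hA : Nat.card G = Nat.card (Subgroup.centralizer ({z} : Set G)) *
      Nat.card {k : G // Odd (orderOf k) ∧ z * k * z⁻¹ = k⁻¹ ∧ Commute k 1} := by
    rw [← Nat.card_prod]
    symm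
    apply Nat.card_congr
    refine Equiv.ofBijective (fun p : ↥(Subgroup.centralizer ({z} : Set G)) ×
      {k : G // Odd (orderOf k) ∧ z * k * z⁻¹ = k⁻¹ ∧ Commute k 1} => (p.2 : G) * (p.1 : G)) ⟨?_, ?_⟩
    · rintro ⟨⟨c, hc⟩, ⟨k, hk⟩⟩ ⟨⟨c', hc'⟩, ⟨k', hk'⟩⟩ h
      have h' : k * c = k' * c' := h
      have hu := Cfsg.Agent.S1185.result z hz (k * c)
      have h1 : (Odd (orderOf k) ∧ z * k * z⁻¹ = k⁻¹) ∧
          (k * c)⁻¹ * k ∈ Subgroup.centralizer ({z} : Set G) := by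
        refine ⟨⟨hk.1, hk.2.1⟩, ?_⟩
        have e : (k * c)⁻¹ * k = c⁻¹ := by group
        rw [e]; exact inv_mem hc
      have h2 : (Odd (orderOf k') ∧ z * k' * z⁻¹ = k'⁻¹) ∧
          (k * c)⁻¹ * k' ∈ Subgroup.centralizer ({z} : Set G) := by
        refine ⟨⟨hk'.1, hk'.2.1⟩, ?_⟩
        have e : (k * c)⁻¹ * k' = c'⁻¹ := by rw [h']; group
        rw [e]; exact inv_mem hc'
      have hkk : k = k' := hu.unique h1 h2
      subst hkk
      have hcc : c = c' := mul_left_cancel h'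
      subst hcc
      rfl
    · intro g
      obtain ⟨k, ⟨hk, hkc⟩, -⟩ := Cfsg.Agent.S1185.result z hz g
      have hc : k⁻¹ * g ∈ Subgroup.centralizer ({z} : Set G) := by
        have e : k⁻¹ * g = (g⁻¹ * k)⁻¹ := by group
        rw [e]; exact inv_mem hkc
      exact ⟨(⟨k⁻¹ * g, hc⟩, ⟨k, hk.1, hk.2, Commute.one_right k⟩), by simp⟩
  -- Step B
  have hB : ∀ c : G, Commute c z →
      Nat.card {k : G // Odd (orderOf k) ∧ z * k * z⁻¹ = k⁻¹ ∧ Commute k c}
        = (Finset.univ.filter (fun t : G => (∃ g : G, g * z * g⁻¹ = t) ∧ Commute t c)).card := by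
    intro c hc
    rw [Nat.card_eq_fintype_card, Fintype.card_subtype]
    apply Finset.card_bij (fun k _ => z * k)
    · intro k hk
      simp only [Finset.mem_filter, Finset.mem_univ, true_and] at hk ⊢
      obtain ⟨hodd, hinv, hkc⟩ := hk
      obtain ⟨j, hj⟩ := hodd
      exact ⟨⟨k ^ j, mul_inverted_conj z k hinv j hj⟩, hc.symm.mul_left hkc⟩
    · intro a _ b _ h
      exact mul_left_cancel h
    · intro t ht
      simp only [Finset.mem_filter, Finset.mem_univ, true_and] at ht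
      obtain ⟨⟨g, hg⟩, htc⟩ := ht
      refine ⟨z * t, ?_, ?_⟩
      · simp only [Finset.mem_filter, Finset.mem_univ, true_and]
        have htt : t * t = 1 := by rw [← hg]; exact isolated_conj_sq z hz g
        have htinv : t⁻¹ = t := inv_eq_of_mul_eq_one_left htt
        refine ⟨?_, ?_, hc.symm.mul_left htc⟩
        · have := isolated_odd z hz 1 g
          simp only [one_mul, inv_one, mul_one] at this
          rw [hg] at this
          exact this
        · rw [mul_inv_rev, htinv, hzinv]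
          rw [← mul_assoc, hzz, one_mul]
      · rw [← mul_assoc, hzz, one_mul]
  -- Step C
  have hC : (Finset.univ.filter (fun t : G => (∃ g : G, g * z * g⁻¹ = t) ∧ Commute t 1)).card
      = (Finset.univ.filter (fun t : G => (∃ g : G, g * z * g⁻¹ = t) ∧ Commute t s)).card *
        (Finset.univ.filter (fun t : G => (∃ g : G, g * z * g⁻¹ = t) ∧ Commute t (s * z))).card := by
    have hmaps : Set.MapsTo (mid s)
        ((Finset.univ.filter (fun t : G => (∃ g : G, g * z * g⁻¹ = t) ∧ Commute t 1) : Finset G) : Set G)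
        ((Finset.univ.filter (fun t : G => (∃ g : G, g * z * g⁻¹ = t) ∧ Commute t s) : Finset G) : Set G) := by
      intro t ht
      simp only [Finset.coe_filter, Finset.mem_univ, true_and, Set.mem_ofPred_eq] at ht ⊢
      obtain ⟨⟨g, rfl⟩, -⟩ := ht
      obtain ⟨h1, h2, -⟩ := mid_props z hz s hss g
      exact ⟨h1, h2.symm⟩
    rw [Finset.card_eq_sum_card_fiberwise hmaps]
    rw [Finset.sum_congr rfl (fun w hw => ?_), Finset.sum_const, smul_eq_mul]
    simp only [Finset.mem_filter, Finset.mem_univ, true_and] at hw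
    obtain ⟨⟨gw, hgw⟩, hws⟩ := hw
    have hzC : z ∈ Subgroup.centralizer ({s} : Set G) := by
      rw [Subgroup.mem_centralizer_iff]
      intro y hy
      rw [Set.mem_singleton_iff] at hy
      subst hy
      exact hsz.eq
    have hwC : gw * z * gw⁻¹ ∈ Subgroup.centralizer ({s} : Set G) := by
      rw [Subgroup.mem_centralizer_iff]
      intro y hy
      rw [Set.mem_singleton_iff] at hy
      subst hy
      rw [hgw]; exact hws.eq.symm
    obtain ⟨h, hhC, hh⟩ := Cfsg.Agent.S1180.result z hz _ hzC gw hwC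
    rw [hgw] at hh
    rw [Subgroup.mem_centralizer_iff] at hhC
    have hhs : s * h = h * s := hhC s rfl
    have hz' : z = h⁻¹ * w * h := by rw [← hh]; group
    have hs' : s = h⁻¹ * s * h := by
      calc s = h⁻¹ * (h * s) := by group
        _ = h⁻¹ * (s * h) := by rw [hhs]
        _ = h⁻¹ * s * h := by group
    have hsw : h * (s * z) * h⁻¹ = s * w := by
      calc h * (s * z) * h⁻¹ = (h * s) * h⁻¹ * (h * z * h⁻¹) := by group
        _ = (s * h) * h⁻¹ * w := by rw [hhs, hh]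
        _ = s * w := by group
    apply Finset.card_bij (fun t _ => h⁻¹ * t * h)
    · intro t ht
      simp only [Finset.mem_filter, Finset.mem_univ, true_and] at ht ⊢
      obtain ⟨⟨⟨g, rfl⟩, -⟩, hm⟩ := ht
      obtain ⟨-, -, h3⟩ := mid_props z hz s hss g
      rw [hm] at h3
      refine ⟨⟨h⁻¹ * g, by group⟩, ?_⟩
      generalize g * z * g⁻¹ = t at h3
      have hcomm : t * (s * w) = (s * w) * t := by
        have e1 : s * w * t = s * (w * t * w⁻¹) * w := by group
        rw [e1, h3, hsinv]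
        have e2 : s * (s * t * s) * w = (s * s) * t * (s * w) := by group
        rw [e2, hss, one_mul]
      have e1 : s * z = h⁻¹ * (s * w) * h := by
        rw [← hsw]; group
      show h⁻¹ * t * h * (s * z) = s * z * (h⁻¹ * t * h)
      rw [e1]
      calc h⁻¹ * t * h * (h⁻¹ * (s * w) * h) = h⁻¹ * (t * (s * w)) * h := by group
        _ = h⁻¹ * ((s * w) * t) * h := by rw [hcomm]
        _ = h⁻¹ * (s * w) * h * (h⁻¹ * t * h) := by group
    · intro a _ b _ hab
      have h1 : h * (h⁻¹ * a * h) * h⁻¹ = h * (h⁻¹ * b * h) * h⁻¹ := by rw [hab]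
      have ea : h * (h⁻¹ * a * h) * h⁻¹ = a := by group
      have eb : h * (h⁻¹ * b * h) * h⁻¹ = b := by group
      rw [ea, eb] at h1
      exact h1
    · intro v hv
      simp only [Finset.mem_filter, Finset.mem_univ, true_and] at hv
      obtain ⟨⟨gv, rfl⟩, hvc⟩ := hv
      refine ⟨(h * gv) * z * (h * gv)⁻¹, ?_, by group⟩
      simp only [Finset.mem_filter, Finset.mem_univ, true_and]
      refine ⟨⟨⟨h * gv, rfl⟩, Commute.one_right _⟩, ?_⟩
      obtain ⟨⟨y, hy⟩, -, h3⟩ := mid_props z hz s hss (h * gv)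
      have hT : (h * gv) * z * (h * gv)⁻¹ = h * (gv * z * gv⁻¹) * h⁻¹ := by group
      have hv' : (gv * z * gv⁻¹) * (s * z) = (s * z) * (gv * z * gv⁻¹) := hvc.eq
      generalize gv * z * gv⁻¹ = v at hT hv'
      have hTc : (h * gv) * z * (h * gv)⁻¹ * (s * w) = (s * w) * ((h * gv) * z * (h * gv)⁻¹) := by
        rw [hT, ← hsw]
        calc h * v * h⁻¹ * (h * (s * z) * h⁻¹) = h * (v * (s * z)) * h⁻¹ := by group
          _ = h * ((s * z) * v) * h⁻¹ := by rw [hv']
          _ = h * (s * z) * h⁻¹ * (h * v * h⁻¹) := by group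
      have hEq : (y * z * y⁻¹) * ((h * gv) * z * (h * gv)⁻¹) * (y * z * y⁻¹)⁻¹
          = (gw * z * gw⁻¹) * ((h * gv) * z * (h * gv)⁻¹) * (gw * z * gw⁻¹)⁻¹ := by
        rw [hy, hgw, h3]
        generalize (h * gv) * z * (h * gv)⁻¹ = T at hTc
        calc s * T * s⁻¹ = s⁻¹ * T * s := by rw [hsinv]
          _ = s⁻¹ * (T * (s * w)) * w⁻¹ := by group
          _ = s⁻¹ * ((s * w) * T) * w⁻¹ := by rw [hTc]
          _ = w * T * w⁻¹ := by group
      have hfin := conj_unique z hz y gw (h * gv) hEq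
      rw [← hy, hfin, hgw]
  rw [hA, hB 1 (Commute.one_left z), hC, hB s hsz, hB (s * z) (hsz.mul_left (Commute.refl z))]
  ring

end Cfsg.Agent.S1186
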