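import Cfsg.Statements.S1224
import Cfsg.Agent.Lib.Helper2.StrEmb

set_option autoImplicit false
open Cfsg

namespace Cfsg.Agent.S1224

open Cfsg.Agent.Lib.Helper2 Cfsg.Agent.Lib.Helper2.SE

theorem key {G : Type*} [Group G] [Finite G] (H : Subgroup G) (hH : Cfsg.IsStronglyEmbedded H)
    (a b : G) (hab : a⁻¹ * b ∉ H) :
    Nat.card {i : G // orderOf i = 2 ∧ (i * a)⁻¹ * b ∈ H} = Nat.card {t : G // orderOf t = 2 ∧ t ∈ H} := by
  obtain ⟨t₀, ht₀H, ht₀⟩ := exists_invol hH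
  set t := a * t₀ * a⁻¹ with htdef
  have ht : orderOf t = 2 := by rw [htdef, order_conj]; exact ht₀
  have hta : a⁻¹ * t * a ∈ H := by
    have : a⁻¹ * t * a = t₀ := by rw [htdef]; group
    rw [this]; exact ht₀H
  have hmem : ∀ i : G, (i * a)⁻¹ * b ∈ H → b⁻¹ * (i * t * i⁻¹) * b ∈ H := by
    intro i hi
    have h1 : b⁻¹ * i * a ∈ H := by
      have := H.inv_mem hi
      have e : ((i * a)⁻¹ * b)⁻¹ = b⁻¹ * i * a := by group
      rwa [e] at this
    have e : b⁻¹ * (i * t * i⁻¹) * b = (b⁻¹ * i * a) * (a⁻¹ * t * a) * (b⁻¹ * i * a)⁻¹ := by group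
    rw [e]
    exact H.mul_mem (H.mul_mem h1 hta) (H.inv_mem h1)
  have hnf : ∀ i : G, (i * a)⁻¹ * b ∈ H → a⁻¹ * i * a ∉ H := by
    intro i hi h
    apply hab
    have e : a⁻¹ * b = (a⁻¹ * i * a) * ((i * a)⁻¹ * b) := by group
    rw [e]; exact H.mul_mem h hi
  let f : {i : G // orderOf i = 2 ∧ (i * a)⁻¹ * b ∈ H} → {t : G // orderOf t = 2 ∧ t ∈ H} :=
    fun i => ⟨b⁻¹ * (i.1 * t * i.1⁻¹) * b, by rw [order_conj', order_conj]; exact ht, hmem i.1 i.2.2⟩
  apply Nat.card_eq_of_bijective f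
  constructor
  · rintro ⟨i, hi2, hi⟩ ⟨i', hi2', hi'⟩ h
    have h1 : b⁻¹ * (i * t * i⁻¹) * b = b⁻¹ * (i' * t * i'⁻¹) * b := congrArg Subtype.val h
    have h2 : i * t * i⁻¹ = i' * t * i'⁻¹ := by
      have := congrArg (fun z => b * z * b⁻¹) h1
      simpa [mul_assoc] using this
    have := swap_unique hH ht hta hi2 hi2' (hnf i hi) (hnf i' hi') h2 rfl
    exact Subtype.ext this
  · rintro ⟨u', hu2, huH⟩
    have hu : orderOf (b * u' * b⁻¹) = 2 := by rw [order_conj]; exact hu2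
    have hub : b⁻¹ * (b * u' * b⁻¹) * b ∈ H := by
      have : b⁻¹ * (b * u' * b⁻¹) * b = u' := by group
      rw [this]; exact huH
    obtain ⟨s, hs2, hsc, hsab⟩ := exists_swap hH ht hu hta hub hab
    refine ⟨⟨s, hs2, hsab⟩, ?_⟩
    apply Subtype.ext
    show b⁻¹ * (s * t * s⁻¹) * b = u'
    rw [hsc]; group

theorem result {G : Type*} [Group G] [Finite G] (H : Subgroup G) (hH : Cfsg.IsStronglyEmbedded H) (x y : G ⧸ H) (hxy : x ≠ y) : Nat.card {i : G // orderOf i = 2 ∧ i • x = y} = Nat.card {t : G // orderOf t = 2 ∧ t ∈ H} := by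
  induction x using QuotientGroup.induction_on with
  | H a =>
  induction y using QuotientGroup.induction_on with
  | H b =>
  have hab : a⁻¹ * b ∉ H := by
    intro h
    exact hxy (QuotientGroup.eq.mpr h)
  rw [← key H hH a b hab]
  apply Nat.card_congr
  apply Equiv.subtypeEquivRight
  intro i
  rw [MulAction.Quotient.smul_mk, QuotientGroup.eq]
  rfl

end Cfsg.Agent.S1224
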