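import Cfsg.Statements.S1226
import Cfsg.Agent.Lib.Helper2.BSW

set_option autoImplicit false
open Cfsg

namespace Cfsg.Agent.S1226

open Cfsg.Agent.Lib.Helper2 Cfsg.Agent.Lib.Helper2.SE Cfsg.Agent.Lib.Helper2.BSW

theorem ne_bot_of_not_cyclic {G : Type*} [Group G] (T : Subgroup G) (hnc : ¬ IsCyclic T) : T ≠ ⊥ := by
  intro h
  apply hnc
  have : Subsingleton ↥T := by
    rw [h]; infer_instance
  exact isCyclic_of_subsingleton

theorem result {G : Type*} [Group G] [Finite G] (T : Sylow 2 G) (hnc : ¬ IsCyclic (T : Subgroup G)) (hnn : ¬ (T : Subgroup G).Normal) (hC : ∀ t : G, orderOf t = 2 → IsMulCommutative (Subgroup.centralizer ({t} : Set G)) ∧ ∀ c ∈ Subgroup.centralizer ({t} : Set G), c ^ 2 = 1) : Cfsg.IsStronglyEmbedded (Subgroup.normalizer ((T : Subgroup G) : Set G)) := by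
  exact stronglyEmbedded hC T (ne_bot_of_not_cyclic _ hnc) hnn

end Cfsg.Agent.S1226
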