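import Cfsg.Statements.S1228
import Cfsg.Agent.Lib.Helper2.BSW3
import Cfsg.Agent.S1226

set_option autoImplicit false
open Cfsg

namespace Cfsg.Agent.S1228

theorem result {G : Type*} [Group G] [Finite G] (T : Sylow 2 G) (hnc : ¬ IsCyclic (T : Subgroup G)) (hnn : ¬ (T : Subgroup G).Normal) (hC : ∀ t : G, orderOf t = 2 → IsMulCommutative (Subgroup.centralizer ({t} : Set G)) ∧ ∀ c ∈ Subgroup.centralizer ({t} : Set G), c ^ 2 = 1) (u : G) (hu : orderOf u = 2) (huH : u ∉ Subgroup.normalizer ((T : Subgroup G) : Set G)) : Subgroup.normalizer ((Subgroup.normalizer ((T : Subgroup G) : Set G) ⊓ (Subgroup.normalizer ((T : Subgroup G) : Set G)).map (MulAut.conj u).toMonoidHom : Subgroup G) : Set G) = (Subgroup.normalizer ((T : Subgroup G) : Set G) ⊓ (Subgroup.normalizer ((T : Subgroup G) : Set G)).map (MulAut.conj u).toMonoidHom) ⊔ Subgroup.zpowers u ∧ ∀ g : G, ((∀ d ∈ Subgroup.normalizer ((T : Subgroup G) : Set G) ⊓ (Subgroup.normalizer ((T : Subgroup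 G) : Set G)).map (MulAut.conj u).toMonoidHom, d • (QuotientGroup.mk g : G ⧸ Subgroup.normalizer ((T : Subgroup G) : Set G)) = QuotientGroup.mk g) ↔ (QuotientGroup.mk g : G ⧸ Subgroup.normalizer ((T : Subgroup G) : Set G)) = QuotientGroup.mk 1 ∨ (QuotientGroup.mk g : G ⧸ Subgroup.normalizer ((T : Subgroup G) : Set G)) = QuotientGroup.mk u) := by
  have hT := Cfsg.Agent.S1226.ne_bot_of_not_cyclic _ hnc
  have hq := Cfsg.Agent.Lib.Helper2.BSW.two_lt_card_of_not_cyclic T hnc
  refine ⟨Cfsg.Agent.Lib.Helper2.BSW.normalizer_Dg hC T hT hnn hq hu huH, ?_⟩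
  intro g
  have key := Cfsg.Agent.Lib.Helper2.BSW.fixed_iff hC T hT hnn hq (u := u) (g := g) huH
  constructor
  · intro h
    have h' : ∀ d ∈ Cfsg.Agent.Lib.Helper2.BSW.Dg T u, g⁻¹ * d * g ∈ Cfsg.Agent.Lib.Helper2.BSW.HN T := by
      intro d hd
      have := h d hd
      rw [MulAction.Quotient.smul_mk, smul_eq_mul, QuotientGroup.eq] at this
      have e : g⁻¹ * d * g = ((d * g)⁻¹ * g)⁻¹ := by group
      rw [e]; exact Subgroup.inv_mem _ this
    rcases key.mp h' with h1 | h1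
    · left; rw [QuotientGroup.eq, mul_one]; exact Subgroup.inv_mem _ h1
    · right; rw [QuotientGroup.eq]
      have e : g⁻¹ * u = (u⁻¹ * g)⁻¹ := by group
      rw [e]; exact Subgroup.inv_mem _ h1
  · intro h d hd
    have h1 : g ∈ Cfsg.Agent.Lib.Helper2.BSW.HN T ∨ u⁻¹ * g ∈ Cfsg.Agent.Lib.Helper2.BSW.HN T := by
      rcases h with h | h
      · left; rw [QuotientGroup.eq, mul_one] at h; exact (inv_mem_iff).mp h
      · right; rw [QuotientGroup.eq] at h
        have e : u⁻¹ * g = (g⁻¹ * u)⁻¹ := by group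
        rw [e]; exact Subgroup.inv_mem _ h
    have := key.mpr h1 d hd
    rw [MulAction.Quotient.smul_mk, smul_eq_mul, QuotientGroup.eq]
    have e : (d * g)⁻¹ * g = (g⁻¹ * d * g)⁻¹ := by group
    rw [e]; exact Subgroup.inv_mem _ this

end Cfsg.Agent.S1228
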