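import Cfsg.Statements.S1229
import Cfsg.Agent.Lib.Helper2.BSW3
import Cfsg.Agent.S1226

set_option autoImplicit false
open Cfsg

namespace Cfsg.Agent.S1229

open Cfsg.Agent.Lib.Helper2 Cfsg.Agent.Lib.Helper2.SE Cfsg.Agent.Lib.Helper2.BSW

theorem result {G : Type*} [Group G] [Finite G] (T : Sylow 2 G) (hnc : ¬ IsCyclic (T : Subgroup G)) (hnn : ¬ (T : Subgroup G).Normal) (hC : ∀ t : G, orderOf t = 2 → IsMulCommutative (Subgroup.centralizer ({t} : Set G)) ∧ ∀ c ∈ Subgroup.centralizer ({t} : Set G), c ^ 2 = 1) : (∀ x₁ x₂ x₃ y₁ y₂ y₃ : G ⧸ Subgroup.normalizer ((T : Subgroup G) : Set G), x₁ ≠ x₂ → x₁ ≠ x₃ → x₂ ≠ x₃ → y₁ ≠ y₂ → y₁ ≠ y₃ → y₂ ≠ y₃ → ∃ g : G, g • x₁ = y₁ ∧ g • x₂ = y₂ ∧ g • x₃ = y₃) ∧ (∀ g : G, ∀ x₁ x₂ x₃ : G ⧸ Subgroup.normalizer ((T : Subgroup G) : Set G), x₁ ≠ x₂ → x₁ ≠ x₃ → x₂ ≠ x₃ → g • x₁ = x₁ → g • x₂ = x₂ → g • x₃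 = x₃ → g = 1) ∧ (∀ x y : G ⧸ Subgroup.normalizer ((T : Subgroup G) : Set G), x ≠ QuotientGroup.mk 1 → y ≠ QuotientGroup.mk 1 → ∃! t : G, t ∈ T ∧ t • x = y) := by
  have hT := Cfsg.Agent.S1226.ne_bot_of_not_cyclic _ hnc
  have hq := two_lt_card_of_not_cyclic T hnc
  have hSE := stronglyEmbedded hC T hT hnn
  obtain ⟨u, hu2, hu⟩ := exists_invol_not_mem hSE
  obtain ⟨c₀, hc₀T, hc₀2⟩ := exists_invol_T hC T hT hnn
  have hc₀1 : c₀ ≠ 1 := ne_one_of_order_two hc₀2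
  refine ⟨?_, ?_, ?_⟩
  · intro x₁ x₂ x₃ y₁ y₂ y₃ h12 h13 h23 k12 k13 k23
    obtain ⟨g, hg1, hg2, hg3⟩ := normal_form hC T hT hnn hq hu2 hu hc₀T hc₀1 x₁ x₂ x₃ h12 h13 h23
    obtain ⟨k, hk1, hk2, hk3⟩ := normal_form hC T hT hnn hq hu2 hu hc₀T hc₀1 y₁ y₂ y₃ k12 k13 k23
    refine ⟨k⁻¹ * g, ?_, ?_, ?_⟩
    · rw [mul_smul, hg1, ← hk1, inv_smul_smul]
    · rw [mul_smul, hg2, ← hk2, inv_smul_smul]
    · rw [mul_smul, hg3, ← hk3, inv_smul_smul]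
  · intro g x₁ x₂ x₃ h12 h13 h23 f1 f2 f3
    obtain ⟨k, hk1, hk2, hk3⟩ := normal_form hC T hT hnn hq hu2 hu hc₀T hc₀1 x₁ x₂ x₃ h12 h13 h23
    have e1 : (k * g * k⁻¹) • (QuotientGroup.mk 1 : G ⧸ Subgroup.normalizer ((T : Subgroup G) : Set G)) = QuotientGroup.mk 1 := by
      rw [← hk1, mul_smul, mul_smul, inv_smul_smul, f1]
    have e2 : (k * g * k⁻¹) • (QuotientGroup.mk u : G ⧸ Subgroup.normalizer ((T : Subgroup G) : Set G)) = QuotientGroup.mk u := by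
      rw [← hk2, mul_smul, mul_smul, inv_smul_smul, f2]
    have e3 : (k * g * k⁻¹) • (QuotientGroup.mk (c₀ * u) : G ⧸ Subgroup.normalizer ((T : Subgroup G) : Set G)) = QuotientGroup.mk (c₀ * u) := by
      rw [← hk3, mul_smul, mul_smul, inv_smul_smul, f3]
    rw [MulAction.Quotient.smul_mk, smul_eq_mul, QuotientGroup.eq, mul_one, mul_one] at e1
    rw [MulAction.Quotient.smul_mk, smul_eq_mul, QuotientGroup.eq] at e2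
    rw [MulAction.Quotient.smul_mk, smul_eq_mul, QuotientGroup.eq] at e3
    have h1 : k * g * k⁻¹ ∈ HN T := (inv_mem_iff).mp e1
    have h2 : u⁻¹ * (k * g * k⁻¹) * u ∈ HN T := by
      have e : u⁻¹ * (k * g * k⁻¹) * u = ((k * g * k⁻¹ * u)⁻¹ * u)⁻¹ := by group
      rw [e]; exact Subgroup.inv_mem _ e2
    have h3 : (c₀ * u)⁻¹ * (k * g * k⁻¹) * (c₀ * u) ∈ HN T := by
      have e : (c₀ * u)⁻¹ * (k * g * k⁻¹) * (c₀ * u) = ((k * g * k⁻¹ * (c₀ * u))⁻¹ * (c₀ * u))⁻¹ := by group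
      rw [e]; exact Subgroup.inv_mem _ e3
    have := eq_one_of_fix3 hC T hT hnn hu hc₀T hc₀1 h1 h2 h3
    calc g = k⁻¹ * (k * g * k⁻¹) * k := by group
      _ = 1 := by rw [this]; group
  · intro x y hx hy
    exact T_regular hC T hT hnn hq x y hx hy

end Cfsg.Agent.S1229
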