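import Cfsg.Statements.S1231
import Mathlib
import Cfsg.Agent.Lib.Helper6.PSub
import Cfsg.Agent.Lib.Helper6.NormGrow
import Cfsg.Agent.Lib.Helper6.Comm

set_option autoImplicit false
open Cfsg

namespace Cfsg.Agent.S1231

theorem hr_of_map {G G' : Type*} [Group G] [Group G'] {p j : ℕ} (φ : G →* G')
    (hφ : Function.Injective φ) {X : Subgroup G} {Y : Subgroup G'} (hXY : ∀ x ∈ X, φ x ∈ Y)
    (h : ¬ Cfsg.PRankLE p j ↥X) : ¬ Cfsg.PRankLE p j ↥Y := by
  intro hY
  apply h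
  intro A hAc hAe
  let f : ↥X →* ↥Y :=
    { toFun := fun x => ⟨φ x, hXY x x.2⟩
      map_one' := Subtype.ext (map_one φ)
      map_mul' := fun a b => Subtype.ext (map_mul φ (a : G) (b : G)) }
  have hf : Function.Injective f := by
    intro a b hab
    exact Subtype.ext (hφ (congrArg Subtype.val hab))
  have h1 := hY (A.map f) (by
    refine ⟨⟨fun x y => ?_⟩⟩
    obtain ⟨a, ha, hax⟩ := x.2
    obtain ⟨b, hb, hby⟩ := y.2
    apply Subtype.ext
    show (x : ↥Y) * (y : ↥Y) = (y : ↥Y) * (x : ↥Y)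
    rw [← hax, ← hby, ← map_mul, ← map_mul]
    congr 1
    exact congrArg Subtype.val (hAc.is_comm.comm ⟨a, ha⟩ ⟨b, hb⟩)) (by
    rintro _ ⟨a, ha, rfl⟩
    show f a ^ p = 1
    rw [← map_pow f, hAe a ha, map_one])
  rwa [Subgroup.card_map_of_injective hf] at h1

theorem exists_pgroup_of_not_pRankLE {G : Type*} [Group G] {p j : ℕ} (W : Subgroup G)
    (h : ¬ Cfsg.PRankLE p j ↥W) :
    ∃ A : Subgroup G, A ≤ W ∧ IsPGroup p A ∧ ¬ Cfsg.PRankLE p j ↥A := by
  unfold Cfsg.PRankLE at h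
  push Not at h
  obtain ⟨A₀, hc, he, hcard⟩ := h
  refine ⟨A₀.map W.subtype, Subgroup.map_subtype_le A₀, ?_, ?_⟩
  · intro x
    refine ⟨1, ?_⟩
    obtain ⟨a, ha, hax⟩ := x.2
    apply Subtype.ext
    rw [pow_one]
    show (x : G) ^ p = 1
    rw [← hax, ← map_pow, he a ha, map_one]
  · intro hle
    have h1 := hle ⊤ (by
      refine ⟨⟨fun x y => ?_⟩⟩
      obtain ⟨a, ha, hax⟩ := (x : ↥(A₀.map W.subtype)).2
      obtain ⟨b, hb, hby⟩ := (y : ↥(A₀.map W.subtype)).2
      apply Subtype.ext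
      apply Subtype.ext
      show ((x : ↥(A₀.map W.subtype)) : G) * ((y : ↥(A₀.map W.subtype)) : G) =
        ((y : ↥(A₀.map W.subtype)) : G) * ((x : ↥(A₀.map W.subtype)) : G)
      rw [← hax, ← hby, ← map_mul, ← map_mul]
      congr 1
      exact congrArg Subtype.val (hc.is_comm.comm ⟨a, ha⟩ ⟨b, hb⟩)) (by
      intro x _
      obtain ⟨a, ha, hax⟩ := x.2
      apply Subtype.ext
      show (x : G) ^ p = 1
      rw [← hax, ← map_pow, he a ha, map_one])
    rw [Subgroup.card_top, Subgroup.card_map_of_injective W.subtype_injective] at h1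
    omega


/-- Let H be a subgroup of the finite group G, p a prime, k ≥ 1, and P a Sylow p-subgroup of H whose p-rank is at least k. Then N_G(X) ≤ H for every subgroup X of P of p-rank at least k if and only if H ∩ gHg⁻¹ has p-rank less than k for every g ∉ H. -/
theorem result {G : Type*} [Group G] [Finite G] {p : ℕ} [Fact p.Prime] (k : ℕ) (hk : 1 ≤ k) (H : Subgroup G) (P : Sylow p ↥H) (hP : ¬ Cfsg.PRankLE p (k - 1) ↥(P : Subgroup ↥H)) : (∀ X : Subgroup G, X ≤ (P : Subgroup ↥H).map H.subtype → ¬ Cfsg.PRankLE p (k - 1) ↥X → Subgroup.normalizer (X : Set G) ≤ H) ↔ (∀ g : G, g ∉ H → Cfsg.PRankLE p (k - 1) ↥(H ⊓ H.map (MulAut.conj g).toMonoidHom)) := by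
  classical
  have hp : p.Prime := Fact.out
  have hP'p : IsPGroup p ((P : Subgroup ↥H).map H.subtype) := P.2.map _
  have hP'H : (P : Subgroup ↥H).map H.subtype ≤ H := Subgroup.map_subtype_le _
  have hHRP' : ¬ Cfsg.PRankLE p (k - 1) ↥((P : Subgroup ↥H).map H.subtype) :=
    hr_of_map H.subtype H.subtype_injective (fun x hx => ⟨x, hx, rfl⟩) hP
  have hF4 : ∀ Y : Subgroup G, IsPGroup p Y → Y ≤ H →
      ∃ h ∈ H, ∀ y ∈ Y, h * y * h⁻¹ ∈ (P : Subgroup ↥H).map H.subtype := by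
    intro Y hY hYH
    obtain ⟨P₁, hP₁⟩ := (hY.comap_subtype (K := H)).exists_le_sylow
    obtain ⟨h, hh⟩ := MulAction.exists_smul_eq ↥H P₁ P
    refine ⟨h, h.2, fun y hy => ?_⟩
    have h1 : (⟨y, hYH hy⟩ : ↥H) ∈ (P₁ : Subgroup ↥H) := hP₁ (Subgroup.mem_subgroupOf.mpr hy)
    have h2 : h * ⟨y, hYH hy⟩ * h⁻¹ ∈ ((h • P₁ : Sylow p ↥H) : Subgroup ↥H) := by
      rw [Cfsg.Agent.Lib.Helper6.sylow_smul_mem_iff]
      have : h⁻¹ * (h * ⟨y, hYH hy⟩ * h⁻¹) * h = ⟨y, hYH hy⟩ := by group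
      rw [this]; exact h1
    rw [hh] at h2
    exact ⟨_, h2, rfl⟩
  constructor
  · intro h1 g hg
    by_contra hr
    have hb : ∀ X : Subgroup G, IsPGroup p X → X ≤ H → ¬ Cfsg.PRankLE p (k - 1) ↥X →
        Subgroup.normalizer (X : Set G) ≤ H := by
      intro X hX hXH hXr n hn
      obtain ⟨h, hhH, hh⟩ := hF4 X hX hXH
      have hle : X.map (MulAut.conj h).toMonoidHom ≤ (P : Subgroup ↥H).map H.subtype := by
        rintro _ ⟨x, hx, rfl⟩
        exact hh x hx
      have hr' : ¬ Cfsg.PRankLE p (k - 1) ↥(X.map (MulAut.conj h).toMonoidHom) :=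
        hr_of_map (MulAut.conj h).toMonoidHom (MulAut.conj h).injective
          (fun x hx => ⟨x, hx, rfl⟩) hXr
      have h2 := h1 _ hle hr'
      have h3 : h * n * h⁻¹ ∈ Subgroup.normalizer
          ((X.map (MulAut.conj h).toMonoidHom : Subgroup G) : Set G) := by
        apply Cfsg.Agent.Lib.Helper6.mem_normalizer_of_conj_mem
        rintro _ ⟨x, hx, rfl⟩
        refine ⟨n * x * n⁻¹, (Subgroup.mem_normalizer_iff.mp hn x).mp hx, ?_⟩
        simp only [MulEquiv.coe_toMonoidHom, MulAut.conj_apply]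
        group
      have h4 := h2 h3
      have h5 : n = h⁻¹ * (h * n * h⁻¹) * h := by group
      rw [h5]
      exact H.mul_mem (H.mul_mem (H.inv_mem hhH) h4) hhH
    have hclaim : ∀ R : Subgroup G, IsPGroup p R →
        ¬ Cfsg.PRankLE p (k - 1) ↥(R ⊓ H : Subgroup G) → R ≤ H := by
      intro R hR hRr
      by_contra hRH
      have hlt : R ⊓ H < R := lt_of_le_of_ne inf_le_left (fun h => hRH (h ▸ inf_le_right))
      obtain ⟨x, hxR, hxN, hxD⟩ := Cfsg.Agent.Lib.Helper6.exists_mem_normalizer_not_mem hR hlt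
      have := hb (R ⊓ H) (hR.to_le inf_le_left) inf_le_right hRr hxN
      exact hxD ⟨hxR, this⟩
    obtain ⟨A, hAW, hAp, hAr⟩ := exists_pgroup_of_not_pRankLE _ hr
    have hAH : A ≤ H := hAW.trans inf_le_left
    have hAg : ∀ a ∈ A, g⁻¹ * a * g ∈ H := by
      intro a ha
      obtain ⟨y, hy, hya⟩ := (hAW ha).2
      have h5 : g⁻¹ * a * g = y := by
        rw [← hya]
        simp only [MulEquiv.coe_toMonoidHom, MulAut.conj_apply]
        group
      rw [h5]; exact hy
    have hBp : IsPGroup p (A.map (MulAut.conj g⁻¹).toMonoidHom) := hAp.map _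
    obtain ⟨S₂, hS₂⟩ := hBp.exists_le_sylow
    have hS₂H : (S₂ : Subgroup G) ≤ H := by
      apply hclaim _ S₂.2
      apply hr_of_map (MonoidHom.id G) Function.injective_id
        (X := A.map (MulAut.conj g⁻¹).toMonoidHom) ?_
        (hr_of_map (MulAut.conj g⁻¹).toMonoidHom (MulAut.conj g⁻¹).injective
          (fun x hx => ⟨x, hx, rfl⟩) hAr)
      rintro _ ⟨a, ha, rfl⟩
      refine ⟨hS₂ ⟨a, ha, rfl⟩, ?_⟩
      have := hAg a ha
      simpa [MulAut.conj_apply] using this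
    have hS₃H : ((g • S₂ : Sylow p G) : Subgroup G) ≤ H := by
      apply hclaim _ (g • S₂).2
      apply hr_of_map (MonoidHom.id G) Function.injective_id (X := A) ?_ hAr
      intro a ha
      refine ⟨?_, hAH ha⟩
      show a ∈ ((g • S₂ : Sylow p G) : Subgroup G)
      rw [Cfsg.Agent.Lib.Helper6.sylow_smul_mem_iff]
      exact hS₂ ⟨a, ha, by simp⟩
    obtain ⟨h₂, hh₂H, hh₂⟩ := hF4 _ S₂.2 hS₂H
    obtain ⟨h₃, hh₃H, hh₃⟩ := hF4 _ (g • S₂).2 hS₃H
    have heq : (S₂ : Subgroup G).map (MulAut.conj h₂).toMonoidHom =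
        (P : Subgroup ↥H).map H.subtype := by
      apply Subgroup.eq_of_le_of_card_ge
      · rintro _ ⟨y, hy, rfl⟩; exact hh₂ y hy
      · rw [Subgroup.card_map_of_injective (f := (MulAut.conj h₂).toMonoidHom)
          (K := (S₂ : Subgroup G)) (MulAut.conj h₂).injective]
        obtain ⟨S₀, hS₀⟩ := hP'p.exists_le_sylow
        calc Nat.card ((P : Subgroup ↥H).map H.subtype) ≤ Nat.card (S₀ : Subgroup G) :=
              Subgroup.card_le_of_le hS₀
          _ = Nat.card (S₂ : Subgroup G) := by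
              rw [Sylow.card_eq_multiplicity, Sylow.card_eq_multiplicity]
    have hnN : h₃ * g * h₂⁻¹ ∈ Subgroup.normalizer
        (((P : Subgroup ↥H).map H.subtype : Subgroup G) : Set G) := by
      apply Cfsg.Agent.Lib.Helper6.mem_normalizer_of_conj_mem
      intro z hz
      rw [← heq] at hz
      obtain ⟨y, hy, rfl⟩ := hz
      have h5 : g * y * g⁻¹ ∈ ((g • S₂ : Sylow p G) : Subgroup G) := by
        rw [Cfsg.Agent.Lib.Helper6.sylow_smul_mem_iff]
        have : g⁻¹ * (g * y * g⁻¹) * g = y := by group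
        rw [this]; exact hy
      have h6 := hh₃ _ h5
      have h8 : h₃ * g * h₂⁻¹ * (MulAut.conj h₂).toMonoidHom y * (h₃ * g * h₂⁻¹)⁻¹ =
          h₃ * (g * y * g⁻¹) * h₃⁻¹ := by
        simp only [MulEquiv.coe_toMonoidHom, MulAut.conj_apply]
        group
      rw [← heq, h8, heq]
      exact h6
    have h7 := h1 _ le_rfl hHRP' hnN
    apply hg
    have h9 : g = h₃⁻¹ * (h₃ * g * h₂⁻¹) * h₂ := by group
    rw [h9]
    exact H.mul_mem (H.mul_mem (H.inv_mem hh₃H) h7) hh₂H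
  · intro h2 X hXP hXr n hn
    by_contra hnH
    have h3 := h2 n hnH
    apply hr_of_map (MonoidHom.id G) Function.injective_id (X := X) ?_ hXr h3
    intro x hx
    refine ⟨hP'H (hXP hx), ?_⟩
    have h4 : n⁻¹ * x * n ∈ X := by
      have := (Subgroup.mem_normalizer_iff.mp (inv_mem hn) x).mp hx
      simpa using this
    refine ⟨n⁻¹ * x * n, hP'H (hXP h4), ?_⟩
    simp only [MulEquiv.coe_toMonoidHom, MulAut.conj_apply, MonoidHom.id_apply]
    group

end Cfsg.Agent.S1231
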