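import Cfsg.Statements.S1236
import Mathlib
import Cfsg.Agent.Lib.Helper6.Dih
import Cfsg.Agent.Lib.Helper7.QD

set_option autoImplicit false
open Cfsg

namespace Cfsg.Agent.S1236

theorem uniq_invol36 {D : Type*} [Group D] (ρ : D) :
    ∀ c ∈ Subgroup.zpowers ρ, ∀ c' ∈ Subgroup.zpowers ρ, c * c = 1 → c' * c' = 1 →
      c ≠ 1 → c' ≠ 1 → c = c' := by
  intro c hc c' hc' h1 h2 hn1 hn2
  obtain ⟨a, rfl⟩ := Subgroup.mem_zpowers_iff.mp hc
  obtain ⟨b, rfl⟩ := Subgroup.mem_zpowers_iff.mp hc'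
  rw [← zpow_add] at h1 h2
  have hd1 : (orderOf ρ : ℤ) ∣ a + a := orderOf_dvd_iff_zpow_eq_one.mpr h1
  have hd2 : (orderOf ρ : ℤ) ∣ b + b := orderOf_dvd_iff_zpow_eq_one.mpr h2
  have hnd1 : ¬ (orderOf ρ : ℤ) ∣ a := fun h => hn1 (orderOf_dvd_iff_zpow_eq_one.mp h)
  have hnd2 : ¬ (orderOf ρ : ℤ) ∣ b := fun h => hn2 (orderOf_dvd_iff_zpow_eq_one.mp h)
  obtain ⟨k, hk⟩ := hd1
  obtain ⟨k', hk'⟩ := hd2
  rcases Int.even_or_odd' k with ⟨j, rfl | rfl⟩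
  · exact absurd ⟨j, by linarith⟩ hnd1
  · rcases Int.even_or_odd' k' with ⟨l, rfl | rfl⟩
    · exact absurd ⟨l, by linarith⟩ hnd2
    · have h3 : a - b = (orderOf ρ : ℤ) * (j - l) := by linarith
      have h4 : ρ ^ (a - b) = 1 := orderOf_dvd_iff_zpow_eq_one.mp ⟨j - l, h3⟩
      rw [zpow_sub] at h4
      exact mul_inv_eq_one.mp h4

theorem zp_sq36 {G : Type*} [Group G] (x y : G) (hx : x * x = 1)
    (hy : y ∈ Subgroup.zpowers x) : y = 1 ∨ y = x := by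
  obtain ⟨k, rfl⟩ := Subgroup.mem_zpowers_iff.mp hy
  have hx2 : x ^ (2 : ℤ) = 1 := by rw [zpow_two]; exact hx
  rcases Int.even_or_odd' k with ⟨j, rfl | rfl⟩
  · left; rw [zpow_mul, hx2, one_zpow]
  · right; rw [zpow_add, zpow_mul, hx2, one_zpow, one_mul, zpow_one]

theorem exists_not_mem36 {R : Type*} [Group R] [Finite R] (A : Subgroup R) (hA8 : Nat.card A = 8)
    (s : Set R) (hs : s.ncard ≤ 4) : ∃ b ∈ A, b ∉ s := by
  by_contra hcon
  push_neg at hcon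
  have hsub : (A : Set R) ⊆ s := fun b hb => hcon b hb
  have h1 := Set.ncard_le_ncard hsub (Set.toFinite s)
  have h2 : (A : Set R).ncard = 8 := by
    rw [← Nat.card_coe_set_eq]; exact hA8
  omega

theorem ncard4_36 {R : Type*} (p q r u : R) :
    (insert p (insert q (insert r ({u} : Set R)))).ncard ≤ 4 := by
  have h1 : ({u} : Set R).ncard = 1 := Set.ncard_singleton _
  have h2 := Set.ncard_insert_le r ({u} : Set R)
  have h3 := Set.ncard_insert_le q (insert r ({u} : Set R))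
  have h4 := Set.ncard_insert_le p (insert q (insert r ({u} : Set R)))
  omega

theorem exists4_36 {R : Type*} [Group R] [Finite R] (A : Subgroup R) (hA8 : Nat.card A = 8)
    (p q r u : R) : ∃ b ∈ A, b ≠ p ∧ b ≠ q ∧ b ≠ r ∧ b ≠ u := by
  obtain ⟨b, hb, hbs⟩ := exists_not_mem36 A hA8 _ (ncard4_36 p q r u)
  simp only [Set.mem_insert_iff, Set.mem_singleton_iff, not_or] at hbs
  exact ⟨b, hb, hbs⟩

theorem centr_mem36 {D : Type*} [Group D] (X Ā : Subgroup D)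
    (hb : ∀ d₁ d₂ : D, d₁ ∉ X → d₂ ∉ X → d₁ * d₂ ∈ X)
    (ha : ∀ d : D, d ∉ X → ∀ c ∈ X, c * d = d * c → c * c = 1)
    (hc : ∀ c ∈ X, ∀ c' ∈ X, c * c = 1 → c' * c' = 1 → c ≠ 1 → c' ≠ 1 → c = c')
    (hsq : ∀ a ∈ Ā, a * a = 1)
    (h3 : ∀ w : D, ∃ a ∈ Ā, a ≠ 1 ∧ a ≠ w)
    (g : D) (hg : ∀ a ∈ Ā, g * a = a * g) : g ∈ Ā := by
  obtain ⟨w, hwA, hwX⟩ : ∃ w ∈ Ā, w ∉ X := by
    by_contra hcon
    push_neg at hcon
    obtain ⟨a₁, ha₁, ha₁1, -⟩ := h3 1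
    obtain ⟨a₂, ha₂, ha₂1, ha₂a⟩ := h3 a₁
    exact ha₂a (hc a₂ (hcon a₂ ha₂) a₁ (hcon a₁ ha₁) (hsq a₂ ha₂) (hsq a₁ ha₁) ha₂1 ha₁1)
  obtain ⟨z, hzA, hzX, hz1⟩ : ∃ z ∈ Ā, z ∈ X ∧ z ≠ 1 := by
    obtain ⟨a, haA, ha1, haw⟩ := h3 w
    by_cases haX : a ∈ X
    · exact ⟨a, haA, haX, ha1⟩
    · refine ⟨a * w, Ā.mul_mem haA hwA, hb a w haX hwX, ?_⟩
      intro h1
      exact haw (mul_right_cancel (h1.trans (hsq w hwA).symm))
  have hzz := hsq z hzA
  have hww := hsq w hwA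
  by_cases hgX : g ∈ X
  · have hgg : g * g = 1 := ha w hwX g hgX (hg w hwA)
    by_cases hg1 : g = 1
    · rw [hg1]; exact Ā.one_mem
    · rw [hc g hgX z hzX hgg hzz hg1 hz1]; exact hzA
  · have hwgX : w * g ∈ X := hb w g hwX hgX
    have hcm : w * g * w = w * (w * g) := by rw [mul_assoc, hg w hwA]
    have hsq' : w * g * (w * g) = 1 := ha w hwX (w * g) hwgX hcm
    by_cases hwg1 : w * g = 1
    · have h6 : g = w⁻¹ := eq_inv_of_mul_eq_one_right hwg1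
      rw [h6]; exact Ā.inv_mem hwA
    · have h5 := hc (w * g) hwgX z hzX hsq' hzz hwg1 hz1
      have h6 : g = w⁻¹ * z := by rw [← h5, inv_mul_cancel_left]
      rw [h6]; exact Ā.mul_mem (Ā.inv_mem hwA) hzA

theorem dih_props36 {D : Type*} [Group D] (m : ℕ) (e : D ≃* DihedralGroup m) :
    ∃ X : Subgroup D, (∀ d₁ d₂ : D, d₁ ∉ X → d₂ ∉ X → d₁ * d₂ ∈ X) ∧
      (∀ d : D, d ∉ X → ∀ c ∈ X, c * d = d * c → c * c = 1) ∧
      (∀ c ∈ X, ∀ c' ∈ X, c * c = 1 → c' * c' = 1 → c ≠ 1 → c' ≠ 1 → c = c') := by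
  have hdl := (Cfsg.Agent.Lib.Helper6.dihLike_of_equiv (⊤ : Subgroup D) m
    (Subgroup.topEquiv.trans e)).1
  obtain ⟨ρ, hdl'⟩ : ∃ ρ : D, Cfsg.Agent.Lib.Helper6.DihLike (⊤ : Subgroup D) ρ := ⟨_, hdl⟩
  obtain ⟨-, hD2, hD3⟩ := hdl'
  refine ⟨Subgroup.zpowers ρ, fun d₁ d₂ h1 h2 =>
    hD3 d₁ (Subgroup.mem_top _) d₂ (Subgroup.mem_top _) h1 h2, ?_, uniq_invol36 ρ⟩
  intro d hd c hc hcomm
  have hcd : c * d ∉ Subgroup.zpowers ρ := fun h => hd (by
    have h' := Subgroup.mul_mem _ (Subgroup.inv_mem _ hc) h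
    rwa [inv_mul_cancel_left] at h')
  have h1 := hD2 (c * d) (Subgroup.mem_top _) hcd
  have h2 := hD2 d (Subgroup.mem_top _) hd
  rw [pow_two] at h1 h2
  have h3 : c * d * (c * d) = c * c * (d * d) := by
    rw [mul_assoc c d (c * d), ← mul_assoc d c d, ← hcomm, mul_assoc c d d,
      ← mul_assoc c c (d * d)]
  rw [h3, h2, mul_one] at h1
  exact h1

theorem qd_props36 {D : Type*} [Group D] [Finite D] (hS : Cfsg.IsQuasiDihedral D) :
    ∃ X : Subgroup D, (∀ d₁ d₂ : D, d₁ ∉ X → d₂ ∉ X → d₁ * d₂ ∈ X) ∧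
      (∀ d : D, d ∉ X → ∀ c ∈ X, c * d = d * c → c * c = 1) ∧
      (∀ c ∈ X, ∀ c' ∈ X, c * c = 1 → c' * c' = 1 → c ≠ 1 → c' ≠ 1 → c = c') := by
  have hS' := hS
  obtain ⟨n, hn3, hcard, -⟩ := hS'
  obtain ⟨-, M, x, y, -, hMpos, -, -, hx, -, hyx, -, hidx, hsurj, -⟩ :=
    Cfsg.Agent.Lib.Helper7.QD.qd_structure hS n hcard
  refine ⟨Subgroup.zpowers x, ?_, ?_, uniq_invol36 x⟩
  · intro d₁ d₂ h1 h2
    exact (Subgroup.mul_mem_iff_of_index_two hidx).mpr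
      ⟨fun h => absurd h h1, fun h => absurd h h2⟩
  · intro d hd c hc hcomm
    obtain ⟨s, rfl⟩ := Subgroup.mem_zpowers_iff.mp hc
    rcases hsurj d with ⟨t, rfl⟩ | ⟨t, rfl⟩
    · exact absurd (Subgroup.zpow_mem_zpowers x t) hd
    · have hconj : y * x ^ s * y⁻¹ = (x ^ (4 * M - 1)) ^ s := by
        rw [← hyx, conj_zpow]
      have h1 : y * x ^ s = (x ^ (4 * M - 1)) ^ s * y := by
        rw [← hconj, inv_mul_cancel_right]
      have h2 : x ^ s * (y * x ^ t) = (x ^ (4 * M - 1)) ^ s * (y * x ^ t) := by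
        rw [hcomm, mul_assoc y, ← zpow_add, add_comm t s, zpow_add, ← mul_assoc y, h1,
          mul_assoc]
      have h3 : x ^ s = (x ^ (4 * M - 1)) ^ s := mul_right_cancel h2
      have h4 : x ^ ((((4 * M - 1 : ℕ) : ℤ)) * s - s) = 1 := by
        rw [zpow_sub, zpow_mul, zpow_natCast, ← h3, mul_inv_cancel]
      have h5 := orderOf_dvd_iff_zpow_eq_one.mpr h4
      rw [hx] at h5
      obtain ⟨q, hq⟩ := h5
      have hE : (((4 * M - 1 : ℕ) : ℤ)) = 4 * (M : ℤ) - 1 := by omega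
      rw [hE] at hq
      have h6 : s + s = ((8 * M : ℕ) : ℤ) * ((M : ℤ) * s - (2 * (M : ℤ) + 1) * q) := by
        push_cast at hq ⊢
        linear_combination (-(2 * (M : ℤ) + 1)) * hq
      have h7 : x ^ (s + s) = 1 :=
        orderOf_dvd_iff_zpow_eq_one.mp (by rw [hx]; exact ⟨_, h6⟩)
      rw [zpow_add] at h7
      exact h7

/-- Let R be a finite group, t a central involution of R such that R ⧸ ⟨t⟩ is dihedral (of order ≥ 4) or quasi-dihedral, and A ≤ R an elementary abelian subgroup of order 8 containing t. Then C_R(A) = A. -/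
theorem result {R : Type*} [Group R] [Finite R] (t : R) (ht : orderOf t = 2) (htz : t ∈ Subgroup.center R) [(Subgroup.zpowers t).Normal] (hq : (∃ m : ℕ, 2 ≤ m ∧ Nonempty (R ⧸ Subgroup.zpowers t ≃* DihedralGroup m)) ∨ Cfsg.IsQuasiDihedral (R ⧸ Subgroup.zpowers t)) (A : Subgroup R) (hA : Cfsg.IsElementaryAbelian 2 A) (hA8 : Nat.card A = 8) (htA : t ∈ A) : Subgroup.centralizer (A : Set R) = A := by
  classical
  obtain ⟨hc, he⟩ := hA
  have htt : t * t = 1 := by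
    have h := pow_orderOf_eq_one t
    rw [ht, pow_two] at h
    exact h
  have hsqA : ∀ x ∈ A.map (QuotientGroup.mk' (Subgroup.zpowers t)), x * x = 1 := by
    intro x hx
    obtain ⟨a, haA, rfl⟩ := Subgroup.mem_map.mp hx
    rw [← map_mul]
    have haa : a * a = 1 := by
      have h := he a haA
      rwa [pow_two] at h
    rw [haa, map_one]
  have h3 : ∀ w : R ⧸ Subgroup.zpowers t,
      ∃ a ∈ A.map (QuotientGroup.mk' (Subgroup.zpowers t)), a ≠ 1 ∧ a ≠ w := by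
    intro w
    obtain ⟨a, haA, ha1, hat, -, -⟩ := exists4_36 A hA8 1 t 1 1
    have hπa : (QuotientGroup.mk a : R ⧸ Subgroup.zpowers t) ≠ 1 := by
      intro h
      rcases zp_sq36 t a htt ((QuotientGroup.eq_one_iff a).mp h) with h' | h'
      · exact ha1 h'
      · exact hat h'
    by_cases hw : (QuotientGroup.mk a : R ⧸ Subgroup.zpowers t) = w
    · obtain ⟨b, hbA, hb1, hbt, hba, hbat⟩ := exists4_36 A hA8 1 t a (a * t)
      refine ⟨QuotientGroup.mk b, Subgroup.mem_map.mpr ⟨b, hbA, rfl⟩, ?_, ?_⟩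
      · intro h
        rcases zp_sq36 t b htt ((QuotientGroup.eq_one_iff b).mp h) with h' | h'
        · exact hb1 h'
        · exact hbt h'
      · intro h
        rw [← hw] at h
        have h' : a⁻¹ * b ∈ Subgroup.zpowers t := QuotientGroup.eq.mp h.symm
        rcases zp_sq36 t _ htt h' with h'' | h''
        · exact hba (inv_mul_eq_one.mp h'').symm
        · exact hbat (inv_mul_eq_iff_eq_mul.mp h'')
    · exact ⟨QuotientGroup.mk a, Subgroup.mem_map.mpr ⟨a, haA, rfl⟩, hπa, hw⟩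
  have hX : ∃ X : Subgroup (R ⧸ Subgroup.zpowers t),
      (∀ d₁ d₂ : R ⧸ Subgroup.zpowers t, d₁ ∉ X → d₂ ∉ X → d₁ * d₂ ∈ X) ∧
      (∀ d : R ⧸ Subgroup.zpowers t, d ∉ X → ∀ c ∈ X, c * d = d * c → c * c = 1) ∧
      (∀ c ∈ X, ∀ c' ∈ X, c * c = 1 → c' * c' = 1 → c ≠ 1 → c' ≠ 1 → c = c') := by
    rcases hq with ⟨m, -, ⟨e⟩⟩ | hQD
    · exact dih_props36 m e
    · exact qd_props36 hQD
  obtain ⟨X, hXb, hXa, hXc⟩ := hX
  apply le_antisymm
  · intro c hcc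
    have hc' : ∀ a ∈ A, a * c = c * a := fun a ha => Subgroup.mem_centralizer_iff.mp hcc a ha
    have hg : ∀ a ∈ A.map (QuotientGroup.mk' (Subgroup.zpowers t)),
        (QuotientGroup.mk c : R ⧸ Subgroup.zpowers t) * a = a * QuotientGroup.mk c := by
      intro a ha
      obtain ⟨a', ha'A, rfl⟩ := Subgroup.mem_map.mp ha
      show (QuotientGroup.mk c : R ⧸ Subgroup.zpowers t) * QuotientGroup.mk a'
        = QuotientGroup.mk a' * QuotientGroup.mk c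
      rw [← QuotientGroup.mk_mul, ← QuotientGroup.mk_mul, hc' a' ha'A]
    have hmem := centr_mem36 X _ hXb hXa hXc hsqA h3 _ hg
    obtain ⟨a, haA, hac⟩ := Subgroup.mem_map.mp hmem
    have hac' : (QuotientGroup.mk a : R ⧸ Subgroup.zpowers t) = QuotientGroup.mk c := hac
    have h1 : a⁻¹ * c ∈ Subgroup.zpowers t := QuotientGroup.eq.mp hac'
    have h2 : a⁻¹ * c ∈ A := (Subgroup.zpowers_le.mpr htA) h1
    have h4 := A.mul_mem haA h2
    rwa [mul_inv_cancel_left] at h4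
  · intro a ha
    rw [Subgroup.mem_centralizer_iff]
    intro b hb
    exact congrArg Subtype.val (hc.is_comm.comm ⟨b, hb⟩ ⟨a, ha⟩)

end Cfsg.Agent.S1236
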