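import Cfsg.Statements.S1241
import Mathlib

set_option autoImplicit false
open Cfsg

namespace Cfsg.Agent.S1241


/-- Let G be a finite group, p a prime, H a subgroup of index prime to p, K a subgroup of H normal in H with H/K commutative, and g ∈ H ∖ K an element of p-power order such that for all integers m and all a ∈ G with a g^m a⁻¹ ∈ H one has a g^m a⁻¹ ∈ g^m K. Then g ∉ G'. -/
theorem result {G : Type*} [Group G] [Finite G] {p : ℕ} [Fact p.Prime] (H K : Subgroup G) (hHK : K ≤ H) (hKn : (K.subgroupOf H).Normal) (hab : ∀ x ∈ H, ∀ y ∈ H, x * y * x⁻¹ * y⁻¹ ∈ K) (hidx : Nat.Coprime p H.index) (g : G) (hgH : g ∈ H) (hgK : g ∉ K) (hgp : ∃ k : ℕ, orderOf g = p ^ k) (hctrl : ∀ (m : ℤ) (a : G), a * g ^ m * a⁻¹ ∈ H → (a * g ^ m * a⁻¹) * (g ^ m)⁻¹ ∈ K) : g ∉ commutator G := by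
  classical
  haveI : (K.subgroupOf H).Normal := hKn
  letI : CommGroup (↥H ⧸ K.subgroupOf H) :=
    { (inferInstance : Group (↥H ⧸ K.subgroupOf H)) with
      mul_comm := by
        intro a b
        obtain ⟨a, rfl⟩ := QuotientGroup.mk'_surjective (K.subgroupOf H) a
        obtain ⟨b, rfl⟩ := QuotientGroup.mk'_surjective (K.subgroupOf H) b
        have h1 : QuotientGroup.mk' (K.subgroupOf H) (a * b * a⁻¹ * b⁻¹) = 1 :=
          (QuotientGroup.eq_one_iff _).mpr
            (Subgroup.mem_subgroupOf.mpr (hab a a.2 b b.2))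
        rw [map_mul, map_mul, map_mul, map_inv, map_inv] at h1
        have h2 := congrArg (· * (QuotientGroup.mk' (K.subgroupOf H) b *
          QuotientGroup.mk' (K.subgroupOf H) a)) h1
        simp only [one_mul] at h2
        rw [← h2]; group }
  let ϕ : ↥H →* ↥H ⧸ K.subgroupOf H := QuotientGroup.mk' (K.subgroupOf H)
  have hϕ : ∀ (y : G) (hy : y ∈ H), ϕ ⟨y, hy⟩ = 1 ↔ y ∈ K := by
    intro y hy
    exact (QuotientGroup.eq_one_iff _).trans Subgroup.mem_subgroupOf
  intro hgc
  have hker : MonoidHom.transfer ϕ g = 1 := by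
    have : commutator G ≤ (MonoidHom.transfer ϕ).ker := Abelianization.commutator_subset_ker _
    exact this hgc
  haveI : Fintype (Quotient (MulAction.orbitRel (Subgroup.zpowers g) (G ⧸ H))) :=
    Fintype.ofFinite _
  have hV : MonoidHom.transfer ϕ g = ϕ ⟨g, hgH⟩ ^ H.index := by
    letI := H.fintypeQuotientOfFiniteIndex
    rw [MonoidHom.transfer_eq_prod_quotient_orbitRel_zpowers_quot]
    have hq : ∀ q : Quotient (MulAction.orbitRel (Subgroup.zpowers g) (G ⧸ H)),
        ϕ ⟨q.out.out⁻¹ * g ^ Function.minimalPeriod (g • ·) q.out * q.out.out,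
          QuotientGroup.out_conj_pow_minimalPeriod_mem H g q.out⟩ =
        ϕ ⟨g, hgH⟩ ^ Function.minimalPeriod (g • ·) q.out := by
      intro q
      have hm := QuotientGroup.out_conj_pow_minimalPeriod_mem H g q.out
      have h1 := hctrl (Function.minimalPeriod (g • ·) q.out : ℤ) (q.out.out⁻¹)
        (by simpa using hm)
      rw [← map_pow]
      have h2 : ϕ (⟨q.out.out⁻¹ * g ^ Function.minimalPeriod (g • ·) q.out * q.out.out,
          QuotientGroup.out_conj_pow_minimalPeriod_mem H g q.out⟩ *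
          (⟨g, hgH⟩ ^ Function.minimalPeriod (g • ·) q.out)⁻¹) = 1 := by
        have h3 : (⟨q.out.out⁻¹ * g ^ Function.minimalPeriod (g • ·) q.out * q.out.out,
          QuotientGroup.out_conj_pow_minimalPeriod_mem H g q.out⟩ *
          (⟨g, hgH⟩ ^ Function.minimalPeriod (g • ·) q.out)⁻¹ : ↥H) =
          ⟨q.out.out⁻¹ * g ^ Function.minimalPeriod (g • ·) q.out * q.out.out *
            (g ^ Function.minimalPeriod (g • ·) q.out)⁻¹,
            H.mul_mem hm (H.inv_mem (H.pow_mem hgH _))⟩ := by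
          apply Subtype.ext
          simp
        rw [h3, hϕ]
        simpa using h1
      rw [map_mul, map_inv, mul_inv_eq_one] at h2
      exact h2
    rw [Finset.prod_congr rfl (fun q _ => hq q), Finset.prod_pow_eq_pow_sum]
    congr 1
    rw [Subgroup.index_eq_card, Nat.card_eq_fintype_card,
      Fintype.card_congr (MulAction.selfEquivSigmaOrbits (Subgroup.zpowers g) (G ⧸ H)),
      Fintype.card_sigma]
    refine Finset.sum_congr rfl (fun q _ => ?_)
    rw [MulAction.minimalPeriod_eq_card]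
    exact Fintype.card_congr (Equiv.refl _)
  rw [hV] at hker
  obtain ⟨k, hk⟩ := hgp
  have ho1 : orderOf (ϕ ⟨g, hgH⟩) ∣ H.index := orderOf_dvd_of_pow_eq_one hker
  have ho2 : orderOf (ϕ ⟨g, hgH⟩) ∣ p ^ k := by
    have h1 : orderOf (ϕ ⟨g, hgH⟩) ∣ orderOf (⟨g, hgH⟩ : ↥H) := orderOf_map_dvd _ _
    rw [Subgroup.orderOf_mk, hk] at h1
    exact h1
  have ho3 : orderOf (ϕ ⟨g, hgH⟩) = 1 := by
    have := Nat.dvd_gcd ho2 ho1
    rw [Nat.Coprime.gcd_eq_one (Nat.Coprime.pow_left k hidx)] at this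
    exact Nat.dvd_one.mp this
  rw [orderOf_eq_one_iff, hϕ] at ho3
  exact hgK ho3

end Cfsg.Agent.S1241
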