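import Cfsg.Statements.S1242
import Mathlib
import Cfsg.Agent.Lib.Helper6.PSub
import Cfsg.Agent.Lib.Helper6.CycSylow

set_option autoImplicit false
open Cfsg
open scoped commutatorElement

namespace Cfsg.Agent.S1242


open Cfsg.Agent.Lib.Helper6

/-- a `p`-subgroup of index prime to `p` inside a Sylow subgroup is that Sylow subgroup -/
theorem sylow_eq_of_not_dvd_index {G : Type*} [Group G] [Finite G] {p : ℕ} [Fact p.Prime]
    (P : Sylow p G) (U : Subgroup G) (hU : U ≤ (P : Subgroup G)) (hUi : ¬ p ∣ U.index) :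
    (P : Subgroup G) = U := by
  have hp : p.Prime := Fact.out
  apply le_antisymm _ hU
  rw [← Subgroup.relIndex_eq_one]
  have h1 : U.relIndex (P : Subgroup G) ∣ Nat.card (P : Subgroup G) := Subgroup.relIndex_dvd_card _ _
  obtain ⟨k, hk⟩ := IsPGroup.iff_card.mp P.isPGroup'
  rw [hk] at h1
  obtain ⟨j, -, hj⟩ := (Nat.dvd_prime_pow hp).mp h1
  have h2 : U.relIndex (P : Subgroup G) ∣ U.index := Subgroup.relIndex_dvd_index_of_le hU
  rcases Nat.eq_zero_or_pos j with h0 | h0
  · rw [hj, h0, pow_zero]
  · exfalso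
    apply hUi
    refine dvd_trans ?_ h2
    rw [hj]
    exact dvd_pow_self p (by omega)

/-- a `p`-element of `O^p(G) G'` lies in `G'` -/
theorem mem_commutator_of_pelt {G : Type*} [Group G] [Finite G] {p : ℕ} [Fact p.Prime] (a : G)
    (k : ℕ) (hak : a ^ p ^ k = 1) (ha : a ∈ Cfsg.pResidual p G ⊔ commutator G) :
    a ∈ commutator G := by
  have hp : p.Prime := Fact.out
  set v := (Nat.card (Abelianization G)).factorization p with hv
  set m := Nat.card (Abelianization G) / p ^ v with hm
  have hmv : p ^ v * m = Nat.card (Abelianization G) := Nat.ordProj_mul_ordCompl_eq_self _ p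
  have hmcop : m.Coprime p := (Nat.coprime_ordCompl hp Nat.card_pos.ne').symm
  let ψ : G →* Abelianization G := (powMonoidHom m).comp Abelianization.of
  have hψ : ∀ g : G, ψ g = (Abelianization.of g) ^ m := fun g => rfl
  have hle : Cfsg.pResidual p G ⊔ commutator G ≤ ψ.ker := by
    apply sup_le
    · unfold Cfsg.pResidual
      rw [Subgroup.closure_le]
      intro g hg
      have hg' : (orderOf g).Coprime p := hg
      show ψ g = 1
      rw [hψ]
      have h1 : orderOf (Abelianization.of g) ∣ orderOf g := orderOf_map_dvd _ g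
      have h2 : orderOf (Abelianization.of g) ∣ p ^ v * m := by
        rw [hmv]; exact orderOf_dvd_natCard _
      have h3 : (orderOf (Abelianization.of g)).Coprime (p ^ v) :=
        Nat.Coprime.pow_right v (Nat.Coprime.coprime_dvd_left h1 hg')
      exact orderOf_dvd_iff_pow_eq_one.mp (h3.dvd_of_dvd_mul_left h2)
    · intro g hg
      show ψ g = 1
      rw [hψ]
      have h1 : Abelianization.of g = 1 := by
        rw [← Abelianization.ker_of G] at hg
        exact hg
      rw [h1, one_pow]
  have h1 : (Abelianization.of a) ^ m = 1 := by rw [← hψ]; exact hle ha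
  have h2 : (Abelianization.of a) ^ p ^ k = 1 := by rw [← map_pow, hak, map_one]
  have h4 := pow_gcd_eq_one.mpr ⟨h1, h2⟩
  rw [Nat.Coprime.gcd_eq_one (Nat.Coprime.pow_right k hmcop), pow_one] at h4
  rw [← Abelianization.ker_of G]
  exact h4

/-- Let G be a finite group, p a prime and H a subgroup of index prime to p such that any two elements of H of p-power order that are conjugate in G are conjugate in H. Then (O^p(G)·G') ∩ H = O^p(H)·H', where O^p denotes the subgroup generated by the elements of order prime to p. -/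
theorem result {G : Type*} [Group G] [Finite G] {p : ℕ} [Fact p.Prime] (H : Subgroup G) (hidx : Nat.Coprime p H.index) (hfus : ∀ g ∈ H, (∃ k : ℕ, orderOf g = p ^ k) → ∀ a : G, a * g * a⁻¹ ∈ H → ∃ h ∈ H, h * g * h⁻¹ = a * g * a⁻¹) : (Cfsg.pResidual p G ⊔ commutator G) ⊓ H = (Cfsg.pResidual p ↥H ⊔ commutator ↥H).map H.subtype := by
  have hp : p.Prime := Fact.out
  apply le_antisymm
  · intro x hx
    obtain ⟨hxA, hxH⟩ := Subgroup.mem_inf.mp hx
    obtain ⟨a, b, hab, ha, hb, ⟨k, hak⟩, hbcop⟩ := exists_p_decomp' p hp (⟨x, hxH⟩ : ↥H)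
    have hbR : b ∈ Cfsg.pResidual p ↥H := Subgroup.subset_closure hbcop
    have hbG : (b : G) ∈ Cfsg.pResidual p G := by
      apply Subgroup.subset_closure
      show (orderOf (b : G)).Coprime p
      rw [Subgroup.orderOf_coe]; exact hbcop
    have hab' : (a : G) * (b : G) = x := by
      have := congrArg Subtype.val hab
      simpa using this
    have haA : (a : G) ∈ Cfsg.pResidual p G ⊔ commutator G := by
      have e : (a : G) = x * (b : G)⁻¹ := by rw [← hab']; group
      rw [e]
      exact mul_mem hxA (inv_mem ((le_sup_left : Cfsg.pResidual p G ≤ _) hbG))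
    have hapow : (a : G) ^ p ^ k = 1 := by
      rw [← hak, ← Subgroup.orderOf_coe]; exact pow_orderOf_eq_one _
    have haC : (a : G) ∈ commutator G := mem_commutator_of_pelt (a : G) k hapow haA
    -- a Sylow subgroup of `H` containing `a`
    have hzp : IsPGroup p (Subgroup.zpowers a) := by
      apply IsPGroup.of_card (n := k)
      rw [Nat.card_zpowers, hak]
    obtain ⟨PH, hPH⟩ := hzp.exists_le_sylow
    have haPH : a ∈ (PH : Subgroup ↥H) := hPH (Subgroup.mem_zpowers a)
    have hUp : IsPGroup p ((PH : Subgroup ↥H).map H.subtype) := PH.isPGroup'.map _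
    obtain ⟨P, hP⟩ := hUp.exists_le_sylow
    have hidx' : ¬ p ∣ ((PH : Subgroup ↥H).map H.subtype).index := by
      rw [Subgroup.index_map_subtype]
      intro hdvd
      rcases (Nat.Prime.dvd_mul hp).mp hdvd with h1 | h1
      · exact PH.not_dvd_index h1
      · have h2 : p ∣ Nat.gcd p H.index := Nat.dvd_gcd dvd_rfl h1
        rw [hidx] at h2
        exact hp.one_lt.ne' (Nat.dvd_one.mp h2)
    have hPeq : (P : Subgroup G) = (PH : Subgroup ↥H).map H.subtype :=
      sylow_eq_of_not_dvd_index P _ hP hidx'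
    have hPH' : (P : Subgroup G) ≤ H := by
      rw [hPeq]; rintro _ ⟨y, -, rfl⟩; exact y.2
    have haP : (a : G) ∈ (P : Subgroup G) := by rw [hPeq]; exact ⟨a, haPH, rfl⟩
    have hfoc := Subgroup.commutator_inf_eq_focalSubgroup P
    have hafoc : (a : G) ∈ (P : Subgroup G).focalSubgroup := by
      rw [← hfoc]; exact Subgroup.mem_inf.mpr ⟨haC, haP⟩
    have hfle : (P : Subgroup G).focalSubgroup ≤ (commutator ↥H).map H.subtype := by
      rw [Subgroup.focalSubgroup_def, Subgroup.closure_le]
      rintro g ⟨hgP, y, hyP, u, rfl⟩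
      have hconj : u * y⁻¹ * u⁻¹ ∈ H := by
        have e : u * y⁻¹ * u⁻¹ = y⁻¹ * ⁅y, u⁆ := by rw [commutatorElement_def]; group
        rw [e]
        exact hPH' (mul_mem (inv_mem hyP) hgP)
      obtain ⟨j, hj⟩ := orderOf_mem_sylow P (inv_mem hyP)
      obtain ⟨h, hhH, hh⟩ := hfus y⁻¹ (hPH' (inv_mem hyP)) ⟨j, hj⟩ u hconj
      have e : ⁅y, u⁆ = H.subtype ⁅(⟨y, hPH' hyP⟩ : ↥H), (⟨h, hhH⟩ : ↥H)⁆ := by
        rw [commutatorElement_def, commutatorElement_def]
        simp only [Subgroup.coe_subtype, Subgroup.coe_mul, Subgroup.coe_inv]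
        calc y * u * y⁻¹ * u⁻¹ = y * (u * y⁻¹ * u⁻¹) := by group
          _ = y * (h * y⁻¹ * h⁻¹) := by rw [hh]
          _ = y * h * y⁻¹ * h⁻¹ := by group
      rw [SetLike.mem_coe, e]
      refine Subgroup.mem_map_of_mem _ ?_
      rw [commutator_def]
      exact Subgroup.commutator_mem_commutator (Subgroup.mem_top _) (Subgroup.mem_top _)
    obtain ⟨a', ha', haeq⟩ := hfle hafoc
    have haa : a' = a := Subtype.ext haeq
    rw [haa] at ha'
    refine ⟨a * b, mul_mem ((le_sup_right : commutator ↥H ≤ _) ha') ((le_sup_left : Cfsg.pResidual p ↥H ≤ _) hbR), ?_⟩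
    rw [hab]
    rfl
  · rintro _ ⟨y, hy, rfl⟩
    refine Subgroup.mem_inf.mpr ⟨?_, y.2⟩
    have hle : Cfsg.pResidual p ↥H ⊔ commutator ↥H ≤
        (Cfsg.pResidual p G ⊔ commutator G).comap H.subtype := by
      apply sup_le
      · unfold Cfsg.pResidual
        rw [Subgroup.closure_le]
        intro g hg
        have hg' : (orderOf g).Coprime p := hg
        show (g : G) ∈ Subgroup.closure {g : G | Nat.Coprime (orderOf g) p} ⊔ commutator G
        apply (le_sup_left : Subgroup.closure {g : G | Nat.Coprime (orderOf g) p} ≤ _)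
        apply Subgroup.subset_closure
        show (orderOf (g : G)).Coprime p
        rw [Subgroup.orderOf_coe]; exact hg'
      · rw [commutator_def, Subgroup.commutator_le]
        intro g₁ _ g₂ _
        show ((⁅g₁, g₂⁆ : ↥H) : G) ∈ Cfsg.pResidual p G ⊔ commutator G
        apply (le_sup_right : commutator G ≤ _)
        rw [commutator_def]
        have e : ((⁅g₁, g₂⁆ : ↥H) : G) = ⁅(g₁ : G), (g₂ : G)⁆ := by
          rw [commutatorElement_def, commutatorElement_def]; simp
        rw [e]
        exact Subgroup.commutator_mem_commutator (Subgroup.mem_top _) (Subgroup.mem_top _)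
    exact hle hy

end Cfsg.Agent.S1242
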