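import Cfsg.Statements.S1243
import Cfsg.Agent.Lib.Helper2.Fusion

set_option autoImplicit false
open Cfsg

namespace Cfsg.Agent.S1243

open Cfsg.Agent.Lib.Helper2 in
/-- Let T be a Sylow p-subgroup of the finite group G and W ≤ T a subgroup weakly closed in T. If d and g d g⁻¹ both centralize W, then g d g⁻¹ = h d h⁻¹ for some h ∈ N_G(W). -/
theorem result {G : Type*} [Group G] [Finite G] {p : ℕ} [Fact p.Prime] (T : Sylow p G) (W : Subgroup G) (hW : Cfsg.IsWeaklyClosed W (T : Subgroup G)) (d g : G) (hd : d ∈ Subgroup.centralizer (W : Set G)) (hgd : g * d * g⁻¹ ∈ Subgroup.centralizer (W : Set G)) : ∃ h ∈ Subgroup.normalizer (W : Set G), h * d * h⁻¹ = g * d * g⁻¹ := by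
  have hWp : IsPGroup p W := T.isPGroup'.to_le hW.1
  set d' := g * d * g⁻¹ with hd'
  set C : Subgroup G := Subgroup.centralizer ({d'} : Set G) with hC
  have memC : ∀ x : G, x ∈ C ↔ d' * x = x * d' := by
    intro x
    rw [hC, Subgroup.mem_centralizer_iff]
    simp
  -- W ≤ C
  have hWC : W ≤ C := by
    intro w hw
    rw [memC]
    rw [Subgroup.mem_centralizer_iff] at hgd
    exact (hgd w hw).symm
  -- W^g ≤ C
  have hWgC : W.map (MulAut.conj g).toMonoidHom ≤ C := by
    intro y hy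
    rw [mem_map_conj] at hy
    rw [memC]
    rw [Subgroup.mem_centralizer_iff] at hd
    have := hd _ hy
    -- (g⁻¹ y g) d = d (g⁻¹ y g)
    rw [hd']
    have e1 : g * d * g⁻¹ * y = g * (d * (g⁻¹ * y * g)) * g⁻¹ := by group
    have e2 : y * (g * d * g⁻¹) = g * ((g⁻¹ * y * g) * d) * g⁻¹ := by group
    rw [e1, e2, this]
  -- Sylow subgroups of C
  have hp1 : IsPGroup p (W.subgroupOf C) := hWp.comap_subtype
  have hp2 : IsPGroup p ((W.map (MulAut.conj g).toMonoidHom).subgroupOf C) :=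
    (isPGroup_map_conj W g hWp).comap_subtype
  obtain ⟨R1, hR1⟩ := hp1.exists_le_sylow
  obtain ⟨R2, hR2⟩ := hp2.exists_le_sylow
  obtain ⟨c, hc⟩ := MulAction.exists_smul_eq C R2 R1
  -- the p-subgroup R = image of R1 in G
  have hRp : IsPGroup p ((R1 : Subgroup C).map C.subtype) := R1.isPGroup'.map _
  have h1 : W ≤ (R1 : Subgroup C).map C.subtype := by
    intro w hw
    refine ⟨⟨w, hWC hw⟩, hR1 ?_, rfl⟩
    rw [Subgroup.mem_subgroupOf]
    exact hw
  have h2 : W.map (MulAut.conj ((c : G) * g)).toMonoidHom ≤ (R1 : Subgroup C).map C.subtype := by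
    intro y hy
    rw [mem_map_conj] at hy
    -- z = c⁻¹ y c ∈ W^g
    have hz : (c : G)⁻¹ * y * c ∈ W.map (MulAut.conj g).toMonoidHom := by
      rw [mem_map_conj]
      convert hy using 1
      group
    have hzC : (c : G)⁻¹ * y * c ∈ C := hWgC hz
    have hz2 : (⟨(c : G)⁻¹ * y * c, hzC⟩ : C) ∈ (R2 : Subgroup C) := by
      apply hR2
      rw [Subgroup.mem_subgroupOf]
      exact hz
    have hyC : y ∈ C := by
      have : y = (c : G) * ((c : G)⁻¹ * y * c) * (c : G)⁻¹ := by group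
      rw [this]
      exact C.mul_mem (C.mul_mem c.2 hzC) (C.inv_mem c.2)
    refine ⟨⟨y, hyC⟩, ?_, rfl⟩
    have : (⟨y, hyC⟩ : C) ∈ ((c • R2 : Sylow p C) : Subgroup C) := by
      rw [mem_smul_sylow]
      have e0 : c⁻¹ * (⟨y, hyC⟩ : C) * c = ⟨(c : G)⁻¹ * y * c, hzC⟩ := Subtype.ext (by simp)
      rw [e0]
      exact hz2
    rw [hc] at this
    exact this
  have e := weaklyClosed_conj_eq T W hW _ hRp ((c : G) * g) h1 h2
  refine ⟨(c : G) * g, mem_normalizer_of_map_conj_eq W _ e, ?_⟩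
  have hcC := (memC c).1 c.2
  calc (c : G) * g * d * ((c : G) * g)⁻¹ = (c : G) * d' * (c : G)⁻¹ := by rw [hd']; group
    _ = d' * (c : G) * (c : G)⁻¹ := by rw [hcC]
    _ = d' := by group

end Cfsg.Agent.S1243
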