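import Cfsg.Statements.S1254
import Mathlib
import Cfsg.Agent.Lib.Helper6.Dih
import Cfsg.Agent.Lib.Helper6.FrobNC
import Cfsg.Agent.Lib.Helper6.Comm

set_option autoImplicit false
open Cfsg

namespace Cfsg.Agent.S1254


/-- Let X be a finite group whose Sylow 2-subgroup S is dihedral (of order at least 4). Then X has a normal 2-complement if and only if, for every Klein four-subgroup U ≤ S, the normalizer N_X(U) is generated by C_X(U) and N_S(U). -/
theorem result {X : Type*} [Group X] [Finite X] (S : Sylow 2 X) (m : ℕ) (hm : 2 ≤ m) (eS : (S : Subgroup X) ≃* DihedralGroup m) : Cfsg.HasNormalPComplement 2 X ↔ ∀ U : Subgroup X, U ≤ S → IsKleinFour U → Subgroup.normalizer (U : Set X) = Subgroup.centralizer (U : Set X) ⊔ ((S : Subgroup X) ⊓ Subgroup.normalizer (U : Set X)) := by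
  classical
  obtain ⟨hD, -⟩ := Cfsg.Agent.Lib.Helper6.dihLike_of_equiv (S : Subgroup X) m eS
  generalize ((eS.symm (DihedralGroup.r 1) : ↥(S : Subgroup X)) : X) = ρ at hD
  constructor
  · rintro ⟨P, K, hK, hc⟩ U hUS hU4
    apply le_antisymm
    · intro n hn
      have hcardS : Nat.card (S : Subgroup X) = Nat.card (P : Subgroup X) := by
        rw [Sylow.card_eq_multiplicity, Sylow.card_eq_multiplicity]
      have hKcard : Nat.card K = (P : Subgroup X).index := hc.index_eq_card.symm
      have hcS : K.IsComplement' (S : Subgroup X) := by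
        apply Subgroup.isComplement'_of_coprime
        · rw [hcardS, hKcard, mul_comm, Subgroup.card_mul_index]
        · rw [hcardS, hKcard]
          obtain ⟨j, hj⟩ := IsPGroup.iff_card.mp P.2
          rw [hj]
          apply Nat.Coprime.pow_right
          exact (Nat.coprime_comm.mp ((Nat.Prime.coprime_iff_not_dvd Nat.prime_two).mpr
            P.not_dvd_index))
      have hdisj : ∀ w ∈ K, w ∈ (S : Subgroup X) → w = 1 := by
        intro w hwK hwS
        have := hcS.disjoint
        exact Subgroup.disjoint_def.mp this hwK hwS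
      obtain ⟨⟨⟨k, hk⟩, ⟨s, hs⟩⟩, hks⟩ := hcS.2 n
      replace hks : k * s = n := hks
      have key : ∀ u ∈ U, s * u * s⁻¹ ∈ U ∧ k * (s * u * s⁻¹) * k⁻¹ = s * u * s⁻¹ := by
        intro u hu
        have h1 : n * u * n⁻¹ ∈ U := (Subgroup.mem_normalizer_iff.mp hn u).mp hu
        have h2 : n * u * n⁻¹ = k * (s * u * s⁻¹) * k⁻¹ := by rw [← hks]; group
        have h3 : s * u * s⁻¹ ∈ (S : Subgroup X) := mul_mem (mul_mem hs (hUS hu)) (inv_mem hs)
        have h4 : k * (s * u * s⁻¹) * k⁻¹ * (s * u * s⁻¹)⁻¹ = 1 := by
          apply hdisj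
          · have h5 := hK.conj_mem k⁻¹ (inv_mem hk) (s * u * s⁻¹)
            have h6 : k * (s * u * s⁻¹) * k⁻¹ * (s * u * s⁻¹)⁻¹ =
                k * (s * u * s⁻¹ * k⁻¹ * (s * u * s⁻¹)⁻¹) := by group
            rw [h6]
            exact mul_mem hk h5
          · rw [← h2]
            exact mul_mem (hUS h1) (inv_mem h3)
        have h5 : k * (s * u * s⁻¹) * k⁻¹ = s * u * s⁻¹ := mul_inv_eq_one.mp h4
        exact ⟨by rw [← h5, ← h2]; exact h1, h5⟩
      have hsN : s ∈ Subgroup.normalizer (U : Set X) :=
        Cfsg.Agent.Lib.Helper6.mem_normalizer_of_conj_mem (fun u hu => (key u hu).1)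
      have hkC : k ∈ Subgroup.centralizer (U : Set X) := by
        rw [Subgroup.mem_centralizer_iff]
        intro u hu
        have hu0 : s⁻¹ * u * s ∈ U := by
          have := (Subgroup.mem_normalizer_iff.mp (inv_mem hsN) u).mp hu
          simpa using this
        have h1 := (key _ hu0).2
        have e : s * (s⁻¹ * u * s) * s⁻¹ = u := by group
        rw [e] at h1
        conv_lhs => rw [← h1]
        group
      rw [← hks]
      exact mul_mem (Subgroup.mem_sup_left hkC) (Subgroup.mem_sup_right ⟨hs, hsN⟩)
    · exact sup_le (Subgroup.centralizer_le_normalizer _) inf_le_right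
  · intro hU
    apply Cfsg.Agent.Lib.Helper6.frobenius_npc
    apply Cfsg.Agent.Lib.Helper6.frobCond_of_sylow S
    intro Q hQS g hg hcop
    have hodd : Odd (orderOf g) := Nat.Coprime.odd_of_right hcop
    have hgQ : ∀ x ∈ Q, g * x * g⁻¹ ∈ Q :=
      fun x hx => (Subgroup.mem_normalizer_iff.mp hg x).mp hx
    have hcent : ∀ x ∈ Q, g * x * g⁻¹ = x := by
      by_cases hex : ∃ x ∈ Q, x ^ 2 ≠ 1
      · exact Cfsg.Agent.Lib.Helper6.centralizes_of_dihLike S.2 hD Q hQS g hg hodd hex
      · push Not at hex
        have h4 := Cfsg.Agent.Lib.Helper6.card_le_four_of_dihLike hD Q hQS hex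
        by_cases hc4 : Nat.card Q = 4
        · have hKl : IsKleinFour ↥Q := by
            refine ⟨hc4, ?_⟩
            have h1 : Monoid.exponent ↥Q ∣ 2 := Monoid.exponent_dvd_of_forall_pow_eq_one
              (fun q => Subtype.ext (by simpa using hex q q.2))
            rcases (Nat.dvd_prime Nat.prime_two).mp h1 with h2 | h2
            · rw [Monoid.exp_eq_one_iff] at h2
              have := Nat.card_eq_one_iff_unique.mpr ⟨h2, ⟨1⟩⟩
              omega
            · exact h2
          have hN := hU Q hQS hKl
          let A : Subgroup X :=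
            { carrier := {x | ∃ s ∈ (S : Subgroup X) ⊓ Subgroup.normalizer (Q : Set X),
                ∀ q ∈ Q, x * q * x⁻¹ = s * q * s⁻¹}
              one_mem' := ⟨1, one_mem _, fun q _ => rfl⟩
              mul_mem' := by
                rintro x y ⟨sx, hsx, hx⟩ ⟨sy, hsy, hy⟩
                refine ⟨sx * sy, mul_mem hsx hsy, fun q hq => ?_⟩
                have h1 : sy * q * sy⁻¹ ∈ Q := (Subgroup.mem_normalizer_iff.mp hsy.2 q).mp hq
                calc x * y * q * (x * y)⁻¹ = x * (y * q * y⁻¹) * x⁻¹ := by group
                  _ = x * (sy * q * sy⁻¹) * x⁻¹ := by rw [hy q hq]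
                  _ = sx * (sy * q * sy⁻¹) * sx⁻¹ := hx _ h1
                  _ = sx * sy * q * (sx * sy)⁻¹ := by group
              inv_mem' := by
                rintro x ⟨s, hs, hx⟩
                refine ⟨s⁻¹, inv_mem hs, fun q hq => ?_⟩
                have h1 : s⁻¹ * q * s⁻¹⁻¹ ∈ Q :=
                  (Subgroup.mem_normalizer_iff.mp (inv_mem hs.2) q).mp hq
                have h2 := hx _ h1
                have h3 : s * (s⁻¹ * q * s⁻¹⁻¹) * s⁻¹ = q := by group
                rw [h3] at h2
                calc x⁻¹ * q * x⁻¹⁻¹ = x⁻¹ * (x * (s⁻¹ * q * s⁻¹⁻¹) * x⁻¹) * x := by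
                      rw [h2]; group
                  _ = s⁻¹ * q * s⁻¹⁻¹ := by group }
          have hle : Subgroup.centralizer (Q : Set X) ⊔
              ((S : Subgroup X) ⊓ Subgroup.normalizer (Q : Set X)) ≤ A := by
            apply sup_le
            · intro c hc
              refine ⟨1, one_mem _, fun q hq => ?_⟩
              have := Subgroup.mem_centralizer_iff.mp hc q hq
              rw [← this]; group
            · intro s hs
              exact ⟨s, hs, fun _ _ => rfl⟩
          obtain ⟨s, hs, hsq⟩ := hle (hN ▸ hg)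
          have hsk : ∀ (k : ℕ), ∀ q ∈ Q, s ^ k * q * (s ^ k)⁻¹ ∈ Q := by
            intro k q hq
            exact (Subgroup.mem_normalizer_iff.mp (pow_mem hs.2 k) q).mp hq
          have hpow : ∀ k : ℕ, ∀ q ∈ Q, g ^ k * q * (g ^ k)⁻¹ = s ^ k * q * (s ^ k)⁻¹ := by
            intro k
            induction k with
            | zero => intro q _; simp
            | succ k ih =>
              intro q hq
              rw [pow_succ', pow_succ']
              calc g * g ^ k * q * (g * g ^ k)⁻¹ = g * (g ^ k * q * (g ^ k)⁻¹) * g⁻¹ := by group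
                _ = g * (s ^ k * q * (s ^ k)⁻¹) * g⁻¹ := by rw [ih q hq]
                _ = s * (s ^ k * q * (s ^ k)⁻¹) * s⁻¹ := hsq _ (hsk k q hq)
                _ = s * s ^ k * q * (s * s ^ k)⁻¹ := by group
          obtain ⟨j, hj⟩ : ∃ j : ℕ, s ^ 2 ^ j = 1 := by
            obtain ⟨j, hj⟩ := S.2 ⟨s, hs.1⟩
            exact ⟨j, by simpa using congrArg Subtype.val hj⟩
          have h1 : ∀ q ∈ Q, g ^ 2 ^ j * q * (g ^ 2 ^ j)⁻¹ = q := by
            intro q hq
            rw [hpow _ q hq, hj]
            group
          obtain ⟨i, hi⟩ := exists_pow_eq_self_of_coprime (n := 2 ^ j) (x := g)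
            (Nat.Coprime.pow_left j (Nat.coprime_two_left.mpr hodd))
          have h2 : ∀ i : ℕ, ∀ q ∈ Q, (g ^ 2 ^ j) ^ i * q * ((g ^ 2 ^ j) ^ i)⁻¹ = q := by
            intro i
            induction i with
            | zero => intro q _; simp
            | succ i ih =>
              intro q hq
              rw [pow_succ']
              calc g ^ 2 ^ j * (g ^ 2 ^ j) ^ i * q * (g ^ 2 ^ j * (g ^ 2 ^ j) ^ i)⁻¹
                  = g ^ 2 ^ j * ((g ^ 2 ^ j) ^ i * q * ((g ^ 2 ^ j) ^ i)⁻¹) * (g ^ 2 ^ j)⁻¹ := by
                    group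
                _ = q := by rw [ih q hq, h1 q hq]
          intro q hq
          have h3 := h2 i q hq
          rw [hi] at h3
          exact h3
        · have hc2 : Nat.card Q ≤ 2 := by
            obtain ⟨j, hj⟩ := IsPGroup.iff_card.mp (S.2.to_le hQS)
            rw [hj] at h4 hc4 ⊢
            have hj2 : j < 2 := by
              by_contra hj2
              push Not at hj2
              have := Nat.pow_le_pow_right (by norm_num : 0 < 2) hj2
              omega
            calc 2 ^ j ≤ 2 ^ 1 := Nat.pow_le_pow_right (by norm_num) (by omega)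
              _ = 2 := by norm_num
          intro y hy
          by_contra hne
          have hy1 : y ≠ 1 := by
            rintro rfl
            apply hne; group
          have hy'1 : g * y * g⁻¹ ≠ 1 := by
            intro h1
            apply hy1
            have : y = g⁻¹ * (g * y * g⁻¹) * g := by group
            rw [this, h1]; group
          have hsub : ((({1, y, g * y * g⁻¹} : Finset X)) : Set X) ⊆ (Q : Set X) := by
            intro z hz
            simp only [Finset.coe_insert, Finset.coe_singleton, Set.mem_insert_iff,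
              Set.mem_singleton_iff] at hz
            rcases hz with rfl | rfl | rfl
            · exact Q.one_mem
            · exact hy
            · exact hgQ _ hy
          have hcard : ({1, y, g * y * g⁻¹} : Finset X).card = 3 := by
            rw [Finset.card_insert_of_notMem, Finset.card_insert_of_notMem, Finset.card_singleton]
            · simp only [Finset.mem_singleton]; exact fun h => hne h.symm
            · simp only [Finset.mem_insert, Finset.mem_singleton]
              rintro (h | h)
              · exact hy1 h.symm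
              · exact hy'1 h.symm
          have h3 : 3 ≤ Nat.card Q := by
            rw [← hcard, ← Set.ncard_coe_finset, ← Nat.card_coe_set_eq]
            exact Set.ncard_le_ncard hsub (Set.toFinite _)
          omega
    rw [Subgroup.mem_centralizer_iff]
    intro q hq
    conv_lhs => rw [← hcent q hq]
    group

end Cfsg.Agent.S1254
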