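import Cfsg.Statements.S1258
import Cfsg.Agent.Lib.Helper2.Comp3

set_option autoImplicit false
open Cfsg

namespace Cfsg.Agent.S1258

open Cfsg.Agent.Lib.Helper2.Comp
open scoped commutatorElement

theorem result {X : Type*} [Group X] [Finite X] (hs : IsSimpleGroup (X ⧸ Subgroup.center X)) (hna : ¬ IsMulCommutative (X ⧸ Subgroup.center X)) : commutator X ⊔ Subgroup.center X = ⊤ ∧ Cfsg.IsQuasisimple ↥(commutator X) := by
  have hZc : Subgroup.center X ≤ Subgroup.centralizer (((⊤ : Subgroup X) : Subgroup X) : Set X) := by
    rw [Subgroup.coe_top, Subgroup.centralizer_univ]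
  have hsimple : ∀ N : Subgroup X, Subgroup.center X ≤ N → N ≤ ⊤ →
      (⊤ : Subgroup X) ≤ Subgroup.normalizer (N : Set X) → N = Subgroup.center X ∨ N = ⊤ := by
    intro N hZN _ hn
    have hN : N.Normal := Subgroup.normalizer_eq_top_iff.mp (top_le_iff.mp hn)
    have hn' : (N.map (QuotientGroup.mk' (Subgroup.center X))).Normal :=
      Subgroup.Normal.map hN _ (QuotientGroup.mk'_surjective _)
    rcases hn'.eq_bot_or_eq_top with h | h
    · left
      rw [Subgroup.map_eq_bot_iff, QuotientGroup.ker_mk'] at h
      exact le_antisymm h hZN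
    · right
      have := Subgroup.comap_map_eq (QuotientGroup.mk' (Subgroup.center X)) N
      rw [h, Subgroup.comap_top, QuotientGroup.ker_mk', sup_eq_left.mpr hZN] at this
      exact this.symm
  have hna' : ¬ ⁅(⊤ : Subgroup X), ⊤⁆ ≤ Subgroup.center X := by
    intro hle
    apply hna
    rw [isMulCommutative_iff]
    intro a b
    induction a using QuotientGroup.induction_on with
    | H x =>
    induction b using QuotientGroup.induction_on with
    | H y =>
    rw [← QuotientGroup.mk_mul, ← QuotientGroup.mk_mul, QuotientGroup.eq]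
    have e : (x * y)⁻¹ * (y * x) = ⁅y⁻¹, x⁻¹⁆ := by rw [commutatorElement_def]; group
    rw [e]
    exact hle (Subgroup.commutator_mem_commutator (Subgroup.mem_top _) (Subgroup.mem_top _))
  exact isQuasisimple_commutator le_top hZc hsimple hna'

end Cfsg.Agent.S1258
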