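import Cfsg.Statements.S1261
import Cfsg.Agent.Lib.Helper2.Comp2

set_option autoImplicit false
open Cfsg

namespace Cfsg.Agent.S1261

open Cfsg.Agent.Lib.Helper2.Comp

theorem result {G : Type*} [Group G] [Finite G] (L H : Subgroup G) (hL : Cfsg.IsComponent L) (hH : H.IsSubnormal) : L ≤ H ∨ ⁅L, H⁆ = ⊥ := by
  rcases le_or_le_centralizer hL hH with h | h
  · left; exact h
  · right
    rw [Subgroup.commutator_eq_bot_iff_le_centralizer]
    exact Subgroup.le_centralizer_iff.mp h

end Cfsg.Agent.S1261
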