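import Cfsg.Statements.S1262
import Cfsg.Agent.Lib.Helper2.Comp2

set_option autoImplicit false
open Cfsg

namespace Cfsg.Agent.S1262

open Cfsg.Agent.Lib.Helper2.Comp

theorem result {G : Type*} [Group G] [Finite G] (L H : Subgroup G) (hL : Cfsg.IsComponent L) (hsolv : Group.IsSolvable ↥H) (hinv : L ≤ Subgroup.normalizer (H : Set G)) : ⁅L, H⁆ = ⊥ := by
  rw [Subgroup.commutator_eq_bot_iff_le_centralizer]
  exact Subgroup.le_centralizer_iff.mp (solvable_le_centralizer_of_le_normalizer hL hsolv hinv)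

end Cfsg.Agent.S1262
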