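import Cfsg.Statements.S1263
import Cfsg.Agent.Lib.Helper2.Comp8

set_option autoImplicit false
open Cfsg

namespace Cfsg.Agent.S1263

open Cfsg.Agent.Lib.Helper2.Comp

theorem result {G : Type*} [Group G] [Finite G] : (Subgroup.center ↥(Cfsg.layer G)).map (Cfsg.layer G).subtype = ⨆ L : {K : Subgroup G // Cfsg.IsComponent K}, (Subgroup.center ↥(L : Subgroup G)).map (L : Subgroup G).subtype := by
  rw [map_center_subtype, center_layer]
  congr 1
  funext L
  rw [map_center_subtype]

end Cfsg.Agent.S1263
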