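import Cfsg.Statements.S1280
import Cfsg.Agent.Lib.Helper2.Sig

set_option autoImplicit false
open Cfsg

namespace Cfsg.Agent.S1280

open Cfsg.Agent.Lib.Helper2.Sig Cfsg.Agent.Lib.Helper2.Comp in
theorem result {G : Type*} [Group G] [Finite G] (p : ℕ) [Fact p.Prime] (A : Subgroup G) (hA : Cfsg.IsElementaryAbelian p A) (hA2 : p ^ 2 ≤ Nat.card ↥A) (θ : G → Subgroup G) (hθ : Cfsg.IsSolvableSignalizerFunctor p A θ) (X Y : Subgroup G) (hX : X ∈ Cfsg.signalizerFamily p A θ) (hY : Y ∈ Cfsg.signalizerFamily p A θ) (hn : Y ≤ Subgroup.normalizer (X : Set G)) : X ⊔ Y ∈ Cfsg.signalizerFamily p A θ := by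
  have hpp : p.Prime := Fact.out
  obtain ⟨hXs, hXp, hXA, hXθ⟩ := hX
  obtain ⟨hYs, hYp, hYA, hYθ⟩ := hY
  have hAX : A ≤ Subgroup.normalizer (X : Set G) :=
    le_normalizer_of_forall (fun b hb x hx => hXA b hb x hx)
  have hAY : A ≤ Subgroup.normalizer (Y : Set G) :=
    le_normalizer_of_forall (fun b hb x hx => hYA b hb x hx)
  obtain ⟨hcard, hsolv⟩ := sup_of_le_normalizer hn
  refine ⟨hsolv hXs hYs, ?_, ?_, ?_⟩
  · intro hdvd
    rcases (Nat.Prime.dvd_mul hpp).mp (hdvd.trans hcard) with h | h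
    · exact hXp h
    · exact hYp h
  · intro b hb u hu
    exact conj_mem_of_le_normalizer (le_normalizer_sup hAX hAY) hb hu
  · intro a ha ha1
    have hcop : (orderOf a).Coprime (Nat.card Y) := by
      have h1 : orderOf a ∣ p := orderOf_dvd_of_pow_eq_one (hA.2 a ha)
      exact Nat.Coprime.coprime_dvd_left h1 ((Nat.Prime.coprime_iff_not_dvd hpp).mpr hYp)
    exact (centralizer_sup_le hn (hAX ha) (hAY ha) hcop).trans
      (sup_le (hXθ a ha ha1) (hYθ a ha ha1))

end Cfsg.Agent.S1280
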