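import Cfsg.Statements.S1281
import Cfsg.Agent.Lib.Helper2.Sig

set_option autoImplicit false
open Cfsg

namespace Cfsg.Agent.S1281

open Cfsg.Agent.Lib.Helper2.Sig Cfsg.Agent.Lib.Helper2.Comp in
theorem result {G : Type*} [Group G] [Finite G] (p : ℕ) [Fact p.Prime] (A : Subgroup G) (hA : Cfsg.IsElementaryAbelian p A) (hA2 : p ^ 2 ≤ Nat.card ↥A) (θ : G → Subgroup G) (hθ : Cfsg.IsSolvableSignalizerFunctor p A θ) (N : Subgroup G) [N.Normal] (hN : ¬ p ∣ Nat.card ↥N) (a b : G) (ha : a ∈ A) (ha1 : a ≠ 1) (hb : b ∈ A) (hb1 : b ≠ 1) : (θ a).map (QuotientGroup.mk' N) ⊓ Subgroup.centralizer {QuotientGroup.mk' N b} ≤ (θ b).map (QuotientGroup.mk' N) := by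
  have hpp : p.Prime := Fact.out
  obtain ⟨⟨h1, h2, h3, h4⟩, h5⟩ := hθ
  rintro _ ⟨⟨x, hx, rfl⟩, hxb⟩
  have hxb' : QuotientGroup.mk' N x * QuotientGroup.mk' N b =
      QuotientGroup.mk' N b * QuotientGroup.mk' N x :=
    Subgroup.mem_centralizer_singleton_iff.mp hxb
  have hAθ : A ≤ Subgroup.normalizer ((θ a : Subgroup G) : Set G) :=
    le_normalizer_of_forall (fun c hc y hy => h3 a ha ha1 c hc y hy)
  have hzθ : Subgroup.zpowers b ≤ Subgroup.normalizer ((θ a : Subgroup G) : Set G) :=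
    (Subgroup.zpowers_le.mpr hb).trans hAθ
  have hzN : Subgroup.zpowers b ≤ Subgroup.normalizer ((N : Subgroup G) : Set G) := by
    rw [Subgroup.normalizer_eq_top_iff.mpr inferInstance]; exact le_top
  have hcop : (Nat.card (Subgroup.zpowers b)).Coprime (Nat.card (θ a)) := by
    rw [Nat.card_zpowers]
    exact Nat.Coprime.coprime_dvd_left (orderOf_dvd_of_pow_eq_one (hA.2 b hb))
      ((Nat.Prime.coprime_iff_not_dvd hpp).mpr (h2 a ha ha1))
  have hinv : ∀ c ∈ Subgroup.zpowers b, x⁻¹ * c * x * c⁻¹ ∈ θ a ⊓ N := by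
    intro c hc
    refine Subgroup.mem_inf.mpr ⟨?_, ?_⟩
    · have e1 := (Subgroup.mem_normalizer_iff.mp (hzθ hc) x).mp hx
      have e2 := (θ a).mul_mem ((θ a).inv_mem hx) e1
      simpa [mul_assoc] using e2
    · rw [← QuotientGroup.eq_one_iff]
      have hzc : Subgroup.zpowers (QuotientGroup.mk' N b) ≤
          Subgroup.centralizer ({QuotientGroup.mk' N x} : Set (G ⧸ N)) :=
        zpowers_le_centralizer_singleton hxb'
      have hc' : QuotientGroup.mk' N c ∈ Subgroup.zpowers (QuotientGroup.mk' N b) := by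
        obtain ⟨j, rfl⟩ := Subgroup.mem_zpowers_iff.mp hc
        rw [map_zpow]; exact Subgroup.zpow_mem_zpowers _ j
      have hcx := Subgroup.mem_centralizer_singleton_iff.mp (hzc hc')
      show QuotientGroup.mk' N (x⁻¹ * c * x * c⁻¹) = 1
      rw [map_mul, map_mul, map_mul, map_inv, map_inv, mul_assoc _ _ (QuotientGroup.mk' N x), hcx]
      group
  obtain ⟨d, hd, hxd⟩ := Cfsg.Agent.Lib.Lead.coset_fixed_point (Subgroup.zpowers b) (θ a)
    (θ a ⊓ N) hzθ hcop inf_le_left (le_normalizer_inf hzθ hzN) (Or.inl (isSolvable_zpowers b))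
    x hx hinv
  have hxdb : x * d ∈ Subgroup.centralizer ({b} : Set G) := by
    rw [Subgroup.mem_centralizer_singleton_iff]
    exact (Subgroup.mem_centralizer_iff.mp hxd b (Subgroup.mem_zpowers b)).symm
  have hmem : x * d ∈ θ b := h4 a ha ha1 b hb hb1
    (Subgroup.mem_inf.mpr ⟨(θ a).mul_mem hx (Subgroup.mem_inf.mp hd).1, hxdb⟩)
  have hd1 : QuotientGroup.mk' N d = 1 := (QuotientGroup.eq_one_iff d).mpr (Subgroup.mem_inf.mp hd).2
  refine ⟨x * d, hmem, ?_⟩
  rw [map_mul, hd1, mul_one]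

end Cfsg.Agent.S1281
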