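import Cfsg.Statements.S1286
import Mathlib

set_option autoImplicit false
open Cfsg

namespace Cfsg.Agent.S1286


open Equiv

abbrev X86 := Perm (Fin 5)
def s86 : X86 := swap 0 1
def t86 : X86 := swap 2 3
def c86 : X86 := swap 2 3 * swap 3 4
def d86 : X86 := swap 0 1 * swap 1 4
def FA86 : Finset X86 := {1, s86, t86, s86 * t86}
def F186 : Finset X86 := {1, c86, c86 * c86}
def F286 : Finset X86 := {1, d86, d86 * d86}

/-- subgroup from a finset closed under the operations -/
def mkSub86 (F : Finset X86) (h1 : (1 : X86) ∈ F) (hmul : ∀ a ∈ F, ∀ b ∈ F, a * b ∈ F)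
    (hinv : ∀ a ∈ F, a⁻¹ ∈ F) : Subgroup X86 where
  carrier := (F : Set X86)
  one_mem' := Finset.mem_coe.mpr h1
  mul_mem' := fun {a b} ha hb =>
    Finset.mem_coe.mpr (hmul a (Finset.mem_coe.mp ha) b (Finset.mem_coe.mp hb))
  inv_mem' := fun {a} ha => Finset.mem_coe.mpr (hinv a (Finset.mem_coe.mp ha))

theorem mem_mkSub86 (F : Finset X86) (h1 : (1 : X86) ∈ F)
    (hmul : ∀ a ∈ F, ∀ b ∈ F, a * b ∈ F) (hinv : ∀ a ∈ F, a⁻¹ ∈ F) (x : X86) :
    x ∈ mkSub86 F h1 hmul hinv ↔ x ∈ F := Iff.rfl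

theorem card_mkSub86 (F : Finset X86) (h1 : (1 : X86) ∈ F)
    (hmul : ∀ a ∈ F, ∀ b ∈ F, a * b ∈ F) (hinv : ∀ a ∈ F, a⁻¹ ∈ F) :
    Nat.card ↥(mkSub86 F h1 hmul hinv) = F.card := by
  have h : Nat.card ↥(mkSub86 F h1 hmul hinv) = ((F : Set X86)).ncard :=
    Nat.card_coe_set_eq (F : Set X86)
  rw [h, Set.ncard_coe_finset]

def A86 : Subgroup X86 :=
  mkSub86 FA86 (by decide +kernel) (by decide +kernel) (by decide +kernel)
def Z186 : Subgroup X86 :=
  mkSub86 F186 (by decide +kernel) (by decide +kernel) (by decide +kernel)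
def Z286 : Subgroup X86 :=
  mkSub86 F286 (by decide +kernel) (by decide +kernel) (by decide +kernel)

theorem memA86 (x : X86) : x ∈ A86 ↔ x ∈ FA86 := Iff.rfl
theorem memZ186 (x : X86) : x ∈ Z186 ↔ x ∈ F186 := Iff.rfl
theorem memZ286 (x : X86) : x ∈ Z286 ↔ x ∈ F286 := Iff.rfl

theorem cardA86 : Nat.card ↥A86 = 4 := (card_mkSub86 _ _ _ _).trans (by decide +kernel)
theorem cardZ186 : Nat.card ↥Z186 = 3 := (card_mkSub86 _ _ _ _).trans (by decide +kernel)
theorem cardZ286 : Nat.card ↥Z286 = 3 := (card_mkSub86 _ _ _ _).trans (by decide +kernel)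

def θ86 : X86 → Subgroup X86 := fun g =>
  if g = s86 then Z186 else if g = t86 then Z286 else ⊥

theorem th_s86 : θ86 s86 = Z186 := by
  show (if s86 = s86 then Z186 else if s86 = t86 then Z286 else ⊥) = Z186
  exact if_pos rfl

theorem th_t86 : θ86 t86 = Z286 := by
  show (if t86 = s86 then Z186 else if t86 = t86 then Z286 else ⊥) = Z286
  rw [if_neg (by decide +kernel : t86 ≠ s86), if_pos rfl]

theorem th_st86 : θ86 (s86 * t86) = ⊥ := by
  show (if s86 * t86 = s86 then Z186 else if s86 * t86 = t86 then Z286 else ⊥) = ⊥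
  rw [if_neg (by decide +kernel : s86 * t86 ≠ s86), if_neg (by decide +kernel : s86 * t86 ≠ t86)]

theorem cases86 : ∀ a ∈ A86, a ≠ 1 → a = s86 ∨ a = t86 ∨ a = s86 * t86 := by
  intro a ha ha1
  have ha' : a ∈ FA86 := (memA86 a).mp ha
  unfold FA86 at ha'
  simp only [Finset.mem_insert, Finset.mem_singleton] at ha'
  rcases ha' with h | h | h | h
  · exact absurd h ha1
  · exact Or.inl h
  · exact Or.inr (Or.inl h)
  · exact Or.inr (Or.inr h)

theorem ax86 : ∀ a ∈ A86, a ≠ 1 →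
    (θ86 a ≤ Subgroup.centralizer {a}) ∧ (¬ 2 ∣ Nat.card (θ86 a)) ∧
    (∀ b ∈ A86, ∀ x ∈ θ86 a, b * x * b⁻¹ ∈ θ86 a) ∧
    (∀ b ∈ A86, b ≠ 1 → θ86 a ⊓ Subgroup.centralizer {b} ≤ θ86 b) ∧
    Group.IsSolvable (θ86 a) := by
  intro a ha ha1
  rcases cases86 a ha ha1 with rfl | rfl | rfl
  · rw [th_s86]
    refine ⟨?_, ?_, ?_, ?_, ?_⟩
    · intro x hx
      rw [Subgroup.mem_centralizer_singleton_iff]
      exact (by decide +kernel : ∀ x ∈ F186, x * s86 = s86 * x) x ((memZ186 x).mp hx)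
    · rw [cardZ186]; decide
    · intro b hb x hx
      exact (memZ186 _).mpr ((by decide +kernel :
        ∀ b ∈ FA86, ∀ x ∈ F186, b * x * b⁻¹ ∈ F186) b ((memA86 b).mp hb) x ((memZ186 x).mp hx))
    · intro b hb hb1
      rcases cases86 b hb hb1 with rfl | rfl | rfl
      · rw [th_s86]; exact inf_le_left
      · rw [th_t86]
        intro x hx
        obtain ⟨h1, h2⟩ := Subgroup.mem_inf.mp hx
        exact (memZ286 x).mpr ((by decide +kernel :
          ∀ x ∈ F186, x * t86 = t86 * x → x ∈ F286) x ((memZ186 x).mp h1)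
          (Subgroup.mem_centralizer_singleton_iff.mp h2))
      · rw [th_st86]
        intro x hx
        obtain ⟨h1, h2⟩ := Subgroup.mem_inf.mp hx
        have hx1 : x = 1 := (by decide +kernel :
          ∀ x ∈ F186, x * (s86 * t86) = s86 * t86 * x → x = 1) x ((memZ186 x).mp h1)
          (Subgroup.mem_centralizer_singleton_iff.mp h2)
        rw [hx1]; exact Subgroup.one_mem _
    · apply isSolvable_of_comm
      rintro ⟨x, hx⟩ ⟨y, hy⟩
      exact Subtype.ext ((by decide +kernel : ∀ a ∈ F186, ∀ b ∈ F186, a * b = b * a)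
        x ((memZ186 x).mp hx) y ((memZ186 y).mp hy))
  · rw [th_t86]
    refine ⟨?_, ?_, ?_, ?_, ?_⟩
    · intro x hx
      rw [Subgroup.mem_centralizer_singleton_iff]
      exact (by decide +kernel : ∀ x ∈ F286, x * t86 = t86 * x) x ((memZ286 x).mp hx)
    · rw [cardZ286]; decide
    · intro b hb x hx
      exact (memZ286 _).mpr ((by decide +kernel :
        ∀ b ∈ FA86, ∀ x ∈ F286, b * x * b⁻¹ ∈ F286) b ((memA86 b).mp hb) x ((memZ286 x).mp hx))
    · intro b hb hb1
      rcases cases86 b hb hb1 with rfl | rfl | rfl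
      · rw [th_s86]
        intro x hx
        obtain ⟨h1, h2⟩ := Subgroup.mem_inf.mp hx
        exact (memZ186 x).mpr ((by decide +kernel :
          ∀ x ∈ F286, x * s86 = s86 * x → x ∈ F186) x ((memZ286 x).mp h1)
          (Subgroup.mem_centralizer_singleton_iff.mp h2))
      · rw [th_t86]; exact inf_le_left
      · rw [th_st86]
        intro x hx
        obtain ⟨h1, h2⟩ := Subgroup.mem_inf.mp hx
        have hx1 : x = 1 := (by decide +kernel :
          ∀ x ∈ F286, x * (s86 * t86) = s86 * t86 * x → x = 1) x ((memZ286 x).mp h1)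
          (Subgroup.mem_centralizer_singleton_iff.mp h2)
        rw [hx1]; exact Subgroup.one_mem _
    · apply isSolvable_of_comm
      rintro ⟨x, hx⟩ ⟨y, hy⟩
      exact Subtype.ext ((by decide +kernel : ∀ a ∈ F286, ∀ b ∈ F286, a * b = b * a)
        x ((memZ286 x).mp hx) y ((memZ286 y).mp hy))
  · rw [th_st86]
    refine ⟨bot_le, ?_, ?_, ?_, ?_⟩
    · rw [Subgroup.card_bot]; decide
    · intro b hb x hx
      rw [Subgroup.mem_bot] at hx ⊢
      rw [hx, mul_one, mul_inv_cancel]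
    · intro b hb hb1
      exact inf_le_left.trans bot_le
    · apply isSolvable_of_comm
      rintro ⟨x, hx⟩ ⟨y, hy⟩
      apply Subtype.ext
      show x * y = y * x
      rw [Subgroup.mem_bot.mp hx, Subgroup.mem_bot.mp hy]

/-- There exist a finite group X, an elementary abelian subgroup A of order 4 and a solvable A-signalizer functor θ on X for the prime 2 which is not complete. -/
theorem result : ∃ (X : Type) (_ : Group X) (_ : Finite X) (A : Subgroup X) (θ : X → Subgroup X), Cfsg.IsElementaryAbelian 2 A ∧ Nat.card ↥A = 4 ∧ Cfsg.IsSolvableSignalizerFunctor 2 A θ ∧ ¬ Cfsg.IsCompleteSignalizerFunctor 2 A θ := by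
  refine ⟨X86, inferInstance, inferInstance, A86, θ86, ?_, cardA86, ?_, ?_⟩
  · refine ⟨⟨⟨fun a b => Subtype.ext ((by decide +kernel :
      ∀ a ∈ FA86, ∀ b ∈ FA86, a * b = b * a) a.1 ((memA86 _).mp a.2) b.1 ((memA86 _).mp b.2))⟩⟩,
      ?_⟩
    intro a ha
    rw [pow_two]
    exact (by decide +kernel : ∀ a ∈ FA86, a * a = 1) a ((memA86 a).mp ha)
  · exact ⟨⟨fun a ha ha1 => (ax86 a ha ha1).1, fun a ha ha1 => (ax86 a ha ha1).2.1,
      fun a ha ha1 => (ax86 a ha ha1).2.2.1, fun a ha ha1 => (ax86 a ha ha1).2.2.2.1⟩,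
      fun a ha ha1 => (ax86 a ha ha1).2.2.2.2⟩
  · rintro ⟨-, Y, hYinv, hYodd, hY⟩
    have hs : s86 ∈ A86 := (memA86 _).mpr (by decide +kernel)
    have ht : t86 ∈ A86 := (memA86 _).mpr (by decide +kernel)
    have hs1 : s86 ≠ 1 := by decide +kernel
    have ht1 : t86 ≠ 1 := by decide +kernel
    have hc : c86 ∈ Y := by
      have h : c86 ∈ θ86 s86 := by
        rw [th_s86]; exact (memZ186 _).mpr (by decide +kernel)
      rw [← hY s86 hs hs1] at h
      exact (Subgroup.mem_inf.mp h).1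
    have hd : d86 ∈ Y := by
      have h : d86 ∈ θ86 t86 := by
        rw [th_t86]; exact (memZ286 _).mpr (by decide +kernel)
      rw [← hY t86 ht ht1] at h
      exact (Subgroup.mem_inf.mp h).1
    have hg : c86 * c86 * d86 * c86 * d86 ∈ Y :=
      Y.mul_mem (Y.mul_mem (Y.mul_mem (Y.mul_mem hc hc) hd) hc) hd
    apply hYodd
    have ho : orderOf (⟨c86 * c86 * d86 * c86 * d86, hg⟩ : ↥Y) = 2 := by
      apply orderOf_eq_prime
      · apply Subtype.ext
        rw [Subgroup.coe_pow, pow_two]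
        exact (by decide +kernel :
          (c86 * c86 * d86 * c86 * d86) * (c86 * c86 * d86 * c86 * d86) = 1)
      · intro h
        exact (by decide +kernel : c86 * c86 * d86 * c86 * d86 ≠ 1) (congrArg Subtype.val h)
    have hdvd := orderOf_dvd_natCard (⟨c86 * c86 * d86 * c86 * d86, hg⟩ : ↥Y)
    rwa [ho] at hdvd

end Cfsg.Agent.S1286
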