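import Cfsg.Statements.S1300
import Mathlib

set_option autoImplicit false
open Cfsg

namespace Cfsg.Agent.S1300

theorem core_le_centralizer {G : Type*} [Group G] (p : ℕ) (x : G) :
    Cfsg.centralizerPPrimeCore p x ≤ Subgroup.centralizer ({x} : Set G) := by
  unfold Cfsg.centralizerPPrimeCore
  exact Subgroup.map_subtype_le _

theorem mem_zpowers_involution {G : Type*} [Group G] (x : G) (hx : orderOf x = 2) (a : G)
    (ha : a ∈ Subgroup.zpowers x) : a = 1 ∨ a = x := by
  obtain ⟨k, rfl⟩ := Subgroup.mem_zpowers_iff.1 ha
  have hx2 : x ^ (2 : ℤ) = 1 := by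
    have := pow_orderOf_eq_one x
    rw [hx] at this
    exact_mod_cast this
  have hk : k = 2 * (k / 2) + k % 2 := (Int.mul_ediv_add_emod k 2).symm
  rcases Int.emod_two_eq_zero_or_one k with h | h
  · left
    rw [hk, h, add_zero, zpow_mul, hx2, one_zpow]
  · right
    rw [hk, h, zpow_add, zpow_mul, hx2, one_zpow, one_mul, zpow_one]

/-- For a finite group G, balance in the sense of commuting involutions is the same as 1-balance for the prime 2. -/
theorem result {G : Type*} [Group G] [Finite G] : Cfsg.IsBalanced G ↔ Cfsg.IsKBalanced 2 1 G := by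
  constructor
  · intro hbal A hA hcard b hb hcomm
    have hne : A ≠ ⊥ := by
      intro h
      rw [h] at hcard
      simp at hcard
    obtain ⟨x, hx1⟩ := (Subgroup.ne_bot_iff_exists_ne_one).1 hne
    have hx2 : (x : G) ^ 2 = 1 := hA.2 x x.2
    have hx1' : (x : G) ≠ 1 := fun h => hx1 (Subtype.ext h)
    have hox : orderOf (x : G) = 2 := orderOf_eq_prime hx2 hx1'
    have hxb : (x : G) * b = b * x := hcomm x x.2
    have h1 := hbal x b hox hb hxb
    have h2 : Cfsg.signalizerDelta 2 A ≤ Cfsg.centralizerPPrimeCore 2 (x : G) := by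
      unfold Cfsg.signalizerDelta
      exact iInf_le (fun a : {a : G // a ∈ A ∧ a ≠ 1} => Cfsg.centralizerPPrimeCore 2 (a : G)) ⟨x, x.2, hx1'⟩
    calc Cfsg.signalizerDelta 2 A ⊓ Subgroup.centralizer {b}
        ≤ Cfsg.centralizerPPrimeCore 2 (x : G) ⊓ Subgroup.centralizer {b} := inf_le_inf_right _ h2
      _ = Cfsg.centralizerPPrimeCore 2 b ⊓ Subgroup.centralizer {(x : G)} := h1
      _ ≤ Cfsg.centralizerPPrimeCore 2 b := inf_le_left
  · intro hk
    have key : ∀ x y : G, orderOf x = 2 → orderOf y = 2 → x * y = y * x →
        Cfsg.centralizerPPrimeCore 2 x ⊓ Subgroup.centralizer {y} ≤ Cfsg.centralizerPPrimeCore 2 y := by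
      intro x y hx hy hxy
      have hA : Cfsg.IsElementaryAbelian 2 (Subgroup.zpowers x) := by
        refine ⟨inferInstance, ?_⟩
        intro a ha
        rcases mem_zpowers_involution x hx a ha with h | h
        · rw [h]; simp
        · rw [h]
          have := pow_orderOf_eq_one x
          rw [hx] at this
          exact this
      have hcard : Nat.card (Subgroup.zpowers x) = 2 ^ 1 := by
        rw [Nat.card_zpowers, hx]; norm_num
      have hcomm : ∀ a ∈ Subgroup.zpowers x, a * y = y * a := by
        intro a ha
        rcases mem_zpowers_involution x hx a ha with h | h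
        · rw [h]; simp
        · rw [h]; exact hxy
      have h1 := hk (Subgroup.zpowers x) hA hcard y hy hcomm
      have h2 : Cfsg.centralizerPPrimeCore 2 x ≤ Cfsg.signalizerDelta 2 (Subgroup.zpowers x) := by
        unfold Cfsg.signalizerDelta
        apply le_iInf
        rintro ⟨a, ha, ha1⟩
        rcases mem_zpowers_involution x hx a ha with h | h
        · exact absurd h ha1
        · simp only [h]; exact le_rfl
      exact le_trans (inf_le_inf_right _ h2) h1
    intro x y hx hy hxy
    apply le_antisymm
    · exact le_inf (key x y hx hy hxy) (le_trans inf_le_left (core_le_centralizer 2 x))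
    · exact le_inf (key y x hy hx hxy.symm) (le_trans inf_le_left (core_le_centralizer 2 y))

end Cfsg.Agent.S1300
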