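import Cfsg.Statements.S1303
import Mathlib
import Cfsg.Agent.Lib.Helper3.SL23c

set_option autoImplicit false
open Cfsg

namespace Cfsg.Agent.S1303

/-- The group X = SL(2, 3): it is 2-constrained, O_{2'}(X) = 1, its centre A = Z(X) contains every involution of X = C_X(A), and X has a subgroup of order 3 (normalized by A) not contained in O_{2'}(X). -/
theorem result : Cfsg.IsPConstrained 2 (Matrix.SpecialLinearGroup (Fin 2) (ZMod 3)) ∧ Cfsg.pPrimeCore 2 (Matrix.SpecialLinearGroup (Fin 2) (ZMod 3)) = ⊥ ∧ (∀ t : Matrix.SpecialLinearGroup (Fin 2) (ZMod 3), orderOf t = 2 → t ∈ Subgroup.center (Matrix.SpecialLinearGroup (Fin 2) (ZMod 3))) ∧ ∃ Q : Subgroup (Matrix.SpecialLinearGroup (Fin 2) (ZMod 3)), Nat.card ↥Q = 3 ∧ ¬ (Q ≤ Cfsg.pPrimeCore 2 (Matrix.SpecialLinearGroup (Fin 2) (ZMod 3))) := by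
  refine ⟨Lib.Helper3.SL23.isPConstrained, Lib.Helper3.SL23.pPrimeCore_eq_bot, ?_, ?_⟩
  · intro t ht
    rw [Lib.Helper3.SL23.mem_center_iff']
    have h := pow_orderOf_eq_one t
    rwa [ht] at h
  · refine ⟨Subgroup.zpowers Lib.Helper3.SL23.Umat, ?_, ?_⟩
    · rw [Nat.card_zpowers]
      have : Fact (Nat.Prime 3) := ⟨by norm_num⟩
      exact orderOf_eq_prime Lib.Helper3.SL23.Umat_pow Lib.Helper3.SL23.Umat_ne
    · intro hle
      have h := hle (Subgroup.mem_zpowers Lib.Helper3.SL23.Umat)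
      rw [Lib.Helper3.SL23.pPrimeCore_eq_bot, Subgroup.mem_bot] at h
      exact Lib.Helper3.SL23.Umat_ne h

end Cfsg.Agent.S1303
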