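import Cfsg.Statements.S1304
import Mathlib

set_option autoImplicit false
open Cfsg
open scoped commutatorElement

namespace Cfsg.Agent.S1304

/-- Let X be a perfect group and α an automorphism of X with α(x) x⁻¹ central for every x. Then α is the identity. -/
theorem result {X : Type*} [Group X] (hperf : commutator X = ⊤) (α : X ≃* X) (h : ∀ x : X, α x * x⁻¹ ∈ Subgroup.center X) : ∀ x : X, α x = x := by
  -- the set of fixed points is a subgroup containing all commutators
  let K : Subgroup X :=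
    { carrier := {x | α x = x}
      mul_mem' := by
        intro a b ha hb
        simp only [Set.mem_ofPred_eq] at *
        rw [map_mul, ha, hb]
      one_mem' := by simp
      inv_mem' := by
        intro a ha
        simp only [Set.mem_ofPred_eq] at *
        rw [map_inv, ha] }
  have hcomm : ∀ a b : X, α ⁅a, b⁆ = ⁅a, b⁆ := by
    intro a b
    have ha := h a
    have hb := h b
    rw [Subgroup.mem_center_iff] at ha hb
    -- α a = z a, α b = w b with z, w central
    set z := α a * a⁻¹ with hz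
    set w := α b * b⁻¹ with hw
    have e1 : α a = z * a := by rw [hz]; group
    have e2 : α b = w * b := by rw [hw]; group
    rw [commutatorElement_def, map_mul, map_mul, map_mul, map_inv, map_inv, e1, e2]
    have c1 : ∀ g : X, g * z = z * g := ha
    have c2 : ∀ g : X, g * w = w * g := hb
    have c1' : ∀ g : X, g * z⁻¹ = z⁻¹ * g := by
      intro g
      have := c1 g⁻¹
      have h3 : (g⁻¹ * z)⁻¹ = (z * g⁻¹)⁻¹ := by rw [this]
      simpa [mul_inv_rev] using h3.symm
    have c2' : ∀ g : X, g * w⁻¹ = w⁻¹ * g := by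
      intro g
      have := c2 g⁻¹
      have h3 : (g⁻¹ * w)⁻¹ = (w * g⁻¹)⁻¹ := by rw [this]
      simpa [mul_inv_rev] using h3.symm
    calc z * a * (w * b) * (z * a)⁻¹ * (w * b)⁻¹
        = z * a * w * b * a⁻¹ * z⁻¹ * b⁻¹ * w⁻¹ := by group
      _ = z * (a * w) * b * a⁻¹ * z⁻¹ * b⁻¹ * w⁻¹ := by group
      _ = z * (w * a) * b * a⁻¹ * z⁻¹ * b⁻¹ * w⁻¹ := by rw [c2 a]
      _ = z * w * (a * b * a⁻¹ * z⁻¹) * b⁻¹ * w⁻¹ := by group
      _ = z * w * (z⁻¹ * (a * b * a⁻¹)) * b⁻¹ * w⁻¹ := by rw [c1' (a * b * a⁻¹)]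
      _ = z * (w * z⁻¹) * (a * b * a⁻¹ * b⁻¹) * w⁻¹ := by group
      _ = z * (z⁻¹ * w) * (a * b * a⁻¹ * b⁻¹) * w⁻¹ := by rw [c1' w]
      _ = w * (a * b * a⁻¹ * b⁻¹ * w⁻¹) := by group
      _ = w * (w⁻¹ * (a * b * a⁻¹ * b⁻¹)) := by rw [c2' (a * b * a⁻¹ * b⁻¹)]
      _ = a * b * a⁻¹ * b⁻¹ := by group
  have hle : commutator X ≤ K := by
    rw [commutator_def, Subgroup.commutator_le]
    intro a _ b _
    exact hcomm a b
  rw [hperf] at hle
  intro x
  exact hle (Subgroup.mem_top x)

end Cfsg.Agent.S1304
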