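import Cfsg.Statements.S1316
import Cfsg.Agent.Lib.Helper2.Comp8

set_option autoImplicit false
open Cfsg

namespace Cfsg.Agent.S1316

open Cfsg.Agent.Lib.Helper2.Comp

theorem result {X : Type*} [Group X] [Finite X] : (⨅ n : ℕ, (derivedSeries ↥(Cfsg.generalizedFittingSubgroup X) n).map (Cfsg.generalizedFittingSubgroup X).subtype) = Cfsg.layer X := by
  have := iInf_dser_gfs (G := X)
  simp_rw [dser_map] at this
  exact this

end Cfsg.Agent.S1316
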