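import Cfsg.Statements.S1317
import Cfsg.Agent.Lib.Helper2.Comp8

set_option autoImplicit false
open Cfsg

namespace Cfsg.Agent.S1317

open Cfsg.Agent.Lib.Helper2.Comp

theorem result {X : Type*} [Group X] [Finite X] : (Subgroup.center ↥(Cfsg.layer X)).map (Cfsg.layer X).subtype = Cfsg.fittingSubgroup X ⊓ Cfsg.layer X := by
  rw [map_center_subtype]
  apply le_antisymm
  · refine le_inf ?_ inf_le_left
    have hE := Cfsg.Agent.Lib.Helper3.layer_normal X
    have hn : (Cfsg.layer X ⊓ Subgroup.centralizer (Cfsg.layer X : Set X)).Normal := inferInstance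
    exact le_fitting hn (isNilpotent_of_le_centralizer_self
      (inf_le_right.trans (Subgroup.centralizer_le (SetLike.coe_subset_coe.mpr inf_le_left))))
  · exact le_inf inf_le_right (inf_le_left.trans fitting_le_centralizer_layer)

end Cfsg.Agent.S1317
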