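import Cfsg.Statements.S1318
import Cfsg.Agent.Lib.Helper2.Comp8

set_option autoImplicit false
open Cfsg

namespace Cfsg.Agent.S1318

open Cfsg.Agent.Lib.Helper2.Comp

theorem result {X : Type*} [Group X] [Finite X] (S : Subgroup X) (hS : S ≤ Cfsg.generalizedFittingSubgroup X) (hsn : (S.subgroupOf (Cfsg.generalizedFittingSubgroup X)).IsSubnormal) : (Cfsg.fittingSubgroup ↥S).map S.subtype = Cfsg.fittingSubgroup X ⊓ S ∧ Cfsg.fittingSubgroup ↥S ⊔ Cfsg.layer ↥S = ⊤ := by
  have hSsn : S.IsSubnormal := Subgroup.IsSubnormal.trans hS hsn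
    (Cfsg.Agent.Lib.Helper3.generalizedFittingSubgroup_normal X).isSubnormal
  refine ⟨map_fitting_eq hSsn, ?_⟩
  have h := map_gfs_eq hSsn
  rw [inf_eq_right.mpr hS] at h
  have h2 : Cfsg.generalizedFittingSubgroup ↥S = ⊤ := by
    rw [eq_top_iff]
    intro s _
    have hs : (s : X) ∈ (Cfsg.generalizedFittingSubgroup ↥S).map S.subtype := by rw [h]; exact s.2
    obtain ⟨y, hy, hys⟩ := hs
    have e : y = s := Subtype.ext hys
    rwa [← e]
  unfold Cfsg.generalizedFittingSubgroup at h2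
  rw [sup_comm]; exact h2

end Cfsg.Agent.S1318
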