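import Cfsg.Statements.S1319
import Cfsg.Agent.Lib.Helper2.Comp8

set_option autoImplicit false
open Cfsg

namespace Cfsg.Agent.S1319

open Cfsg.Agent.Lib.Helper2.Comp

theorem result {X : Type*} [Group X] [Finite X] (A : Subgroup X) (hsn : A.IsSubnormal) (hA : Cfsg.layer ↥A = ⊤) : A ≤ Cfsg.layer X ∧ (A.subgroupOf (Cfsg.layer X)).Normal := by
  have h1 : A ≤ Cfsg.layer X := by
    have := map_layer_le hsn
    rw [hA, ← MonoidHom.range_eq_map, Subgroup.range_subtype] at this
    exact this
  refine ⟨h1, (Subgroup.normal_subgroupOf_iff_le_normalizer h1).mpr ?_⟩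
  apply sSup_le
  intro L hL
  rcases le_or_le_centralizer hL hsn with h | h
  · exact h.trans Subgroup.le_normalizer
  · exact (Subgroup.le_centralizer_iff.mp h).trans (Subgroup.centralizer_le_normalizer _)

end Cfsg.Agent.S1319
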