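import Cfsg.Statements.S1321
import Cfsg.Agent.Lib.Helper2.Comp8

set_option autoImplicit false
open Cfsg

namespace Cfsg.Agent.S1321

open Cfsg.Agent.Lib.Helper2.Comp

theorem result {X : Type*} [Group X] [Finite X] (U : Subgroup X) : Cfsg.layer X = (Cfsg.layer X ⊓ Subgroup.centralizer (U : Set X)) ⊔ ⁅Cfsg.layer X, U⁆ ∧ ⁅Cfsg.layer X, U⁆ ≤ Cfsg.layer X := by
  have hEn := Cfsg.Agent.Lib.Helper3.layer_normal X
  have hle : ⁅Cfsg.layer X, U⁆ ≤ Cfsg.layer X := Subgroup.commutator_le_left _ _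
  refine ⟨le_antisymm ?_ (sup_le inf_le_left hle), hle⟩
  have hMsn : (⁅Cfsg.layer X, U⁆ : Subgroup X).IsSubnormal :=
    Subgroup.IsSubnormal.trans hle
      ((Subgroup.normal_subgroupOf_iff_le_normalizer hle).mpr
        (le_normalizer_commutator_left _ _)).isSubnormal hEn.isSubnormal
  apply sSup_le
  intro L hL
  rcases le_or_le_centralizer hL hMsn with h | h
  · exact h.trans le_sup_right
  · refine le_trans ?_ le_sup_left
    refine le_inf (le_layer hL) ?_
    have h1 : ⁅⁅L, U⁆, L⁆ = ⊥ := by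
      rw [Subgroup.commutator_eq_bot_iff_le_centralizer]
      exact (Subgroup.commutator_mono (le_layer hL) le_rfl).trans h
    have h2 : ⁅⁅U, L⁆, L⁆ = ⊥ := by rw [Subgroup.commutator_comm U L]; exact h1
    have h3 : ⁅⁅L, L⁆, U⁆ = ⊥ := Subgroup.commutator_commutator_eq_bot_of_rotate h1 h2
    rw [perfect_of_isQuasisimple hL.2, Subgroup.commutator_eq_bot_iff_le_centralizer] at h3
    exact h3

end Cfsg.Agent.S1321
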