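import Cfsg.Statements.S1324
import Cfsg.Agent.Lib.Helper2.Gen

set_option autoImplicit false
open Cfsg

namespace Cfsg.Agent.S1324

open Cfsg.Agent.Lib.Helper2.Gen Cfsg.Agent.Lib.Helper2.Comp in
theorem result {H : Type*} [Group H] [Finite H] (p : ℕ) [Fact p.Prime] (A X : Subgroup H) (hA : Cfsg.IsElementaryAbelian p A) (hA2 : p ^ 2 ≤ Nat.card ↥A) (hX : ¬ p ∣ Nat.card ↥X) (hAX : A ≤ Subgroup.normalizer (X : Set H)) : X = ⨆ B : {B : Subgroup H // B ≤ A ∧ B.relIndex A ≤ p}, X ⊓ Subgroup.centralizer ((B : Subgroup H) : Set H) := by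
  apply le_antisymm
  · apply le_of_hyperplanes p A X hA
      ((Nat.Prime.coprime_iff_not_dvd (Fact.out : p.Prime)).mpr hX).symm hAX
    intro B hB hidx
    exact le_iSup (fun B : {B : Subgroup H // B ≤ A ∧ B.relIndex A ≤ p} =>
      X ⊓ Subgroup.centralizer ((B : Subgroup H) : Set H)) ⟨B, hB, hidx⟩
  · exact iSup_le (fun B => inf_le_left)

end Cfsg.Agent.S1324
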