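import Cfsg.Statements.S1326
import Cfsg.Agent.Lib.Helper2.Comp5

set_option autoImplicit false
open Cfsg

namespace Cfsg.Agent.S1326

open Cfsg.Agent.Lib.Helper2.Comp

theorem result {X : Type*} [Group X] [Finite X] : Subgroup.centralizer (Cfsg.fittingSubgroup X : Set X) ≤ Cfsg.fittingSubgroup X ↔ Cfsg.layer X = ⊥ := by
  have hFn := Cfsg.Agent.Lib.Lead.fitting_normal X
  have hFnil : Group.IsNilpotent (Cfsg.fittingSubgroup X) := Cfsg.Agent.Lib.Lead.fitting_isNilpotent
  have hFs : Group.IsSolvable (Cfsg.fittingSubgroup X) := inferInstance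
  constructor
  · intro h
    rw [eq_bot_iff]
    apply sSup_le
    intro K hK
    exfalso
    have h1 := solvable_subnormal_le_centralizer hK hFn.isSubnormal hFs
    exact not_le_of_isSolvable hK hFs ((Subgroup.le_centralizer_iff.mp h1).trans h)
  · intro h
    have := centralizer_gfs_le (G := X)
    have e : Cfsg.generalizedFittingSubgroup X = Cfsg.fittingSubgroup X := by
      unfold Cfsg.generalizedFittingSubgroup
      rw [h, bot_sup_eq]
    rw [e] at this
    exact this

end Cfsg.Agent.S1326
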