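import Cfsg.Statements.S1331
import Cfsg.Agent.Lib.Helper2.Gen

set_option autoImplicit false
open Cfsg

namespace Cfsg.Agent.S1331

open Cfsg.Agent.Lib.Helper2.Gen Cfsg.Agent.Lib.Helper2.Comp in
theorem result {G : Type*} [Group G] [Finite G] (p : ℕ) [Fact p.Prime] (A : Subgroup G) (hA : Cfsg.IsElementaryAbelian p A) (hA3 : p ^ 3 ≤ Nat.card ↥A) (θ : G → Subgroup G) (hθ : Cfsg.IsSolvableSignalizerFunctor p A θ) (X : Subgroup G) (hX : X ∈ Cfsg.signalizerFamily p A θ) (B : Subgroup G) (hB : B ≤ A) (hB2 : p ^ 2 ≤ Nat.card ↥B) : X = ⨆ D : {D : Subgroup G // D ≤ B ∧ D.relIndex B = p}, X ⊓ Cfsg.signalizerInf (D : Subgroup G) θ := by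
  have hpp : p.Prime := Fact.out
  obtain ⟨hXs, hXp, hXA, hXθ⟩ := hX
  have hAc : ∀ x ∈ A, ∀ y ∈ A, x * y = y * x := by
    intro x hx y hy
    have := hA.1
    exact setLike_mul_comm hx hy
  have hBel : Cfsg.IsElementaryAbelian p B :=
    ⟨IsMulCommutative.of_setLike_mul_comm (fun a ha b hb => hAc a (hB ha) b (hB hb)),
      fun a ha => hA.2 a (hB ha)⟩
  have hBX : B ≤ Subgroup.normalizer (X : Set G) :=
    le_normalizer_of_forall (fun b hb x hx => hXA b (hB hb) x hx)
  have hBp : IsPGroup p B := by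
    intro g
    refine ⟨1, Subtype.ext ?_⟩
    rw [pow_one, Subgroup.coe_pow, Subgroup.coe_one]
    exact hBel.2 g g.2
  obtain ⟨m, hm⟩ := IsPGroup.iff_card.mp hBp
  have hm1 : 1 ≤ m := by
    rcases Nat.eq_zero_or_pos m with h0 | h0
    · exfalso
      rw [hm, h0, pow_zero] at hB2
      have := hpp.one_lt
      nlinarith
    · exact h0
  have hD₀ : ∃ D₀ : Subgroup G, D₀ ≤ B ∧ D₀.relIndex B = p := by
    have hdvd : p ^ (m - 1) ∣ Nat.card B := by
      rw [hm]; exact pow_dvd_pow p (Nat.sub_le m 1)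
    obtain ⟨K, hK⟩ := Sylow.exists_subgroup_card_pow_prime p hdvd
    refine ⟨K.map B.subtype, Subgroup.map_subtype_le _, ?_⟩
    have h1 : (K.map B.subtype).relIndex B = K.index := by
      unfold Subgroup.relIndex
      rw [Subgroup.subgroupOf, Subgroup.comap_map_eq_self_of_injective (Subgroup.subtype_injective _)]
    rw [h1]
    have h2 := Subgroup.card_mul_index K
    rw [hK, hm] at h2
    have h3 : p ^ (m - 1) * p = p ^ m := by
      rw [← pow_succ]; congr 1; omega
    rw [← h3] at h2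
    exact Nat.eq_of_mul_eq_mul_left (pow_pos hpp.pos _) h2
  have key : ∀ D' : Subgroup G, D' ≤ B →
      X ⊓ Subgroup.centralizer (D' : Set G) ≤ X ⊓ Cfsg.signalizerInf D' θ := by
    intro D' hD'
    refine le_inf inf_le_left (le_iInf ?_)
    rintro ⟨a, haD, ha1⟩
    refine le_trans ?_ (hXθ a (hB (hD' haD)) ha1)
    refine inf_le_inf_left X (Subgroup.centralizer_le ?_)
    intro z hz
    rw [Set.mem_singleton_iff] at hz
    rw [hz]; exact haD
  apply le_antisymm
  · apply le_of_hyperplanes p B X hBel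
      ((Nat.Prime.coprime_iff_not_dvd hpp).mpr hXp).symm hBX
    intro D hD hidx
    by_cases h : D.relIndex B = p
    · exact (key D hD).trans (le_iSup (fun D : {D : Subgroup G // D ≤ B ∧ D.relIndex B = p} =>
        X ⊓ Cfsg.signalizerInf (D : Subgroup G) θ) ⟨D, hD, h⟩)
    · obtain ⟨D₀, hD₀B, hD₀p⟩ := hD₀
      have hBD : B ≤ D := by
        rw [← Subgroup.relIndex_eq_one]
        have h1 : D.relIndex B ∣ Nat.card B := Subgroup.relIndex_dvd_card D B
        rw [hm] at h1
        obtain ⟨j, hj, hj'⟩ := (Nat.dvd_prime_pow hpp).mp h1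
        rcases Nat.eq_zero_or_pos j with h0 | h0
        · rw [hj', h0, pow_zero]
        · exfalso
          apply h
          apply le_antisymm hidx
          rw [hj']
          exact Nat.le_self_pow h0.ne' p
      refine le_trans ?_ ((key D₀ hD₀B).trans
        (le_iSup (fun D : {D : Subgroup G // D ≤ B ∧ D.relIndex B = p} =>
        X ⊓ Cfsg.signalizerInf (D : Subgroup G) θ) ⟨D₀, hD₀B, hD₀p⟩))
      exact inf_le_inf_left X (Subgroup.centralizer_le (SetLike.coe_subset_coe.mpr (hD₀B.trans hBD)))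
  · exact iSup_le (fun D => inf_le_left)

end Cfsg.Agent.S1331
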