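import Cfsg.Statements.S1335

set_option autoImplicit false
open Cfsg

namespace Cfsg.Agent.S1335

theorem result {G : Type*} [Group G] [Finite G] {p : ℕ} [Fact p.Prime] (k : ℕ) (hk : 1 ≤ k) (H : Subgroup G) (P : Sylow p ↥H) (hP : ¬ Cfsg.PRankLE p (k - 1) ↥(P : Subgroup ↥H)) (hΓ : (∀ X : Subgroup G, X ≤ (P : Subgroup ↥H).map H.subtype → ¬ Cfsg.PRankLE p (k - 1) ↥X → Subgroup.normalizer (X : Set G) ≤ H)) : ∃ Q : Sylow p G, (Q : Subgroup G) = (P : Subgroup ↥H).map H.subtype := by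
  obtain ⟨P₀, hP₀⟩ : ∃ P₀, P₀ = (P : Subgroup ↥H).map H.subtype := ⟨_, rfl⟩
  rw [← hP₀]
  have hP₀H : P₀ ≤ H := by rw [hP₀]; exact Subgroup.map_subtype_le _
  have hP₀p : IsPGroup p P₀ := by rw [hP₀]; exact P.isPGroup'.map _
  have hrank : ¬ Cfsg.PRankLE p (k - 1) ↥P₀ := by
    intro h
    apply hP
    intro A hA hAp
    have e : ↥(P : Subgroup ↥H) ≃* ↥P₀ := by
      rw [hP₀]; exact (P : Subgroup ↥H).equivMapOfInjective H.subtype H.subtype_injective
    have h1 := h (A.map e.toMonoidHom) inferInstance (by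
      rintro _ ⟨a, ha, rfl⟩
      show e a ^ p = 1
      rw [← map_pow, hAp a ha, map_one])
    rwa [← Nat.card_congr (A.equivMapOfInjective e.toMonoidHom e.injective).toEquiv] at h1
  have hN : Subgroup.normalizer (P₀ : Set G) ≤ H := hΓ P₀ (by rw [hP₀]) hrank
  obtain ⟨Q, hQ⟩ := hP₀p.exists_le_sylow
  refine ⟨Q, ?_⟩
  have hR : (Q : Subgroup G) ⊓ Subgroup.normalizer (P₀ : Set G) = P₀ := by
    have hRp : IsPGroup p (((Q : Subgroup G) ⊓ Subgroup.normalizer (P₀ : Set G)).subgroupOf H) :=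
      (Q.isPGroup'.to_le inf_le_left).comap_subtype
    have hle : (P : Subgroup ↥H) ≤
        ((Q : Subgroup G) ⊓ Subgroup.normalizer (P₀ : Set G)).subgroupOf H := by
      intro t ht
      rw [Subgroup.mem_subgroupOf]
      have h0 : (t : G) ∈ P₀ := by rw [hP₀]; exact ⟨t, ht, rfl⟩
      exact ⟨hQ h0, Subgroup.le_normalizer h0⟩
    have h2 := P.is_maximal' hRp hle
    have h3 := congrArg (Subgroup.map H.subtype) h2
    rw [Subgroup.map_subgroupOf_eq_of_le (inf_le_right.trans hN)] at h3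
    rw [h3, hP₀]
  by_contra hne
  have hlt : P₀.subgroupOf Q < ⊤ := by
    rw [lt_top_iff_ne_top]
    intro h
    exact hne (le_antisymm (Subgroup.subgroupOf_eq_top.mp h) hQ)
  have hnil : Group.IsNilpotent ↥(Q : Subgroup G) := Q.isPGroup'.isNilpotent
  have h4 := Group.normalizerCondition_of_isNilpotent (P₀.subgroupOf Q) hlt
  obtain ⟨x, hxN, hxP⟩ := SetLike.exists_of_lt h4
  have hx1 : (x : G) ∈ Subgroup.normalizer (P₀ : Set G) := by
    rw [Subgroup.mem_normalizer_iff]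
    intro y
    constructor
    · intro hy
      exact (Subgroup.mem_normalizer_iff.mp hxN ⟨y, hQ hy⟩).mp hy
    · intro hy
      have hyQ : y ∈ (Q : Subgroup G) := by
        have h5 := (Q : Subgroup G).mul_mem ((Q : Subgroup G).mul_mem
          ((Q : Subgroup G).inv_mem x.2) (hQ hy)) x.2
        simpa [mul_assoc] using h5
      exact (Subgroup.mem_normalizer_iff.mp hxN ⟨y, hyQ⟩).mpr hy
  have hx2 : (x : G) ∈ P₀ := by rw [← hR]; exact ⟨x.2, hx1⟩
  exact hxP hx2

end Cfsg.Agent.S1335
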