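import Cfsg.Statements.S1386
import Mathlib

set_option autoImplicit false
open Cfsg

namespace Cfsg.Agent.S1386

/-- Two commuting subgroups with trivial intersection whose join is cyclic have coprime orders. -/
theorem coprime_of_cyclic_sup {G : Type*} [Group G] [Finite G] (A B : Subgroup G)
    (hAB : A ⊓ B = ⊥) (hcomm : ∀ a ∈ A, ∀ b ∈ B, a * b = b * a) (hcyc : IsCyclic ↥(A ⊔ B)) :
    (Nat.card A).Coprime (Nat.card B) := by
  let f : A × B →* ↥(A ⊔ B) :=
    { toFun := fun p => ⟨(p.1 : G) * (p.2 : G),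
        mul_mem (Subgroup.mem_sup_left p.1.2) (Subgroup.mem_sup_right p.2.2)⟩
      map_one' := by ext; simp
      map_mul' := by
        rintro ⟨a, b⟩ ⟨a', b'⟩
        apply Subtype.ext
        show (a : G) * (a' : G) * ((b : G) * (b' : G)) = (a : G) * (b : G) * ((a' : G) * (b' : G))
        have := hcomm a' a'.2 b b.2
        calc (a : G) * (a' : G) * ((b : G) * (b' : G)) = (a : G) * ((a' : G) * (b : G)) * (b' : G) := by
              group
          _ = (a : G) * ((b : G) * (a' : G)) * (b' : G) := by rw [this]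
          _ = (a : G) * (b : G) * ((a' : G) * (b' : G)) := by group }
  have hf : Function.Injective f := by
    rw [injective_iff_map_eq_one]
    rintro ⟨a, b⟩ h
    have h1 : (a : G) * (b : G) = 1 := congrArg Subtype.val h
    have h2 : (a : G) ∈ A ⊓ B := by
      refine Subgroup.mem_inf.mpr ⟨a.2, ?_⟩
      have : (a : G) = (b : G)⁻¹ := eq_inv_of_mul_eq_one_left h1
      rw [this]; exact inv_mem b.2
    rw [hAB, Subgroup.mem_bot] at h2
    have h3 : (b : G) = 1 := by rw [h2, one_mul] at h1; exact h1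
    exact Prod.ext (Subtype.ext h2) (Subtype.ext h3)
  have : IsCyclic (A × B) := isCyclic_of_injective f hf
  exact coprime_card_of_isCyclic_prod A B

theorem mem_of_sup {G : Type*} [Group G] (A B : Subgroup G)
    (hcomm : ∀ a ∈ A, ∀ b ∈ B, a * b = b * a) (y : G) (hy : y ∈ A ⊔ B) :
    ∃ a ∈ A, ∃ b ∈ B, y = a * b := by
  have hle : B ≤ Subgroup.normalizer (A : Set G) := by
    intro b hb
    rw [Subgroup.mem_normalizer_iff]
    intro a
    constructor
    · intro ha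
      have h1 : b * a * b⁻¹ = a := by rw [← hcomm a ha b hb]; group
      rw [h1]; exact ha
    · intro ha
      have h1 := hcomm _ ha b hb
      have h2 : a = b * a * b⁻¹ := by
        calc a = b⁻¹ * (b * a * b⁻¹ * b) := by group
          _ = b⁻¹ * (b * (b * a * b⁻¹)) := by rw [h1]
          _ = b * a * b⁻¹ := by group
      rw [h2]; exact ha
  have h := Subgroup.coe_mul_of_right_le_normalizer_left A B hle
  have hy' : y ∈ ((A ⊔ B : Subgroup G) : Set G) := hy
  rw [h] at hy'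
  obtain ⟨a, ha, b, hb, hab⟩ := Set.mem_mul.mp hy'
  exact ⟨a, ha, b, hb, hab.symm⟩

theorem le_of_sup_le {G : Type*} [Group G] [Finite G] (A B B' : Subgroup G)
    (hAB : A ⊓ B = ⊥) (hcomm : ∀ a ∈ A, ∀ b ∈ B, a * b = b * a) (hcyc : IsCyclic ↥(A ⊔ B))
    (hAB' : A ⊓ B' = ⊥) (hcomm' : ∀ a ∈ A, ∀ b ∈ B', a * b = b * a)
    (hle : A ⊔ B ≤ A ⊔ B') : B ≤ B' := by
  intro y hy
  obtain ⟨a, ha, b, hb, hyab⟩ := mem_of_sup A B' hcomm' y (hle (Subgroup.mem_sup_right hy))
  have hcop := coprime_of_cyclic_sup A B hAB hcomm hcyc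
  have h1 : y ^ Nat.card B = 1 := by
    have h1 : (⟨y, hy⟩ : B) ^ Nat.card B = 1 := pow_card_eq_one'
    have h2 : (((⟨y, hy⟩ : B) ^ Nat.card B : B) : G) = 1 := by rw [h1]; rfl
    rw [Subgroup.coe_pow] at h2
    exact h2
  have h2 : a ^ Nat.card A = 1 := by
    have h1 : (⟨a, ha⟩ : A) ^ Nat.card A = 1 := pow_card_eq_one'
    have h2 : (((⟨a, ha⟩ : A) ^ Nat.card A : A) : G) = 1 := by rw [h1]; rfl
    rw [Subgroup.coe_pow] at h2
    exact h2
  have hc : Commute a b := hcomm' a ha b hb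
  have h3 : a ^ Nat.card B = 1 := by
    rw [hyab, hc.mul_pow] at h1
    have h4 : a ^ Nat.card B ∈ A ⊓ B' := by
      refine Subgroup.mem_inf.mpr ⟨pow_mem ha _, ?_⟩
      have : a ^ Nat.card B = (b ^ Nat.card B)⁻¹ := eq_inv_of_mul_eq_one_left h1
      rw [this]; exact inv_mem (pow_mem hb _)
    rw [hAB', Subgroup.mem_bot] at h4
    exact h4
  have h5 : orderOf a ∣ Nat.gcd (Nat.card A) (Nat.card B) :=
    Nat.dvd_gcd (orderOf_dvd_of_pow_eq_one h2) (orderOf_dvd_of_pow_eq_one h3)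
  rw [hcop] at h5
  have ha1 : a = 1 := orderOf_eq_one_iff.mp (Nat.dvd_one.mp h5)
  rw [hyab, ha1, one_mul]; exact hb

/-- Let G be a finite group, W₁, W₂ subgroups forming a self-normalizing cyclic pair, S a subgroup with W₂ ≤ S and W₁ a complement to S' in S, and (W₁, U, W₂') type-P data for S. Then W₂' = W₂ (that is, C_{S'}(W₁) = W₂). -/
theorem result {G : Type*} [Group G] [Finite G] (W₁ W₂ S U W₂' : Subgroup G) (hW : Cfsg.IsSelfNormalizingCyclic W₁ W₂)
    (hSW : Cfsg.IsComplIn ⁅S, S⁆ W₁ S) (hW₂S : W₂ ≤ S) (hP : Cfsg.IsTypePWith S W₁ U W₂') :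
    W₂' = W₂ := by
  obtain ⟨hW₁ne, hW₂ne, hdisj, hcomm, hcyc, hnorm⟩ := hW
  obtain ⟨-, hW₂'ne, hdisj', hcomm', hcyc', hnorm'⟩ := hP.selfNormalizing
  obtain ⟨⟨x, hx⟩, hx1⟩ := (Subgroup.ne_bot_iff_exists_ne_one).mp hW₁ne
  have hx1' : x ≠ 1 := fun h => hx1 (Subtype.ext h)
  obtain ⟨⟨y, hy⟩, hy1⟩ := (Subgroup.ne_bot_iff_exists_ne_one).mp hW₂ne
  have hy1' : y ≠ 1 := fun h => hy1 (Subtype.ext h)
  have hW₁comm : ∀ a ∈ W₁, ∀ b ∈ W₁, a * b = b * a := by
    intro a ha b hb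
    have := hP.W₁_cyclic
    have h := (IsCyclic.isMulCommutative (α := W₁)).is_comm.comm ⟨a, ha⟩ ⟨b, hb⟩
    exact congrArg Subtype.val h
  -- (i) W₂ ≤ W₁ ⊔ W₂'
  have hi : W₂ ≤ W₁ ⊔ W₂' := by
    intro v hv
    obtain ⟨s, hs, w, hw, hvsw⟩ := hSW.2.2.2 v (hW₂S hv)
    have hsx : s ∈ ⁅S, S⁆ ⊓ Subgroup.centralizer ({x} : Set G) := by
      refine Subgroup.mem_inf.mpr ⟨hs, ?_⟩
      rw [Subgroup.mem_centralizer_iff]
      intro h hh
      rw [Set.mem_singleton_iff] at hh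
      subst hh
      have h1 : h * v = v * h := hcomm h hx v hv
      have h2 : h * w = w * h := hW₁comm h hx w hw
      have hs' : s = v * w⁻¹ := by rw [hvsw]; group
      rw [hs']
      calc h * (v * w⁻¹) = (h * v) * w⁻¹ := by group
        _ = v * (w⁻¹ * (w * h) * w⁻¹) := by rw [h1]; group
        _ = v * (w⁻¹ * (h * w) * w⁻¹) := by rw [h2]
        _ = v * w⁻¹ * h := by group
    rw [hP.W₂_centralizer x hx hx1'] at hsx
    rw [hvsw]
    exact mul_mem (Subgroup.mem_sup_right hsx) (Subgroup.mem_sup_left hw)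
  have hle : W₁ ⊔ W₂ ≤ W₁ ⊔ W₂' := sup_le le_sup_left hi
  -- (ii) W₁ ⊔ W₂' ≤ W₁ ⊔ W₂
  have hxyW : x * y ∈ W₁ ⊔ W₂ := mul_mem (Subgroup.mem_sup_left hx) (Subgroup.mem_sup_right hy)
  have hN : Subgroup.normalizer ({x * y} : Set G) = W₁ ⊔ W₂ := by
    apply hnorm
    · intro c hc
      rw [Set.mem_singleton_iff] at hc
      subst hc
      refine ⟨hxyW, ?_⟩
      rintro (h | h)
      · apply hy1'
        have : y ∈ W₁ ⊓ W₂ := by
          refine Subgroup.mem_inf.mpr ⟨?_, hy⟩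
          have e : y = x⁻¹ * (x * y) := by group
          rw [e]; exact mul_mem (inv_mem hx) h
        rw [hdisj, Subgroup.mem_bot] at this
        exact this
      · apply hx1'
        have : x ∈ W₁ ⊓ W₂ := by
          refine Subgroup.mem_inf.mpr ⟨hx, ?_⟩
          have e : x = (x * y) * y⁻¹ := by group
          rw [e]; exact mul_mem h (inv_mem hy)
        rw [hdisj, Subgroup.mem_bot] at this
        exact this
    · exact ⟨x * y, rfl⟩
  have hge : W₁ ⊔ W₂' ≤ W₁ ⊔ W₂ := by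
    intro w hw
    rw [← hN, Subgroup.mem_set_normalizer_iff]
    have h := (IsCyclic.isMulCommutative (α := ↥(W₁ ⊔ W₂'))).is_comm.comm ⟨w, hw⟩ ⟨x * y, hle hxyW⟩
    have h' : w * (x * y) = (x * y) * w := congrArg Subtype.val h
    intro n
    simp only [Set.mem_singleton_iff]
    constructor
    · intro hn
      rw [hn, h']; group
    · intro hn
      have e : n = w⁻¹ * (w * n * w⁻¹) * w := by group
      rw [e, hn]
      calc w⁻¹ * (x * y) * w = w⁻¹ * ((x * y) * w) := by group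
        _ = w⁻¹ * (w * (x * y)) := by rw [h']
        _ = x * y := by group
  have heq : W₁ ⊔ W₂ = W₁ ⊔ W₂' := le_antisymm hle hge
  apply le_antisymm
  · exact le_of_sup_le W₁ W₂' W₂ hdisj' hcomm' hcyc' hdisj hcomm hge
  · exact le_of_sup_le W₁ W₂ W₂' hdisj hcomm hcyc hdisj' hcomm' hle

end Cfsg.Agent.S1386
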