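import Cfsg.Statements.S1457
import Mathlib
import Cfsg.Agent.Lib.Helper1.OS4
import Cfsg.Agent.Lib.Lead.PCore
import Cfsg.Agent.Lib.Lead.PCore2
import Cfsg.Agent.Lib.Helper4.Basic

set_option autoImplicit false
open Cfsg

namespace Cfsg.Agent.S1457

open scoped commutatorElement

/-- Let G be a solvable group of odd order, p a prime, S a Sylow p-subgroup of G and A an abelian subgroup of S normal in S. Then A ≤ O_{p',p}(G). -/
theorem result {G : Type*} [Group G] [Finite G] [Group.IsSolvable G] (hodd : Odd (Nat.card G)) (p : ℕ) [Fact p.Prime] (S : Sylow p G) (A : Subgroup G) (hA : A ≤ (S : Subgroup G)) (hAc : IsMulCommutative A)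
    (hAn : (S : Subgroup G) ≤ Subgroup.normalizer (A : Set G)) :
    A ≤ Cfsg.pPrimePCore p G := by
  classical
  have hpr : p.Prime := Fact.out
  by_cases hp2 : p = 2
  · have hS1 : (S : Subgroup G) = ⊥ := by
      have h1 : Nat.card (S : Subgroup G) ∣ Nat.card G := Subgroup.card_subgroup_dvd_card _
      obtain ⟨k, hk⟩ := IsPGroup.iff_card.mp S.isPGroup'
      have hoddS : Odd (Nat.card (S : Subgroup G)) := hodd.of_dvd_nat h1
      rw [hk, hp2] at hoddS
      have hk0 : k = 0 := by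
        by_contra hk0
        exact (Nat.not_even_iff_odd.mpr hoddS) (Nat.even_pow.mpr ⟨even_two, hk0⟩)
      rw [hk0, pow_zero] at hk
      exact Subgroup.card_eq_one.mp hk
    intro x hx
    have := hA hx
    rw [hS1, Subgroup.mem_bot] at this
    rw [this]; exact Subgroup.one_mem _
  · haveI hNn : (Cfsg.pPrimeCore p G).Normal := inferInstance
    have hsurj := QuotientGroup.mk'_surjective (Cfsg.pPrimeCore p G)
    have hoddQ : Odd (Nat.card (G ⧸ Cfsg.pPrimeCore p G)) :=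
      hodd.of_dvd_nat (Subgroup.card_quotient_dvd_card _)
    have hTn : (Cfsg.pCore p (G ⧸ Cfsg.pPrimeCore p G)).Normal := Cfsg.pCore_normal p _
    haveI := hTn
    have hTp : IsPGroup p ↥(Cfsg.pCore p (G ⧸ Cfsg.pPrimeCore p G)) :=
      Cfsg.Agent.Lib.Helper4.pCore_isPGroup p _
    have hHH := Cfsg.Agent.Lib.Lead.centralizer_pCore_le (G := G ⧸ Cfsg.pPrimeCore p G) p
      (Cfsg.Agent.Lib.Lead.pPrimeCore_quotient p)
    have hTS : Cfsg.pCore p (G ⧸ Cfsg.pPrimeCore p G) ≤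
        (S : Subgroup G).map (QuotientGroup.mk' _) := by
      have := Cfsg.Agent.Lib.Lead.pCore_le_sylow' (S.mapSurjective hsurj)
      rwa [Sylow.coe_mapSurjective] at this
    intro a ha
    show QuotientGroup.mk' (Cfsg.pPrimeCore p G) a ∈ Cfsg.pCore p (G ⧸ Cfsg.pPrimeCore p G)
    have hq : ∀ t ∈ Cfsg.pCore p (G ⧸ Cfsg.pPrimeCore p G),
        ⁅⁅t, QuotientGroup.mk' (Cfsg.pPrimeCore p G) a⁆,
          QuotientGroup.mk' (Cfsg.pPrimeCore p G) a⁆ = 1 := by
      intro t ht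
      obtain ⟨s, hs, rfl⟩ := hTS ht
      rw [← map_commutatorElement, ← map_commutatorElement]
      have h1 : ⁅s, a⁆ ∈ A := by
        rw [commutatorElement_def]
        have h2 : s * a * s⁻¹ ∈ A := ((Subgroup.mem_normalizer_iff.mp (hAn hs)) a).mp ha
        exact A.mul_mem h2 (A.inv_mem ha)
      have hc : (⟨⁅s, a⁆, h1⟩ : ↥A) * ⟨a, ha⟩ = ⟨a, ha⟩ * ⟨⁅s, a⁆, h1⟩ := hAc.is_comm.comm _ _
      have h3 : ⁅⁅s, a⁆, a⁆ = 1 :=
        commutatorElement_eq_one_iff_commute.mpr (congrArg Subtype.val hc)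
      rw [h3, map_one]
    have hres := Cfsg.Agent.Lib.Helper1.os_pstable hoddQ p hp2
      (Cfsg.pCore p (G ⧸ Cfsg.pPrimeCore p G)) hTp _ hq
    exact Cfsg.Agent.Lib.Helper1.os_mem_pCore_of_quot p _ (hTp.to_le hHH) _ hres

end Cfsg.Agent.S1457
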