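import Cfsg.Statements.S1459
import Mathlib
import Cfsg.Agent.Lib.Lead.LinTransfer2
import Cfsg.Agent.Lib.Lead.PFrat

set_option autoImplicit false
open Cfsg

namespace Cfsg.Agent.S1459

open scoped commutatorElement

theorem perfect_sub_solvable {Q : Type*} [Group Q] [Group.IsSolvable Q] (P : Subgroup Q)
    (h : P ≤ ⁅P, P⁆) : P = ⊥ := by
  obtain ⟨n, hn⟩ := Group.IsSolvable.solvable (G := Q)
  have h1 : ∀ m, P ≤ derivedSeries Q m := by
    intro m
    induction m with
    | zero => exact le_top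
    | succ m ih => exact h.trans (Subgroup.commutator_mono ih ih)
  rw [eq_bot_iff, ← hn]
  exact h1 n

theorem quot_comm' {Kt : Type*} [Group Kt] (N : Subgroup Kt) [hN : N.Normal]
    (hab : ∀ x y : Kt, x * y * x⁻¹ * y⁻¹ ∈ N) : ∀ a b : Kt ⧸ N, a * b = b * a := by
  intro a b
  obtain ⟨x, rfl⟩ := QuotientGroup.mk_surjective a
  obtain ⟨y, rfl⟩ := QuotientGroup.mk_surjective b
  rw [← QuotientGroup.mk_mul, ← QuotientGroup.mk_mul, QuotientGroup.eq]
  have h1 := hab y⁻¹ x⁻¹
  have h2 : (x * y)⁻¹ * (y * x) = y⁻¹ * x⁻¹ * y⁻¹⁻¹ * x⁻¹⁻¹ := by group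
  rw [h2]; exact h1

theorem transfer_kill {G : Type*} [Group G] [Finite G] (H : Subgroup G)
    (hcop : (Nat.card H).Coprime H.index)
    {A : Type*} [CommGroup A] (ϕ : H →* A) (x : H) (hxG : (x : G) ∈ commutator G)
    (hinv : ∀ (g : G) (k : ℕ) (h : g⁻¹ * (x : G) ^ k * g ∈ H),
      ϕ ⟨g⁻¹ * (x : G) ^ k * g, h⟩ = ϕ x ^ k) :
    ϕ x = 1 := by
  have h1 := Cfsg.Agent.Lib.Lead.transfer_of_invariant_elt H ϕ x hinv
  have h2 : MonoidHom.transfer ϕ (x : G) = 1 :=
    Abelianization.commutator_subset_ker (MonoidHom.transfer ϕ) hxG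
  rw [h2] at h1
  have h3 : ϕ x ^ Nat.card H = 1 := by rw [← map_pow, pow_card_eq_one', map_one]
  have h4 : orderOf (ϕ x) ∣ H.index := orderOf_dvd_of_pow_eq_one h1.symm
  have h5 : orderOf (ϕ x) ∣ Nat.card H := orderOf_dvd_of_pow_eq_one h3
  have h6 : orderOf (ϕ x) ∣ Nat.gcd (Nat.card H) H.index := Nat.dvd_gcd h5 h4
  rw [hcop.gcd_eq_one] at h6
  exact orderOf_eq_one_iff.mp (Nat.dvd_one.mp h6)

theorem comm_conj_left {G : Type*} [Group G] (H K : Subgroup G) (h' : G) (hh' : h' ∈ H)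
    (n : G) (hn : n ∈ ⁅H, K⁆) : h' * n * h'⁻¹ ∈ ⁅H, K⁆ := by
  have key : ⁅H, K⁆ ≤ (⁅H, K⁆).comap (MulAut.conj h').toMonoidHom := by
    rw [Subgroup.commutator_le]
    intro h hh k hk
    rw [Subgroup.mem_comap]
    show h' * ⁅h, k⁆ * h'⁻¹ ∈ ⁅H, K⁆
    have e : h' * ⁅h, k⁆ * h'⁻¹ = ⁅h' * h, k⁆ * ⁅h', k⁆⁻¹ := by
      simp only [commutatorElement_def]; group
    rw [e]
    exact Subgroup.mul_mem _ (Subgroup.commutator_mem_commutator (H.mul_mem hh' hh) hk)
      (Subgroup.inv_mem _ (Subgroup.commutator_mem_commutator hh' hk))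
  exact key hn

theorem comm_conj_right {G : Type*} [Group G] (H K : Subgroup G) [hH : H.Normal] (k' : G)
    (hk' : k' ∈ K) (n : G) (hn : n ∈ ⁅H, K⁆) : k' * n * k'⁻¹ ∈ ⁅H, K⁆ := by
  have key : ⁅H, K⁆ ≤ (⁅H, K⁆).comap (MulAut.conj k').toMonoidHom := by
    rw [Subgroup.commutator_le]
    intro h hh k hk
    rw [Subgroup.mem_comap]
    show k' * ⁅h, k⁆ * k'⁻¹ ∈ ⁅H, K⁆
    have e : k' * ⁅h, k⁆ * k'⁻¹ = ⁅k' * h * k'⁻¹, k' * k * k'⁻¹⁆ := by
      simp only [commutatorElement_def]; group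
    rw [e]
    exact Subgroup.commutator_mem_commutator (hH.conj_mem h hh k')
      (K.mul_mem (K.mul_mem hk' hk) (K.inv_mem hk'))
  exact key hn

theorem comm_normal_of_compl {G : Type*} [Group G] (H K : Subgroup G) [H.Normal]
    (hHK : ∀ g : G, ∃ h ∈ H, ∃ k ∈ K, g = h * k) : (⁅H, K⁆).Normal := by
  constructor
  intro n hn g
  obtain ⟨h, hh, k, hk, rfl⟩ := hHK g
  have h1 := comm_conj_right H K k hk n hn
  have h2 := comm_conj_left H K h hh _ h1
  have e : h * k * n * (h * k)⁻¹ = h * (k * n * k⁻¹) * h⁻¹ := by group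
  rw [e]; exact h2

theorem comm_top_le {G : Type*} [Group G] (H K : Subgroup G)
    (hHK : ∀ g : G, ∃ h ∈ H, ∃ k ∈ K, g = h * k) :
    ⁅H, (⊤ : Subgroup G)⁆ ≤ ⁅H, H⁆ ⊔ ⁅H, K⁆ := by
  rw [Subgroup.commutator_le]
  intro h hh g _
  obtain ⟨h', hh', k', hk', rfl⟩ := hHK g
  have e : ⁅h, h' * k'⁆ = ⁅h, h'⁆ * (h' * ⁅h, k'⁆ * h'⁻¹) := by
    simp only [commutatorElement_def]; group
  rw [e]
  exact Subgroup.mul_mem_sup (Subgroup.commutator_mem_commutator hh hh')
    (comm_conj_left H K h' hh' _ (Subgroup.commutator_mem_commutator hh hk'))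

theorem hall_le_comm_top {G : Type*} [Group G] [Finite G] (H : Subgroup G) [hHn : H.Normal]
    (hcop : (Nat.card H).Coprime H.index) (hHG : H ≤ commutator G) :
    H ≤ ⁅H, (⊤ : Subgroup G)⁆ := by
  intro x hx
  haveI : (⁅H, (⊤ : Subgroup G)⁆).Normal := inferInstance
  haveI : ((⁅H, (⊤ : Subgroup G)⁆).subgroupOf H).Normal := inferInstance
  have hcommQ : ∀ a b : ↥H ⧸ (⁅H, (⊤ : Subgroup G)⁆).subgroupOf H, a * b = b * a :=
    quot_comm' _ (by
      intro a b
      rw [Subgroup.mem_subgroupOf]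
      show (a : G) * b * (a : G)⁻¹ * (b : G)⁻¹ ∈ ⁅H, (⊤ : Subgroup G)⁆
      have := Subgroup.commutator_mem_commutator a.2 (Subgroup.mem_top (b : G))
      rwa [commutatorElement_def] at this)
  letI : CommGroup (↥H ⧸ (⁅H, (⊤ : Subgroup G)⁆).subgroupOf H) :=
    { (inferInstance : Group (↥H ⧸ (⁅H, (⊤ : Subgroup G)⁆).subgroupOf H)) with
      mul_comm := hcommQ }
  have key := transfer_kill H hcop
    (QuotientGroup.mk' ((⁅H, (⊤ : Subgroup G)⁆).subgroupOf H)) ⟨x, hx⟩ (hHG hx) (by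
      intro g k h
      rw [← map_pow, QuotientGroup.mk'_apply, QuotientGroup.mk'_apply, QuotientGroup.eq,
        Subgroup.mem_subgroupOf]
      show (g⁻¹ * x ^ k * g)⁻¹ * x ^ k ∈ ⁅H, (⊤ : Subgroup G)⁆
      have e : (g⁻¹ * x ^ k * g)⁻¹ * x ^ k = ⁅(x ^ k)⁻¹, g⁻¹⁆⁻¹ := by
        simp only [commutatorElement_def]; group
      rw [e]
      exact Subgroup.inv_mem _ (Subgroup.commutator_mem_commutator
        (H.inv_mem (H.pow_mem hx k)) (Subgroup.mem_top _)))
  have h1 := (QuotientGroup.eq_one_iff _).mp key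
  exact Subgroup.mem_subgroupOf.mp h1

theorem part1 {G : Type*} [Group G] [Finite G] [Group.IsSolvable G] (H K : Subgroup G)
    (hHn : H.Normal) (hcop : (Nat.card H).Coprime H.index) (hHK : Subgroup.IsComplement' H K)
    (hHG : H ≤ commutator G) :
    H = ⁅H, K⁆ ∧ H ⊓ Subgroup.centralizer (K : Set G) ≤ ⁅H, H⁆ := by
  haveI := hHn
  have hdec : ∀ g : G, ∃ h ∈ H, ∃ k ∈ K, g = h * k := by
    intro g
    obtain ⟨⟨h, k⟩, hg⟩ := hHK.2 g
    exact ⟨h.1, h.2, k.1, k.2, hg.symm⟩
  haveI hNn : (⁅H, K⁆).Normal := comm_normal_of_compl H K hdec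
  have hle : ⁅H, K⁆ ≤ H := Subgroup.commutator_le_left H K
  constructor
  · apply le_antisymm _ hle
    have h1 : H ≤ ⁅H, H⁆ ⊔ ⁅H, K⁆ := (hall_le_comm_top H hcop hHG).trans (comm_top_le H K hdec)
    have h2 : H.map (QuotientGroup.mk' ⁅H, K⁆)
        ≤ ⁅H.map (QuotientGroup.mk' ⁅H, K⁆), H.map (QuotientGroup.mk' ⁅H, K⁆)⁆ := by
      rw [← Subgroup.map_commutator]
      calc H.map (QuotientGroup.mk' ⁅H, K⁆)
          ≤ (⁅H, H⁆ ⊔ ⁅H, K⁆).map (QuotientGroup.mk' ⁅H, K⁆) := Subgroup.map_mono h1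
        _ = (⁅H, H⁆).map (QuotientGroup.mk' ⁅H, K⁆) := by
            rw [Subgroup.map_sup, QuotientGroup.map_mk'_self, sup_bot_eq]
    have h3 := perfect_sub_solvable _ h2
    intro x hx
    have h4 : (QuotientGroup.mk' ⁅H, K⁆) x ∈ H.map (QuotientGroup.mk' ⁅H, K⁆) :=
      Subgroup.mem_map_of_mem _ hx
    rw [h3, Subgroup.mem_bot] at h4
    exact (QuotientGroup.eq_one_iff x).mp h4
  · rintro c ⟨hcH, hcK⟩
    have key := transfer_kill H hcop (Abelianization.of : ↥H →* Abelianization ↥H) ⟨c, hcH⟩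
      (hHG hcH) (by
      intro g k h
      obtain ⟨⟨k', h'⟩, hg⟩ := hHK.symm.2 g
      have hg' : (k' : G) * (h' : G) = g := hg
      have hck : (k' : G) * c ^ k = c ^ k * k' := by
        have h0 : (k' : G) * c = c * k' := (Subgroup.mem_centralizer_iff.mp hcK) k' k'.2
        exact ((show Commute (k' : G) c from h0).pow_right k).eq
      have e : (⟨g⁻¹ * c ^ k * g, h⟩ : ↥H) = h'⁻¹ * (⟨c, hcH⟩ : ↥H) ^ k * h' := by
        apply Subtype.ext
        show g⁻¹ * c ^ k * g = (h' : G)⁻¹ * c ^ k * h'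
        rw [← hg']
        calc ((k' : G) * h')⁻¹ * c ^ k * (k' * h')
            = (h' : G)⁻¹ * ((k' : G)⁻¹ * (c ^ k * k')) * h' := by group
          _ = (h' : G)⁻¹ * c ^ k * h' := by rw [← hck, inv_mul_cancel_left]
      rw [e, map_mul, map_mul, map_inv, map_pow, mul_comm, mul_inv_cancel_left])
    have h1 : (⟨c, hcH⟩ : ↥H) ∈ commutator ↥H := by
      rw [← Abelianization.ker_of]; exact key
    have h2 : c ∈ (commutator ↥H).map H.subtype := ⟨⟨c, hcH⟩, h1, rfl⟩
    rwa [Subgroup.map_subtype_commutator] at h2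

theorem pgroup_comm_index_prime {R : Type*} [Group R] [Finite R] {p : ℕ} [hp : Fact p.Prime]
    (hR : IsPGroup p R) (h : (commutator R).index = p) : Nat.card R = p := by
  have hfr := (Cfsg.Agent.Lib.Lead.commutator_le_frattini_and_pow_mem hR).1
  have hne : commutator R ≠ ⊤ := by
    intro h0
    rw [h0, Subgroup.index_top] at h
    exact hp.out.one_lt.ne h
  obtain ⟨x, -, hx⟩ := SetLike.exists_of_lt (lt_top_iff_ne_top.mpr hne)
  have hT : Subgroup.zpowers x ⊔ commutator R = ⊤ := by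
    have h1 : commutator R ≤ Subgroup.zpowers x ⊔ commutator R := le_sup_right
    have h2 := Subgroup.relIndex_mul_index h1
    rw [h] at h2
    have h3 : (Subgroup.zpowers x ⊔ commutator R).index ∣ p := Dvd.intro_left _ h2
    rcases (Nat.dvd_prime hp.out).mp h3 with h4 | h4
    · exact Subgroup.index_eq_one.mp h4
    · exfalso
      rw [h4] at h2
      have h5 : (commutator R).relIndex (Subgroup.zpowers x ⊔ commutator R) = 1 := by
        have := hp.out.pos
        nlinarith
      have h6 := Subgroup.relIndex_eq_one.mp h5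
      exact hx (h6 (Subgroup.mem_sup_left (Subgroup.mem_zpowers x)))
  have hT' : Subgroup.zpowers x ⊔ frattini R = ⊤ :=
    top_le_iff.mp (hT ▸ sup_le_sup_left hfr _)
  have hz : Subgroup.zpowers x = ⊤ := frattini_nongenerating hT'
  have hcomm : ∀ a b : R, a * b = b * a := by
    intro a b
    have ha : a ∈ Subgroup.zpowers x := hz ▸ Subgroup.mem_top a
    have hb : b ∈ Subgroup.zpowers x := hz ▸ Subgroup.mem_top b
    obtain ⟨i, rfl⟩ := Subgroup.mem_zpowers_iff.mp ha
    obtain ⟨j, rfl⟩ := Subgroup.mem_zpowers_iff.mp hb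
    rw [← zpow_add, ← zpow_add, add_comm]
  have hbot : commutator R = ⊥ := by
    rw [eq_bot_iff, commutator_def, Subgroup.commutator_le]
    intro a _ b _
    rw [Subgroup.mem_bot, commutatorElement_eq_one_iff_mul_comm]
    exact hcomm a b
  rw [hbot, Subgroup.index_bot] at h
  exact h

theorem nilp_index_p {Dt : Type*} [Group Dt] [Finite Dt] [Group.IsNilpotent Dt] {p : ℕ}
    [hp : Fact p.Prime] (hdvd : p ∣ Nat.card Dt) : ∃ M : Subgroup Dt, M.Normal ∧ M.index = p := by
  classical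
  let P₀ : Sylow p Dt := default
  haveI : (P₀ : Subgroup Dt).Normal := inferInstance
  obtain ⟨Q, hQ⟩ := Subgroup.exists_right_complement'_of_coprime (N := (P₀ : Subgroup Dt))
    P₀.card_coprime_index
  have hP₀ : (P₀ : Subgroup Dt) ≠ ⊥ := P₀.ne_bot_of_dvd_card hdvd
  have hQtop : Q ≠ ⊤ := by
    intro h
    rw [h] at hQ
    exact hP₀ (Subgroup.isComplement'_top_right.mp hQ)
  obtain ⟨M, hM, hQM⟩ := (eq_top_or_exists_le_coatom Q).resolve_left hQtop
  haveI hMn : M.Normal :=
    (((Group.isNilpotent_of_finite_tfae (G := Dt)).out 0 2 rfl rfl).mp ‹Group.IsNilpotent Dt›) M hM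
  refine ⟨M, hMn, ?_⟩
  have h1 : M.index.Prime := Cfsg.Agent.Lib.Lead.index_prime_of_normal_coatom M hM
  have h2 : M.index ∣ Q.index := Subgroup.index_dvd_of_le hQM
  rw [hQ.index_eq_card] at h2
  obtain ⟨n, hn⟩ := IsPGroup.iff_card.mp P₀.isPGroup'
  rw [hn] at h2
  exact (Nat.prime_dvd_prime_iff_eq h1 hp.out).mp (h1.dvd_of_dvd_pow h2)

theorem part2a {G : Type*} [Group G] [Finite G] (hnil : Group.IsNilpotent ↥(commutator G))
    (hprime : (commutator G).index.Prime) :
    (Nat.card ↥(commutator G)).Coprime (commutator G).index := by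
  haveI : Fact (commutator G).index.Prime := ⟨hprime⟩
  rw [Nat.coprime_comm, Nat.Prime.coprime_iff_not_dvd hprime]
  intro hdvd
  obtain ⟨M₁, hM₁n, hM₁i⟩ := nilp_index_p (Dt := ↥(commutator G)) hdvd
  haveI := hM₁n
  have hM₁pow : ∀ d : ↥(commutator G), d ^ (commutator G).index ∈ M₁ := by
    intro d
    have := M₁.pow_index_mem d
    rwa [hM₁i] at this
  -- the normal core
  have hK₀D : (M₁.map (commutator G).subtype).normalCore ≤ commutator G :=
    (Subgroup.normalCore_le _).trans (Subgroup.map_subtype_le M₁)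
  have hpow : ∀ g : G, g ^ ((commutator G).index ^ 2) ∈ (M₁.map (commutator G).subtype).normalCore := by
    intro g b
    have hgD : g ^ (commutator G).index ∈ commutator G := (commutator G).pow_index_mem g
    have hbD : b * g ^ (commutator G).index * b⁻¹ ∈ commutator G :=
      (inferInstance : (commutator G).Normal).conj_mem _ hgD b
    have h1 := hM₁pow ⟨b * g ^ (commutator G).index * b⁻¹, hbD⟩
    refine Subgroup.mem_map.mpr ⟨_, h1, ?_⟩
    show (b * g ^ (commutator G).index * b⁻¹) ^ (commutator G).index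
      = b * g ^ ((commutator G).index ^ 2) * b⁻¹
    rw [conj_pow, ← pow_mul, sq]
  have hRp : IsPGroup (commutator G).index (G ⧸ (M₁.map (commutator G).subtype).normalCore) := by
    intro q
    obtain ⟨g, rfl⟩ := QuotientGroup.mk_surjective q
    refine ⟨2, ?_⟩
    rw [← QuotientGroup.mk_pow]
    exact (QuotientGroup.eq_one_iff _).mpr (hpow g)
  have hcommR : commutator (G ⧸ (M₁.map (commutator G).subtype).normalCore)
      = (commutator G).map (QuotientGroup.mk' (M₁.map (commutator G).subtype).normalCore) := by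
    have h := Subgroup.map_commutator (⊤ : Subgroup G) ⊤
      (QuotientGroup.mk' (M₁.map (commutator G).subtype).normalCore)
    rw [Subgroup.map_top_of_surjective _ (QuotientGroup.mk'_surjective _)] at h
    exact h.symm
  have hidx : (commutator (G ⧸ (M₁.map (commutator G).subtype).normalCore)).index
      = (commutator G).index := by
    rw [hcommR]
    apply Subgroup.index_map_eq _ (QuotientGroup.mk'_surjective _)
    rw [QuotientGroup.ker_mk']
    exact hK₀D
  have hcard := pgroup_comm_index_prime hRp hidx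
  rw [← Subgroup.index_eq_card] at hcard
  have h2 := Subgroup.relIndex_mul_index hK₀D
  rw [hcard] at h2
  have h3 : ((M₁.map (commutator G).subtype).normalCore).relIndex (commutator G) = 1 := by
    have := hprime.pos
    nlinarith
  have h4 : commutator G ≤ M₁.map (commutator G).subtype :=
    (Subgroup.relIndex_eq_one.mp h3).trans (Subgroup.normalCore_le _)
  have h5 : M₁ = ⊤ := by
    rw [eq_top_iff]
    intro d _
    obtain ⟨d', hd', hdd⟩ := Subgroup.mem_map.mp (h4 d.2)
    have : d' = d := Subtype.ext hdd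
    rw [← this]; exact hd'
  rw [h5, Subgroup.index_top] at hM₁i
  exact hprime.one_lt.ne hM₁i

/-- Let G be a finite solvable group. (a) If H is a normal subgroup of order coprime to its index, K is a complement to H, and H ≤ G', then H = [H, K] and H ∩ C_G(K) ≤ [H, H]. (b) If G' is nilpotent and has prime index in G, then the order of G' is coprime to its index and G' = [G, K] (the subgroup generated by commutators of elements of G with elements of K) for every complement K of G'. -/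
theorem result {G : Type*} [Group G] [Finite G] [Group.IsSolvable G] :
    (∀ (H K : Subgroup G), H.Normal → (Nat.card H).Coprime H.index → Subgroup.IsComplement' H K → H ≤ commutator G →
        H = ⁅H, K⁆ ∧ H ⊓ Subgroup.centralizer (K : Set G) ≤ ⁅H, H⁆) ∧
      (Group.IsNilpotent ↥(commutator G) → (commutator G).index.Prime →
        (Nat.card ↥(commutator G)).Coprime (commutator G).index ∧
        ∀ K : Subgroup G, Subgroup.IsComplement' (commutator G) K → commutator G = ⁅(⊤ : Subgroup G), K⁆) := by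
  refine ⟨fun H K hHn hcop hHK hHG => part1 H K hHn hcop hHK hHG, ?_⟩
  intro hnil hprime
  have hcopD : (Nat.card ↥(commutator G)).Coprime (commutator G).index := part2a hnil hprime
  refine ⟨hcopD, ?_⟩
  intro K hK
  have h1 := (part1 (commutator G) K inferInstance hcopD hK le_rfl).1
  apply le_antisymm
  · calc commutator G = ⁅commutator G, K⁆ := h1
      _ ≤ ⁅(⊤ : Subgroup G), K⁆ := Subgroup.commutator_mono le_top le_rfl
  · rw [commutator_def]
    exact Subgroup.commutator_mono le_rfl le_top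

end Cfsg.Agent.S1459
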