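import Cfsg.Statements.S1463
import Mathlib
import Cfsg.Agent.Lib.Lead.Basic

set_option autoImplicit false
open scoped MatrixGroups
open Cfsg

namespace Cfsg.Agent.S1463


open Matrix

variable {F : Type*} [Field F]

theorem tri_pow (A : Matrix (Fin 2) (Fin 2) F) (h : A 1 0 = 0) (n : ℕ) :
    (A ^ n) 1 0 = 0 ∧ (A ^ n) 0 0 = (A 0 0) ^ n := by
  induction n with
  | zero => simp
  | succ n ih =>
    rw [pow_succ]
    constructor
    · rw [Matrix.mul_apply, Fin.sum_univ_two, ih.1, h]; ring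
    · rw [Matrix.mul_apply, Fin.sum_univ_two, ih.2, h]; ring

theorem trace_of_pow (p : ℕ) [Fact p.Prime] [CharP F p] (A : Matrix (Fin 2) (Fin 2) F) (k : ℕ)
    (h : A ^ (p ^ k) = 1) : A.trace = 2 := by
  have h1 : (A - 1) ^ (p ^ k) = 0 := by
    rw [sub_pow_char_pow_of_commute (p := p) (n := k) (h := Commute.one_right A), h, one_pow, sub_self]
  have h2 : IsNilpotent (A - 1) := ⟨p ^ k, h1⟩
  have h3 := (Matrix.isNilpotent_trace_of_isNilpotent h2).eq_zero
  rw [Matrix.trace_sub, Matrix.trace_one] at h3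
  have h4 : A.trace = ((Fintype.card (Fin 2) : ℕ) : F) := sub_eq_zero.1 h3
  rw [h4]; simp

theorem core (p : ℕ) [Fact p.Prime] [CharP F p] (hp : p ≠ 2) (K : Subgroup (GL (Fin 2) F)) [Finite K]
    (hodd : Odd (Nat.card K)) (α β : F) (U U' : GL (Fin 2) F) (hU : U ∈ K) (hU' : U' ∈ K)
    (hUm : (U : Matrix (Fin 2) (Fin 2) F) = !![1, α; 0, 1])
    (hUm' : (U' : Matrix (Fin 2) (Fin 2) F) = !![1, 0; β, 1]) :
    α = 0 ∨ β = 0 := by
  classical
  by_contra hne
  push_neg at hne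
  obtain ⟨hα, hβ⟩ := hne
  have h2 : (2 : F) ≠ 0 := by
    intro h
    have h' : ((2 : ℕ) : F) = 0 := by simpa using h
    rw [CharP.cast_eq_zero_iff F p 2] at h'
    exact hp ((Nat.prime_dvd_prime_iff_eq (Fact.out) Nat.prime_two).1 h')
  have hpowU : ∀ n : ℕ, ((U : Matrix (Fin 2) (Fin 2) F)) ^ n = !![1, n * α; 0, 1] := by
    intro n
    induction n with
    | zero => simp [Matrix.one_fin_two]
    | succ n ih =>
      rw [pow_succ, ih, hUm, Matrix.mul_fin_two]
      ext i j; fin_cases i <;> fin_cases j <;> simp <;> ring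
  have hpowU' : ∀ n : ℕ, ((U' : Matrix (Fin 2) (Fin 2) F)) ^ n = !![1, 0; n * β, 1] := by
    intro n
    induction n with
    | zero => simp [Matrix.one_fin_two]
    | succ n ih =>
      rw [pow_succ, ih, hUm', Matrix.mul_fin_two]
      ext i j; fin_cases i <;> fin_cases j <;> simp <;> ring
  have hUp : U ^ p = 1 := by
    apply Units.ext
    rw [Units.val_pow_eq_pow_val, hpowU p, CharP.cast_eq_zero, zero_mul, Units.val_one, Matrix.one_fin_two]
  have hUp' : U' ^ p = 1 := by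
    apply Units.ext
    rw [Units.val_pow_eq_pow_val, hpowU' p, CharP.cast_eq_zero, zero_mul, Units.val_one, Matrix.one_fin_two]
  obtain ⟨D, hD⟩ : ∃ D : Subgroup (GL (Fin 2) F), D = Subgroup.closure {U, U'} := ⟨_, rfl⟩
  have hDK : D ≤ K := by
    rw [hD, Subgroup.closure_le]
    rintro _ (rfl | rfl)
    exacts [hU, hU']
  have hUD : U ∈ D := hD ▸ Subgroup.subset_closure (by simp)
  have hUD' : U' ∈ D := hD ▸ Subgroup.subset_closure (by simp)
  haveI : Finite D := Finite.of_injective (Subgroup.inclusion hDK) (Subgroup.inclusion_injective hDK)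
  have hpg : ∀ a : D, a ^ p = 1 → IsPGroup p (Subgroup.zpowers a) := by
    rintro a ha ⟨b, hb⟩
    obtain ⟨k, rfl⟩ := Subgroup.mem_zpowers_iff.1 hb
    refine ⟨1, Subtype.ext ?_⟩
    show (a ^ k) ^ p ^ 1 = 1
    rw [pow_one, ← zpow_natCast, ← _root_.zpow_mul, mul_comm, _root_.zpow_mul, zpow_natCast, ha, _root_.one_zpow]
  obtain ⟨P₁, hP₁⟩ := (hpg ⟨U, hUD⟩ (Subtype.ext hUp)).exists_le_sylow
  obtain ⟨P₂, hP₂⟩ := (hpg ⟨U', hUD'⟩ (Subtype.ext hUp')).exists_le_sylow
  obtain ⟨x, hx⟩ := MulAction.exists_smul_eq D P₁ P₂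
  have hxU : x * ⟨U, hUD⟩ * x⁻¹ ∈ (P₂ : Subgroup D) := by
    rw [← hx, Sylow.coe_subgroup_smul]
    exact Cfsg.Agent.Lib.Lead.conj_mem_conj_smul (hP₁ (Subgroup.mem_zpowers _))
  have hU'P : (⟨U', hUD'⟩ : D) ∈ (P₂ : Subgroup D) := hP₂ (Subgroup.mem_zpowers _)
  obtain ⟨k, hk⟩ := P₂.isPGroup' ⟨_, (P₂ : Subgroup D).mul_mem hxU hU'P⟩
  obtain ⟨X, hXdef⟩ : ∃ X : Matrix (Fin 2) (Fin 2) F, X = ((x : D) : GL (Fin 2) F).1 := ⟨_, rfl⟩
  obtain ⟨Y, hYdef⟩ : ∃ Y : Matrix (Fin 2) (Fin 2) F, Y = (((x : D) : GL (Fin 2) F)⁻¹).1 := ⟨_, rfl⟩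
  have hXY : X * Y = 1 := by rw [hXdef, hYdef]; exact Units.mul_inv _
  have hYX : Y * X = 1 := by rw [hXdef, hYdef]; exact Units.inv_mul _
  have hk' : (X * U.1 * Y * U'.1) ^ (p ^ k) = 1 := by
    have h1 := congrArg (fun z : (P₂ : Subgroup D) => (((z : D) : GL (Fin 2) F)).1) hk
    simp only [Subgroup.coe_pow, Subgroup.coe_mul, Subgroup.coe_inv, Units.val_pow_eq_pow_val,
      Units.val_mul, OneMemClass.coe_one, Units.val_one] at h1
    rw [hXdef, hYdef]; exact h1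
  have htr := trace_of_pow p _ k hk'
  have e00 := congrFun (congrFun hYX 0) 0
  have e10 := congrFun (congrFun hYX 1) 0
  have e11 := congrFun (congrFun hYX 1) 1
  have f00 := congrFun (congrFun hXY 0) 0
  have f11 := congrFun (congrFun hXY 1) 1
  have f01 := congrFun (congrFun hXY 0) 1
  simp only [Matrix.mul_apply, Fin.sum_univ_two, Matrix.one_apply_eq, Matrix.one_apply_ne,
    ne_eq, one_ne_zero, not_false_eq_true] at e00 e10 e11 f00 f11 f01
  have e10' : Y 1 0 * X 0 0 + Y 1 1 * X 1 0 = 0 := by simpa using e10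
  have htr2 : (X * U.1 * Y * U'.1).trace = 2 + α * β * (X 0 0 * Y 1 1) := by
    rw [hUm, hUm', Matrix.trace_fin_two]
    simp only [Matrix.mul_apply, Fin.sum_univ_two, Matrix.of_apply, Matrix.cons_val', Matrix.cons_val_zero,
      Matrix.cons_val_one, Matrix.cons_val_fin_one]
    have f01' : X 0 0 * Y 0 1 + X 0 1 * Y 1 1 = 0 := by simpa using f01
    linear_combination f00 + f11 + α * e10' + β * f01'
  have had : X 0 0 * Y 1 1 = 0 := by
    have h3 : α * β * (X 0 0 * Y 1 1) = 0 := by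
      have := htr.symm.trans htr2
      linear_combination -this
    rcases mul_eq_zero.1 h3 with h4 | h4
    · exact absurd h4 (mul_ne_zero hα hβ)
    · exact h4
  have ha0 : X 0 0 = 0 := by
    by_contra ha
    have hd' : Y 1 1 = 0 := by
      rcases mul_eq_zero.1 had with h | h
      · exact absurd h ha
      · exact h
    rw [hd', zero_mul, add_zero] at e10'
    have hc' : Y 1 0 = 0 := by
      rcases mul_eq_zero.1 e10' with h | h
      · exact h
      · exact absurd h ha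
    rw [hd', hc'] at e11
    simp at e11
  -- the reflection
  obtain ⟨Δ, hΔdef⟩ : ∃ Δ : Matrix (Fin 2) (Fin 2) F, Δ = !![1, 0; 0, -1] := ⟨_, rfl⟩
  have hΔ2 : Δ * Δ = 1 := by
    rw [hΔdef, Matrix.mul_fin_two, Matrix.one_fin_two]
    ext i j; fin_cases i <;> fin_cases j <;> simp
  obtain ⟨δ, hδdef⟩ : ∃ δ : GL (Fin 2) F, δ = ⟨Δ, Δ, hΔ2, hΔ2⟩ := ⟨_, rfl⟩
  have hδv : δ.1 = Δ := by rw [hδdef]
  have hδiv : (δ⁻¹).1 = Δ := by rw [hδdef]; rfl
  have hδD : ∀ d ∈ D, δ * d * δ⁻¹ ∈ D := by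
    intro d hd
    rw [hD] at hd ⊢
    induction hd using Subgroup.closure_induction with
    | mem s hs =>
      rcases hs with rfl | hs
      · have h5 : δ * s * δ⁻¹ = s⁻¹ := by
          rw [eq_inv_iff_mul_eq_one]
          apply Units.ext
          simp only [Units.val_mul, Units.val_one]
          rw [hδv, hδiv, hUm, hΔdef, Matrix.mul_fin_two, Matrix.mul_fin_two, Matrix.mul_fin_two,
            Matrix.one_fin_two]
          ext i j; fin_cases i <;> fin_cases j <;> simp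
        rw [h5]; exact Subgroup.inv_mem _ (Subgroup.subset_closure (by simp))
      · rw [Set.mem_singleton_iff] at hs
        subst hs
        have h5 : δ * s * δ⁻¹ = s⁻¹ := by
          rw [eq_inv_iff_mul_eq_one]
          apply Units.ext
          simp only [Units.val_mul, Units.val_one]
          rw [hδv, hδiv, hUm', hΔdef, Matrix.mul_fin_two, Matrix.mul_fin_two, Matrix.mul_fin_two,
            Matrix.one_fin_two]
          ext i j; fin_cases i <;> fin_cases j <;> simp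
        rw [h5]; exact Subgroup.inv_mem _ (Subgroup.subset_closure (by simp))
    | one => simp
    | mul a b _ _ iha ihb =>
      have h5 : δ * (a * b) * δ⁻¹ = (δ * a * δ⁻¹) * (δ * b * δ⁻¹) := by group
      rw [h5]; exact Subgroup.mul_mem _ iha ihb
    | inv a _ iha =>
      have h5 : δ * a⁻¹ * δ⁻¹ = (δ * a * δ⁻¹)⁻¹ := by group
      rw [h5]; exact Subgroup.inv_mem _ iha
  obtain ⟨y, hydef⟩ : ∃ y : GL (Fin 2) F, y = ((x : D) : GL (Fin 2) F)⁻¹ * (δ * (x : D) * δ⁻¹) := ⟨_, rfl⟩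
  have hyD : y ∈ D := by
    rw [hydef]; exact D.mul_mem (D.inv_mem x.2) (hδD _ x.2)
  have hym : y.1 = Y * (Δ * X * Δ) := by
    rw [hydef]
    simp only [Units.val_mul]
    rw [hδv, hδiv, ← hXdef, ← hYdef]
  have hy10 : y.1 1 0 = 0 := by
    rw [hym, hΔdef]
    simp only [Matrix.mul_apply, Fin.sum_univ_two, Matrix.of_apply, Matrix.cons_val', Matrix.cons_val_zero,
      Matrix.cons_val_one, Matrix.cons_val_fin_one]
    rw [ha0] at e10' ⊢
    linear_combination -e10'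
  have hy00 : y.1 0 0 = -1 := by
    rw [hym, hΔdef]
    simp only [Matrix.mul_apply, Fin.sum_univ_two, Matrix.of_apply, Matrix.cons_val', Matrix.cons_val_zero,
      Matrix.cons_val_one, Matrix.cons_val_fin_one]
    rw [ha0] at e00 ⊢
    linear_combination -e00
  have hordK : orderOf y ∣ Nat.card K := by
    have h6 := orderOf_dvd_natCard (⟨y, hDK hyD⟩ : K)
    rwa [Subgroup.orderOf_mk] at h6
  have hoddn : Odd (orderOf y) := Odd.of_dvd_nat hodd hordK
  have hyn : y.1 ^ orderOf y = 1 := by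
    rw [← Units.val_pow_eq_pow_val, pow_orderOf_eq_one, Units.val_one]
  have h8 := (tri_pow y.1 hy10 (orderOf y)).2
  rw [hyn, hy00, hoddn.neg_one_pow] at h8
  simp only [Matrix.one_apply_eq] at h8
  apply h2
  linear_combination h8

/-- Let F be a field of odd characteristic p and H a finite subgroup of odd order of GL(2, F) that leaves no 1-dimensional subspace of F² invariant. Then p does not divide the order of H. -/
theorem result {F : Type*} [Field F] (p : ℕ) [Fact p.Prime] [CharP F p] (hp : p ≠ 2)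
    (H : Subgroup (GL (Fin 2) F)) [Finite H] (hodd : Odd (Nat.card H))
    (hirr : ∀ v : Fin 2 → F, v ≠ 0 → ∃ g ∈ H, (g : Matrix (Fin 2) (Fin 2) F).mulVec v ∉ Submodule.span F {v}) :
    ¬ p ∣ Nat.card H := by
  classical
  intro hdiv
  have hpp : p.Prime := Fact.out
  obtain ⟨u, hu⟩ := exists_prime_orderOf_dvd_card' (G := H) p hdiv
  obtain ⟨M, hMdef⟩ : ∃ M : Matrix (Fin 2) (Fin 2) F, M = ((u : GL (Fin 2) F) : Matrix (Fin 2) (Fin 2) F) :=
    ⟨_, rfl⟩
  have hMp : M ^ p = 1 := by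
    have h1 : u ^ p = 1 := by rw [← hu]; exact pow_orderOf_eq_one u
    have h2 : ((u : GL (Fin 2) F)) ^ p = 1 := by exact_mod_cast congrArg Subtype.val h1
    have h3 := congrArg Units.val h2
    rw [hMdef]; simpa using h3
  have hu1 : (u : GL (Fin 2) F) ≠ 1 := by
    intro h
    have h' : u = 1 := Subtype.ext h
    rw [h', orderOf_one] at hu
    exact hpp.ne_one hu.symm
  have hdetN : (M - 1).det = 0 := by
    have h1 : (M - 1) ^ p = 0 := by
      have h0 := sub_pow_char_pow_of_commute (p := p) (n := 1) (h := Commute.one_right M)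
      rw [pow_one] at h0
      rw [h0, hMp, one_pow, sub_self]
    have h2 : (M - 1).det ^ p = 0 := by rw [← Matrix.det_pow, h1, Matrix.det_zero]
    exact (pow_eq_zero_iff hpp.ne_zero).1 h2
  obtain ⟨v, hv0, hv⟩ := Matrix.exists_mulVec_eq_zero_iff.2 hdetN
  have hMv : M *ᵥ v = v := by
    rw [Matrix.sub_mulVec, Matrix.one_mulVec] at hv
    exact sub_eq_zero.1 hv
  obtain ⟨g, hg, hgv⟩ := hirr v hv0
  obtain ⟨Gm, hGdef⟩ : ∃ Gm : Matrix (Fin 2) (Fin 2) F, Gm = (g : Matrix (Fin 2) (Fin 2) F) := ⟨_, rfl⟩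
  rw [← hGdef] at hgv
  obtain ⟨v', hv'def⟩ : ∃ v' : Fin 2 → F, v' = Gm *ᵥ v := ⟨_, rfl⟩
  rw [← hv'def] at hgv
  have hdet : v 0 * v' 1 - v' 0 * v 1 ≠ 0 := by
    intro h
    apply hgv
    rw [Submodule.mem_span_singleton]
    by_cases h0 : v 0 = 0
    · have h1 : v 1 ≠ 0 := by
        intro h1; apply hv0; ext i; fin_cases i
        · exact h0
        · exact h1
      have h3 : v' 0 = 0 := by
        have h4 : v' 0 * v 1 = 0 := by rw [h0] at h; linear_combination -h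
        rcases mul_eq_zero.1 h4 with h5 | h5
        · exact h5
        · exact absurd h5 h1
      refine ⟨v' 1 / v 1, ?_⟩
      ext i; fin_cases i
      · show v' 1 / v 1 * v 0 = v' 0
        rw [h0, h3, mul_zero]
      · show v' 1 / v 1 * v 1 = v' 1
        exact div_mul_cancel₀ _ h1
    · refine ⟨v' 0 / v 0, ?_⟩
      ext i; fin_cases i
      · show v' 0 / v 0 * v 0 = v' 0
        exact div_mul_cancel₀ _ h0
      · show v' 0 / v 0 * v 1 = v' 1
        rw [div_mul_eq_mul_div, div_eq_iff h0]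
        linear_combination -h
  obtain ⟨B, hBdef⟩ : ∃ B : Matrix (Fin 2) (Fin 2) F, B = !![v 0, v' 0; v 1, v' 1] := ⟨_, rfl⟩
  have hBdet : B.det ≠ 0 := by rw [hBdef, Matrix.det_fin_two_of]; exact hdet
  obtain ⟨Bg, hBg⟩ : ∃ Bg : GL (Fin 2) F, Bg.1 = B := ⟨Matrix.GeneralLinearGroup.mkOfDetNeZero B hBdet, rfl⟩
  obtain ⟨Bi, hBidef⟩ : ∃ Bi : Matrix (Fin 2) (Fin 2) F, Bi = (Bg⁻¹).1 := ⟨_, rfl⟩
  have hBiB : Bi * B = 1 := by rw [hBidef, ← hBg]; exact Units.inv_mul _
  have hBBi : B * Bi = 1 := by rw [hBidef, ← hBg]; exact Units.mul_inv _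
  have hBe1 : B *ᵥ ![1, 0] = v := by
    rw [hBdef]; ext i; fin_cases i <;> simp [Matrix.mulVec, dotProduct, Fin.sum_univ_two]
  have hBe2 : B *ᵥ ![0, 1] = v' := by
    rw [hBdef]; ext i; fin_cases i <;> simp [Matrix.mulVec, dotProduct, Fin.sum_univ_two]
  have htrM : M.trace = 2 := trace_of_pow p M 1 (by rw [pow_one]; exact hMp)
  -- the conjugated subgroup
  obtain ⟨f, hfdef⟩ : ∃ f : GL (Fin 2) F →* GL (Fin 2) F, f = (MulAut.conj Bg⁻¹).toMonoidHom := ⟨_, rfl⟩
  have hfinj : Function.Injective f := by rw [hfdef]; exact (MulAut.conj Bg⁻¹).injective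
  have hfap : ∀ z, f z = Bg⁻¹ * z * Bg := by intro z; rw [hfdef]; simp [MulAut.conj_apply]
  haveI : Finite (H.map f) := Finite.of_equiv _ (Subgroup.equivMapOfInjective H f hfinj).toEquiv
  have hcard : Nat.card (H.map f) = Nat.card H :=
    (Nat.card_congr (Subgroup.equivMapOfInjective H f hfinj).toEquiv).symm
  have hoddK : Odd (Nat.card (H.map f)) := by rw [hcard]; exact hodd
  -- U
  obtain ⟨U, hUdef⟩ : ∃ U : GL (Fin 2) F, U = Bg⁻¹ * (u : GL (Fin 2) F) * Bg := ⟨_, rfl⟩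
  have hUK : U ∈ H.map f := ⟨u, u.2, by rw [hfap, hUdef]⟩
  have hUv : U.1 = Bi * M * B := by
    rw [hUdef]; simp only [Units.val_mul]; rw [hBg, ← hBidef, ← hMdef]
  have hUe : U.1 *ᵥ ![1, 0] = ![1, 0] := by
    calc U.1 *ᵥ ![1, 0] = Bi *ᵥ (M *ᵥ (B *ᵥ ![1, 0])) := by
          rw [hUv, Matrix.mulVec_mulVec, Matrix.mulVec_mulVec, Matrix.mul_assoc]
      _ = Bi *ᵥ (B *ᵥ ![1, 0]) := by rw [hBe1, hMv]
      _ = ![1, 0] := by rw [Matrix.mulVec_mulVec, hBiB, Matrix.one_mulVec]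
  have hU00 : U.1 0 0 = 1 := by
    have := congrFun hUe 0
    simpa [Matrix.mulVec, dotProduct, Fin.sum_univ_two] using this
  have hU10 : U.1 1 0 = 0 := by
    have := congrFun hUe 1
    simpa [Matrix.mulVec, dotProduct, Fin.sum_univ_two] using this
  have hUtr : U.1.trace = 2 := by
    rw [hUv, Matrix.trace_mul_cycle, hBBi, Matrix.one_mul, htrM]
  have hU11 : U.1 1 1 = 1 := by
    rw [Matrix.trace_fin_two, hU00] at hUtr
    linear_combination hUtr
  have hUm : U.1 = !![1, U.1 0 1; 0, 1] := by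
    have h1 := Matrix.eta_fin_two U.1
    rw [hU00, hU10, hU11] at h1
    exact h1
  have hα : U.1 0 1 ≠ 0 := by
    intro h
    rw [h] at hUm
    have h1 : U = 1 := Units.ext (by rw [hUm, Units.val_one, Matrix.one_fin_two])
    apply hu1
    rw [hUdef] at h1
    calc (u : GL (Fin 2) F) = Bg * (Bg⁻¹ * (u : GL (Fin 2) F) * Bg) * Bg⁻¹ := by group
      _ = 1 := by rw [h1]; group
  -- U'
  obtain ⟨Gi, hGidef⟩ : ∃ Gi : Matrix (Fin 2) (Fin 2) F, Gi = (g⁻¹).1 := ⟨_, rfl⟩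
  have hGiG : Gi * Gm = 1 := by rw [hGidef, hGdef]; exact Units.inv_mul _
  have hGGi : Gm * Gi = 1 := by rw [hGidef, hGdef]; exact Units.mul_inv _
  obtain ⟨U', hU'def⟩ : ∃ U' : GL (Fin 2) F, U' = Bg⁻¹ * (g * (u : GL (Fin 2) F) * g⁻¹) * Bg := ⟨_, rfl⟩
  have hU'K : U' ∈ H.map f :=
    ⟨g * (u : GL (Fin 2) F) * g⁻¹, H.mul_mem (H.mul_mem hg u.2) (H.inv_mem hg), by rw [hfap, hU'def]⟩
  have hU'v : U'.1 = Bi * (Gm * M * Gi) * B := by
    rw [hU'def]; simp only [Units.val_mul]; rw [hBg, ← hBidef, ← hMdef, ← hGdef, ← hGidef]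
  have hconjv : (Gm * M * Gi) *ᵥ v' = v' := by
    calc (Gm * M * Gi) *ᵥ v' = Gm *ᵥ (M *ᵥ ((Gi * Gm) *ᵥ v)) := by
          rw [hv'def, Matrix.mulVec_mulVec, Matrix.mulVec_mulVec, Matrix.mulVec_mulVec]
          simp only [Matrix.mul_assoc]
      _ = Gm *ᵥ v := by rw [hGiG, Matrix.one_mulVec, hMv]
      _ = v' := hv'def.symm
  have hU'e : U'.1 *ᵥ ![0, 1] = ![0, 1] := by
    calc U'.1 *ᵥ ![0, 1] = Bi *ᵥ ((Gm * M * Gi) *ᵥ (B *ᵥ ![0, 1])) := by
          rw [hU'v, Matrix.mulVec_mulVec, Matrix.mulVec_mulVec, Matrix.mul_assoc]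
      _ = Bi *ᵥ (B *ᵥ ![0, 1]) := by rw [hBe2, hconjv]
      _ = ![0, 1] := by rw [Matrix.mulVec_mulVec, hBiB, Matrix.one_mulVec]
  have hU'01 : U'.1 0 1 = 0 := by
    have := congrFun hU'e 0
    simpa [Matrix.mulVec, dotProduct, Fin.sum_univ_two] using this
  have hU'11 : U'.1 1 1 = 1 := by
    have := congrFun hU'e 1
    simpa [Matrix.mulVec, dotProduct, Fin.sum_univ_two] using this
  have hU'tr : U'.1.trace = 2 := by
    rw [hU'v, Matrix.trace_mul_cycle, hBBi, Matrix.one_mul, Matrix.trace_mul_cycle, hGiG, Matrix.one_mul,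
      htrM]
  have hU'00 : U'.1 0 0 = 1 := by
    rw [Matrix.trace_fin_two, hU'11] at hU'tr
    linear_combination hU'tr
  have hUm' : U'.1 = !![1, 0; U'.1 1 0, 1] := by
    have h1 := Matrix.eta_fin_two U'.1
    rw [hU'00, hU'01, hU'11] at h1
    exact h1
  have hβ : U'.1 1 0 ≠ 0 := by
    intro h
    rw [h] at hUm'
    have h1 : U' = 1 := Units.ext (by rw [hUm', Units.val_one, Matrix.one_fin_two])
    apply hu1
    rw [hU'def] at h1
    calc (u : GL (Fin 2) F) = g⁻¹ * (Bg * (Bg⁻¹ * (g * (u : GL (Fin 2) F) * g⁻¹) * Bg) * Bg⁻¹) * g := by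
          group
      _ = 1 := by rw [h1]; group
  rcases core p hp (H.map f) hoddK _ _ U U' hUK hU'K hUm hUm' with h | h
  · exact hα h
  · exact hβ h

end Cfsg.Agent.S1463
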