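import Cfsg.Statements.S1464
import Mathlib
import Cfsg.Agent.Lib.Helper1.OS4
import Cfsg.Agent.Lib.Lead.PCore
import Cfsg.Agent.Lib.Lead.PCore2
import Cfsg.Agent.Lib.Helper4.Basic

set_option autoImplicit false
open Cfsg

namespace Cfsg.Agent.S1464

open scoped commutatorElement

/-- Let p be an odd prime and G a solvable group of odd order, P a p-subgroup with O_{p'}(G)P normal in G, and A a p-subgroup of N_G(P) with [[P, A], A] = 1. Then the image of A in the quotient N_G(P)/C_G(P) is contained in the p-core of that quotient. -/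
theorem result {G : Type*} [Group G] [Finite G] [Group.IsSolvable G] (hodd : Odd (Nat.card G)) (p : ℕ) [Fact p.Prime] (hp : p ≠ 2) (P A : Subgroup G) (hP : IsPGroup p P) (hPn : (Cfsg.pPrimeCore p G ⊔ P).Normal)
    (hA : IsPGroup p A) (hAN : A ≤ Subgroup.normalizer (P : Set G)) (hquad : ⁅⁅P, A⁆, A⁆ = ⊥) :
    (A.subgroupOf (Subgroup.normalizer (P : Set G))).map
        (QuotientGroup.mk' ((Subgroup.centralizer (P : Set G)).subgroupOf (Subgroup.normalizer (P : Set G))))
      ≤ Cfsg.pCore p _ := by
  classical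
  intro y hy
  obtain ⟨x, hx, rfl⟩ := hy
  have hodd' : Odd (Nat.card ↥(Subgroup.normalizer (P : Set G))) :=
    hodd.of_dvd_nat (Subgroup.card_subgroup_dvd_card _)
  haveI : (P.subgroupOf (Subgroup.normalizer (P : Set G))).Normal := Subgroup.normal_in_normalizer
  have hB : IsPGroup p ↥(P.subgroupOf (Subgroup.normalizer (P : Set G))) := hP.comap_subtype
  have hq : ∀ z ∈ P.subgroupOf (Subgroup.normalizer (P : Set G)), ⁅⁅z, x⁆, x⁆ = 1 := by
    intro z hz
    apply Subtype.ext
    have h1 : ⁅⁅(z : G), (x : G)⁆, (x : G)⁆ ∈ ⁅⁅P, A⁆, A⁆ :=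
      Subgroup.commutator_mem_commutator (Subgroup.commutator_mem_commutator hz hx) hx
    rw [hquad, Subgroup.mem_bot] at h1
    exact h1
  have hres := Cfsg.Agent.Lib.Helper1.os_pstable hodd' p hp (P.subgroupOf _) hB x hq
  have hEq : Subgroup.centralizer
      ((P.subgroupOf (Subgroup.normalizer (P : Set G)) : Subgroup _) : Set _)
      = (Subgroup.centralizer (P : Set G)).subgroupOf (Subgroup.normalizer (P : Set G)) := by
    ext y
    rw [Subgroup.mem_centralizer_iff, Subgroup.mem_subgroupOf, Subgroup.mem_centralizer_iff]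
    constructor
    · intro h z hz
      exact congrArg Subtype.val (h ⟨z, Subgroup.le_normalizer hz⟩ hz)
    · intro h z hz
      exact Subtype.ext (h z.1 hz)
  exact Cfsg.Agent.Lib.Helper1.os_quot_transfer p _ _ hEq x hres

end Cfsg.Agent.S1464
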