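import Cfsg.Statements.S1465
import Mathlib
import Cfsg.Agent.Lib.Helper1.OS4
import Cfsg.Agent.Lib.Lead.PCore
import Cfsg.Agent.Lib.Lead.PCore2
import Cfsg.Agent.Lib.Helper4.Basic

set_option autoImplicit false
open Cfsg

namespace Cfsg.Agent.S1465

open scoped commutatorElement

/-- Let p be an odd prime, G a solvable group of odd order, P a normal p-subgroup of G, and X the subgroup generated by a family of abelian p-subgroups of G each normalized by P. Then the image of X in G/C_G(P) lies in O_p(G/C_G(P)); and if O_{p'}(G) = 1 and O_p(G) ∩ C_G(P) ≤ P then X ≤ O_p(G). -/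
theorem result {G : Type*} [Group G] [Finite G] [Group.IsSolvable G] (hodd : Odd (Nat.card G)) (p : ℕ) [Fact p.Prime] (hp : p ≠ 2) (P : Subgroup G) [P.Normal] (hP : IsPGroup p P)
    (S : Set (Subgroup G)) (hS : ∀ B ∈ S, IsMulCommutative B ∧ IsPGroup p B ∧ P ≤ Subgroup.normalizer (B : Set G)) :
    (sSup S).map (QuotientGroup.mk' (Subgroup.centralizer (P : Set G))) ≤ Cfsg.pCore p (G ⧸ Subgroup.centralizer (P : Set G)) ∧
      (Cfsg.pPrimeCore p G = ⊥ → Cfsg.pCore p G ⊓ Subgroup.centralizer (P : Set G) ≤ P → sSup S ≤ Cfsg.pCore p G) := by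
  classical
  have hquadB : ∀ B ∈ S, ∀ x ∈ B, ∀ y ∈ P, ⁅⁅y, x⁆, x⁆ = 1 := by
    intro B hB x hx y hy
    obtain ⟨hBc, hBp, hBn⟩ := hS B hB
    have h1 : ⁅y, x⁆ ∈ B := by
      rw [commutatorElement_def]
      have h2 : y * x * y⁻¹ ∈ B := ((Subgroup.mem_normalizer_iff.mp (hBn hy)) x).mp hx
      exact B.mul_mem h2 (B.inv_mem hx)
    have hc : (⟨⁅y, x⁆, h1⟩ : ↥B) * ⟨x, hx⟩ = ⟨x, hx⟩ * ⟨⁅y, x⁆, h1⟩ := hBc.is_comm.comm _ _
    exact commutatorElement_eq_one_iff_commute.mpr (congrArg Subtype.val hc)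
  have part1 : (sSup S).map (QuotientGroup.mk' (Subgroup.centralizer (P : Set G))) ≤
      Cfsg.pCore p (G ⧸ Subgroup.centralizer (P : Set G)) := by
    rw [Subgroup.map_le_iff_le_comap]
    apply sSup_le
    intro B hB x hx
    exact Cfsg.Agent.Lib.Helper1.os_pstable hodd p hp P hP x (fun y hy => hquadB B hB x hx y hy)
  refine ⟨part1, ?_⟩
  intro hpp hle
  have hQp : IsPGroup p ↥(Cfsg.pCore p G) := Cfsg.Agent.Lib.Helper4.pCore_isPGroup p G
  have hQn : (Cfsg.pCore p G).Normal := Cfsg.pCore_normal p G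
  have hCn : (Subgroup.centralizer (P : Set G)).Normal := inferInstance
  have hHH := Cfsg.Agent.Lib.Lead.centralizer_pCore_le p hpp
  have hprime : ∀ h ∈ Subgroup.centralizer (P : Set G), (orderOf h).Coprime p → h = 1 := by
    intro h hh hcop
    have hhQ : h ∈ Subgroup.centralizer (Cfsg.pCore p G : Set G) := by
      rw [Subgroup.mem_centralizer_iff]
      intro q hq
      have hvQ : (h * q)⁻¹ * (q * h) ∈ Cfsg.pCore p G := by
        have h1 : h⁻¹ * q * h ∈ Cfsg.pCore p G := by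
          have := hQn.conj_mem q hq h⁻¹
          rwa [inv_inv] at this
        have h2 : (h * q)⁻¹ * (q * h) = q⁻¹ * (h⁻¹ * q * h) := by group
        rw [h2]; exact (Cfsg.pCore p G).mul_mem ((Cfsg.pCore p G).inv_mem hq) h1
      have hvC : (h * q)⁻¹ * (q * h) ∈ Subgroup.centralizer (P : Set G) := by
        have h1 : q⁻¹ * h⁻¹ * q ∈ Subgroup.centralizer (P : Set G) := by
          have := hCn.conj_mem h⁻¹ (Subgroup.inv_mem _ hh) q⁻¹
          rwa [inv_inv] at this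
        have h2 : (h * q)⁻¹ * (q * h) = (q⁻¹ * h⁻¹ * q) * h := by group
        rw [h2]; exact Subgroup.mul_mem _ h1 hh
      have hvP : (h * q)⁻¹ * (q * h) ∈ P := hle ⟨hvQ, hvC⟩
      obtain ⟨k, hk⟩ := hP ⟨_, hvP⟩
      have hk' : ((h * q)⁻¹ * (q * h)) ^ p ^ k = 1 := congrArg Subtype.val hk
      have hcomm : ((h * q)⁻¹ * (q * h)) * h = h * ((h * q)⁻¹ * (q * h)) :=
        (Subgroup.mem_centralizer_iff.mp hh _ hvP)
      exact Cfsg.Agent.Lib.Helper1.os_centralize_of_comm h q k hcop hcomm hk'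
    have hhQ' := hHH hhQ
    obtain ⟨k, hk⟩ := hQp ⟨h, hhQ'⟩
    have hk' : h ^ p ^ k = 1 := congrArg Subtype.val hk
    exact Cfsg.Agent.Lib.Helper1.os_eq_one_of_coprime h _ k (pow_orderOf_eq_one h) hk' hcop
  have hCp : IsPGroup p ↥(Subgroup.centralizer (P : Set G)) := by
    rintro ⟨y, hy⟩
    obtain ⟨j, hcop⟩ := Cfsg.Agent.Lib.Helper1.os_pprime_part p y
    exact ⟨j, Subtype.ext (hprime _ (Subgroup.pow_mem _ hy _) hcop)⟩
  apply sSup_le
  intro B hB x hx
  exact Cfsg.Agent.Lib.Helper1.os_mem_pCore_of_quot p _ hCp x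
    (Cfsg.Agent.Lib.Helper1.os_pstable hodd p hp P hP x (fun y hy => hquadB B hB x hx y hy))

end Cfsg.Agent.S1465
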