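import Cfsg.Statements.S1466
import Cfsg.Agent.Lib.Helper2.Puig
import Cfsg.Agent.Lib.Helper5.DStar

set_option autoImplicit false
open Cfsg

namespace Cfsg.Agent.S1466

open Cfsg.Agent.Lib.Helper2.Puig in
theorem result {R : Type*} [Group R] [Finite R] (p : ℕ) [Fact p.Prime] (hR : IsPGroup p R) [Nontrivial R] :
    (∀ i : ℕ, 0 < i → Subgroup.center R ≤ Subgroup.centralizer ((Cfsg.puigSeq R i : Subgroup R) : Set R) ∧
        Subgroup.centralizer ((Cfsg.puigSeq R i : Subgroup R) : Set R) ≤ Cfsg.puigSeq R i) ∧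
      (Subgroup.center R ≤ Subgroup.centralizer ((Cfsg.puigLower R : Subgroup R) : Set R) ∧ Subgroup.centralizer ((Cfsg.puigLower R : Subgroup R) : Set R) ≤ Cfsg.puigLower R) ∧
      (Subgroup.center R ≤ Subgroup.centralizer ((Cfsg.puigSubgroup R : Subgroup R) : Set R) ∧ Subgroup.centralizer ((Cfsg.puigSubgroup R : Subgroup R) : Set R) ≤ Cfsg.puigSubgroup R) ∧
      Cfsg.puigSubgroup R ≠ ⊥ ∧ Cfsg.puigLower R ≠ ⊥ := by
  obtain ⟨M, hMn, hMc, hmax⟩ := Cfsg.Agent.Lib.Helper5.exists_max_normal_abelian R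
  have hCM : Subgroup.centralizer (M : Set R) ≤ M :=
    Cfsg.Agent.Lib.Helper5.centralizer_le_of_max_normal_abelian hR M hMn
      (Cfsg.Agent.Lib.Helper5.comm_of_isMulCommutative hMc) hmax
  have hMstep : ∀ X : Subgroup R, M ≤ puigStep X := fun X =>
    le_puigStep hMc (by rw [Subgroup.normalizer_eq_top_iff.mpr hMn]; exact le_top)
  have key : ∀ X : Subgroup R, Subgroup.centralizer ((puigStep X : Subgroup R) : Set R) ≤ puigStep X :=
    fun X => (Subgroup.centralizer_le (SetLike.coe_subset_coe.mpr (hMstep X))).trans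
      (hCM.trans (hMstep X))
  have hseq : ∀ i : ℕ, 0 < i →
      Subgroup.centralizer ((puigSeq R i : Subgroup R) : Set R) ≤ puigSeq R i := by
    intro i hi
    obtain ⟨j, rfl⟩ : ∃ j, i = j + 1 := ⟨i - 1, by omega⟩
    exact key _
  obtain ⟨k, hk⟩ := exists_stable (G := R)
  have hL : Subgroup.centralizer ((puigLower R : Subgroup R) : Set R) ≤ puigLower R := by
    rw [← (hk (k + 1) (Nat.le_succ k)).1]
    exact hseq _ (by omega)
  have hU : Subgroup.centralizer ((puigSubgroup R : Subgroup R) : Set R) ≤ puigSubgroup R := by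
    rw [← (hk k le_rfl).2]
    exact hseq _ (by omega)
  have hZ : Subgroup.center R ≠ ⊥ := by
    have := hR.center_nontrivial
    exact (Subgroup.nontrivial_iff_ne_bot _).mp this
  refine ⟨fun i hi => ⟨Subgroup.center_le_centralizer _, hseq i hi⟩,
    ⟨Subgroup.center_le_centralizer _, hL⟩, ⟨Subgroup.center_le_centralizer _, hU⟩, ?_, ?_⟩
  · intro h
    apply hZ
    rw [eq_bot_iff, ← h]
    exact (Subgroup.center_le_centralizer _).trans hU
  · intro h
    apply hZ
    rw [eq_bot_iff, ← h]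
    exact (Subgroup.center_le_centralizer _).trans hL

end Cfsg.Agent.S1466
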