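import Cfsg.Statements.S1467
import Cfsg.Agent.Lib.Helper2.Puig

set_option autoImplicit false
open Cfsg

namespace Cfsg.Agent.S1467

open Cfsg.Agent.Lib.Helper2.Puig in
theorem result {G : Type*} [Group G] [Finite G] :
    Cfsg.puigSeq G 0 = ⊥ ∧ Cfsg.puigSeq G 1 = ⊤ ∧
      (∀ n m : ℕ, Cfsg.puigSeq G (2 * n) ≤ Cfsg.puigSeq G (2 * n + 2) ∧ Cfsg.puigSeq G (2 * n) ≤ Cfsg.puigSeq G (2 * m + 1) ∧
        Cfsg.puigSeq G (2 * m + 3) ≤ Cfsg.puigSeq G (2 * m + 1)) ∧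
      (∃ k : ℕ, ∀ n : ℕ, k ≤ n → Cfsg.puigSeq G (2 * n) = Cfsg.puigLower G ∧ Cfsg.puigSeq G (2 * n + 1) = Cfsg.puigSubgroup G) ∧
      Cfsg.puigLower G ≤ Cfsg.puigSubgroup G ∧
      Cfsg.puigStep (Cfsg.puigLower G) = Cfsg.puigSubgroup G ∧ Cfsg.puigStep (Cfsg.puigSubgroup G) = Cfsg.puigLower G := by
  obtain ⟨k, hk⟩ := exists_stable (G := G)
  refine ⟨puigSeq_zero, puigSeq_one, fun n m => ⟨(puig_chain n).1, even_le_odd n m, (puig_chain m).2.1⟩,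
    ⟨k, hk⟩, puigLower_le_puigSubgroup, ?_, ?_⟩
  · rw [← (hk k le_rfl).1, ← (hk k le_rfl).2]; rfl
  · rw [← (hk k le_rfl).2, ← (hk (k + 1) (Nat.le_succ k)).1]; rfl

end Cfsg.Agent.S1467
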