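import Cfsg.Statements.S1470
import Mathlib

set_option autoImplicit false
open Cfsg

namespace Cfsg.Agent.S1470

/-- Let p and q be odd primes with (p^q − 1)/(p − 1) coprime to p − 1, and let E be the set of elements a of the field with p ^ q elements whose norm to the prime field is 1 and for which 2 − a also has norm 1. If a⁻¹ ∈ E for every a ∈ E and E has at least two elements, then p ≤ q. -/
theorem result (p q : ℕ) [Fact p.Prime] [Fact q.Prime] (hp : p ≠ 2) (hq : q ≠ 2) (hA : Nat.Coprime ((p ^ q - 1) / (p - 1)) (p - 1))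
    (hinv : ∀ a ∈ {a : GaloisField p q | Algebra.norm (ZMod p) a = 1 ∧ Algebra.norm (ZMod p) (2 - a) = 1}, a⁻¹ ∈ {a : GaloisField p q | Algebra.norm (ZMod p) a = 1 ∧ Algebra.norm (ZMod p) (2 - a) = 1})
    (h2 : 2 ≤ Set.ncard {a : GaloisField p q | Algebra.norm (ZMod p) a = 1 ∧ Algebra.norm (ZMod p) (2 - a) = 1}) :
    p ≤ q := by
  classical
  have hpr : p.Prime := Fact.out
  have hqr : q.Prime := Fact.out
  obtain ⟨E, hE⟩ : ∃ E : Set (GaloisField p q), E = {a | Algebra.norm (ZMod p) a = 1 ∧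
      Algebra.norm (ZMod p) (2 - a) = 1} := ⟨_, rfl⟩
  rw [← hE] at hinv h2
  have hmem : ∀ a, a ∈ E ↔ Algebra.norm (ZMod p) a = 1 ∧ Algebra.norm (ZMod p) (2 - a) = 1 := by
    intro a; rw [hE]; rfl
  obtain ⟨a, ha, ha1⟩ : ∃ a ∈ E, a ≠ 1 := by
    have hfin : E.Finite := Set.toFinite E
    have h1 : 1 < E.ncard := h2
    obtain ⟨x, y, hx, hy, hxy⟩ := (Set.one_lt_ncard_iff hfin).mp h1
    by_cases hx1 : x = 1
    · exact ⟨y, hy, fun h => hxy (hx1.trans h.symm)⟩
    · exact ⟨x, hx, hx1⟩
  have hφ : ∀ a ∈ E, (2 - a)⁻¹ ∈ E := by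
    intro a ha
    apply hinv
    rw [hmem] at ha ⊢
    refine ⟨ha.2, ?_⟩
    have : (2 : GaloisField p q) - (2 - a) = a := by ring
    rw [this]; exact ha.1
  have hne2 : ∀ a ∈ E, (2 : GaloisField p q) - a ≠ 0 := by
    intro a ha h
    have := ((hmem a).mp ha).2
    rw [h, Algebra.norm_zero] at this
    exact zero_ne_one this
  obtain ⟨b, hb⟩ : ∃ b : GaloisField p q, b = (a - 1)⁻¹ := ⟨_, rfl⟩
  have key : ∀ k : ℕ, ∃ c ∈ E, c ≠ 1 ∧ (c - 1)⁻¹ = b - (k : GaloisField p q) := by
    intro k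
    induction k with
    | zero => exact ⟨a, ha, ha1, by simp [hb]⟩
    | succ k ih =>
      obtain ⟨c, hc, hc1, hck⟩ := ih
      have h2c := hne2 c hc
      have hc0 : c - 1 ≠ 0 := sub_ne_zero.mpr hc1
      refine ⟨(2 - c)⁻¹, hφ c hc, ?_, ?_⟩
      · intro h
        apply hc1
        have h3 : (2 - c) = 1 := by rw [← inv_inv (2 - c), h, inv_one]
        linear_combination -h3
      · have e : (2 - c)⁻¹ - 1 = (c - 1) / (2 - c) := by field_simp; ring
        rw [e, inv_div, Nat.cast_succ, ← sub_sub, ← hck]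
        field_simp
        ring
  have hN : ∀ k : ℕ, Algebra.norm (ZMod p) (b - k + 1) = Algebra.norm (ZMod p) (b - k) := by
    intro k
    obtain ⟨c, hc, hc1, hck⟩ := key k
    have hbk : b - (k : GaloisField p q) ≠ 0 := by
      rw [← hck]; exact inv_ne_zero (sub_ne_zero.mpr hc1)
    have hceq : c * (b - k) = b - k + 1 := by
      have h3 : c - 1 = (b - (k : GaloisField p q))⁻¹ := by rw [← hck, inv_inv]
      have hc' : c = 1 + (b - (k : GaloisField p q))⁻¹ := by linear_combination h3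
      rw [hc']; field_simp
    have h1 := ((hmem c).mp hc).1
    rw [← hceq, map_mul, h1, one_mul]
  have hconst : ∀ k : ℕ, Algebra.norm (ZMod p) (b - k) = Algebra.norm (ZMod p) b := by
    intro k
    induction k with
    | zero => simp
    | succ k ih =>
      rw [← ih, ← hN (k + 1)]
      congr 1; push_cast; ring
  obtain ⟨g, hg⟩ : ∃ g : Polynomial (ZMod p),
      g = (Algebra.lmul (ZMod p) (GaloisField p q) b).charpoly := ⟨_, rfl⟩
  have hg_eval : ∀ t : ZMod p, g.eval t =
      Algebra.norm (ZMod p) (-1 : GaloisField p q) * Algebra.norm (ZMod p) b := by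
    intro t
    rw [hg, LinearMap.eval_charpoly, ← AlgHom.commutes (Algebra.lmul (ZMod p) (GaloisField p q)),
      ← map_sub, ← Algebra.norm_apply, ← hconst t.val, ← map_mul]
    congr 1
    rw [← ZMod.natCast_zmod_val t, map_natCast, ZMod.val_natCast, Nat.mod_eq_of_lt (ZMod.val_lt t)]
    ring
  have hdeg : g.natDegree = q := by
    rw [hg, LinearMap.charpoly_natDegree, GaloisField.finrank p hqr.ne_zero]
  by_contra hlt
  push Not at hlt
  have hf0 := Polynomial.eq_zero_of_forall_eval_zero_of_natDegree_lt_card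
    (g - Polynomial.C (Algebra.norm (ZMod p) (-1 : GaloisField p q) * Algebra.norm (ZMod p) b))
    (by intro r; rw [Polynomial.eval_sub, Polynomial.eval_C, hg_eval, sub_self])
    (by rw [Polynomial.natDegree_sub_C, hdeg, Cardinal.mk_fintype, ZMod.card]; exact_mod_cast hlt)
  have h4 : (g - Polynomial.C (Algebra.norm (ZMod p) (-1 : GaloisField p q) *
      Algebra.norm (ZMod p) b)).natDegree = q := by rw [Polynomial.natDegree_sub_C, hdeg]
  rw [hf0, Polynomial.natDegree_zero] at h4
  exact hqr.ne_zero h4.symm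

end Cfsg.Agent.S1470
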