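import Cfsg.Statements.S1475
import Mathlib
import Cfsg.Agent.Lib.Helper6.Solv
import Cfsg.Agent.Lib.Helper6.FrobAct

set_option autoImplicit false
open Cfsg

namespace Cfsg.Agent.S1475

universe u

def EPPO (X : Type*) [Group X] : Prop := ∀ g : X, IsPrimePow (orderOf g) ∨ g = 1

theorem eppo_quot {X : Type*} [Group X] [Finite X] (h : EPPO X) (N : Subgroup X) [N.Normal] :
    EPPO (X ⧸ N) := by
  intro x
  obtain ⟨g, rfl⟩ := QuotientGroup.mk_surjective x
  rcases h g with hg | hg
  · obtain ⟨q, k, hq, hk, hqk⟩ := (isPrimePow_nat_iff _).mp hg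
    have hdvd : orderOf (QuotientGroup.mk (s := N) g) ∣ q ^ k := by
      rw [hqk]
      apply orderOf_dvd_of_pow_eq_one
      rw [← QuotientGroup.mk_pow, pow_orderOf_eq_one]; rfl
    obtain ⟨j, hj, hjeq⟩ := (Nat.dvd_prime_pow hq).mp hdvd
    rcases Nat.eq_zero_or_pos j with h0 | h0
    · right; rw [h0, pow_zero] at hjeq; exact orderOf_eq_one_iff.mp hjeq
    · left; rw [hjeq]; exact (isPrimePow_nat_iff _).mpr ⟨q, j, hq, h0, rfl⟩
  · right; rw [hg]; rfl

theorem eppo_sub {X : Type*} [Group X] (h : EPPO X) (H : Subgroup X) : EPPO H := by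
  intro x
  rcases h (x : X) with hx | hx
  · left; rw [← Subgroup.orderOf_coe]; exact hx
  · right; exact Subtype.ext hx

theorem eppo_no_comm {X : Type*} [Group X] (h : EPPO X) {a b : X} {s t : ℕ} (hs : s.Prime)
    (ht : t.Prime) (hst : s ≠ t) (ha : orderOf a = s) (hb : orderOf b = t)
    (hab : a * b = b * a) : False := by
  have hcop : Nat.Coprime (orderOf a) (orderOf b) := by
    rw [ha, hb]; exact (Nat.coprime_primes hs ht).mpr hst
  have hord : orderOf (a * b) = s * t := by
    rw [(show Commute a b from hab).orderOf_mul_eq_mul_orderOf_of_coprime hcop, ha, hb]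
  rcases h (a * b) with h1 | h1
  · rw [hord] at h1
    obtain ⟨q, k, hq, hk, hqk⟩ := (isPrimePow_nat_iff _).mp h1
    have h2 : s ∣ q ^ k := by rw [hqk]; exact Dvd.intro _ rfl
    have h3 : t ∣ q ^ k := by rw [hqk]; exact Dvd.intro_left _ rfl
    have h4 := (Nat.prime_dvd_prime_iff_eq hs hq).mp (hs.dvd_of_dvd_pow h2)
    have h5 := (Nat.prime_dvd_prime_iff_eq ht hq).mp (ht.dvd_of_dvd_pow h3)
    exact hst (h4.trans h5.symm)
  · rw [h1, orderOf_one] at hord
    have := hs.one_lt
    have := ht.one_lt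
    nlinarith

theorem exists_elem_ab_normal {X : Type*} [Group X] [Finite X] [Group.IsSolvable X]
    [Nontrivial X] :
    ∃ (s : ℕ) (M : Subgroup X), s.Prime ∧ M.Normal ∧ M ≠ ⊥ ∧ (∀ x ∈ M, x ^ s = 1) ∧
      (∀ a ∈ M, ∀ b ∈ M, a * b = b * a) := by
  obtain ⟨A, hAn, hA, hAc⟩ := Cfsg.Agent.Lib.Helper6.exists_abelian_normal_of_solvable (G := X)
  have hcard : Nat.card A ≠ 1 := fun h => hA (Subgroup.eq_bot_of_card_eq A h)
  obtain ⟨s, hs, hsd⟩ := Nat.exists_prime_and_dvd hcard
  haveI : Fact s.Prime := ⟨hs⟩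
  obtain ⟨a, ha⟩ := exists_prime_orderOf_dvd_card' s hsd
  let M : Subgroup X :=
    { carrier := {x | x ∈ A ∧ x ^ s = 1}
      mul_mem' := by
        rintro x y ⟨hx, hx1⟩ ⟨hy, hy1⟩
        refine ⟨A.mul_mem hx hy, ?_⟩
        rw [(show Commute x y from hAc x hx y hy).mul_pow, hx1, hy1, one_mul]
      one_mem' := ⟨A.one_mem, one_pow _⟩
      inv_mem' := by
        rintro x ⟨hx, hx1⟩
        exact ⟨A.inv_mem hx, by rw [inv_pow, hx1, inv_one]⟩ }
  refine ⟨s, M, hs, ⟨?_⟩, ?_, fun x hx => hx.2, fun a ha b hb => hAc a ha.1 b hb.1⟩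
  · rintro n ⟨hn, hn1⟩ g
    refine ⟨hAn.conj_mem n hn g, ?_⟩
    rw [conj_pow, hn1, mul_one, mul_inv_cancel]
  · intro hM
    have h1 : (a : X) ∈ M := by
      refine ⟨a.2, ?_⟩
      rw [← Subgroup.coe_pow, ← ha, pow_orderOf_eq_one]; rfl
    rw [hM, Subgroup.mem_bot] at h1
    have h2 : a = 1 := Subtype.ext h1
    rw [h2, orderOf_one] at ha
    exact hs.one_lt.ne ha

open scoped IsMulCommutative in
theorem eppo_aux : ∀ (n : ℕ) (G : Type u) [Group G] [Finite G] [Group.IsSolvable G],
    Nat.card G = n → EPPO G → (Nat.card G).primeFactors.card ≤ 2 := by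
  intro n
  induction n using Nat.strong_induction_on with
  | _ n ih =>
  intro G _ _ _ hn h
  classical
  rcases subsingleton_or_nontrivial G with hsub | hnt
  · rw [Nat.card_of_subsingleton (1 : G)]; simp
  obtain ⟨p, N, hp, hNn, hN, hNp, hNc⟩ := exists_elem_ab_normal (X := G)
  haveI := hNn
  haveI : Fact p.Prime := ⟨hp⟩
  have hNpg : IsPGroup p N := fun g => ⟨1, by
    rw [pow_one]; exact Subtype.ext (by simpa using hNp g g.2)⟩
  obtain ⟨k, hk⟩ := IsPGroup.iff_card.mp hNpg
  have hk0 : k ≠ 0 := by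
    rintro rfl
    rw [pow_zero] at hk
    exact hN (Subgroup.eq_bot_of_card_eq N hk)
  have hcardG : Nat.card G = Nat.card (G ⧸ N) * p ^ k := by
    rw [← hk]; exact Subgroup.card_eq_card_quotient_mul_card_subgroup N
  have hlt : Nat.card (G ⧸ N) < n := by
    rw [← hn, hcardG]
    have h1 : 1 < p ^ k := Nat.one_lt_pow hk0 hp.one_lt
    have h2 : 0 < Nat.card (G ⧸ N) := Nat.card_pos
    nlinarith
  have ihq := ih _ hlt (G ⧸ N) rfl (eppo_quot h N)
  have hpf : (Nat.card G).primeFactors = (Nat.card (G ⧸ N)).primeFactors ∪ {p} := by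
    rw [hcardG, Nat.primeFactors_mul Nat.card_pos.ne' (pow_ne_zero k hp.ne_zero),
      Nat.primeFactors_prime_pow hk0 hp]
  by_contra hcon
  rw [not_le] at hcon
  have hpnd : ¬ p ∣ Nat.card (G ⧸ N) := by
    intro hd
    have h1 : (Nat.card G).primeFactors = (Nat.card (G ⧸ N)).primeFactors := by
      rw [hpf]
      apply Finset.union_eq_left.mpr
      rw [Finset.singleton_subset_iff]
      exact Nat.mem_primeFactors.mpr ⟨hp, hd, Nat.card_pos.ne'⟩
    rw [h1] at hcon
    omega
  have hidx : N.index = Nat.card (G ⧸ N) := Subgroup.index_eq_card N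
  have hcop : (Nat.card N).Coprime N.index := by
    rw [hk, hidx]; exact Nat.Coprime.pow_left k ((Nat.Prime.coprime_iff_not_dvd hp).mpr hpnd)
  obtain ⟨H, hH⟩ := Subgroup.exists_right_complement'_of_coprime hcop
  have hHcard : Nat.card H = Nat.card (G ⧸ N) := by
    rw [← hidx]; exact hH.symm.index_eq_card.symm
  have hHpf : 2 ≤ (Nat.card H).primeFactors.card := by
    rw [hHcard]
    have h1 := Finset.card_union_le (Nat.card (G ⧸ N)).primeFactors {p}
    rw [← hpf, Finset.card_singleton] at h1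
    omega
  haveI : Nontrivial H := by
    rw [← Finite.one_lt_card_iff_nontrivial]
    by_contra hc
    have h1 : Nat.card H = 1 := by
      have := Nat.card_pos (α := H)
      omega
    rw [h1] at hHpf
    simp at hHpf
  obtain ⟨s, M₀, hs, hM₀n, hM₀, hM₀s, hM₀c⟩ := exists_elem_ab_normal (X := H)
  haveI : Fact s.Prime := ⟨hs⟩
  obtain ⟨u₀, hu₀M, hu₀1⟩ : ∃ u ∈ M₀, u ≠ 1 := by
    by_contra hc
    apply hM₀
    rw [Subgroup.eq_bot_iff_forall]
    intro x hx
    by_contra hx1
    exact hc ⟨x, hx, hx1⟩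
  have hu₀ord : orderOf u₀ = s := orderOf_eq_prime (hM₀s u₀ hu₀M) hu₀1
  have hsH : s ∣ Nat.card H := by rw [← hu₀ord]; exact orderOf_dvd_natCard u₀
  obtain ⟨t, htmem, hts⟩ := Finset.exists_mem_ne (show 1 < (Nat.card H).primeFactors.card by omega) s
  have ht : t.Prime := Nat.prime_of_mem_primeFactors htmem
  have htH : t ∣ Nat.card H := Nat.dvd_of_mem_primeFactors htmem
  haveI : Fact t.Prime := ⟨ht⟩
  obtain ⟨y, hy⟩ := exists_prime_orderOf_dvd_card' t htH
  have hps : p ≠ s := by
    rintro rfl; exact hpnd (hHcard ▸ hsH)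
  have hpt : p ≠ t := by
    rintro rfl; exact hpnd (hHcard ▸ htH)
  have hyord : orderOf (y : G) = t := by rw [Subgroup.orderOf_coe]; exact hy
  have hu₀ord' : orderOf ((u₀ : H) : G) = s := by rw [Subgroup.orderOf_coe]; exact hu₀ord
  -- orders of elements of N and M
  have hNord : ∀ v ∈ N, v ≠ 1 → orderOf v = p := fun v hv hv1 => orderOf_eq_prime (hNp v hv) hv1
  have hMord : ∀ u ∈ M₀.map H.subtype, u ≠ 1 → orderOf u = s := by
    rintro _ ⟨u, hu, rfl⟩ hu1
    apply orderOf_eq_prime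
    · have := congrArg Subtype.val (hM₀s u hu)
      simpa using this
    · exact hu1
  haveI : IsMulCommutative N := ⟨⟨fun a b => Subtype.ext (hNc a a.2 b b.2)⟩⟩
  letI : MulDistribMulAction G N := MulDistribMulAction.compHom N (MulAut.conjNormal (H := N))
  have hsmul : ∀ (g : G) (v : N), ((g • v : N) : G) = g * v * g⁻¹ := fun g v => rfl
  have key := Cfsg.Agent.Lib.Helper6.frob_action (H := G) (V := N) (M₀.map H.subtype) (y : G) t ht
    (by rw [← hyord]; exact pow_orderOf_eq_one _) ?_ ?_ ?_ ?_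
  · -- N is trivial
    apply hN
    rw [Subgroup.eq_bot_iff_forall]
    intro v hv
    by_contra hv1
    have h1 := key ⟨v, hv⟩
    have h2 : v ^ Nat.card (M₀.map H.subtype) = 1 := by
      have := congrArg Subtype.val h1
      simpa using this
    have h3 : orderOf v ∣ Nat.card (M₀.map H.subtype) := orderOf_dvd_of_pow_eq_one h2
    rw [hNord v hv hv1] at h3
    obtain ⟨w, hw⟩ := exists_prime_orderOf_dvd_card' p h3
    have hw1 : (w : G) ≠ 1 := by
      intro hw1
      have : w = 1 := Subtype.ext hw1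
      rw [this, orderOf_one] at hw
      exact hp.one_lt.ne hw
    have := hMord w w.2 hw1
    rw [Subgroup.orderOf_coe, hw] at this
    exact hps this
  · -- y normalizes M
    rintro _ ⟨u, hu, rfl⟩
    exact ⟨y * u * y⁻¹, hM₀n.conj_mem u hu y, rfl⟩
  · -- y acts fpf on M
    intro u hu hcomm
    by_contra hu1
    exact eppo_no_comm h ht hs hts hyord (hMord u hu hu1) hcomm
  · -- y has no fixed point on N
    intro v hv
    by_contra hv1
    have hv1' : (v : G) ≠ 1 := fun hh => hv1 (Subtype.ext hh)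
    have h1 : (y : G) * v * (y : G)⁻¹ = v := by rw [← hsmul, hv]
    have h2 : (y : G) * v = v * y := by
      calc (y : G) * v = ((y : G) * v * (y : G)⁻¹) * y := by group
        _ = v * y := by rw [h1]
    exact eppo_no_comm h ht hp (Ne.symm hpt) hyord (hNord v v.2 hv1') h2
  · -- M has no common fixed point on N
    intro v hv
    by_contra hv1
    have hv1' : (v : G) ≠ 1 := fun hh => hv1 (Subtype.ext hh)
    have hu₀M' : ((u₀ : H) : G) ∈ M₀.map H.subtype := ⟨u₀, hu₀M, rfl⟩
    have h0 := hv _ hu₀M'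
    have h1 : ((u₀ : H) : G) * v * ((u₀ : H) : G)⁻¹ = v := by rw [← hsmul, h0]
    have h2 : ((u₀ : H) : G) * v = v * ((u₀ : H) : G) := by
      calc ((u₀ : H) : G) * v = (((u₀ : H) : G) * v * ((u₀ : H) : G)⁻¹) * ((u₀ : H) : G) := by group
        _ = v * ((u₀ : H) : G) := by rw [h1]
    exact eppo_no_comm h hs hp (Ne.symm hps) hu₀ord' (hNord v v.2 hv1') h2


/-- Let G be a finite solvable group such that the order of every element is a prime power (1 included). Then at most two distinct primes divide the order of G. -/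
theorem result {G : Type*} [Group G] [Finite G] [Group.IsSolvable G] (h : ∀ g : G, IsPrimePow (orderOf g) ∨ g = 1) :
    (Nat.card G).primeFactors.card ≤ 2 := by
  exact eppo_aux _ G rfl h

end Cfsg.Agent.S1475
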