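import Cfsg.Statements.S1476
import Mathlib
import Cfsg.Agent.Lib.Helper6.CN3

set_option autoImplicit false
open Cfsg
open Cfsg.Agent.Lib.Helper6 Cfsg.Agent.S1473 Cfsg.Agent.S1477 Cfsg.Agent.S1474

namespace Cfsg.Agent.S1476


/-- Let G be a finite solvable group in which every non-identity element has nilpotent centralizer. Then either G is nilpotent; or G has a normal subgroup K with a Frobenius complement E (K E = G, K ∩ E = 1, E meets its conjugates by outside elements trivially) such that E is cyclic or E is generated by two elementwise-commuting subgroups, one cyclic of odd order and one isomorphic to a generalized quaternion group; or G is a three-step group with respect to some prime p. -/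
theorem result {G : Type*} [Group G] [Finite G] [Group.IsSolvable G] (hCN : Cfsg.IsCNGroup G) :
    Group.IsNilpotent G ∨
      (∃ K E : Subgroup G, K.Normal ∧ Subgroup.IsComplement' K E ∧ Cfsg.IsFrobeniusComplement E ∧
        (IsCyclic E ∨ ∃ C Q : Subgroup G, C ⊔ Q = E ∧ (∀ a ∈ C, ∀ b ∈ Q, a * b = b * a) ∧ IsCyclic C ∧ Odd (Nat.card C) ∧
          ∃ n : ℕ, Nonempty (↥Q ≃* QuaternionGroup (2 ^ n)))) ∨
      ∃ p : ℕ, p.Prime ∧ Cfsg.IsThreeStepGroup p G := by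
  classical
  by_cases hnil : Group.IsNilpotent G
  · left; exact hnil
  right
  haveI : Nontrivial G := by
    by_contra hnt
    rw [not_nontrivial_iff_subsingleton] at hnt
    exact hnil inferInstance
  by_cases hns : ∀ (q : ℕ) [Fact q.Prime] (Q : Sylow q G), (Q : Subgroup G).Normal →
      (Q : Subgroup G) = ⊥
  · right
    obtain ⟨p, hp, h3, -⟩ := cn_three_step hCN hns
    exact ⟨p, hp, h3⟩
  left
  obtain ⟨q, hns1⟩ := not_forall.mp hns
  obtain ⟨hqF, hns2⟩ := not_forall.mp hns1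
  obtain ⟨Q, hns3⟩ := not_forall.mp hns2
  obtain ⟨hQn, hQ1⟩ := Classical.not_imp.mp hns3
  haveI := hqF
  obtain ⟨hF1, hFtop, ⟨E, hcompl, hfrob, hEfpf⟩, hquot⟩ :=
    Cfsg.Agent.S1474.result hCN hnil q Q hQ1 hQn
  refine ⟨Cfsg.fittingHall G, E, inferInstance, hcompl, hfrob, ?_⟩
  obtain ⟨F, hFdef⟩ : ∃ F : Subgroup G, F = Cfsg.fittingHall G := ⟨_, rfl⟩
  rw [← hFdef] at hF1 hFtop hcompl hEfpf
  haveI hFn : F.Normal := by rw [hFdef]; infer_instance
  have hquot' : Group.IsNilpotent (G ⧸ F) := by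
    subst hFdef; exact hquot
  have hdisj : ∀ x, x ∈ F → x ∈ E → x = 1 := fun x h1 h2 =>
    Subgroup.disjoint_def.mp hcompl.disjoint h1 h2
  have hEnil : Group.IsNilpotent E := by
    haveI := hquot'
    apply Subgroup.isNilpotent_of_ker_le_center ((QuotientGroup.mk' F).comp E.subtype)
    intro a ha
    have h1 : (QuotientGroup.mk' F (a : G)) = 1 := MonoidHom.mem_ker.mp ha
    have h2 := hdisj (a : G) ((QuotientGroup.eq_one_iff (a : G)).mp h1) a.2
    have h3 : a = 1 := Subtype.ext h2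
    rw [h3]; exact Subgroup.one_mem _
  have hcopEF : (Nat.card E).Coprime (Nat.card F) := by
    by_contra hcon
    obtain ⟨d, hd, hdE, hdF⟩ := Nat.Prime.not_coprime_iff_dvd.mp hcon
    haveI : Fact d.Prime := ⟨hd⟩
    obtain ⟨⟨b, hbE⟩, hbo⟩ := exists_prime_orderOf_dvd_card' d hdE
    have hbo' : orderOf b = d := by rw [← Subgroup.orderOf_mk b hbE]; exact hbo
    have hB : IsPGroup d (Subgroup.zpowers b) :=
      IsPGroup.of_card (n := 1) (by rw [Nat.card_zpowers, hbo', pow_one])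
    have hB1 : Subgroup.zpowers b ≠ ⊥ := by
      intro h
      rw [Subgroup.zpowers_eq_bot] at h
      rw [h, orderOf_one] at hbo'
      exact hd.one_lt.ne hbo'
    exact Cfsg.Agent.Lib.Lead.not_dvd_card_of_fpf F (Subgroup.zpowers b) hB hB1
      (fun c hc hc1 => hEfpf c ((Subgroup.zpowers_le.mpr hbE) hc) hc1) hdF
  haveI : Fact (Nat.Prime 2) := ⟨Nat.prime_two⟩
  obtain ⟨Q₂⟩ : Nonempty (Sylow 2 E) := inferInstance
  have hsyl := ((Group.isNilpotent_of_finite_tfae (G := E)).out 0 3).mp hEnil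
  haveI hQ₂n : (Q₂ : Subgroup E).Normal := hsyl 2 inferInstance Q₂
  obtain ⟨C₀, hC₀⟩ := Subgroup.exists_right_complement'_of_coprime (N := (Q₂ : Subgroup E))
    Q₂.card_coprime_index
  have hC₀card : Nat.card C₀ = (Q₂ : Subgroup E).index := hC₀.symm.index_eq_card.symm
  have hC₀odd : Odd (Nat.card C₀) := by
    rw [hC₀card, ← Nat.not_even_iff_odd, even_iff_two_dvd]
    exact Q₂.not_dvd_index
  obtain ⟨C, hCdef⟩ : ∃ C : Subgroup G, C = C₀.map E.subtype := ⟨_, rfl⟩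
  obtain ⟨T, hTdef⟩ : ∃ T : Subgroup G, T = (Q₂ : Subgroup E).map E.subtype := ⟨_, rfl⟩
  have hCE : C ≤ E := by rw [hCdef]; exact Subgroup.map_subtype_le _
  have hTE : T ≤ E := by rw [hTdef]; exact Subgroup.map_subtype_le _
  have hCcard : Nat.card C = Nat.card C₀ := by
    rw [hCdef]
    exact (Nat.card_congr (Subgroup.equivMapOfInjective _ E.subtype E.subtype_injective).toEquiv).symm
  have hCodd : Odd (Nat.card C) := by rw [hCcard]; exact hC₀odd
  have hdec : ∀ x ∈ E, ∃ t ∈ T, ∃ c ∈ C, x = t * c := by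
    intro x hx
    obtain ⟨⟨⟨s, hs⟩, ⟨c, hc⟩⟩, hsc⟩ := hC₀.2 ⟨x, hx⟩
    have hsc' : s * c = ⟨x, hx⟩ := hsc
    refine ⟨(s : G), ?_, (c : G), ?_, ?_⟩
    · rw [hTdef]; exact ⟨s, hs, rfl⟩
    · rw [hCdef]; exact ⟨c, hc, rfl⟩
    · exact (congrArg Subtype.val hsc').symm
  have hsup : C ⊔ T = E := by
    apply le_antisymm (sup_le hCE hTE)
    intro x hx
    obtain ⟨t, ht, c, hc, rfl⟩ := hdec x hx
    exact Subgroup.mul_mem _ ((le_sup_right : T ≤ C ⊔ T) ht) ((le_sup_left : C ≤ C ⊔ T) hc)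
  have hcomm : ∀ a ∈ C, ∀ b ∈ T, a * b = b * a := by
    intro a ha b hb
    have hoa : (orderOf a).Coprime 2 := by
      have h1 : orderOf a ∣ Nat.card C := Subgroup.orderOf_dvd_natCard C ha
      have h2 : (Nat.card C).Coprime 2 := Nat.Coprime.symm
        ((Nat.Prime.coprime_iff_not_dvd Nat.prime_two).mpr
          (fun h => (Nat.not_even_iff_odd.mpr hCodd) (even_iff_two_dvd.mpr h)))
      exact Nat.Coprime.coprime_dvd_left h1 h2
    rw [hTdef] at hb
    obtain ⟨b₀, hb₀, rfl⟩ := hb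
    obtain ⟨i, hi⟩ := orderOf_mem_sylow Q₂ hb₀
    have hob : orderOf ((E.subtype b₀ : G)) = 2 ^ i := by
      rw [← hi]; exact Subgroup.orderOf_coe b₀
    exact (commute_in_nilp hEnil (p := 2) b₀.2 (hCE ha) hob hoa).symm
  have hCcyc : IsCyclic C :=
    fpf_nilp_odd_cyclic F C hF1 (fun a ha ha1 => hEfpf a (hCE ha) ha1)
      (Nat.Coprime.coprime_dvd_left (Subgroup.card_dvd_of_le hCE) hcopEF)
      (nilp_of_le hEnil hCE) hCodd
  rcases Cfsg.Agent.Lib.Lead.frob_compl_sylow F E hF1 hEfpf 2 Q₂ with hcyc | ⟨n, ⟨e⟩⟩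
  · left
    apply fpf_comm_cyclic F E hF1 hEfpf hcopEF
    have hTc : ∀ t₁ ∈ T, ∀ t₂ ∈ T, t₁ * t₂ = t₂ * t₁ := by
      intro t₁ ht₁ t₂ ht₂
      rw [hTdef] at ht₁ ht₂
      obtain ⟨s₁, hs₁, rfl⟩ := ht₁
      obtain ⟨s₂, hs₂, rfl⟩ := ht₂
      have h1 := (IsCyclic.commGroup (α := ↥(Q₂ : Subgroup E))).mul_comm ⟨s₁, hs₁⟩ ⟨s₂, hs₂⟩
      have h2 : s₁ * s₂ = s₂ * s₁ := congrArg Subtype.val h1
      exact congrArg Subtype.val h2
    have hCc : ∀ c₁ ∈ C, ∀ c₂ ∈ C, c₁ * c₂ = c₂ * c₁ := by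
      intro c₁ hc₁ c₂ hc₂
      have h1 := (IsCyclic.commGroup (α := ↥C)).mul_comm ⟨c₁, hc₁⟩ ⟨c₂, hc₂⟩
      exact congrArg Subtype.val h1
    intro x hx y hy
    obtain ⟨t₁, ht₁, c₁, hc₁, rfl⟩ := hdec x hx
    obtain ⟨t₂, ht₂, c₂, hc₂, rfl⟩ := hdec y hy
    have h12 : c₁ * t₂ = t₂ * c₁ := hcomm c₁ hc₁ t₂ ht₂
    have h21 : c₂ * t₁ = t₁ * c₂ := hcomm c₂ hc₂ t₁ ht₁
    have hT := hTc t₁ ht₁ t₂ ht₂
    have hC := hCc c₁ hc₁ c₂ hc₂
    calc t₁ * c₁ * (t₂ * c₂) = t₁ * (c₁ * t₂) * c₂ := by group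
      _ = t₁ * (t₂ * c₁) * c₂ := by rw [h12]
      _ = (t₁ * t₂) * (c₁ * c₂) := by group
      _ = (t₂ * t₁) * (c₂ * c₁) := by rw [hT, hC]
      _ = t₂ * (t₁ * c₂) * c₁ := by group
      _ = t₂ * (c₂ * t₁) * c₁ := by rw [h21]
      _ = t₂ * c₂ * (t₁ * c₁) := by group
  · right
    refine ⟨C, T, hsup, hcomm, hCcyc, hCodd, n, ⟨?_⟩⟩
    have e1 := ((Q₂ : Subgroup E).equivMapOfInjective E.subtype E.subtype_injective).symm
    rw [← hTdef] at e1
    exact e1.trans e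

end Cfsg.Agent.S1476
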