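import Cfsg.Statements.S1479
import Mathlib
import Cfsg.Agent.Lib.Helper6.CN12

set_option autoImplicit false
open Cfsg
open Cfsg.Agent.S1473 Cfsg.Agent.S1477 Cfsg.Agent.S1474 Cfsg.Agent.Lib.Helper6 Cfsg.Agent.Lib

namespace Cfsg.Agent.S1479


/-- Let G be a minimal simple group of odd order in which every non-identity element has nilpotent centralizer, and H a nilpotent subgroup contained in no larger nilpotent subgroup. Then the order of H is coprime to its index, H ∩ gHg⁻¹ = 1 whenever gHg⁻¹ ≠ H, N_G(H) is a maximal subgroup, and N_G(H) has a complement E to H acting on H without non-identity fixed points. Conversely, every maximal subgroup M of G has a normal nilpotent subgroup H, maximal among nilpotent subgroups of G, with a complement in M acting on H without non-identity fixed points. -/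
theorem result {G : Type*} [Group G] [Finite G] (hG : Cfsg.IsMinSimpleOddOrder G) (hCN : Cfsg.IsCNGroup G)  :
    (∀ H : Subgroup G, Group.IsNilpotent H → (∀ L : Subgroup G, Group.IsNilpotent L → H ≤ L → L = H) →
        (Nat.card H).Coprime H.index ∧ (∀ g : G, H.map (MulAut.conj g).toMonoidHom ≠ H → H ⊓ H.map (MulAut.conj g).toMonoidHom = ⊥) ∧
        IsCoatom (Subgroup.normalizer (H : Set G)) ∧
        ∃ E : Subgroup G, Cfsg.IsComplIn H E (Subgroup.normalizer (H : Set G)) ∧ E ≠ ⊥ ∧
          ∀ e ∈ E, e ≠ 1 → H ⊓ Subgroup.centralizer ({e} : Set G) = ⊥) ∧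
      ∀ M : Subgroup G, IsCoatom M → ∃ H E : Subgroup G, Group.IsNilpotent H ∧ (∀ L : Subgroup G, Group.IsNilpotent L → H ≤ L → L = H) ∧
        M ≤ Subgroup.normalizer (H : Set G) ∧ Cfsg.IsComplIn H E M ∧ H ≠ ⊥ ∧ E ≠ ⊥ ∧
        ∀ e ∈ E, e ≠ 1 → H ⊓ Subgroup.centralizer ({e} : Set G) = ⊥ := by
  constructor
  · intro H hH hmax
    have hTI := maxnilp_ti hG hCN H hH hmax
    have hres := Cfsg.Agent.S1477.result hCN H hH hmax
    refine ⟨hres.1, hTI, maxnilp_normalizer_coatom hG hCN H hH hmax, ?_⟩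
    exact frob_compl_of_cent H _ (hres.2.2 hTI) hres.1 Subgroup.le_normalizer le_rfl
      (maxnilp_normalizer_not_le hG hCN H hH hmax)
  · intro M hM
    obtain ⟨hFnil, hFmax, hMeq, hF1, hMF, hK⟩ := coatom_structure hG hCN M hM
    have hTI := maxnilp_ti hG hCN _ hFnil hFmax
    have hres := Cfsg.Agent.S1477.result hCN _ hFnil hFmax
    have hFM : Cfsg.fittingHallOf M ≤ M := by
      have h1 : Cfsg.fittingHallOf M ≤ Subgroup.normalizer (Cfsg.fittingHallOf M : Set G) :=
        Subgroup.le_normalizer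
      rw [← hMeq] at h1
      exact h1
    obtain ⟨E, hE, hE1, hfpf⟩ := frob_compl_of_cent (Cfsg.fittingHallOf M) M (hres.2.2 hTI)
      hres.1 hFM hMeq.le hMF
    exact ⟨Cfsg.fittingHallOf M, E, hFnil, hFmax, hMeq.le, hE, hF1, hE1, hfpf⟩

end Cfsg.Agent.S1479
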