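import Cfsg.Statements.S1483
import Mathlib
import Cfsg.Agent.Lib.Helper6.CN4

set_option autoImplicit false
open Cfsg
open Cfsg.Agent.S1473 Cfsg.Agent.S1477 Cfsg.Agent.S1474 Cfsg.Agent.Lib.Helper6

namespace Cfsg.Agent.S1483

theorem orderOf_of_zpowers_pgroup {G : Type*} [Group G] {p : ℕ} (hp : p.Prime) {x : G}
    (hx : IsPGroup p (Subgroup.zpowers x)) : ∃ k : ℕ, orderOf x = p ^ k := by
  obtain ⟨k, hk⟩ := hx ⟨x, Subgroup.mem_zpowers x⟩
  have h1 : x ^ p ^ k = 1 := by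
    have := congrArg Subtype.val hk
    simpa using this
  obtain ⟨i, _, hi⟩ := (Nat.dvd_prime_pow hp).mp (orderOf_dvd_of_pow_eq_one h1)
  exact ⟨i, hi⟩

theorem dvd_card_of_pelt_mem {G : Type*} [Group G] [Finite G] {p : ℕ} (hp : p.Prime) {x : G}
    (hx1 : x ≠ 1) (hx : IsPGroup p (Subgroup.zpowers x)) (H : Subgroup G) (hxH : x ∈ H) :
    p ∣ Nat.card H := by
  obtain ⟨k, hk⟩ := orderOf_of_zpowers_pgroup hp hx
  have hk0 : k ≠ 0 := by
    rintro rfl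
    rw [pow_zero, orderOf_eq_one_iff] at hk
    exact hx1 hk
  have h1 : orderOf x ∣ Nat.card H := by
    have h2 := orderOf_dvd_natCard (⟨x, hxH⟩ : H)
    rwa [Subgroup.orderOf_mk] at h2
  rw [hk] at h1
  exact dvd_trans (dvd_pow_self p hk0) h1

/-- Let G be a minimal simple group of odd order in which every non-identity element has nilpotent centralizer. Then any two nilpotent subgroups each contained in no larger nilpotent subgroup are either conjugate or of coprime orders; and for primes p, q, r: if some elements x, y ≠ 1 of p-power and q-power order commute, and some elements y', z ≠ 1 of q-power and r-power order commute, then some elements of p-power and r-power order, both ≠ 1, commute. -/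
theorem result {G : Type*} [Group G] [Finite G] (hG : Cfsg.IsMinSimpleOddOrder G) (hCN : Cfsg.IsCNGroup G) :
    (∀ H₁ H₂ : Subgroup G, (Group.IsNilpotent ↥H₁ ∧ ∀ L : Subgroup G, Group.IsNilpotent L → H₁ ≤ L → L = H₁) → (Group.IsNilpotent ↥H₂ ∧ ∀ L : Subgroup G, Group.IsNilpotent L → H₂ ≤ L → L = H₂) → (∃ g : G, H₂ = H₁.map (MulAut.conj g).toMonoidHom) ∨ (Nat.card H₁).Coprime (Nat.card H₂)) ∧
      ∀ (p q r : ℕ), p.Prime → q.Prime → r.Prime → ∀ (x y y' z : G), x ≠ 1 → y ≠ 1 → y' ≠ 1 → z ≠ 1 →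
        IsPGroup p (Subgroup.zpowers x) → IsPGroup q (Subgroup.zpowers y) → IsPGroup q (Subgroup.zpowers y') → IsPGroup r (Subgroup.zpowers z) →
        x * y = y * x → y' * z = z * y' →
        ∃ x' z' : G, x' ≠ 1 ∧ z' ≠ 1 ∧ IsPGroup p (Subgroup.zpowers x') ∧ IsPGroup r (Subgroup.zpowers z') ∧ x' * z' = z' * x' := by
  classical
  have part1 : ∀ H₁ H₂ : Subgroup G, (Group.IsNilpotent ↥H₁ ∧ ∀ L : Subgroup G, Group.IsNilpotent L → H₁ ≤ L → L = H₁) → (Group.IsNilpotent ↥H₂ ∧ ∀ L : Subgroup G, Group.IsNilpotent L → H₂ ≤ L → L = H₂) → (∃ g : G, H₂ = H₁.map (MulAut.conj g).toMonoidHom) ∨ (Nat.card H₁).Coprime (Nat.card H₂) := by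
    intro H₁ H₂ h₁ h₂
    by_cases hc : (Nat.card H₁).Coprime (Nat.card H₂)
    · exact Or.inr hc
    · left
      obtain ⟨p, hp, hp₁, hp₂⟩ := Nat.Prime.not_coprime_iff_dvd.mp hc
      haveI : Fact p.Prime := ⟨hp⟩
      exact maxnilp_conj_of_dvd hCN H₁ H₂ h₁.1 h₁.2 h₂.1 h₂.2 p hp₁ hp₂
  refine ⟨part1, ?_⟩
  intro p q r hp hq hr x y y' z hx1 hy1 hy'1 hz1 hxp hyq hy'q hzr hxy hy'z
  by_cases hpr : p = r
  · subst hpr
    exact ⟨x, x, hx1, hx1, hxp, hxp, rfl⟩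
  · haveI : Fact p.Prime := ⟨hp⟩
    obtain ⟨H₁, hle₁, hH₁, hmax₁⟩ := exists_maxnilp_ge _ (hCN y hy1)
    obtain ⟨H₂, hle₂, hH₂, hmax₂⟩ := exists_maxnilp_ge _ (hCN y' hy'1)
    have hxH₁ : x ∈ H₁ := hle₁ (by rw [mem_cent_singleton]; exact hxy.symm)
    have hyH₁ : y ∈ H₁ := hle₁ (by rw [mem_cent_singleton])
    have hy'H₂ : y' ∈ H₂ := hle₂ (by rw [mem_cent_singleton])
    have hzH₂ : z ∈ H₂ := hle₂ (by rw [mem_cent_singleton]; exact hy'z)
    have hq₁ : q ∣ Nat.card H₁ := dvd_card_of_pelt_mem hq hy1 hyq H₁ hyH₁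
    have hq₂ : q ∣ Nat.card H₂ := dvd_card_of_pelt_mem hq hy'1 hy'q H₂ hy'H₂
    haveI : Fact q.Prime := ⟨hq⟩
    obtain ⟨g, hg⟩ := maxnilp_conj_of_dvd hCN H₁ H₂ hH₁ hmax₁ hH₂ hmax₂ q hq₁ hq₂
    obtain ⟨i, hi⟩ := orderOf_of_zpowers_pgroup hp hxp
    obtain ⟨j, hj⟩ := orderOf_of_zpowers_pgroup hr hzr
    have hx'H₂ : g * x * g⁻¹ ∈ H₂ := by
      rw [hg]
      exact ⟨x, hxH₁, rfl⟩
    have hox' : orderOf (g * x * g⁻¹) = p ^ i := by
      rw [Cfsg.Agent.Lib.Helper6.orderOf_conj_eq, hi]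
    refine ⟨g * x * g⁻¹, z, ?_, hz1, ?_, hzr, ?_⟩
    · intro h
      apply hx1
      calc x = g⁻¹ * (g * x * g⁻¹) * g := by group
        _ = 1 := by rw [h]; group
    · exact IsPGroup.of_card (n := i) (by rw [Nat.card_zpowers, hox'])
    · apply commute_in_nilp hH₂ (p := p) hx'H₂ hzH₂ hox'
      rw [hj]
      exact Nat.Coprime.pow_left j ((Nat.coprime_primes hr hp).mpr (Ne.symm hpr))

end Cfsg.Agent.S1483
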