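import Cfsg.Statements.S1484
import Mathlib
import Cfsg.Agent.Lib.Helper6.CN13

set_option autoImplicit false
open Cfsg
open Cfsg.Agent.S1473 Cfsg.Agent.S1477 Cfsg.Agent.S1474 Cfsg.Agent.Lib.Helper6 Cfsg.Agent.Lib

namespace Cfsg.Agent.S1484


/-- Let G be a minimal simple group of odd order in which every non-identity element has nilpotent centralizer, and M₁, …, M_k maximal subgroups, pairwise non-conjugate, such that every maximal subgroup is conjugate to some M_i. Let H_i be the largest normal nilpotent Hall subgroup of M_i. Then the orders of the H_i are pairwise coprime, their product is the order of G, and every element of G is conjugate to an element of some H_i. -/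
theorem result {G : Type*} [Group G] [Finite G] (hG : Cfsg.IsMinSimpleOddOrder G) (hCN : Cfsg.IsCNGroup G) (k : ℕ) (Mrep : Fin k → Subgroup G) (hmax : ∀ i, IsCoatom (Mrep i))
    (hnc : ∀ i j, i ≠ j → ∀ g : G, Mrep j ≠ (Mrep i).map (MulAut.conj g).toMonoidHom) (hall : ∀ M : Subgroup G, IsCoatom M → ∃ i, ∃ g : G, M = (Mrep i).map (MulAut.conj g).toMonoidHom) :
    (∀ i j, i ≠ j → (Nat.card (Cfsg.fittingHallOf (Mrep i))).Coprime (Nat.card (Cfsg.fittingHallOf (Mrep j)))) ∧
      ∏ i, Nat.card (Cfsg.fittingHallOf (Mrep i)) = Nat.card G ∧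
      ∀ x : G, ∃ i, ∃ g : G, g * x * g⁻¹ ∈ Cfsg.fittingHallOf (Mrep i) := by
  classical
  have hstruct := fun i => coatom_structure hG hCN (Mrep i) (hmax i)
  have hpart3 : ∀ x : G, ∃ i, ∃ g : G, g * x * g⁻¹ ∈ Cfsg.fittingHallOf (Mrep i) :=
    conj_mem_fittingHallOf hG hCN Mrep hall
  have hpart1 : ∀ i j, i ≠ j → (Nat.card (Cfsg.fittingHallOf (Mrep i))).Coprime
      (Nat.card (Cfsg.fittingHallOf (Mrep j))) := by
    intro i j hij
    by_contra hcop
    obtain ⟨r, hr, hri, hrj⟩ := Nat.Prime.not_coprime_iff_dvd.mp hcop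
    haveI : Fact r.Prime := ⟨hr⟩
    obtain ⟨hFi, hmaxi, hMi, -⟩ := hstruct i
    obtain ⟨hFj, hmaxj, hMj, -⟩ := hstruct j
    obtain ⟨g, hg⟩ := maxnilp_conj_of_dvd hCN _ _ hFi hmaxi hFj hmaxj r hri hrj
    apply hnc i j hij g
    calc Mrep j = Subgroup.normalizer (Cfsg.fittingHallOf (Mrep j) : Set G) := hMj
      _ = Subgroup.normalizer (((Cfsg.fittingHallOf (Mrep i)).map
            (MulAut.conj g).toMonoidHom : Subgroup G) : Set G) := by rw [← hg]
      _ = (Subgroup.normalizer (Cfsg.fittingHallOf (Mrep i) : Set G)).map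
            (MulAut.conj g).toMonoidHom := (Subgroup.map_equiv_normalizer_eq _ _).symm
      _ = (Mrep i).map (MulAut.conj g).toMonoidHom := by rw [← hMi]
  refine ⟨hpart1, ?_, hpart3⟩
  have hdvd : ∀ s : Finset (Fin k),
      ∏ i ∈ s, Nat.card (Cfsg.fittingHallOf (Mrep i)) ∣ Nat.card G := by
    intro s
    induction s using Finset.induction_on with
    | empty => simp
    | insert a s ha ih =>
      rw [Finset.prod_insert ha]
      apply Nat.Coprime.mul_dvd_of_dvd_of_dvd _ (Subgroup.card_subgroup_dvd_card _) ih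
      apply Nat.Coprime.prod_right
      intro i hi
      exact hpart1 a i (fun h => ha (h ▸ hi))
  obtain ⟨t, ht⟩ := hdvd Finset.univ
  by_cases ht1 : t = 1
  · rw [ht, ht1, mul_one]
  · exfalso
    obtain ⟨r, hr, hrt⟩ := Nat.exists_prime_and_dvd ht1
    haveI : Fact r.Prime := ⟨hr⟩
    have hrG : r ∣ Nat.card G := by rw [ht]; exact dvd_mul_of_dvd_right hrt _
    obtain ⟨x, hx⟩ := exists_prime_orderOf_dvd_card' r hrG
    obtain ⟨i, g, hgx⟩ := hpart3 x
    have hri : r ∣ Nat.card (Cfsg.fittingHallOf (Mrep i)) := by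
      have h1 := orderOf_dvd_natCard (⟨g * x * g⁻¹, hgx⟩ : Cfsg.fittingHallOf (Mrep i))
      rw [Subgroup.orderOf_mk, orderOf_conj_eq, hx] at h1
      exact h1
    obtain ⟨hFi, hmaxi, hMi, -⟩ := hstruct i
    have hcop := (Cfsg.Agent.S1477.result hCN _ hFi hmaxi).1
    obtain ⟨m', hm'⟩ := Finset.dvd_prod_of_mem
      (fun i => Nat.card (Cfsg.fittingHallOf (Mrep i))) (Finset.mem_univ i)
    have hidx := Subgroup.card_mul_index (Cfsg.fittingHallOf (Mrep i))
    have h2 : (Cfsg.fittingHallOf (Mrep i)).index = m' * t := by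
      have h3 : Nat.card (Cfsg.fittingHallOf (Mrep i)) * (Cfsg.fittingHallOf (Mrep i)).index
          = Nat.card (Cfsg.fittingHallOf (Mrep i)) * (m' * t) := by
        rw [hidx, ht, hm', mul_assoc]
      exact Nat.eq_of_mul_eq_mul_left Nat.card_pos h3
    have h4 : r ∣ (Cfsg.fittingHallOf (Mrep i)).index := by
      rw [h2]; exact dvd_mul_of_dvd_right hrt _
    exact (Nat.Prime.not_coprime_iff_dvd.mpr ⟨r, hr, hri, h4⟩) hcop

end Cfsg.Agent.S1484
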