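import Cfsg.Statements.S1485
import Mathlib
import Cfsg.Agent.Lib.Lead.Char15

set_option autoImplicit false
open Cfsg
open Cfsg.Agent.Lib

namespace Cfsg.Agent.S1485


/-- Let H be a normal subgroup of the finite group G and θ an irreducible character of H. On H, the function induced from θ equals r times the sum of the distinct G-conjugates of θ, where r is the number of elements of G fixing θ under conjugation divided by the order of H (the index of H in the inertia group). -/
theorem result {G : Type*} [Group G] [Fintype G] (H : Subgroup G) [hN : H.Normal] (θ : H → ℂ) (hθ : Cfsg.IsIrrCharacter H θ) : (fun h : H => Cfsg.indFun H θ h) = ((Nat.card {g : G // ∀ h : H, θ ⟨g * h * g⁻¹, hN.conj_mem h h.2 g⟩ = θ h} : ℂ) / (Nat.card H : ℂ)) • ∑ᶠ ψ ∈ {ψ : H → ℂ | ∃ g : G, ψ = fun h : H => θ ⟨g * h * g⁻¹, hN.conj_mem h h.2 g⟩}, ψ := by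
  classical
  haveI : Fintype H := Fintype.ofFinite H
  have hH : (Nat.card H : ℂ) ≠ 0 := by exact_mod_cast Nat.card_pos.ne'
  rw [Lead.indFun_restrict_normal]
  obtain ⟨f, hf⟩ : ∃ f : G → (H → ℂ), f = fun x => Lead.conjFun H θ x := ⟨_, rfl⟩
  have hfx : ∀ x, f x = Lead.conjFun H θ x := fun x => by rw [hf]
  have hset : {ψ : H → ℂ | ∃ g : G, ψ = fun h : H => θ ⟨g * h * g⁻¹, hN.conj_mem h h.2 g⟩}
      = ↑(Finset.univ.image f) := by
    ext ψ
    simp only [Set.mem_setOf_eq, Finset.coe_image, Finset.coe_univ, Set.image_univ, Set.mem_range]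
    constructor
    · rintro ⟨g, rfl⟩; exact ⟨g, hfx g⟩
    · rintro ⟨g, rfl⟩; exact ⟨g, hfx g⟩
  rw [hset, finsum_mem_coe_finset]
  have hfib : ∀ ψ ∈ Finset.univ.image f, ∑ x ∈ Finset.univ.filter (fun x => f x = ψ), f x
      = (Nat.card {g : G // ∀ h : H, θ ⟨g * h * g⁻¹, hN.conj_mem h h.2 g⟩ = θ h} : ℂ) • ψ := by
    intro ψ hψ
    obtain ⟨g, -, rfl⟩ := Finset.mem_image.mp hψ
    rw [Finset.sum_congr rfl (fun x hx => (Finset.mem_filter.mp hx).2), Finset.sum_const]
    have hc : (Finset.univ.filter (fun x => f x = f g)).card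
        = Nat.card {g : G // ∀ h : H, θ ⟨g * h * g⁻¹, hN.conj_mem h h.2 g⟩ = θ h} := by
      rw [Nat.card_eq_fintype_card, Fintype.card_subtype]
      apply Finset.card_bij (fun x _ => x * g⁻¹)
      · intro x hx
        simp only [Finset.mem_filter, Finset.mem_univ, true_and] at hx ⊢
        have h1 : Lead.conjFun H θ (x * g⁻¹) = θ := by
          rw [← Lead.conjFun_mul, ← hfx x, hx, hfx g, Lead.conjFun_mul, mul_inv_cancel,
            Lead.conjFun_one]
        intro h
        exact congrFun h1 h
      · intro a _ b _ hab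
        exact mul_right_cancel hab
      · intro b hb
        simp only [Finset.mem_filter, Finset.mem_univ, true_and] at hb
        refine ⟨b * g, ?_, by group⟩
        simp only [Finset.mem_filter, Finset.mem_univ, true_and]
        rw [hfx, hfx, ← Lead.conjFun_mul]
        congr 1
        funext h
        exact hb h
    rw [hc, Nat.cast_smul_eq_nsmul]
  have hsum : ∑ x : G, Lead.conjFun H θ x = ∑ x : G, f x :=
    Finset.sum_congr rfl (fun x _ => (hfx x).symm)
  rw [hsum, ← Finset.sum_fiberwise_of_maps_to (g := f) (t := Finset.univ.image f)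
    (fun x _ => Finset.mem_image_of_mem f (Finset.mem_univ x)) f]
  rw [Finset.sum_congr rfl hfib, ← Finset.smul_sum, smul_smul]
  congr 1
  rw [div_eq_mul_inv, mul_comm]

end Cfsg.Agent.S1485
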