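import Cfsg.Statements.S1486
import Mathlib
import Cfsg.Agent.Lib.Lead.Char15

set_option autoImplicit false
open Cfsg
open Cfsg.Agent.Lib

namespace Cfsg.Agent.S1486


/-- Let H be a normal subgroup of the finite group G and θ, φ irreducible characters of H. If φ is a G-conjugate of θ then the functions induced from θ and φ coincide; if φ is not a G-conjugate of θ then the induced functions are orthogonal. -/
theorem result {G : Type*} [Group G] [Fintype G] (H : Subgroup G) [hN : H.Normal] (θ φ : H → ℂ) (hθ : Cfsg.IsIrrCharacter H θ) (hφ : Cfsg.IsIrrCharacter H φ) : ((∃ g : G, φ = fun h : H => θ ⟨g * h * g⁻¹, hN.conj_mem h h.2 g⟩) → Cfsg.indFun H φ = Cfsg.indFun H θ) ∧ ((¬ ∃ g : G, φ = fun h : H => θ ⟨g * h * g⁻¹, hN.conj_mem h h.2 g⟩) → Cfsg.classInner (Cfsg.indFun H φ) (Cfsg.indFun H θ) = 0) := by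
  classical
  haveI : Fintype H := Fintype.ofFinite H
  constructor
  · rintro ⟨g, rfl⟩
    funext x
    rw [Lead.indFun_apply, Lead.indFun_apply]
    congr 1
    apply Fintype.sum_equiv (Equiv.mulRight g⁻¹)
    intro y
    simp only [Equiv.coe_mulRight]
    by_cases hy : y⁻¹ * x * y ∈ H
    · have hy' : (y * g⁻¹)⁻¹ * x * (y * g⁻¹) ∈ H := by
        have := hN.conj_mem _ hy g
        have e : (y * g⁻¹)⁻¹ * x * (y * g⁻¹) = g * (y⁻¹ * x * y) * g⁻¹ := by group
        rw [e]; exact this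
      rw [Lead.extendByZero_mem' _ _ hy, Lead.extendByZero_mem' _ _ hy']
      show θ _ = θ _
      congr 1
      apply Subtype.ext
      show g * (y⁻¹ * x * y) * g⁻¹ = (y * g⁻¹)⁻¹ * x * (y * g⁻¹)
      group
    · have hy' : (y * g⁻¹)⁻¹ * x * (y * g⁻¹) ∉ H := by
        intro hmem
        apply hy
        have := hN.conj_mem _ hmem g⁻¹
        have e : g⁻¹ * ((y * g⁻¹)⁻¹ * x * (y * g⁻¹)) * g⁻¹⁻¹ = y⁻¹ * x * y := by group
        rwa [e] at this
      rw [Lead.extendByZero_not_mem _ _ hy, Lead.extendByZero_not_mem _ _ hy']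
  · intro hne
    rw [Lead.classInner_ind_ind_normal]
    rw [Finset.sum_eq_zero, mul_zero]
    intro x _
    have h1 := Lead.irr_inner (⟨φ, hφ⟩ : Cfsg.IrrCharacter H) ⟨Lead.conjFun H θ x, Lead.isIrrCharacter_conjFun H hθ x⟩
    rw [h1, if_neg]
    intro heq
    exact hne ⟨x, congrArg Subtype.val heq⟩

end Cfsg.Agent.S1486
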