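import Cfsg.Statements.S1487
import Mathlib
import Cfsg.Agent.Lib.Lead.Char15

set_option autoImplicit false
open Cfsg
open Cfsg.Agent.Lib

namespace Cfsg.Agent.S1487


/-- Let A ≤ H be normal subgroups of the finite group G and θ an irreducible character of H. Then θ takes the value θ 1 on all of A if and only if the function induced from θ to G takes its value at 1 on all of A. -/
theorem result {G : Type*} [Group G] [Fintype G] (A H : Subgroup G) [A.Normal] [H.Normal] (hAH : A ≤ H) (θ : H → ℂ) (hθ : Cfsg.IsIrrCharacter H θ) : (∀ a : H, (a : G) ∈ A → θ a = θ 1) ↔ (∀ a : G, a ∈ A → Cfsg.indFun H θ a = Cfsg.indFun H θ 1) := by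
  classical
  haveI : Fintype H := Fintype.ofFinite H
  have hHne : (Nat.card H : ℂ) ≠ 0 := by exact_mod_cast Nat.card_pos.ne'
  have hconj : ∀ (a : G), a ∈ A → ∀ x : G, x⁻¹ * a * x ∈ A := by
    intro a ha x
    have := ‹A.Normal›.conj_mem a ha x⁻¹
    rwa [inv_inv] at this
  have h1 : Cfsg.indFun H θ 1 = (Nat.card H : ℂ)⁻¹ * ∑ x : G, θ 1 := by
    rw [Lead.indFun_apply]
    congr 1
    apply Finset.sum_congr rfl
    intro x _
    have e : x⁻¹ * 1 * x = ((1 : H) : G) := by simp
    rw [e, Lead.extendByZero_mem]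
  have h2 : ∀ (a : G) (ha : a ∈ A), Cfsg.indFun H θ a
      = (Nat.card H : ℂ)⁻¹ * ∑ x : G, θ ⟨x⁻¹ * a * x, hAH (hconj a ha x)⟩ := by
    intro a ha
    rw [Lead.indFun_apply]
    congr 1
    apply Finset.sum_congr rfl
    intro x _
    rw [Lead.extendByZero_mem' H θ (hAH (hconj a ha x))]
  constructor
  · intro h a ha
    rw [h1, h2 a ha]
    congr 1
    apply Finset.sum_congr rfl
    intro x _
    exact h _ (hconj a ha x)
  · intro h a ha
    obtain ⟨n, ρ, hρ, hρθ⟩ := hθ
    have hθ1 : θ 1 = (n : ℂ) := by rw [← hρθ, Representation.char_one]; simp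
    have hle : ∀ y : H, ‖θ y‖ ≤ (n : ℝ) := by
      intro y
      have := Lead.char_norm_le ρ y
      rw [hρθ] at this
      simpa using this
    have h3 := h (a : G) ha
    rw [h1, h2 _ ha] at h3
    have h4 := mul_left_cancel₀ (inv_ne_zero hHne) h3
    have h5 : ∑ x : G, (θ ⟨x⁻¹ * (a:G) * x, hAH (hconj a ha x)⟩).re = ∑ x : G, (n : ℝ) := by
      have := congrArg Complex.re h4
      rw [Complex.re_sum, Complex.re_sum] at this
      rw [this]
      apply Finset.sum_congr rfl
      intro x _
      rw [hθ1]; simp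
    have h6 := (Finset.sum_eq_sum_iff_of_le (fun x _ =>
      (Complex.re_le_norm _).trans (hle ⟨x⁻¹ * (a:G) * x, hAH (hconj a ha x)⟩))).mp h5 1 (Finset.mem_univ _)
    have e : (⟨1⁻¹ * (a:G) * 1, hAH (hconj a ha 1)⟩ : H) = a := Subtype.ext (by simp)
    rw [e] at h6
    have hn := hle a
    have hsq := Complex.sq_norm (θ a)
    rw [Complex.normSq_apply] at hsq
    have him : (θ a).im * (θ a).im ≤ 0 := by nlinarith [norm_nonneg (θ a)]
    have him0 : (θ a).im = 0 := mul_self_eq_zero.mp (le_antisymm him (mul_self_nonneg _))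
    apply Complex.ext
    · rw [hθ1, h6]; simp
    · rw [hθ1, him0]; simp

end Cfsg.Agent.S1487
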