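import Cfsg.Statements.S1488
import Mathlib
import Cfsg.Agent.Lib.Lead.Char18

set_option autoImplicit false
open Cfsg
open Cfsg.Agent.Lib

namespace Cfsg.Agent.S1488

theorem sum_comp_mk {G : Type*} [Group G] [Fintype G] (A : Subgroup G) [A.Normal]
    [Fintype (G ⧸ A)] (K : G ⧸ A → ℂ) :
    ∑ b : G, K (QuotientGroup.mk' A b) = (Nat.card A : ℂ) * ∑ q : G ⧸ A, K q := by
  classical
  haveI : Fintype A := Fintype.ofFinite A
  rw [Lead.sum_eq_sum_coset A, Finset.mul_sum]
  apply Finset.sum_congr rfl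
  intro q _
  have : ∀ z : A, K (QuotientGroup.mk' A (q.out * (z : G))) = K q := by
    intro z
    congr 1
    show ((q.out * (z : G) : G) : G ⧸ A) = q
    rw [QuotientGroup.mk_mul_of_mem _ z.2, QuotientGroup.out_eq']
  rw [Finset.sum_congr rfl (fun z _ => this z), Finset.sum_const, Finset.card_univ,
    Nat.card_eq_fintype_card, nsmul_eq_mul]


/-- Let A be a normal subgroup of the finite group G contained in the subgroup H, let θ be a function on H and θ₁ a function on the image of H in G ⧸ A whose composite with the projection is θ. Then the function induced from θ₁ to G ⧸ A, composed with the projection G → G ⧸ A, equals the function induced from θ to G. -/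
theorem result {G : Type*} [Group G] [Fintype G] (A H : Subgroup G) [A.Normal] (hAH : A ≤ H) [Fintype (G ⧸ A)] [Fintype ↥(H.map (QuotientGroup.mk' A))] (θ : H → ℂ) (θ₁ : ↥(H.map (QuotientGroup.mk' A)) → ℂ) (hθ : ∀ x : H, θ₁ ⟨QuotientGroup.mk' A x, Subgroup.mem_map_of_mem _ x.2⟩ = θ x) (g : G) : Cfsg.indFun (H.map (QuotientGroup.mk' A)) θ₁ (QuotientGroup.mk' A g) = Cfsg.indFun H θ g := by
  classical
  haveI : Fintype H := Fintype.ofFinite H
  have hiff : ∀ y : G, QuotientGroup.mk' A y ∈ H.map (QuotientGroup.mk' A) ↔ y ∈ H := by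
    intro y
    constructor
    · rintro ⟨h, hh, heq⟩
      have h1 : h⁻¹ * y ∈ A := by
        rw [← QuotientGroup.eq]; exact heq
      have h2 : y = h * (h⁻¹ * y) := by group
      rw [h2]; exact H.mul_mem hh (hAH h1)
    · intro hy
      exact Subgroup.mem_map_of_mem _ hy
  have key : ∀ y : G, Cfsg.extendByZero (H.map (QuotientGroup.mk' A)) θ₁ (QuotientGroup.mk' A y)
      = Cfsg.extendByZero H θ y := by
    intro y
    by_cases hy : y ∈ H
    · have hy' : QuotientGroup.mk' A y ∈ H.map (QuotientGroup.mk' A) := (hiff y).mpr hy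
      rw [Lead.extendByZero_mem' _ _ hy, Lead.extendByZero_mem' _ _ hy']
      exact hθ ⟨y, hy⟩
    · have hy' : QuotientGroup.mk' A y ∉ H.map (QuotientGroup.mk' A) := fun h => hy ((hiff y).mp h)
      rw [Lead.extendByZero_not_mem _ _ hy, Lead.extendByZero_not_mem _ _ hy']
  have hcard : (Nat.card H : ℂ) = (Nat.card A : ℂ) * (Nat.card ↥(H.map (QuotientGroup.mk' A)) : ℂ) := by
    have e1 : (Nat.card H : ℂ) = ∑ b : G, if b ∈ H then (1:ℂ) else 0 := by
      simp [Nat.card_eq_fintype_card, Fintype.card_subtype]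
    have e2 : (Nat.card ↥(H.map (QuotientGroup.mk' A)) : ℂ)
        = ∑ q : G ⧸ A, if q ∈ H.map (QuotientGroup.mk' A) then (1:ℂ) else 0 := by
      simp [Nat.card_eq_fintype_card, Fintype.card_subtype]
    rw [e1, e2, ← sum_comp_mk A (fun q => if q ∈ H.map (QuotientGroup.mk' A) then (1:ℂ) else 0)]
    apply Finset.sum_congr rfl
    intro b _
    by_cases hb : b ∈ H
    · rw [if_pos hb, if_pos ((hiff b).mpr hb)]
    · rw [if_neg hb, if_neg (fun h => hb ((hiff b).mp h))]
  rw [Lead.indFun_apply, Lead.indFun_apply]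
  have e2 : ∑ x : G, Cfsg.extendByZero H θ (x⁻¹ * g * x) = (Nat.card A : ℂ) *
      ∑ q : G ⧸ A, Cfsg.extendByZero (H.map (QuotientGroup.mk' A)) θ₁ (q⁻¹ * QuotientGroup.mk' A g * q) := by
    rw [← sum_comp_mk A (fun q => Cfsg.extendByZero (H.map (QuotientGroup.mk' A)) θ₁
      (q⁻¹ * QuotientGroup.mk' A g * q))]
    apply Finset.sum_congr rfl
    intro x _
    rw [← key]
    simp
  rw [e2, hcard]
  have hA : (Nat.card A : ℂ) ≠ 0 := by exact_mod_cast Nat.card_pos.ne'
  have hHb : (Nat.card ↥(H.map (QuotientGroup.mk' A)) : ℂ) ≠ 0 := by exact_mod_cast Nat.card_pos.ne'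
  field_simp

end Cfsg.Agent.S1488
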