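import Cfsg.Statements.S1490
import Mathlib
import Cfsg.Agent.Lib.Helper6.CliffCorr2

set_option autoImplicit false
open Cfsg
open Cfsg.Agent.Lib.Helper6 Cfsg.Agent.Lib

namespace Cfsg.Agent.S1490


/-- Let H be a normal subgroup of the finite group G, θ an irreducible character of H with inertia group T, and suppose the commutator of any two elements of T lies in H (T/H abelian). Then there are a positive integer e and a finite set C of irreducible characters of G with e ^ 2 * |C| * |H| = |T|, such that the function induced from θ is e times the sum of the members of C and every member of C has degree [G:T] * e * θ(1). -/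
theorem result {G : Type*} [Group G] [Fintype G] (H T : Subgroup G) [hN : H.Normal] (θ : H → ℂ) (hθ : Cfsg.IsIrrCharacter H θ) (hT : ∀ g : G, g ∈ T ↔ ∀ h : H, θ ⟨g * h * g⁻¹, hN.conj_mem h h.2 g⟩ = θ h) (hab : ∀ x ∈ T, ∀ y ∈ T, x * y * x⁻¹ * y⁻¹ ∈ H) : ∃ (e : ℕ) (C : Finset (G → ℂ)), 0 < e ∧ (∀ χ ∈ C, Cfsg.IsIrrCharacter G χ) ∧ e ^ 2 * C.card * Nat.card H = Nat.card T ∧ Cfsg.indFun H θ = (e : ℂ) • ∑ χ ∈ C, χ ∧ ∀ χ ∈ C, χ 1 = (T.index : ℂ) * e * θ 1 := by
  classical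
  haveI : Fintype T := Fintype.ofFinite T
  haveI : Fintype H := Fintype.ofFinite H
  have hHT : H ≤ T := by
    intro h₀ hh₀
    rw [hT]
    intro h
    exact Lead.isClassFunction_of_irr (⟨θ, hθ⟩ : Cfsg.IrrCharacter H) h ⟨h₀, hh₀⟩
  obtain ⟨θ', hθ'def⟩ : ∃ θ' : H.subgroupOf T → ℂ,
      θ' = fun x : H.subgroupOf T => θ ⟨(x : T), Subgroup.mem_subgroupOf.mp x.2⟩ := ⟨_, rfl⟩
  have hθ'irr : Cfsg.IsIrrCharacter (H.subgroupOf T) θ' := by
    rw [hθ'def]
    exact Lead.isIrrCharacter_comp_surj (Subgroup.subgroupOfEquivOfLe hHT).toMonoidHom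
      (Subgroup.subgroupOfEquivOfLe hHT).surjective hθ
  have hinv : ∀ (t : T) (k : H.subgroupOf T),
      θ' ⟨t * k * t⁻¹, (by infer_instance : (H.subgroupOf T).Normal).conj_mem k k.2 t⟩ = θ' k := by
    intro t k
    rw [hθ'def]
    exact (hT t).mp t.2 ⟨(k : T), Subgroup.mem_subgroupOf.mp k.2⟩
  have hab' : ∀ x y : T, x * y * x⁻¹ * y⁻¹ ∈ H.subgroupOf T := by
    intro x y
    rw [Subgroup.mem_subgroupOf]
    exact hab x x.2 y y.2
  obtain ⟨e, P, hepos, hΘ, hdeg, hcard, hne⟩ :=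
    inv_abelian_decomp (H.subgroupOf T) θ' hθ'irr hinv hab'
  obtain ⟨hc1, hc2⟩ := clifford_corr H T θ hθ hT hHT
  rw [← hθ'def] at hc1 hc2
  have hinj : Set.InjOn (fun ψ : Cfsg.IrrCharacter T => Cfsg.indFun T ψ.1)
      (P : Set (Cfsg.IrrCharacter T)) := by
    intro ψ hψ ψ' hψ' heq
    by_contra hne'
    have h3 := hc2 ψ ψ' (hne ψ hψ) (hne ψ' hψ') hne'
    have h4 := hc1 ψ (hne ψ hψ)
    simp only at heq
    rw [← heq, h4] at h3
    exact one_ne_zero h3
  refine ⟨e, P.image (fun ψ : Cfsg.IrrCharacter T => Cfsg.indFun T ψ.1), hepos, ?_, ?_, ?_, ?_⟩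
  · intro χ hχ
    obtain ⟨ψ, hψ, rfl⟩ := Finset.mem_image.mp hχ
    exact Lead.isIrrCharacter_of_norm_one
      (Lead.isCharacter_indFun T ψ.1 (Lead.isCharacter_of_irr ψ.2)) (hc1 ψ (hne ψ hψ))
  · rw [Finset.card_image_of_injOn hinj, ← Lead.card_subgroupOf_of_le hHT]
    exact hcard
  · rw [Finset.sum_image hinj]
    rw [← Lead.indFun_trans H T hHT θ, ← hθ'def, hΘ, Finset.smul_sum, indFun_sum_smul,
      Finset.smul_sum]
  · intro χ hχ
    obtain ⟨ψ, hψ, rfl⟩ := Finset.mem_image.mp hχ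
    rw [Lead.indFun_one_eq, hdeg ψ hψ]
    have hθ1 : θ' 1 = θ 1 := by rw [hθ'def]; rfl
    rw [hθ1, ← Nat.card_eq_fintype_card, ← Subgroup.index_mul_card T]
    have hTne : (Nat.card T : ℂ) ≠ 0 := by exact_mod_cast Nat.card_pos.ne'
    push_cast
    field_simp

end Cfsg.Agent.S1490
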