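import Mathlib
import Cfsg.Statements.S1491
import Cfsg.Agent.S0867
import Cfsg.Agent.S0856
import Cfsg.Agent.S0868
import Cfsg.Agent.S0854
import Cfsg.Agent.Lib.Lead.DetChar
import Cfsg.Agent.Lib.Lead.Taketa
import Cfsg.Agent.Lib.Lead.Char14
import Cfsg.Agent.Lib.Helper6.CliffCorr

set_option autoImplicit false
open Cfsg

namespace Cfsg.Agent.S1491

open scoped ComplexConjugate
open Cfsg.Agent.Lib Cfsg.Agent.Lib.Lead

theorem detOrder_dvd_card {N : Type*} [Group N] [Finite N] (ϑ : N → ℂ)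
    (hϑ : Cfsg.IsCharacter N ϑ) : Cfsg.detOrder ϑ ∣ Nat.card N := by
  obtain ⟨n, ρ, rfl⟩ := hϑ
  unfold Cfsg.detOrder
  rw [detChar_eq]
  apply orderOf_dvd_of_pow_eq_one
  funext g
  show LinearMap.det (ρ g) ^ Nat.card N = 1
  rw [← map_pow, ← map_pow, pow_card_eq_one', map_one, map_one]

theorem deg_one_of_rep_comm {G : Type*} [Group G] {n : ℕ}
    (ρ : Representation ℂ G (Fin n → ℂ)) [hρ : ρ.IsIrreducible]
    (hcomm : ∀ a b : G, ρ a * ρ b = ρ b * ρ a) : n = 1 := by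
  have hsc : ∀ g : G, ∃ c : ℂ, ρ g = c • (1 : Module.End ℂ (Fin n → ℂ)) := fun g =>
    S0868.schur_scalar ρ (ρ g) (fun a v =>
      congrArg (fun f : Module.End ℂ (Fin n → ℂ) => f v) (hcomm g a))
  have h := (irr_iff ρ).mp hρ
  haveI := h.1
  obtain ⟨v, hv⟩ := exists_ne (0 : Fin n → ℂ)
  have hU := h.2 (Submodule.span ℂ {v}) (fun g w hw => by
    obtain ⟨c, hc⟩ := hsc g
    rw [hc]
    show c • w ∈ _
    exact Submodule.smul_mem _ c hw)
  rcases hU with hU | hU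
  · exfalso
    have h1 : v ∈ Submodule.span ℂ {v} := Submodule.subset_span rfl
    rw [hU] at h1
    exact hv ((Submodule.mem_bot ℂ).mp h1)
  · have h1 : Module.finrank ℂ (Submodule.span ℂ {v}) = 1 := finrank_span_singleton hv
    rw [hU, finrank_top, Module.finrank_fin_fun] at h1
    exact h1


/-- Let H be a normal subgroup of the finite group G and θ an irreducible character of H with inertia group T, where T/H is abelian (commutators of T lie in H) and the index of H in T is coprime to the order of H. Then the function induced from θ is the sum of a set of exactly [T:H] irreducible characters of G, each of degree [G:T] * θ(1). -/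
theorem result {G : Type*} [Group G] [Fintype G] (H T : Subgroup G) [hN : H.Normal] (θ : H → ℂ) (hθ : Cfsg.IsIrrCharacter H θ) (hT : ∀ g : G, g ∈ T ↔ ∀ h : H, θ ⟨g * h * g⁻¹, hN.conj_mem h h.2 g⟩ = θ h) (hab : ∀ x ∈ T, ∀ y ∈ T, x * y * x⁻¹ * y⁻¹ ∈ H) (hcop : Nat.Coprime (Nat.card H) (H.relIndex T)) : ∃ C : Finset (G → ℂ), (∀ χ ∈ C, Cfsg.IsIrrCharacter G χ) ∧ C.card = H.relIndex T ∧ Cfsg.indFun H θ = ∑ χ ∈ C, χ ∧ ∀ χ ∈ C, χ 1 = (T.index : ℂ) * θ 1 := by
  classical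
  haveI : Fintype H := Fintype.ofFinite H
  haveI : Fintype T := Fintype.ofFinite T
  haveI : Fintype (H.subgroupOf T) := Fintype.ofFinite _
  haveI : Fintype (Cfsg.IrrCharacter T) := Fintype.ofFinite _
  have hθc : Cfsg.IsClassFunction H θ := isClassFunction_of_irr ⟨θ, hθ⟩
  have hHT : H ≤ T := by
    intro x hx
    rw [hT]
    intro h
    exact hθc h ⟨x, hx⟩
  obtain ⟨hc1, hc2⟩ := Helper6.clifford_corr H T θ hθ hT hHT
  obtain ⟨θ', hθ'def⟩ : ∃ θ' : H.subgroupOf T → ℂ,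
      θ' = fun x : H.subgroupOf T => θ ⟨(x : T), Subgroup.mem_subgroupOf.mp x.2⟩ := ⟨_, rfl⟩
  rw [← hθ'def] at hc1 hc2
  have hθ' : Cfsg.IsIrrCharacter (H.subgroupOf T) θ' := by
    rw [hθ'def]
    exact isIrrCharacter_comp_surj (Subgroup.subgroupOfEquivOfLe hHT).toMonoidHom
      (Subgroup.subgroupOfEquivOfLe hHT).surjective hθ
  have hθ'1 : θ' 1 = θ 1 := by rw [hθ'def]; rfl
  have hinv' : ∀ (t : T) (x : H.subgroupOf T),
      θ' ⟨t * x * t⁻¹, (inferInstance : (H.subgroupOf T).Normal).conj_mem (x : T) x.2 t⟩ = θ' x := by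
    intro t x
    rw [hθ'def]
    exact (hT t).mp t.2 ⟨((x : T) : G), Subgroup.mem_subgroupOf.mp x.2⟩
  obtain ⟨d, hd, hddvd, hdpos⟩ := irr_deg_dvd_card (⟨θ', hθ'⟩ : Cfsg.IrrCharacter (H.subgroupOf T))
  have hd' : θ' 1 = (d : ℂ) := hd
  have hcardH' : Nat.card (H.subgroupOf T) = Nat.card H :=
    Nat.card_congr (Subgroup.subgroupOfEquivOfLe hHT).toEquiv
  have hcop' : Nat.Coprime (H.subgroupOf T).index (Cfsg.detOrder θ' * d) := by
    have h1 : Nat.Coprime (H.relIndex T) (Nat.card H) := hcop.symm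
    have h2 : Cfsg.detOrder θ' ∣ Nat.card H := by
      rw [← hcardH']; exact detOrder_dvd_card θ' (isCharacter_of_irr hθ')
    have h3 : d ∣ Nat.card H := by rw [← hcardH']; exact hddvd
    exact Nat.Coprime.mul_right (Nat.Coprime.coprime_dvd_right h2 h1)
      (Nat.Coprime.coprime_dvd_right h3 h1)
  obtain ⟨χ₀, ⟨hχ₀, hext, -⟩, -⟩ := S0867.result (H.subgroupOf T) θ' hθ' hinv' d hd' hcop'
  have hprod : Cfsg.IsIrrCharacter (H.subgroupOf T) ((fun _ => (1 : ℂ)) * θ') := by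
    have he : ((fun _ => (1 : ℂ)) * θ') = θ' := by
      funext x
      rw [Pi.mul_apply, one_mul]
    rw [he]
    exact hθ'
  have hgal := S0856.result (H.subgroupOf T) (fun _ => (1 : ℂ)) θ' isIrrCharacter_one hθ'
    (fun _ _ => rfl) hinv' hprod χ₀ hχ₀ hext
  have he1 : ((fun _ => (1 : ℂ)) * θ') = θ' := by
    funext x
    rw [Pi.mul_apply, one_mul]
  rw [he1] at hgal
  obtain ⟨Θ, hΘdef⟩ : ∃ Θ : T → ℂ, Θ = Cfsg.indFun (H.subgroupOf T) θ' := ⟨_, rfl⟩
  rw [← hΘdef] at hc1 hc2 hgal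
  have hΘchar : Cfsg.IsCharacter T Θ := by
    rw [hΘdef]; exact isCharacter_indFun _ _ (isCharacter_of_irr hθ')
  obtain ⟨m, hm⟩ := isCharacter_decomp hΘchar
  have hmψ : ∀ ψ : Cfsg.IrrCharacter T, Cfsg.classInner Θ ψ.1 = (m ψ : ℂ) := by
    intro ψ; rw [hm]; exact classInner_nat_comb (fun χ => (m χ : ℂ)) ψ
  have htrans : Cfsg.indFun T Θ = Cfsg.indFun H θ := by
    rw [hΘdef, hθ'def]; exact indFun_trans H T hHT θ
  have hsum : Cfsg.indFun H θ = ∑ ψ : Cfsg.IrrCharacter T, (m ψ : ℂ) • Cfsg.indFun T ψ.1 := by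
    rw [← htrans]
    conv_lhs => rw [hm]
    exact Helper6.indFun_sum_smul T Finset.univ (fun ψ => (m ψ : ℂ)) (fun ψ => ψ.1)
  -- the key consequence of Gallagher
  have hkey : ∀ ψ : Cfsg.IrrCharacter T, m ψ ≠ 0 → ψ.1 1 = θ 1 ∧ m ψ = 1 := by
    intro ψ hmne
    have hne : Cfsg.classInner Θ ψ.1 ≠ 0 := by
      rw [hmψ]; exact Nat.cast_ne_zero.mpr hmne
    have hmem : ψ.1 ∈ {ψ : T → ℂ | Cfsg.IsIrrCharacter T ψ ∧ Cfsg.classInner Θ ψ ≠ 0} :=
      ⟨ψ.2, hne⟩
    obtain ⟨β, ⟨hβ, hβ1⟩, hβψ⟩ := hgal.surjOn hmem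
    have hβψ' : ∀ t : T, β t * χ₀ t = ψ.1 t := fun t => congrFun hβψ t
    have hβsum : ∑ x : H.subgroupOf T, β x ≠ 0 := by
      rw [frobenius_reciprocity _ _ _ (isClassFunction_of_irr ⟨β, hβ⟩)] at hβ1
      intro h0
      apply hβ1
      have hval : Cfsg.classInner (fun _ : H.subgroupOf T => (1 : ℂ))
          (fun h : H.subgroupOf T => β (h : T))
          = (Nat.card (H.subgroupOf T) : ℂ)⁻¹
            * (starRingEnd ℂ) (∑ x : H.subgroupOf T, β x) := by
        unfold Cfsg.classInner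
        congr 1
        rw [map_sum]
        apply Finset.sum_congr rfl
        intro x _
        exact one_mul _
      rw [hval, h0, map_zero, mul_zero]
    have hker : ∀ (x : H.subgroupOf T) (t : T), β ((x : T) * t) = β t := by
      rcases S0868.coset_avg_irr (H.subgroupOf T) ⟨β, hβ⟩ with h | h
      · exact h
      · exfalso
        have h1 := h 1
        simp only [mul_one] at h1
        exact hβsum h1
    obtain ⟨b, ρ, hρ, hρβ⟩ := id hβ
    haveI := hρ
    have hβone : β 1 = (b : ℂ) := by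
      rw [← hρβ, Representation.char_one, Module.finrank_fin_fun]
    have hρN : ∀ x : T, x ∈ H.subgroupOf T → ρ x = 1 := by
      intro x hx
      apply (char_eq_deg_iff ρ x).mp
      rw [Module.finrank_fin_fun, hρβ, ← hβone]
      have := hker ⟨x, hx⟩ 1
      rwa [mul_one] at this
    have hcomm : ∀ s t : T, ρ s * ρ t = ρ t * ρ s := by
      intro s t
      have h1 : s * t * s⁻¹ * t⁻¹ ∈ H.subgroupOf T := by
        rw [Subgroup.mem_subgroupOf]
        exact hab s s.2 t t.2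
      have h2 : s * t = (s * t * s⁻¹ * t⁻¹) * (t * s) := by group
      rw [← map_mul, h2, map_mul, hρN _ h1, one_mul, map_mul]
    have hb1 : b = 1 := deg_one_of_rep_comm ρ hcomm
    have hβone' : β 1 = 1 := by rw [hβone, hb1, Nat.cast_one]
    have hψH : ∀ x : H.subgroupOf T, ψ.1 (x : T) = θ' x := by
      intro x
      rw [← hβψ' x, hext x]
      have h1 := hker x 1
      rw [mul_one] at h1
      rw [h1, hβone', one_mul]
    refine ⟨?_, ?_⟩
    · have h1 := hψH 1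
      rw [hθ'1] at h1
      exact h1
    · have h1 : Cfsg.classInner Θ ψ.1 = 1 := by
        rw [hΘdef, frobenius_reciprocity _ _ _ (isClassFunction_of_irr ψ)]
        have h2 : (fun h : H.subgroupOf T => ψ.1 (h : T)) = θ' := funext hψH
        rw [h2]
        exact irr_inner_self (⟨θ', hθ'⟩ : Cfsg.IrrCharacter (H.subgroupOf T))
      rw [hmψ] at h1
      exact_mod_cast h1
  -- the finite set of constituents
  obtain ⟨ΨF, hΨF⟩ : ∃ ΨF : Finset (Cfsg.IrrCharacter T), ΨF = Finset.univ.filter (fun ψ => m ψ ≠ 0) :=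
    ⟨_, rfl⟩
  have hΨmem : ∀ ψ, ψ ∈ ΨF ↔ m ψ ≠ 0 := by
    intro ψ; rw [hΨF, Finset.mem_filter]; simp
  have hθ1 : ∃ dn : ℕ, 0 < dn ∧ θ 1 = (dn : ℂ) := irr_one_eq_nat (⟨θ, hθ⟩ : Cfsg.IrrCharacter H)
  obtain ⟨dn, hdn, hθdn⟩ := hθ1
  have hθne : θ 1 ≠ 0 := by rw [hθdn]; exact Nat.cast_ne_zero.mpr hdn.ne'
  -- counting
  have hcount : ΨF.card = H.relIndex T := by
    have h1 : Θ 1 = ((H.subgroupOf T).index : ℂ) * θ 1 := by
      rw [hΘdef, indFun_one_eq, hθ'1]
      have hcard : (Fintype.card T : ℂ)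
          = ((H.subgroupOf T).index : ℂ) * (Nat.card (H.subgroupOf T) : ℂ) := by
        rw [← Nat.cast_mul, Subgroup.index_mul_card, Nat.card_eq_fintype_card]
      have h0 : (Nat.card (H.subgroupOf T) : ℂ) ≠ 0 := Nat.cast_ne_zero.mpr Nat.card_pos.ne'
      rw [hcard]
      field_simp
    have h2 : Θ 1 = (ΨF.card : ℂ) * θ 1 := by
      rw [hm, Finset.sum_apply]
      have h3 : ∀ ψ : Cfsg.IrrCharacter T, ((m ψ : ℂ) • ψ.1) 1
          = if ψ ∈ ΨF then θ 1 else 0 := by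
        intro ψ
        rw [Pi.smul_apply, smul_eq_mul]
        by_cases hψ : ψ ∈ ΨF
        · rw [if_pos hψ]
          obtain ⟨e1, e2⟩ := hkey ψ ((hΨmem ψ).mp hψ)
          rw [e1, e2, Nat.cast_one, one_mul]
        · rw [if_neg hψ]
          have : m ψ = 0 := by
            by_contra hne
            exact hψ ((hΨmem ψ).mpr hne)
          rw [this, Nat.cast_zero, zero_mul]
      rw [Finset.sum_congr rfl (fun ψ _ => h3 ψ), Finset.sum_ite_mem, Finset.univ_inter,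
        Finset.sum_const, nsmul_eq_mul]
    rw [h1] at h2
    have h4 := mul_right_cancel₀ hθne h2
    have h5 : (H.subgroupOf T).index = ΨF.card := by exact_mod_cast h4
    exact h5.symm
  -- irreducibility and injectivity of induction
  have hirr : ∀ ψ ∈ ΨF, Cfsg.IsIrrCharacter G (Cfsg.indFun T ψ.1) := by
    intro ψ hψ
    have hne : Cfsg.classInner Θ ψ.1 ≠ 0 := by
      rw [hmψ]; exact Nat.cast_ne_zero.mpr ((hΨmem ψ).mp hψ)
    exact isIrrCharacter_of_norm_one (isCharacter_indFun T ψ.1 (isCharacter_of_irr ψ.2))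
      (hc1 ψ hne)
  have hinj : Set.InjOn (fun ψ : Cfsg.IrrCharacter T => Cfsg.indFun T ψ.1) (ΨF : Set _) := by
    intro ψ hψ ψ' hψ' heq
    by_contra hne
    have hne1 : Cfsg.classInner Θ ψ.1 ≠ 0 := by
      rw [hmψ]; exact Nat.cast_ne_zero.mpr ((hΨmem ψ).mp hψ)
    have hne2 : Cfsg.classInner Θ ψ'.1 ≠ 0 := by
      rw [hmψ]; exact Nat.cast_ne_zero.mpr ((hΨmem ψ').mp hψ')
    have h0 := hc2 ψ ψ' hne1 hne2 hne
    have heq' : Cfsg.indFun T ψ.1 = Cfsg.indFun T ψ'.1 := heq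
    rw [← heq', hc1 ψ hne1] at h0
    exact one_ne_zero h0
  refine ⟨ΨF.image (fun ψ : Cfsg.IrrCharacter T => Cfsg.indFun T ψ.1), ?_, ?_, ?_, ?_⟩
  · intro χ hχ
    obtain ⟨ψ, hψ, rfl⟩ := Finset.mem_image.mp hχ
    exact hirr ψ hψ
  · rw [Finset.card_image_of_injOn hinj, hcount]
  · rw [Finset.sum_image (fun x hx y hy hxy => hinj hx hy hxy), hsum]
    have h3 : ∀ ψ : Cfsg.IrrCharacter T, (m ψ : ℂ) • Cfsg.indFun T ψ.1
        = if ψ ∈ ΨF then Cfsg.indFun T ψ.1 else 0 := by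
      intro ψ
      by_cases hψ : ψ ∈ ΨF
      · rw [if_pos hψ, (hkey ψ ((hΨmem ψ).mp hψ)).2, Nat.cast_one, one_smul]
      · rw [if_neg hψ]
        have : m ψ = 0 := by
          by_contra hne
          exact hψ ((hΨmem ψ).mpr hne)
        rw [this, Nat.cast_zero, zero_smul]
    rw [Finset.sum_congr rfl (fun ψ _ => h3 ψ), Finset.sum_ite_mem, Finset.univ_inter]
  · intro χ hχ
    obtain ⟨ψ, hψ, rfl⟩ := Finset.mem_image.mp hχ
    show Cfsg.indFun T ψ.1 1 = (T.index : ℂ) * θ 1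
    rw [indFun_one_eq, (hkey ψ ((hΨmem ψ).mp hψ)).1]
    have hcard : (Fintype.card G : ℂ) = (T.index : ℂ) * (Nat.card T : ℂ) := by
      rw [← Nat.cast_mul, Subgroup.index_mul_card, Nat.card_eq_fintype_card]
    have h0 : (Nat.card T : ℂ) ≠ 0 := Nat.cast_ne_zero.mpr Nat.card_pos.ne'
    rw [hcard]
    field_simp


end Cfsg.Agent.S1491
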