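import Mathlib
import Cfsg.Statements.S1492
import Cfsg.Agent.Lib.Helper7.Clifford
import Cfsg.Agent.Lib.Lead.Char1
import Cfsg.Agent.Lib.Lead.Char9
import Cfsg.Agent.Lib.Lead.Hall
import Cfsg.Agent.S0868
import Cfsg.Agent.S0900

set_option autoImplicit false
open Cfsg

namespace Cfsg.Agent.S1492



open Cfsg.Agent.Lib Cfsg.Agent.Lib.Lead

theorem sum_sub_le {G : Type*} [Group G] [Fintype G] (N : Subgroup G) [Fintype N] (f : G → ℝ)
    (hf : ∀ g, 0 ≤ f g) : ∑ n : N, f (n : G) ≤ ∑ g : G, f g := by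
  have h1 : ∑ n : N, f (n : G)
      = ∑ g ∈ Finset.univ.map ⟨(Subtype.val : N → G), Subtype.val_injective⟩, f g := by
    rw [Finset.sum_map]; rfl
  rw [h1]
  exact Finset.sum_le_sum_of_subset_of_nonneg (Finset.subset_univ _) (fun g _ _ => hf g)

/-- Let ψ be an irreducible character of the finite group G and B ≤ D ≤ C subgroups with B normal in C, every commutator of an element of D with an element of C lying in B (so D/B is central in C/B), and ψ constant equal to ψ 1 on B. Then ψ(1) ^ 2 * |C| * |D| ≤ |G| ^ 2. -/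
theorem result {G : Type*} [Group G] [Finite G] (ψ : G → ℂ) (hψ : Cfsg.IsIrrCharacter G ψ) (B C D : Subgroup G) (hBD : B ≤ D) (hDC : D ≤ C) (hBn : ∀ c ∈ C, ∀ b ∈ B, c * b * c⁻¹ ∈ B) (hcent : ∀ d ∈ D, ∀ c ∈ C, d * c * d⁻¹ * c⁻¹ ∈ B) (hker : ∀ b ∈ B, ψ b = ψ 1) : ‖ψ 1‖ ^ 2 * (Nat.card C : ℝ) * (Nat.card D : ℝ) ≤ (Nat.card G : ℝ) ^ 2 := by
  classical
  haveI : Fintype G := Fintype.ofFinite G
  haveI : Fintype C := Fintype.ofFinite C
  haveI : Fintype (Cfsg.IrrCharacter C) := Fintype.ofFinite _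
  have hψc : Cfsg.IsClassFunction G ψ := isClassFunction_of_irr ⟨ψ, hψ⟩
  have hψ2 := hψ
  obtain ⟨dψ, ρ, hρ, hρψ⟩ := hψ2
  have hρb : ∀ b ∈ B, ρ b = 1 := by
    intro b hb
    apply (char_eq_deg_iff ρ b).mp
    rw [hρψ, hker b hb, ← hρψ, Representation.char_one]
  have hψB : ∀ b ∈ B, ∀ g : G, ψ (b * g) = ψ g := by
    intro b hb g
    rw [← hρψ]
    unfold Representation.character
    rw [map_mul, hρb b hb, one_mul]
  obtain ⟨ψC, hψCdef⟩ : ∃ ψC : C → ℂ, ψC = fun c : C => ψ c := ⟨_, rfl⟩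
  have hψCc : Cfsg.IsClassFunction C ψC := by
    rw [hψCdef]; exact Helper7.Cliff.isClassFunction_restrict C ψ hψc
  have hψCne : ψC ≠ 0 := by
    intro h0
    have h1 := congrFun h0 1
    rw [hψCdef] at h1
    have h2 : ψ 1 = 0 := by simpa using h1
    exact irr_deg_ne_zero (⟨ψ, hψ⟩ : Cfsg.IrrCharacter G) h2
  obtain ⟨θ, hθ⟩ := Helper7.Cliff.exists_constituent ψC hψCc hψCne
  haveI hB'n : (B.subgroupOf C).Normal := by
    constructor
    intro b hb c
    rw [Subgroup.mem_subgroupOf] at hb ⊢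
    exact hBn c c.2 b hb
  haveI : Fintype (B.subgroupOf C) := Fintype.ofFinite _
  have hθB : ∀ (n : B.subgroupOf C) (c : C), θ.1 ((n : C) * c) = θ.1 c := by
    rcases S0868.coset_avg_irr (B.subgroupOf C) θ with h | h
    · exact h
    · exfalso
      apply hθ
      have h1 := S0868.avg_sum (B.subgroupOf C) ψC θ.1
      have h2 : ∀ c : C, ∑ n : B.subgroupOf C, θ.1 (((n⁻¹ : B.subgroupOf C) : C) * c) = 0 := by
        intro c
        rw [← h c]
        exact Fintype.sum_equiv (Equiv.inv (B.subgroupOf C)) _ _ (fun n => rfl)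
      have hR : ∑ g : C, ψC g * (starRingEnd ℂ)
          (∑ n : B.subgroupOf C, θ.1 (((n⁻¹ : B.subgroupOf C) : C) * g)) = 0 := by
        apply Finset.sum_eq_zero
        intro c _
        rw [h2 c, map_zero, mul_zero]
      rw [hR] at h1
      have h3 : ∀ c : C, (∑ n : B.subgroupOf C, ψC ((n : C) * c)) * (starRingEnd ℂ) (θ.1 c)
          = (Nat.card (B.subgroupOf C) : ℂ) * (ψC c * (starRingEnd ℂ) (θ.1 c)) := by
        intro c
        have h4 : ∀ n : B.subgroupOf C, ψC ((n : C) * c) = ψC c := by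
          intro n
          rw [hψCdef]
          exact hψB (n : C) (Subgroup.mem_subgroupOf.mp n.2) c
        rw [Finset.sum_congr rfl (fun n _ => h4 n), Finset.sum_const, Finset.card_univ,
          ← Nat.card_eq_fintype_card, nsmul_eq_mul, mul_assoc]
      rw [Finset.sum_congr rfl (fun c _ => h3 c), ← Finset.mul_sum] at h1
      have hB0 : (Nat.card (B.subgroupOf C) : ℂ) ≠ 0 := by exact_mod_cast Nat.card_pos.ne'
      unfold Cfsg.classInner
      rw [(mul_eq_zero.mp h1).resolve_left hB0, mul_zero]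
  obtain ⟨dθ, σ, hσ, hσθ⟩ := θ.2
  haveI := hσ
  have hσb : ∀ c : C, (c : G) ∈ B → σ c = 1 := by
    intro c hc
    apply (char_eq_deg_iff σ c).mp
    have h1 := hθB ⟨c, Subgroup.mem_subgroupOf.mpr hc⟩ 1
    rw [mul_one] at h1
    rw [hσθ]
    rw [show θ.1 c = θ.1 1 from h1, ← hσθ, Representation.char_one]
  have hσD : ∀ d : C, (d : G) ∈ D → ∃ c : ℂ, σ d = c • (1 : Module.End ℂ (Fin dθ → ℂ)) := by
    intro d hd
    apply S0868.schur_scalar σ (σ d)
    intro g v
    have h1 : σ d * σ g = σ g * σ d := by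
      have h2 : σ (d * g * d⁻¹ * g⁻¹) = 1 := hσb _ (hcent d hd g g.2)
      have h3 : σ d * σ g = σ (d * g * d⁻¹ * g⁻¹) * (σ g * σ d) := by
        rw [← map_mul, ← map_mul, ← map_mul]; congr 1; group
      rw [h3, h2, one_mul]
    exact congrArg (fun f : Module.End ℂ (Fin dθ → ℂ) => f v) h1
  haveI : Fintype (D.subgroupOf C) := Fintype.ofFinite _
  obtain ⟨t, ht0, ht⟩ := irr_one_eq_nat θ
  have hSGr : ∑ c : C, Complex.normSq (θ.1 c) = (Nat.card C : ℝ) := by
    have h1 : ((∑ c : C, Complex.normSq (θ.1 c) : ℝ) : ℂ) = ((Nat.card C : ℝ) : ℂ) := by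
      rw [Complex.ofReal_sum]
      push_cast
      rw [← S0900.sum_sq_irr θ]
      apply Finset.sum_congr rfl
      intro c _
      rw [Complex.mul_conj]
    exact_mod_cast h1
  have hDr : ∀ z : D.subgroupOf C, Complex.normSq (θ.1 (z : C)) = (t : ℝ) ^ 2 := by
    intro z
    have h1 := (char_norm_eq_iff σ (z : C)).mpr (hσD (z : C) (Subgroup.mem_subgroupOf.mp z.2))
    rw [hσθ] at h1
    have h2 : (Module.finrank ℂ (Fin dθ → ℂ) : ℂ) = (t : ℂ) := by
      rw [← ht, ← hσθ, Representation.char_one]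
    have h3 : Module.finrank ℂ (Fin dθ → ℂ) = t := by exact_mod_cast h2
    rw [Complex.normSq_eq_norm_sq, h1, h3]
  have hle := sum_sub_le (D.subgroupOf C) (fun c : C => Complex.normSq (θ.1 c))
    (fun c => Complex.normSq_nonneg _)
  rw [hSGr, Finset.sum_congr rfl (fun z _ => hDr z), Finset.sum_const, Finset.card_univ,
    ← Nat.card_eq_fintype_card, card_subgroupOf_of_le hDC, nsmul_eq_mul] at hle
  have hineq : Nat.card D * t ^ 2 ≤ Nat.card C := by exact_mod_cast hle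
  obtain ⟨s, hs0, hs⟩ := irr_one_eq_nat (⟨ψ, hψ⟩ : Cfsg.IrrCharacter G)
  have hθ' : Cfsg.classInner (fun h : C => (⟨ψ, hψ⟩ : Cfsg.IrrCharacter G).1 h) θ.1 ≠ 0 := by
    rw [hψCdef] at hθ; exact hθ
  obtain ⟨r, hr⟩ := Helper7.Cliff.deg_le_index_mul C (⟨ψ, hψ⟩ : Cfsg.IrrCharacter G) θ hθ'
  rw [hs, ht] at hr
  have hst : s ≤ C.index * t := by
    have h1 : C.index * t = s + r := by exact_mod_cast hr
    omega
  have hfin : s ^ 2 * Nat.card C * Nat.card D ≤ Nat.card G ^ 2 := by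
    have hCi := Subgroup.card_mul_index C
    calc s ^ 2 * Nat.card C * Nat.card D ≤ (C.index * t) ^ 2 * Nat.card C * Nat.card D := by
          gcongr
      _ = C.index ^ 2 * Nat.card C * (Nat.card D * t ^ 2) := by ring
      _ ≤ C.index ^ 2 * Nat.card C * Nat.card C := Nat.mul_le_mul_left _ hineq
      _ = (Nat.card C * C.index) ^ 2 := by ring
      _ = Nat.card G ^ 2 := by rw [hCi]
  have hnorm : ‖ψ 1‖ = (s : ℝ) := by
    rw [show ψ 1 = (s : ℂ) from hs, Complex.norm_natCast]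
  rw [hnorm]
  exact_mod_cast hfin

end Cfsg.Agent.S1492
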