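import Cfsg.Statements.S1493
import Mathlib
import Cfsg.Agent.Lib.Helper7.GalConj

set_option autoImplicit false
open Cfsg
open Cfsg.Agent.Lib

namespace Cfsg.Agent.S1493


/-- Let G be a finite group of order a * b with a and b coprime, let k be coprime to a, and let χ be a character of G. Then there is a character χ' of G such that χ'(g) = χ(g ^ k) whenever the order of g divides a and χ'(g) = χ(g) whenever the order of g is coprime to a; moreover χ' is irreducible if χ is. -/
theorem result {G : Type*} [Group G] [Finite G] (a b k : ℕ) (hab : Nat.card G = a * b) (hcop : Nat.Coprime a b) (hk : Nat.Coprime k a) (χ : G → ℂ) (hχ : Cfsg.IsCharacter G χ) : ∃ χ' : G → ℂ, Cfsg.IsCharacter G χ' ∧ (Cfsg.IsIrrCharacter G χ → Cfsg.IsIrrCharacter G χ') ∧ (∀ g : G, orderOf g ∣ a → χ' g = χ (g ^ k)) ∧ (∀ g : G, Nat.Coprime (orderOf g) a → χ' g = χ g) := by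
  classical
  have hGpos : 0 < Nat.card G := Nat.card_pos
  have hapos : 0 < a := by
    rcases Nat.eq_zero_or_pos a with h | h
    · rw [h, zero_mul] at hab; omega
    · exact h
  have hbpos : 0 < b := by
    rcases Nat.eq_zero_or_pos b with h | h
    · rw [h, mul_zero] at hab; omega
    · exact h
  obtain ⟨k', hk'a, hk'b⟩ := Nat.chineseRemainder hcop k 1
  have hk'cop : k'.Coprime (Nat.card G) := by
    rw [hab]
    apply Nat.Coprime.mul_right
    · have := hk'a.gcd_eq
      unfold Nat.Coprime
      rw [this]; exact hk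
    · have := hk'b.gcd_eq
      unfold Nat.Coprime
      rw [this]; simp
  refine ⟨fun g => χ (g ^ k'), Helper7.Gal.isCharacter_galois hχ k' hk'cop, ?_, ?_, ?_⟩
  · intro hirr
    exact Helper7.Gal.isIrrCharacter_galois ⟨χ, hirr⟩ k' hk'cop
  · intro g hg
    show χ (g ^ k') = χ (g ^ k)
    congr 1
    rw [pow_eq_pow_iff_modEq]
    exact hk'a.of_dvd hg
  · intro g hg
    show χ (g ^ k') = χ g
    congr 1
    have hgb : orderOf g ∣ b := by
      have h1 : orderOf g ∣ a * b := hab ▸ orderOf_dvd_natCard g
      exact (Nat.Coprime.dvd_mul_left hg).mp h1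
    have h2 : g ^ k' = g ^ 1 := by
      rw [pow_eq_pow_iff_modEq]
      exact hk'b.of_dvd hgb
    rw [h2, pow_one]

end Cfsg.Agent.S1493
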