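import Cfsg.Statements.S1494
import Mathlib
import Cfsg.Agent.Lib.Helper6.CliffCorr2

set_option autoImplicit false
open Cfsg
open Cfsg.Agent.Lib.Helper6 Cfsg.Agent.Lib

namespace Cfsg.Agent.S1494

theorem char_diff {G : Type*} [Group G] [Finite G] (χ : G → ℂ) (hχ : Cfsg.IsCharacter G χ)
    (p : ℕ) (hp : p.Prime) (x y : G) (hx : orderOf x = p) (hxy : x * y = y * x) :
    ∃ ω : ℂ, IsIntegral ℤ ω ∧
      χ (x * y) - χ y = (1 - Complex.exp (2 * Real.pi * Complex.I / p)) * ω := by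
  classical
  obtain ⟨ε, hεdef⟩ : ∃ ε : ℂ, ε = Complex.exp (2 * Real.pi * Complex.I / p) := ⟨_, rfl⟩
  rw [← hεdef]
  have hεprim : IsPrimitiveRoot ε p := by
    rw [hεdef]; exact Complex.isPrimitiveRoot_exp p hp.ne_zero
  have hεint : IsIntegral ℤ ε := hεprim.isIntegral hp.pos
  haveI : NeZero p := ⟨hp.ne_zero⟩
  have hcomm : ∀ a ∈ ({x, y} : Set G), ∀ b ∈ ({x, y} : Set G), a * b = b * a := by
    intro a ha b hb
    simp only [Set.mem_insert_iff, Set.mem_singleton_iff] at ha hb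
    rcases ha with rfl | rfl <;> rcases hb with rfl | rfl
    · rfl
    · exact hxy
    · exact hxy.symm
    · rfl
  obtain ⟨A, hAdef⟩ : ∃ A : Subgroup G, A = Subgroup.closure ({x, y} : Set G) := ⟨_, rfl⟩
  have hAcomm : ∀ a b : A, a * b = b * a := by
    subst hAdef
    intro a b
    exact (Subgroup.closureCommGroupOfComm hcomm).mul_comm a b
  have hxA : x ∈ A := by rw [hAdef]; exact Subgroup.subset_closure (by simp)
  have hyA : y ∈ A := by rw [hAdef]; exact Subgroup.subset_closure (by simp)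
  haveI : Fintype (Cfsg.IrrCharacter A) := Fintype.ofFinite _
  obtain ⟨m, hm⟩ := Lead.isCharacter_decomp (Lead.isCharacter_restrict A hχ)
  have hlin : ∀ lam : Cfsg.IrrCharacter A, ∃ ω : ℂ, IsIntegral ℤ ω ∧
      lam.1 (⟨x, hxA⟩ * ⟨y, hyA⟩) - lam.1 ⟨y, hyA⟩ = (1 - ε) * ω := by
    intro lam
    have h1 := irr_deg_one_of_comm hAcomm lam
    have hmul := Helper7.irr_linear_mul lam h1
    have hxp : lam.1 ⟨x, hxA⟩ ^ p = 1 := by
      have hpow : ∀ n : ℕ, lam.1 ((⟨x, hxA⟩ : A) ^ n) = lam.1 ⟨x, hxA⟩ ^ n := by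
        intro n
        induction n with
        | zero => rw [pow_zero, pow_zero, h1]
        | succ n ih => rw [pow_succ, pow_succ, hmul, ih]
      rw [← hpow]
      have e : (⟨x, hxA⟩ : A) ^ p = 1 := by
        apply Subtype.ext
        show x ^ p = 1
        rw [← hx]; exact pow_orderOf_eq_one x
      rw [e, h1]
    obtain ⟨j, -, hj⟩ := hεprim.eq_pow_of_pow_eq_one hxp
    refine ⟨-(lam.1 ⟨y, hyA⟩ * ∑ i ∈ Finset.range j, ε ^ i), ?_, ?_⟩
    · apply IsIntegral.neg
      apply IsIntegral.mul (Lead.irr_isIntegral lam _)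
      apply IsIntegral.sum
      intro i _
      exact IsIntegral.pow hεint i
    · rw [hmul, ← hj]
      have h2 := geom_sum_mul ε j
      linear_combination (-(lam.1 ⟨y, hyA⟩)) * h2
  choose ω hωint hω using hlin
  refine ⟨∑ lam : Cfsg.IrrCharacter A, (m lam : ℂ) * ω lam, ?_, ?_⟩
  · apply IsIntegral.sum
    intro lam _
    exact IsIntegral.mul (isIntegral_natCast _) (hωint lam)
  · have e1 : χ (x * y)
        = ∑ lam : Cfsg.IrrCharacter A, (m lam : ℂ) * lam.1 (⟨x, hxA⟩ * ⟨y, hyA⟩) := by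
      have h3 := congrFun hm (⟨x, hxA⟩ * ⟨y, hyA⟩)
      simp only [Finset.sum_apply, Pi.smul_apply, smul_eq_mul] at h3
      exact h3
    have e2 : χ y = ∑ lam : Cfsg.IrrCharacter A, (m lam : ℂ) * lam.1 ⟨y, hyA⟩ := by
      have h3 := congrFun hm ⟨y, hyA⟩
      simp only [Finset.sum_apply, Pi.smul_apply, smul_eq_mul] at h3
      exact h3
    rw [e1, e2, ← Finset.sum_sub_distrib, Finset.mul_sum]
    apply Finset.sum_congr rfl
    intro lam _
    rw [← mul_sub, hω lam]; ring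


/-- Let χ be a generalized character of the finite group G, p a prime, x an element of order p and y an element commuting with x. Then χ(x * y) − χ(y) = (1 − ε) * ω for some algebraic integer ω, where ε = exp(2πi/p). -/
theorem result {G : Type*} [Group G] [Finite G] (χ : G → ℂ) (hχ : Cfsg.IsGeneralizedCharacter G χ) (p : ℕ) (hp : p.Prime) (x y : G) (hx : orderOf x = p) (hxy : x * y = y * x) : ∃ ω : ℂ, IsIntegral ℤ ω ∧ χ (x * y) - χ y = (1 - Complex.exp (2 * Real.pi * Complex.I / p)) * ω := by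
  obtain ⟨χ₁, χ₂, h1, h2, rfl⟩ := hχ
  obtain ⟨ω₁, hω₁, e1⟩ := char_diff χ₁ h1 p hp x y hx hxy
  obtain ⟨ω₂, hω₂, e2⟩ := char_diff χ₂ h2 p hp x y hx hxy
  refine ⟨ω₁ - ω₂, hω₁.sub hω₂, ?_⟩
  simp only [Pi.sub_apply]
  linear_combination e1 - e2

end Cfsg.Agent.S1494
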