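import Cfsg.Statements.S1495
import Mathlib
import Cfsg.Agent.Lib.Lead.Char7

set_option autoImplicit false
open Cfsg
open Cfsg.Agent.Lib

namespace Cfsg.Agent.S1495

theorem nat_case (p : ℕ) (hp : p.Prime) (N : ℕ) (ω : ℂ) (hω : IsIntegral ℤ ω)
    (h : (N : ℂ) = (1 - Complex.exp (2 * Real.pi * Complex.I / p)) * ω) : p ∣ N := by
  classical
  haveI : Fact p.Prime := ⟨hp⟩
  haveI : NeZero p := ⟨hp.ne_zero⟩
  obtain ⟨ε, hεdef⟩ : ∃ ε : ℂ, ε = Complex.exp (2 * Real.pi * Complex.I / p) := ⟨_, rfl⟩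
  rw [← hεdef] at h
  have hεprim : IsPrimitiveRoot ε p := by
    rw [hεdef]; exact Complex.isPrimitiveRoot_exp p hp.ne_zero
  have hμ : ∀ μ ∈ primitiveRoots p ℂ, ∃ w : ℂ, IsIntegral ℤ w ∧ (N : ℂ) = (1 - μ) * w := by
    intro μ hμ
    have hμprim : IsPrimitiveRoot μ p := (mem_primitiveRoots hp.pos).mp hμ
    obtain ⟨j, -, hj⟩ := hμprim.eq_pow_of_pow_eq_one hεprim.pow_eq_one
    refine ⟨(∑ i ∈ Finset.range j, μ ^ i) * ω, ?_, ?_⟩
    · apply IsIntegral.mul _ hω
      apply IsIntegral.sum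
      intro i _
      exact IsIntegral.pow (hμprim.isIntegral hp.pos) i
    · rw [h, ← hj]
      have h2 := geom_sum_mul μ j
      linear_combination ω * h2
  choose! w hwint hw using hμ
  have hprod : ((N : ℂ)) ^ (p - 1) = (p : ℂ) * ∏ μ ∈ primitiveRoots p ℂ, w μ := by
    have h1 : ∏ μ ∈ primitiveRoots p ℂ, (N : ℂ) = (N : ℂ) ^ (p - 1) := by
      rw [Finset.prod_const, hεprim.card_primitiveRoots, Nat.totient_prime hp]
    rw [← h1, Finset.prod_congr rfl (fun μ hμ => hw μ hμ), Finset.prod_mul_distrib]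
    congr 1
    have h2 := Polynomial.cyclotomic_eq_prod_X_sub_primitiveRoots hεprim
    have h3 := congrArg (Polynomial.eval 1) h2
    rw [Polynomial.eval_one_cyclotomic_prime, Polynomial.eval_prod] at h3
    simp only [Polynomial.eval_sub, Polynomial.eval_X, Polynomial.eval_C] at h3
    exact h3.symm
  have hint : IsIntegral ℤ (∏ μ ∈ primitiveRoots p ℂ, w μ) :=
    IsIntegral.prod _ (fun μ hμ => hwint μ hμ)
  have hpne : (p : ℂ) ≠ 0 := by exact_mod_cast hp.ne_zero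
  have h4 : IsIntegral ℤ (((N ^ (p - 1) : ℕ) : ℂ) / (p : ℂ)) := by
    have h5 : ((N ^ (p - 1) : ℕ) : ℂ) / (p : ℂ) = ∏ μ ∈ primitiveRoots p ℂ, w μ := by
      push_cast
      rw [hprod]; field_simp
    rw [h5]; exact hint
  have h6 := Lead.dvd_of_isIntegral_div hp.pos h4
  exact hp.dvd_of_dvd_pow h6


/-- Let p be a prime, ε = exp(2πi/p), and n an integer such that n = (1 − ε) * ω for some algebraic integer ω. Then p divides n. -/
theorem result (p : ℕ) (hp : p.Prime) (n : ℤ) (ω : ℂ) (hω : IsIntegral ℤ ω) (h : (n : ℂ) = (1 - Complex.exp (2 * Real.pi * Complex.I / p)) * ω) : (p : ℤ) ∣ n := by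
  rcases Int.eq_nat_or_neg n with ⟨N, rfl | rfl⟩
  · have h1 : (N : ℂ) = (1 - Complex.exp (2 * Real.pi * Complex.I / p)) * ω := by
      rw [← h]; push_cast; rfl
    exact Int.natCast_dvd_natCast.mpr (nat_case p hp N ω hω h1)
  · have h1 : (N : ℂ) = (1 - Complex.exp (2 * Real.pi * Complex.I / p)) * (-ω) := by
      rw [mul_neg, ← h]; push_cast; ring
    exact (dvd_neg).mpr (Int.natCast_dvd_natCast.mpr (nat_case p hp N (-ω) hω.neg h1))

end Cfsg.Agent.S1495
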