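import Cfsg.Statements.S1496
import Cfsg.Agent.Lib.Lead.Coprime
import Cfsg.Agent.Lib.Lead.Basic

set_option autoImplicit false
open Cfsg

namespace Cfsg.Agent.S1496

open Pointwise in
theorem result {G : Type*} [Group G] [Finite G] (H : Subgroup G) (g : G) (hg : g ∈ Subgroup.normalizer (H : Set G)) (hcop : Nat.Coprime (orderOf g) (Nat.card H)) (h : G) (hh : h ∈ H) : ∃ x ∈ H, ∃ c ∈ H, c * g = g * c ∧ x * (h * g) * x⁻¹ = c * g := by
  obtain ⟨n, hn⟩ : ∃ n, n = orderOf g := ⟨_, rfl⟩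
  obtain ⟨m, hm⟩ : ∃ m, m = Nat.card H := ⟨_, rfl⟩
  rw [← hn, ← hm] at hcop
  have key1 : ∀ h₁ ∈ H, ∀ k : ℤ, (h₁ * g) ^ k * (g ^ k)⁻¹ ∈ H := by
    intro h₁ hh₁ k
    have hN : (H.subgroupOf (Subgroup.normalizer (H : Set G))).Normal := Subgroup.normal_in_normalizer
    obtain ⟨g', hg'⟩ : ∃ g' : Subgroup.normalizer (H : Set G), (g' : G) = g := ⟨⟨g, hg⟩, rfl⟩
    obtain ⟨h', hh'⟩ : ∃ h' : Subgroup.normalizer (H : Set G), (h' : G) = h₁ :=
      ⟨⟨h₁, Subgroup.le_normalizer hh₁⟩, rfl⟩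
    have h1 : QuotientGroup.mk' (H.subgroupOf (Subgroup.normalizer (H : Set G))) h' = 1 := by
      apply (QuotientGroup.eq_one_iff h').mpr
      rw [Subgroup.mem_subgroupOf, hh']; exact hh₁
    have h2 : QuotientGroup.mk' (H.subgroupOf (Subgroup.normalizer (H : Set G)))
        ((h' * g') ^ k * (g' ^ k)⁻¹) = 1 := by
      rw [map_mul, map_zpow, map_mul, h1, one_mul, map_inv, map_zpow, mul_inv_cancel]
    have h3 := (QuotientGroup.eq_one_iff _).mp h2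
    rw [Subgroup.mem_subgroupOf] at h3
    rw [← hg', ← hh']
    simpa using h3
  have key2 : ∀ k : ℤ, g ^ k ∈ H → g ^ k = 1 := by
    intro k hk
    have h1 : orderOf (g ^ k) ∣ n := by
      apply orderOf_dvd_of_pow_eq_one
      rw [← zpow_natCast, ← zpow_mul, mul_comm, zpow_mul, zpow_natCast, hn, pow_orderOf_eq_one,
        one_zpow]
    have h2 : orderOf (g ^ k) ∣ m := hm ▸ Subgroup.orderOf_dvd_natCard H hk
    exact orderOf_eq_one_iff.mp (Nat.eq_one_of_dvd_coprimes hcop h1 h2)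
  have hbez : (1 : ℤ) = n * Int.gcdA n m + m * Int.gcdB n m := by
    have h1 := Int.gcd_eq_gcd_ab n m
    rw [← h1]
    have h2 : Int.gcd (n : ℤ) (m : ℤ) = 1 := by
      rw [Int.gcd_natCast_natCast]; exact hcop
    rw [h2]; simp
  obtain ⟨a, ha⟩ : ∃ a : ℤ, a = Int.gcdA n m := ⟨_, rfl⟩
  obtain ⟨b, hb⟩ : ∃ b : ℤ, b = Int.gcdB n m := ⟨_, rfl⟩
  rw [← ha, ← hb] at hbez
  obtain ⟨y, hy⟩ : ∃ y, y = h * g := ⟨_, rfl⟩
  obtain ⟨u, hu⟩ : ∃ u, u = y ^ ((m : ℤ) * b) := ⟨_, rfl⟩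
  obtain ⟨v, hv⟩ : ∃ v, v = y ^ ((n : ℤ) * a) := ⟨_, rfl⟩
  have hyvu : y = v * u := by
    rw [hu, hv, ← zpow_add, ← hbez, zpow_one]
  have hcomm : v * u = u * v := by
    rw [hu, hv, ← zpow_add, ← zpow_add, add_comm]
  have hgn : ∀ k : ℤ, g ^ ((n : ℤ) * k) = 1 := by
    intro k; rw [zpow_mul, zpow_natCast, hn, pow_orderOf_eq_one, one_zpow]
  have hvH : v ∈ H := by
    have h1 := key1 h hh ((n : ℤ) * a)
    rw [hgn, inv_one, mul_one, ← hy, ← hv] at h1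
    exact h1
  have hgmb : g ^ ((m : ℤ) * b) = g := by
    have h1 : (m : ℤ) * b = 1 - n * a := by linarith
    rw [h1, zpow_sub, zpow_one, hgn, inv_one, mul_one]
  have huH : u * g⁻¹ ∈ H := by
    have h1 := key1 h hh ((m : ℤ) * b)
    rw [hgmb, ← hy, ← hu] at h1
    exact h1
  obtain ⟨h₂, hh₂⟩ : ∃ h₂, h₂ = u * g⁻¹ := ⟨_, rfl⟩
  have hu2 : u = h₂ * g := by rw [hh₂]; group
  rw [← hh₂] at huH
  have hun : u ^ n = 1 := by
    have h1 : y ^ (n : ℤ) ∈ H := by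
      have h0 := key1 h hh (n : ℤ)
      rw [zpow_natCast g, hn, pow_orderOf_eq_one, inv_one, mul_one, ← hy, ← hn] at h0
      exact h0
    have h2 : (y ^ (n : ℤ)) ^ m = 1 := by
      have h3 := Subgroup.orderOf_dvd_natCard H h1
      rw [← hm] at h3
      exact orderOf_dvd_iff_pow_eq_one.mp h3
    rw [hu, ← zpow_natCast, ← zpow_mul]
    have e : (m : ℤ) * b * n = n * m * b := by ring
    rw [e, zpow_mul, zpow_mul, zpow_natCast (y ^ (n : ℤ)) m, h2, one_zpow]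
  have hord : orderOf u = n := by
    apply Nat.dvd_antisymm (orderOf_dvd_of_pow_eq_one hun)
    have h1 := key1 h₂ huH (orderOf u : ℤ)
    rw [← hu2, zpow_natCast, pow_orderOf_eq_one, one_mul] at h1
    have h2 : g ^ (orderOf u : ℤ) ∈ H := by simpa using H.inv_mem h1
    have h3 := key2 _ h2
    rw [zpow_natCast] at h3
    rw [hn]; exact orderOf_dvd_of_pow_eq_one h3
  have hgN : Subgroup.zpowers g ≤ Subgroup.normalizer (H : Set G) := Subgroup.zpowers_le.mpr hg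
  have huK : Subgroup.zpowers u ≤ H ⊔ Subgroup.zpowers g := by
    rw [Subgroup.zpowers_le, hu2]
    exact Subgroup.mul_mem _ (Subgroup.mem_sup_left huH)
      (Subgroup.mem_sup_right (Subgroup.mem_zpowers g))
  have hcK : Nat.card (Subgroup.zpowers u) = Nat.card (Subgroup.zpowers g) := by
    rw [Nat.card_zpowers, Nat.card_zpowers, hord, hn]
  have hcop' : (Nat.card H).Coprime (Nat.card (Subgroup.zpowers g)) := by
    rw [Nat.card_zpowers, ← hn, ← hm]; exact hcop.symm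
  obtain ⟨x, hxH, hx⟩ := Cfsg.Agent.Lib.Lead.sz_conj H (Subgroup.zpowers g) (Subgroup.zpowers u)
    hgN huK hcK hcop' (Or.inr inferInstance)
  have h5 : x⁻¹ * u * x ∈ Subgroup.zpowers g := by
    rw [← Cfsg.Agent.Lib.Lead.mem_conj_smul, hx]; exact Subgroup.mem_zpowers u
  obtain ⟨j, hj⟩ := Subgroup.mem_zpowers_iff.mp h5
  have h6 : x⁻¹ * u * x * g⁻¹ ∈ H := by
    have e : x⁻¹ * u * x * g⁻¹ = x⁻¹ * h₂ * (g * x * g⁻¹) := by rw [hu2]; group
    rw [e]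
    exact H.mul_mem (H.mul_mem (H.inv_mem hxH) huH) ((Subgroup.mem_normalizer_iff.mp hg x).mp hxH)
  have h7 : g ^ (j - 1) = 1 := by
    apply key2
    rw [zpow_sub, zpow_one, hj]; exact h6
  have h8 : x⁻¹ * u * x = g := by
    rw [← hj]
    have e : g ^ j = g ^ (j - 1) * g := by rw [zpow_sub, zpow_one]; group
    rw [e, h7, one_mul]
  refine ⟨x⁻¹, H.inv_mem hxH, x⁻¹ * v * x, ?_, ?_, ?_⟩
  · exact H.mul_mem (H.mul_mem (H.inv_mem hxH) hvH) hxH
  · have e1 : x⁻¹ * v * x * (x⁻¹ * u * x) = x⁻¹ * (v * u) * x := by group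
    have e2 : x⁻¹ * u * x * (x⁻¹ * v * x) = x⁻¹ * (u * v) * x := by group
    rw [← h8, e1, e2, hcomm]
  · rw [← hy, hyvu, ← h8, inv_inv]; group

end Cfsg.Agent.S1496
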