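import Cfsg.Statements.S1497
import Mathlib

set_option autoImplicit false
open Cfsg

namespace Cfsg.Agent.S1497

/-- Let A be a nonempty subset of the finite group G not containing 1 and L a subgroup. Then A is a TI-subset whose normaliser is L if and only if the Dade hypothesis holds for A, L and the constant choice H(a) = ⊥. -/
theorem result {G : Type*} [Group G] [Finite G] (A : Set G) (hA : A.Nonempty) (h1 : (1 : G) ∉ A) (L : Subgroup G) : (Cfsg.IsTISubset A ∧ Subgroup.normalizer A = L) ↔ Cfsg.DadeHypothesis A L (fun _ => ⊥) := by
  constructor
  · rintro ⟨hTI, rfl⟩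
    -- elements of A normalize A; centralizers of elements of A normalize A
    have hmem : ∀ a ∈ A, ∀ c : G, c * a * c⁻¹ ∈ A → c ∈ Subgroup.normalizer A := by
      intro a ha c hc
      by_contra hcn
      have := hTI c hcn a ha hc
      exact h1 (this ▸ ha)
    have hcent : ∀ a ∈ A, Subgroup.centralizer ({a} : Set G) ≤ Subgroup.normalizer A := by
      intro a ha c hc
      apply hmem a ha c
      rw [Subgroup.mem_centralizer_iff] at hc
      have := hc a (Set.mem_singleton a)
      have e : c * a * c⁻¹ = a := by rw [← this]; group
      rw [e]; exact ha
    refine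
      { one_not_mem := h1
        subset := ?_
        conj_mem := ?_
        fusion := ?_
        le_centralizer := ?_
        conj_mem_H := ?_
        inf_eq_bot := ?_
        sup_eq := ?_
        coprime := ?_ }
    · intro a ha
      apply hmem a ha a
      have e : a * a * a⁻¹ = a := by group
      rw [e]; exact ha
    · intro x hx a ha
      rw [Subgroup.mem_set_normalizer_iff] at hx
      exact (hx a).1 ha
    · intro a ha g hg
      exact ⟨g, hmem a ha g hg, rfl⟩
    · intro a _
      exact bot_le
    · intro a _ c _ u hu
      rw [Subgroup.mem_bot] at hu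
      rw [hu, Subgroup.mem_bot]
      group
    · intro a _
      exact bot_inf_eq _
    · intro a ha
      rw [bot_sup_eq]
      exact inf_eq_right.2 (hcent a ha)
    · intro a _ b _
      simp
  · intro hD
    have hLN : L ≤ Subgroup.normalizer A := by
      intro x hx
      rw [Subgroup.mem_set_normalizer_iff]
      intro a
      constructor
      · intro ha
        exact hD.conj_mem x hx a ha
      · intro ha
        have := hD.conj_mem x⁻¹ (L.inv_mem hx) _ ha
        have e : x⁻¹ * (x * a * x⁻¹) * x⁻¹⁻¹ = a := by group
        rw [e] at this
        exact this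
    have hcent : ∀ a ∈ A, Subgroup.centralizer ({a} : Set G) ≤ L := by
      intro a ha
      have := hD.sup_eq a ha
      simp only [bot_sup_eq] at this
      rw [← this]
      exact inf_le_left
    have key : ∀ a ∈ A, ∀ g : G, g * a * g⁻¹ ∈ A → g ∈ L := by
      intro a ha g hg
      obtain ⟨x, hx, hxe⟩ := hD.fusion a ha g hg
      have hc : x⁻¹ * g ∈ Subgroup.centralizer ({a} : Set G) := by
        rw [Subgroup.mem_centralizer_iff]
        intro b hb
        rw [Set.mem_singleton_iff] at hb
        subst hb
        have e1 : g * b = x * b * x⁻¹ * g := by rw [hxe]; group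
        calc b * (x⁻¹ * g) = x⁻¹ * (x * b * x⁻¹ * g) := by group
          _ = x⁻¹ * (g * b) := by rw [e1]
          _ = x⁻¹ * g * b := by group
      have := L.mul_mem hx (hcent a ha hc)
      have e : x * (x⁻¹ * g) = g := by group
      rw [e] at this
      exact this
    constructor
    · intro g hg x hx hgx
      exact absurd (hLN (key x hx g hgx)) hg
    · apply le_antisymm
      · intro g hg
        obtain ⟨a, ha⟩ := hA
        rw [Subgroup.mem_set_normalizer_iff] at hg
        exact key a ha g ((hg a).1 ha)
      · exact hLN

end Cfsg.Agent.S1497
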