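import Cfsg.Statements.S1499
import Mathlib
import Mathlib

set_option autoImplicit false
open Cfsg
open Cfsg

namespace Cfsg.Agent.S1499


/-- Under the Dade hypothesis for (A, L, H), let a, b ∈ A. If an element of the coset a·H(a) is conjugate in G to an element of b·H(b), then a and b are conjugate by an element of L. Moreover the set normaliser of the coset a·H(a) is the centraliser of a. -/
theorem result {G : Type*} [Group G] [Finite G] (A : Set G) (L : Subgroup G) (H : G → Subgroup G) (hD : Cfsg.DadeHypothesis A L H) (a b : G) (ha : a ∈ A) (hb : b ∈ A) : ((∃ u ∈ H a, ∃ v ∈ H b, ∃ g : G, g * (a * u) * g⁻¹ = b * v) → ∃ x ∈ L, x * a * x⁻¹ = b) ∧ Subgroup.normalizer ((fun u : G => a * u) '' (H a : Set G)) = Subgroup.centralizer ({a} : Set G) := by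
  classical
  have haL : a ∈ L := hD.subset ha
  have hbL : b ∈ L := hD.subset hb
  have hself : ∀ c : G, c ∈ Subgroup.centralizer ({c} : Set G) := by
    intro c
    rw [Subgroup.mem_centralizer_iff]
    intro h hh
    rw [Set.mem_singleton_iff] at hh
    rw [hh]
  -- orders
  have hordA : ∀ c ∈ A, orderOf c ∣ Nat.card ↥(L ⊓ Subgroup.centralizer ({c} : Set G)) :=
    fun c hc => Subgroup.orderOf_dvd_natCard _ (Subgroup.mem_inf.mpr ⟨hD.subset hc, hself c⟩)
  have hcop : ∀ c ∈ A, ∀ c' ∈ A, ∀ w ∈ H c, Nat.Coprime (orderOf w) (orderOf c') := by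
    intro c hc c' hc' w hw
    exact Nat.Coprime.coprime_dvd_left (Subgroup.orderOf_dvd_natCard _ hw)
      (Nat.Coprime.coprime_dvd_right (hordA c' hc') (hD.coprime c hc c' hc'))
  have hcomm : ∀ c ∈ A, ∀ w ∈ H c, Commute c w := by
    intro c hc w hw
    have h1 := hD.le_centralizer c hc hw
    rw [Subgroup.mem_centralizer_iff] at h1
    exact h1 c rfl
  constructor
  · rintro ⟨u, hu, v, hv, g, hg⟩
    -- N = o(u) o(v) is coprime to M = o(a) o(b)
    have hN : Nat.Coprime (orderOf u * orderOf v) (orderOf a * orderOf b) := by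
      apply Nat.Coprime.mul_left
      · exact Nat.Coprime.mul_right (hcop a ha a ha u hu) (hcop a ha b hb u hu)
      · exact Nat.Coprime.mul_right (hcop b hb a ha v hv) (hcop b hb b hb v hv)
    have ha1 : a ≠ 1 := fun h => hD.one_not_mem (h ▸ ha)
    have hoa : 1 < orderOf a := by
      have h0 : 0 < orderOf a := orderOf_pos a
      have h1 : orderOf a ≠ 1 := fun h => ha1 (orderOf_eq_one_iff.mp h)
      omega
    have hob : 0 < orderOf b := orderOf_pos b
    have hM : 1 < orderOf a * orderOf b := by nlinarith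
    obtain ⟨k, -, hk⟩ := Nat.exists_mul_mod_eq_one_of_coprime hN hM
    have hmod : orderOf u * orderOf v * k ≡ 1 [MOD orderOf a * orderOf b] := by
      show orderOf u * orderOf v * k % (orderOf a * orderOf b) = 1 % (orderOf a * orderOf b)
      rw [hk, Nat.mod_eq_of_lt hM]
    have hpa : a ^ (orderOf u * orderOf v * k) = a := by
      have h1 : a ^ (orderOf u * orderOf v * k) = a ^ 1 :=
        pow_eq_pow_iff_modEq.mpr (Nat.ModEq.of_dvd (Dvd.intro _ rfl) hmod)
      rw [h1, pow_one]
    have hpb : b ^ (orderOf u * orderOf v * k) = b := by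
      have h1 : b ^ (orderOf u * orderOf v * k) = b ^ 1 :=
        pow_eq_pow_iff_modEq.mpr (Nat.ModEq.of_dvd (Dvd.intro_left _ rfl) hmod)
      rw [h1, pow_one]
    have hpu : u ^ (orderOf u * orderOf v * k) = 1 := by
      rw [mul_assoc, pow_mul, pow_orderOf_eq_one, one_pow]
    have hpv : v ^ (orderOf u * orderOf v * k) = 1 := by
      rw [mul_comm (orderOf u) (orderOf v), mul_assoc, pow_mul, pow_orderOf_eq_one, one_pow]
    have hconj : g * a * g⁻¹ = b := by
      have h1 : (g * (a * u) * g⁻¹) ^ (orderOf u * orderOf v * k)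
          = (b * v) ^ (orderOf u * orderOf v * k) := by rw [hg]
      rw [conj_pow, (hcomm a ha u hu).mul_pow, (hcomm b hb v hv).mul_pow, hpa, hpb, hpu, hpv,
        mul_one, mul_one] at h1
      exact h1
    obtain ⟨x, hx, hxa⟩ := hD.fusion a ha g (by rw [hconj]; exact hb)
    exact ⟨x, hx, hxa.trans hconj⟩
  · ext x
    rw [Subgroup.mem_set_normalizer_iff, Subgroup.mem_centralizer_iff]
    constructor
    · intro hx h hh
      rw [Set.mem_singleton_iff] at hh
      rw [hh]
      have h1 : a ∈ (fun u : G => a * u) '' (H a : Set G) := ⟨1, (H a).one_mem, mul_one a⟩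
      obtain ⟨v, hv, hva⟩ := (hx a).mp h1
      have hv' : v ∈ H a := hv
      have hva' : a * v = x * a * x⁻¹ := hva
      have hord : orderOf (a * v) = orderOf a * orderOf v :=
        (hcomm a ha v hv').orderOf_mul_eq_mul_orderOf_of_coprime (hcop a ha a ha v hv').symm
      have hord2 : orderOf (x * a * x⁻¹) = orderOf a := MulEquiv.orderOf_eq (MulAut.conj x) a
      rw [hva', hord2] at hord
      have hoa : 0 < orderOf a := orderOf_pos a
      have hov : orderOf v = 1 := by
        have h2 : orderOf a * 1 = orderOf a * orderOf v := by rw [mul_one]; exact hord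
        exact (Nat.eq_of_mul_eq_mul_left hoa h2).symm
      have hv1 : v = 1 := orderOf_eq_one_iff.mp hov
      rw [hv1, mul_one] at hva'
      calc a * x = (x * a * x⁻¹) * x := by rw [← hva']
        _ = x * a := by group
    · intro hx h
      have hxa : a * x = x * a := hx a rfl
      have hxc : x ∈ Subgroup.centralizer ({a} : Set G) := by
        rw [Subgroup.mem_centralizer_iff]
        intro h' hh'
        rw [Set.mem_singleton_iff] at hh'
        rw [hh']; exact hxa
      constructor
      · rintro ⟨u, hu, rfl⟩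
        refine ⟨x * u * x⁻¹, hD.conj_mem_H a ha x hxc u hu, ?_⟩
        show a * (x * u * x⁻¹) = x * (a * u) * x⁻¹
        calc a * (x * u * x⁻¹) = (a * x) * u * x⁻¹ := by group
          _ = (x * a) * u * x⁻¹ := by rw [hxa]
          _ = x * (a * u) * x⁻¹ := by group
      · rintro ⟨u, hu, hue⟩
        have hue' : a * u = x * h * x⁻¹ := hue
        have hxc' : x⁻¹ ∈ Subgroup.centralizer ({a} : Set G) := Subgroup.inv_mem _ hxc
        refine ⟨x⁻¹ * u * x⁻¹⁻¹, hD.conj_mem_H a ha x⁻¹ hxc' u hu, ?_⟩
        show a * (x⁻¹ * u * x⁻¹⁻¹) = h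
        have h3 : h = x⁻¹ * (a * u) * x := by rw [hue']; group
        have h4 : x⁻¹ * a = a * x⁻¹ := by
          calc x⁻¹ * a = x⁻¹ * (a * x) * x⁻¹ := by group
            _ = x⁻¹ * (x * a) * x⁻¹ := by rw [hxa]
            _ = a * x⁻¹ := by group
        rw [h3]
        calc a * (x⁻¹ * u * x⁻¹⁻¹) = (a * x⁻¹) * u * x := by group
          _ = (x⁻¹ * a) * u * x := by rw [h4]
          _ = x⁻¹ * (a * u) * x := by group

end Cfsg.Agent.S1499
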