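import Cfsg.Statements.S1505
import Mathlib
import Cfsg.Agent.Lib.Helper6.LinChar2

set_option autoImplicit false
open Cfsg
open Cfsg.Agent.Lib.Helper6 Cfsg.Agent.Lib

namespace Cfsg.Agent.S1505

open Classical in

/-- Let W₁, W₂ ≤ G form a self-normalising cyclic subgroup W = W₁ ⊔ W₂. For nontrivial linear characters φ, φ' of W trivial on W₂ and ψ, ψ' trivial on W₁, put α = (1 − φ)(1 − ψ) and α' = (1 − φ')(1 − ψ'). Then the function induced from α to G has inner product 1 with the principal character, and the inner product of the functions induced from α and α' is 1 + a + b + ab where a = 1 if φ = φ' (else 0) and b = 1 if ψ = ψ' (else 0). -/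
theorem result {G : Type*} [Group G] [Fintype G] (W₁ W₂ : Subgroup G) (hW : Cfsg.IsSelfNormalizingCyclic W₁ W₂) (φ φ' ψ ψ' : ↥(W₁ ⊔ W₂) →* ℂˣ) (hφ : φ ≠ 1) (hφ' : φ' ≠ 1) (hψ : ψ ≠ 1) (hψ' : ψ' ≠ 1) (hφ₂ : ∀ w : ↥(W₁ ⊔ W₂), (w : G) ∈ W₂ → φ w = 1 ∧ φ' w = 1) (hψ₁ : ∀ w : ↥(W₁ ⊔ W₂), (w : G) ∈ W₁ → ψ w = 1 ∧ ψ' w = 1) : Cfsg.classInner (Cfsg.indFun (W₁ ⊔ W₂) (fun w => 1 - (φ w : ℂ) - (ψ w : ℂ) + (φ w : ℂ) * (ψ w : ℂ))) (fun _ => 1) = 1 ∧ Cfsg.classInner (Cfsg.indFun (W₁ ⊔ W₂) (fun w => 1 - (φ w : ℂ) - (ψ w : ℂ) + (φ w : ℂ) * (ψ w : ℂ))) (Cfsg.indFun (W₁ ⊔ W₂) (fun w => 1 - (φ' w : ℂ) - (ψ' w : ℂ) + (φ' w : ℂ) * (ψ' w : ℂ))) = 1 + (if φ = φ' then 1 else 0) + (if ψ = ψ' then 1 else 0) + (if φ = φ' then 1 else 0) * (if ψ = ψ' then 1 else 0) := by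
  classical
  have hφW : ∀ w : ↥(W₁ ⊔ W₂), (w : G) ∈ W₂ → φ w = 1 := fun w hw => (hφ₂ w hw).1
  have hφ'W : ∀ w : ↥(W₁ ⊔ W₂), (w : G) ∈ W₂ → φ' w = 1 := fun w hw => (hφ₂ w hw).2
  have hψW : ∀ w : ↥(W₁ ⊔ W₂), (w : G) ∈ W₁ → ψ w = 1 := fun w hw => (hψ₁ w hw).1
  have hψ'W : ∀ w : ↥(W₁ ⊔ W₂), (w : G) ∈ W₁ → ψ' w = 1 := fun w hw => (hψ₁ w hw).2
  obtain ⟨hN, hTI⟩ := snc_TI W₁ W₂ hW
  have htriv : ∀ w : ↥(W₁ ⊔ W₂), (1 : ↥(W₁ ⊔ W₂) →* ℂˣ) w = 1 := fun w => rfl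
  refine ⟨?_, ?_⟩
  · rw [Lead.frobenius_reciprocity _ _ _ (fun g h => rfl)]
    have h1 : (fun h : ↥(W₁ ⊔ W₂) => (fun _ : G => (1:ℂ)) h)
        = fun w => (((1 : ↥(W₁ ⊔ W₂) →* ℂˣ) w : ℂˣ) : ℂ) := by
      funext w; simp
    rw [h1]
    show Cfsg.classInner (alphaFn φ ψ) _ = 1
    have n3 : ¬ (φ * ψ = 1) := by
      intro h
      have h' : φ * ψ = 1 * 1 := h.trans (mul_one (1 : ↥(W₁ ⊔ W₂) →* ℂˣ)).symm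
      exact hφ (hom_prod_eq W₁ W₂ φ 1 ψ 1 hφW (fun w _ => htriv w) hψW (fun w _ => htriv w) h').1
    rw [alpha_inner, if_pos rfl, if_neg hφ, if_neg hψ, if_neg n3]
    ring
  · show Cfsg.classInner (Cfsg.indFun (W₁ ⊔ W₂) (alphaFn φ ψ))
      (Cfsg.indFun (W₁ ⊔ W₂) (alphaFn φ' ψ')) = _
    rw [indFun_TI_inner' _ (W₁ ⊔ W₂) hN hTI (alphaFn φ ψ) (alphaFn φ' ψ')
      (alphaFn_classFn φ ψ) (alphaFn_classFn φ' ψ')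
      (alphaFn_vanish W₁ W₂ φ ψ hφW hψW) (alphaFn_vanish W₁ W₂ φ' ψ' hφ'W hψ'W)]
    · exact alpha_alpha_inner W₁ W₂ φ φ' ψ ψ' hφW hφ'W hψW hψ'W hφ hψ hφ' hψ'
    · apply alphaFn_vanish W₁ W₂ φ ψ hφW hψW
      intro h
      exact h.2 (Or.inl W₁.one_mem)

end Cfsg.Agent.S1505
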