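import Cfsg.Statements.S1506
import Mathlib
import Cfsg.Agent.Lib.Lead.Char15

set_option autoImplicit false
open Cfsg
open Cfsg.Agent.Lib

namespace Cfsg.Agent.S1506


/-- Let W₁, W₂ ≤ G form a self-normalising cyclic subgroup W = W₁ ⊔ W₂ and χ an orthonormal family of irreducible characters of G up to sign, indexed by the linear characters ω of W, with χ_1 = 1, χ_ω = ω on W outside W₁ ∪ W₂, and the induction identity for (1 − φ)(1 − ψ). Let θ be a class function of G vanishing at every element of W outside W₁ ∪ W₂. For linear characters φ, φ' of W trivial on W₂ and ψ, ψ' trivial on W₁, the inner products a(ω) = ⟨θ, χ ω⟩ satisfy a(φψ) + a(φ'ψ') = a(φψ') + a(φ'ψ). -/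
theorem result {G : Type*} [Group G] [Fintype G] (W₁ W₂ : Subgroup G) (hW : Cfsg.IsSelfNormalizingCyclic W₁ W₂) (χ : (↥(W₁ ⊔ W₂) →* ℂˣ) → (G → ℂ)) (hχ : Cfsg.IsCyclicTIFamily W₁ W₂ χ) (θ : G → ℂ) (hθ : Cfsg.IsClassFunction G θ) (hθV : ∀ w : ↥(W₁ ⊔ W₂), (w : G) ∉ W₁ → (w : G) ∉ W₂ → θ w = 0) (φ φ' ψ ψ' : ↥(W₁ ⊔ W₂) →* ℂˣ) (hφ₂ : ∀ w : ↥(W₁ ⊔ W₂), (w : G) ∈ W₂ → φ w = 1 ∧ φ' w = 1) (hψ₁ : ∀ w : ↥(W₁ ⊔ W₂), (w : G) ∈ W₁ → ψ w = 1 ∧ ψ' w = 1) : Cfsg.classInner θ (χ (φ * ψ)) + Cfsg.classInner θ (χ (φ' * ψ')) = Cfsg.classInner θ (χ (φ * ψ')) + Cfsg.classInner θ (χ (φ' * ψ)) := by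
  classical
  haveI : Fintype ↥(W₁ ⊔ W₂) := Fintype.ofFinite _
  have key : ∀ φ ψ : ↥(W₁ ⊔ W₂) →* ℂˣ, (∀ w : ↥(W₁ ⊔ W₂), (w : G) ∈ W₂ → φ w = 1) →
      (∀ w : ↥(W₁ ⊔ W₂), (w : G) ∈ W₁ → ψ w = 1) →
      Cfsg.classInner θ (χ (φ * ψ)) = Cfsg.classInner θ (χ φ) + Cfsg.classInner θ (χ ψ)
        - Cfsg.classInner θ (χ 1) := by
    intro φ ψ hφ hψ
    by_cases hφ1 : φ = 1
    · rw [show φ * ψ = ψ by rw [hφ1]; exact one_mul ψ, hφ1]; ring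
    by_cases hψ1 : ψ = 1
    · rw [show φ * ψ = φ by rw [hψ1]; exact mul_one φ, hψ1]; ring
    have hind := hχ.induced_eq φ ψ hφ1 hψ1 hφ hψ
    have h0 : Cfsg.classInner (Cfsg.indFun (W₁ ⊔ W₂)
        (fun w => 1 - (φ w : ℂ) - (ψ w : ℂ) + (φ w : ℂ) * (ψ w : ℂ))) θ = 0 := by
      rw [Lead.frobenius_reciprocity _ _ _ hθ]
      unfold Cfsg.classInner
      rw [Finset.sum_eq_zero, mul_zero]
      intro w _
      show (1 - (φ w : ℂ) - (ψ w : ℂ) + (φ w : ℂ) * (ψ w : ℂ)) * (starRingEnd ℂ) (θ (w : G)) = 0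
      by_cases hw1 : (w : G) ∈ W₁
      · rw [hψ w hw1]; simp
      · by_cases hw2 : (w : G) ∈ W₂
        · rw [hφ w hw2]; simp
        · rw [hθV w hw1 hw2]; simp
    rw [hind] at h0
    have h1 : Cfsg.classInner θ (fun g => 1 - χ φ g - χ ψ g + χ (φ * ψ) g) = 0 := by
      rw [← Lead.classInner_conj_symm, h0, map_zero]
    have h2 : Cfsg.classInner θ (fun g => 1 - χ φ g - χ ψ g + χ (φ * ψ) g)
        = Cfsg.classInner θ (χ 1) - Cfsg.classInner θ (χ φ) - Cfsg.classInner θ (χ ψ)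
          + Cfsg.classInner θ (χ (φ * ψ)) := by
      rw [hχ.map_one]
      unfold Cfsg.classInner
      simp only [map_sub, map_add, map_one, mul_sub, mul_add, Finset.sum_sub_distrib,
        Finset.sum_add_distrib]
    rw [h2] at h1
    linear_combination h1
  rw [key φ ψ (fun w hw => (hφ₂ w hw).1) (fun w hw => (hψ₁ w hw).1),
    key φ' ψ' (fun w hw => (hφ₂ w hw).2) (fun w hw => (hψ₁ w hw).2),
    key φ ψ' (fun w hw => (hφ₂ w hw).1) (fun w hw => (hψ₁ w hw).2),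
    key φ' ψ (fun w hw => (hφ₂ w hw).2) (fun w hw => (hψ₁ w hw).1)]
  ring

end Cfsg.Agent.S1506
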