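import Cfsg.Statements.S1507
import Mathlib
import Cfsg.Agent.Lib.Helper6.LinChar4
import Cfsg.Agent.Lib.Helper6.AddMat
import Cfsg.Agent.S1506

set_option autoImplicit false
open Cfsg
open Cfsg.Agent.Lib.Helper6 Cfsg.Agent.Lib

namespace Cfsg.Agent.S1507

open Classical in

/-- Let W₁, W₂ ≤ G form a self-normalising cyclic subgroup W = W₁ ⊔ W₂ of odd order with Nat.card W₁ < Nat.card W₂, and χ an orthonormal family of irreducible characters of G up to sign, indexed by the linear characters ω of W, with χ_1 = 1, χ_ω = ω on W outside W₁ ∪ W₂, and the induction identity for (1 − φ)(1 − ψ). Let θ be a class function of G vanishing on W outside W₁ ∪ W₂, and suppose fewer than 2 · Nat.card W₁ linear characters ω of W have ⟨θ, χ ω⟩ ≠ 0. Then one of: all ⟨θ, χ ω⟩ vanish; or there are ψ₀ and a with ⟨θ, χ ω⟩ = a when ω ψ₀⁻¹ is trivial on W₂ and 0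 otherwise; or there are φ₀ and a with ⟨θ, χ ω⟩ = a when ω φ₀⁻¹ is trivial on W₁ and 0 otherwise. -/
theorem result {G : Type*} [Group G] [Fintype G] (W₁ W₂ : Subgroup G) (hW : Cfsg.IsSelfNormalizingCyclic W₁ W₂) (hodd : Odd (Nat.card ↥(W₁ ⊔ W₂))) (χ : (↥(W₁ ⊔ W₂) →* ℂˣ) → (G → ℂ)) (hχ : Cfsg.IsCyclicTIFamily W₁ W₂ χ) (hlt : Nat.card W₁ < Nat.card W₂) (θ : G → ℂ) (hθ : Cfsg.IsClassFunction G θ) (hθV : ∀ w : ↥(W₁ ⊔ W₂), (w : G) ∉ W₁ → (w : G) ∉ W₂ → θ w = 0) (hfew : Nat.card {ω : ↥(W₁ ⊔ W₂) →* ℂˣ // Cfsg.classInner θ (χ ω) ≠ 0} < 2 * Nat.card W₁) : (∀ ω, Cfsg.classInner θ (χ ω) = 0) ∨ (∃ (ψ₀ : ↥(W₁ ⊔ W₂) →* ℂˣ) (a : ℂ), ∀ ω, Cfsg.classInner θ (χ ω) = if (∀ w : ↥(W₁ ⊔ W₂), (w : G) ∈ W₂ → (ω * ψ₀⁻¹) w = 1) then a else 0) ∨ (∃ (φ₀ : ↥(W₁ ⊔ W₂) →* ℂˣ) (a : ℂ), ∀ ω, Cfsg.classInner θ (χ ω) = if (∀ w : ↥(W₁ ⊔ W₂), (w : G) ∈ W₁ → (ω * φ₀⁻¹) w = 1)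 then a else 0) := by
  classical
  have hcomm := snc_comm W₁ W₂ hW
  haveI : Finite (↥(W₁ ⊔ W₂) →* ℂˣ) := finite_hom hcomm
  obtain ⟨hcΦ, hcΨ⟩ := snc_dual_cards W₁ W₂ hW
  have hadd : ∀ (a a' : trivOn (W₂.subgroupOf (W₁ ⊔ W₂)))
      (b b' : trivOn (W₁.subgroupOf (W₁ ⊔ W₂))),
      Cfsg.classInner θ (χ (a.1 * b.1)) + Cfsg.classInner θ (χ (a'.1 * b'.1))
        = Cfsg.classInner θ (χ (a.1 * b'.1)) + Cfsg.classInner θ (χ (a'.1 * b.1)) :=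
    fun a a' b b' => Cfsg.Agent.S1506.result W₁ W₂ hW χ hχ θ hθ hθV a.1 a'.1 b.1 b'.1
      (fun w hw => ⟨a.2 w hw, a'.2 w hw⟩) (fun w hw => ⟨b.2 w hw, b'.2 w hw⟩)
  have hodd1 : Odd (Nat.card W₁) :=
    hodd.of_dvd_nat (Subgroup.card_dvd_of_le (le_sup_left : W₁ ≤ W₁ ⊔ W₂))
  have hodd2 : Odd (Nat.card W₂) :=
    hodd.of_dvd_nat (Subgroup.card_dvd_of_le (le_sup_right : W₂ ≤ W₁ ⊔ W₂))
  have hB : Nat.card W₁ + 2 ≤ Nat.card (trivOn (W₁.subgroupOf (W₁ ⊔ W₂))) := by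
    rw [hcΨ]
    obtain ⟨k1, hk1⟩ := hodd1
    obtain ⟨k2, hk2⟩ := hodd2
    omega
  have hfew' : Nat.card {p : trivOn (W₂.subgroupOf (W₁ ⊔ W₂)) × trivOn (W₁.subgroupOf (W₁ ⊔ W₂))
        // Cfsg.classInner θ (χ (p.1.1 * p.2.1)) ≠ 0}
      ≤ Nat.card {ω : ↥(W₁ ⊔ W₂) →* ℂˣ // Cfsg.classInner θ (χ ω) ≠ 0} := by
    apply Nat.card_le_card_of_injective
      (fun p : {p : trivOn (W₂.subgroupOf (W₁ ⊔ W₂)) × trivOn (W₁.subgroupOf (W₁ ⊔ W₂))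
        // Cfsg.classInner θ (χ (p.1.1 * p.2.1)) ≠ 0} =>
        (⟨p.1.1.1 * p.1.2.1, p.2⟩ : {ω : ↥(W₁ ⊔ W₂) →* ℂˣ // Cfsg.classInner θ (χ ω) ≠ 0}))
    rintro ⟨⟨φ, ψ⟩, hp⟩ ⟨⟨φ', ψ'⟩, hp'⟩ h
    have h1 : φ.1 * ψ.1 = φ'.1 * ψ'.1 := congrArg Subtype.val h
    obtain ⟨e1, e2⟩ := hom_prod_eq W₁ W₂ φ.1 φ'.1 ψ.1 ψ'.1 (fun w hw => φ.2 w hw)
      (fun w hw => φ'.2 w hw) (fun w hw => ψ.2 w hw) (fun w hw => ψ'.2 w hw) h1
    exact Subtype.ext (Prod.ext (Subtype.ext e1) (Subtype.ext e2))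
  rcases additive_matrix_few
      (fun (a : trivOn (W₂.subgroupOf (W₁ ⊔ W₂))) (b : trivOn (W₁.subgroupOf (W₁ ⊔ W₂))) =>
        Cfsg.classInner θ (χ (a.1 * b.1))) hadd (Nat.card W₁) (le_of_eq hcΦ.symm) hB
      (lt_of_le_of_lt hfew' hfew) with h | ⟨b₀, v, h⟩ | ⟨a₀, v, h⟩
  · left
    intro ω
    obtain ⟨φ, ψ, hφ, hψ, rfl⟩ := hom_factor W₁ W₂ hW ω
    exact h ⟨φ, hφ⟩ ⟨ψ, hψ⟩
  · right; left
    refine ⟨b₀.1, v, ?_⟩
    intro ω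
    obtain ⟨φ, ψ, hφ, hψ, rfl⟩ := hom_factor W₁ W₂ hW ω
    have hiff : (∀ w : ↥(W₁ ⊔ W₂), (w : G) ∈ W₂ → (φ * ψ * b₀.1⁻¹) w = 1) ↔ ψ = b₀.1 := by
      constructor
      · intro h'
        have h2 : ψ * b₀.1⁻¹ = 1 := by
          apply hom_eq_one_of_trivial W₁ W₂
          · intro w hw
            rw [MonoidHom.mul_apply, MonoidHom.inv_apply, hψ w hw, b₀.2 w hw]
            simp
          · intro w hw
            have h3 := h' w hw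
            rw [MonoidHom.mul_apply, MonoidHom.mul_apply, hφ w hw, one_mul] at h3
            rw [MonoidHom.mul_apply]
            exact h3
        exact mul_inv_eq_one.mp h2
      · intro h' w hw
        rw [h', MonoidHom.mul_apply, MonoidHom.mul_apply, hφ w hw, one_mul, MonoidHom.inv_apply,
          mul_inv_cancel]
    by_cases hb : ψ = b₀.1
    · rw [if_pos (hiff.mpr hb)]
      exact (h ⟨φ, hφ⟩ ⟨ψ, hψ⟩).1 (Subtype.ext hb)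
    · rw [if_neg (fun h' => hb (hiff.mp h'))]
      exact (h ⟨φ, hφ⟩ ⟨ψ, hψ⟩).2 (fun h' => hb (congrArg Subtype.val h'))
  · right; right
    refine ⟨a₀.1, v, ?_⟩
    intro ω
    obtain ⟨φ, ψ, hφ, hψ, rfl⟩ := hom_factor W₁ W₂ hW ω
    have hiff : (∀ w : ↥(W₁ ⊔ W₂), (w : G) ∈ W₁ → (φ * ψ * a₀.1⁻¹) w = 1) ↔ φ = a₀.1 := by
      constructor
      · intro h'
        have h2 : φ * a₀.1⁻¹ = 1 := by
          apply hom_eq_one_of_trivial W₁ W₂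
          · intro w hw
            have h3 := h' w hw
            rw [MonoidHom.mul_apply, MonoidHom.mul_apply, hψ w hw, mul_one] at h3
            rw [MonoidHom.mul_apply]
            exact h3
          · intro w hw
            rw [MonoidHom.mul_apply, MonoidHom.inv_apply, hφ w hw, a₀.2 w hw]
            simp
        exact mul_inv_eq_one.mp h2
      · intro h' w hw
        rw [h', MonoidHom.mul_apply, MonoidHom.mul_apply, hψ w hw, mul_one, MonoidHom.inv_apply,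
          mul_inv_cancel]
    by_cases hb : φ = a₀.1
    · rw [if_pos (hiff.mpr hb)]
      exact (h ⟨φ, hφ⟩ ⟨ψ, hψ⟩).1 (Subtype.ext hb)
    · rw [if_neg (fun h' => hb (hiff.mp h'))]
      exact (h ⟨φ, hφ⟩ ⟨ψ, hψ⟩).2 (fun h' => hb (congrArg Subtype.val h'))

end Cfsg.Agent.S1507
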