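import Cfsg.Statements.S1508
import Mathlib
import Cfsg.Agent.Lib.Helper6.CycFam
import Cfsg.Agent.Lib.Lead.Char15

set_option autoImplicit false
open Cfsg
open Cfsg.Agent.Lib.Helper6 Cfsg.Agent.Lib

namespace Cfsg.Agent.S1508


/-- Let W₁, W₂ ≤ G form a self-normalising cyclic subgroup W = W₁ ⊔ W₂ of odd order and χ an orthonormal family of irreducible characters of G up to sign, indexed by the linear characters ω of W, with χ_1 = 1, χ_ω = ω on W outside W₁ ∪ W₂, and the induction identity for (1 − φ)(1 − ψ). Let ω be a linear character of W and g an element of G whose order is coprime to the order of ω. Then χ ω g is an integer. -/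
theorem result {G : Type*} [Group G] [Fintype G] (W₁ W₂ : Subgroup G) (hW : Cfsg.IsSelfNormalizingCyclic W₁ W₂) (hodd : Odd (Nat.card ↥(W₁ ⊔ W₂))) (χ : (↥(W₁ ⊔ W₂) →* ℂˣ) → (G → ℂ)) (hχ : Cfsg.IsCyclicTIFamily W₁ W₂ χ) (ω : ↥(W₁ ⊔ W₂) →* ℂˣ) (g : G) (hg : Nat.Coprime (orderOf g) (orderOf ω)) : ∃ n : ℤ, χ ω g = n := by
  classical
  have ha : orderOf ω ∣ Nat.card G := by
    have h1 : orderOf ω ∣ Nat.card ↥(W₁ ⊔ W₂) := by
      apply orderOf_dvd_of_pow_eq_one
      apply MonoidHom.ext
      intro w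
      rw [MonoidHom.pow_apply, ← map_pow, pow_card_eq_one', map_one]
      rfl
    exact h1.trans (Subgroup.card_subgroup_dvd_card _)
  have hm : orderOf g ∣ Nat.card G := orderOf_dvd_natCard g
  have hinv : ∀ j : ℕ, j.Coprime (Nat.card G) → χ ω (g ^ j) = χ ω g := by
    intro j hj
    obtain ⟨k, hk, hk1, hkj⟩ := exists_coprime_lift (Nat.card G) (orderOf ω) (orderOf g) j
      Nat.card_pos ha hm hg.symm hj
    have hgk : g ^ k = g ^ j := pow_eq_pow_iff_modEq.mpr hkj
    have hωk : ω ^ k = ω := by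
      have h2 : k % orderOf ω = 1 % orderOf ω := hk1
      have h1 : ω ^ k = ω ^ 1 := by
        rw [← pow_mod_orderOf ω k, h2, pow_mod_orderOf]
      rw [h1, pow_one]
    have h1 := congrFun (galois_family W₁ W₂ hW hodd χ hχ ω k hk) g
    rw [hωk, hgk] at h1
    exact h1
  rcases hχ.irr_or_neg ω with h | h
  · exact char_rational (χ ω) (Lead.isCharacter_of_irr h) g hinv
  · obtain ⟨n, hn⟩ := char_rational (-χ ω) (Lead.isCharacter_of_irr h) g (by
      intro j hj
      rw [Pi.neg_apply, Pi.neg_apply, hinv j hj])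
    refine ⟨-n, ?_⟩
    rw [Pi.neg_apply] at hn
    push_cast
    linear_combination -hn

end Cfsg.Agent.S1508
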