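import Cfsg.Statements.S1509
import Mathlib
import Cfsg.Agent.Lib.Lead.Char15

set_option autoImplicit false
open Cfsg
open Cfsg.Agent.Lib

namespace Cfsg.Agent.S1509

theorem real_core (sa sb sc sd u v da db dc dd iac iad ibc ibd : ℝ)
    (hsa : sa = 1 ∨ sa = -1) (hsb : sb = 1 ∨ sb = -1) (hsc : sc = 1 ∨ sc = -1)
    (hsd : sd = 1 ∨ sd = -1)
    (hda : 0 < da) (hdb : 0 < db)
    (hiac : iac = 0 ∨ iac = 1) (hiad : iad = 0 ∨ iad = 1) (hibc : ibc = 0 ∨ ibc = 1)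
    (hibd : ibd = 0 ∨ ibd = 1)
    (e1 : iac = 1 → da = dc) (e2 : iad = 1 → da = dd) (e3 : ibc = 1 → db = dc)
    (e4 : ibd = 1 → db = dd)
    (x1 : iac = 1 → iad = 0) (x2 : iac = 1 → ibc = 0) (x3 : iad = 1 → ibd = 0)
    (x4 : ibc = 1 → ibd = 0)
    (hu : u ≠ 0) (hv : v ≠ 0) (h1 : sa * da = sb * db) (h2 : u * sc * dc = v * sd * dd)
    (hmix : u*sa*sc*iac - v*sa*sd*iad - u*sb*sc*ibc + v*sb*sd*ibd = 0) :
    iac = 0 ∧ iad = 0 ∧ ibc = 0 ∧ ibd = 0 := by
  have hsab : sa = sb ∧ da = db := by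
    rcases hsa with h | h <;> rcases hsb with h' | h'
    · rw [h, h'] at h1 ⊢; exact ⟨rfl, by linarith⟩
    · exfalso; rw [h, h'] at h1; linarith
    · exfalso; rw [h, h'] at h1; linarith
    · rw [h, h'] at h1 ⊢; exact ⟨rfl, by linarith⟩
  obtain ⟨hs, hd⟩ := hsab
  have hsane : sa ≠ 0 := by rcases hsa with h | h <;> rw [h] <;> norm_num
  have hP : u * sc ≠ 0 := mul_ne_zero hu (by rcases hsc with h | h <;> rw [h] <;> norm_num)
  have hQ : v * sd ≠ 0 := mul_ne_zero hv (by rcases hsd with h | h <;> rw [h] <;> norm_num)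
  have hmix' : u*sc*iac - v*sd*iad - u*sc*ibc + v*sd*ibd = 0 := by
    rw [← hs] at hmix
    have h3 : sa * (u*sc*iac - v*sd*iad - u*sc*ibc + v*sd*ibd) = 0 := by linarith
    rcases mul_eq_zero.mp h3 with h | h
    · exact absurd h hsane
    · exact h
  have hPQ : dc = da → dd = da → u * sc = v * sd := by
    intro h3 h4
    rw [h3, h4] at h2
    have h5 : (u * sc - v * sd) * da = 0 := by linarith
    rcases mul_eq_zero.mp h5 with h | h
    · linarith
    · linarith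
  rcases hiac with hac | hac
  · rcases hibc with hbc | hbc
    · rw [hac, hbc] at hmix'
      have h5 : v * sd * (ibd - iad) = 0 := by linarith
      rcases mul_eq_zero.mp h5 with h | h
      · exact absurd h hQ
      · rcases hiad with had | had
        · exact ⟨hac, had, hbc, by linarith⟩
        · exfalso; have := x3 had; linarith
    · exfalso
      have hbd := x4 hbc
      rw [hac, hbc, hbd] at hmix'
      rcases hiad with had | had
      · rw [had] at hmix'; apply hP; linarith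
      · rw [had] at hmix'
        have h6 := hPQ (by rw [hd]; exact (e3 hbc).symm) (e2 had).symm
        apply hP; linarith
  · exfalso
    have had := x1 hac
    have hbc := x2 hac
    rw [hac, had, hbc] at hmix'
    rcases hibd with hbd | hbd
    · rw [hbd] at hmix'; apply hP; linarith
    · rw [hbd] at hmix'
      have h6 := hPQ (e1 hac).symm (by rw [hd]; exact (e4 hbd).symm)
      apply hP; linarith

theorem signed_irr {X : Type*} [Group X] (f : X → ℂ)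
    (hf : Cfsg.IsIrrCharacter X f ∨ Cfsg.IsIrrCharacter X (-f)) :
    ∃ (χ : Cfsg.IrrCharacter X) (s : ℝ) (d : ℕ), (s = 1 ∨ s = -1) ∧ 0 < d ∧ χ.1 1 = (d : ℂ) ∧
      f = (s : ℂ) • χ.1 := by
  rcases hf with h | h
  · obtain ⟨d, hd, hd1⟩ := Lead.irr_one_eq_nat ⟨f, h⟩
    exact ⟨⟨f, h⟩, 1, d, Or.inl rfl, hd, hd1, by simp⟩
  · obtain ⟨d, hd, hd1⟩ := Lead.irr_one_eq_nat ⟨-f, h⟩
    exact ⟨⟨-f, h⟩, -1, d, Or.inr rfl, hd, hd1, by simp⟩

theorem inner_signed {X : Type*} [Group X] [Fintype X] [DecidableEq (Cfsg.IrrCharacter X)]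
    (χ ξ : Cfsg.IrrCharacter X) (s t : ℝ) :
    Cfsg.classInner ((s : ℂ) • χ.1) ((t : ℂ) • ξ.1)
      = ((s * t * (if χ = ξ then (1:ℝ) else 0) : ℝ) : ℂ) := by
  rw [Lead.classInner_smul_left, Lead.classInner_smul_right, Lead.irr_inner, Complex.conj_ofReal]
  split_ifs <;> push_cast <;> ring


/-- Let α, β, γ, δ be functions on a finite group X each of which is an irreducible character or the negative of one, and u, v nonzero real numbers. Suppose ⟨α, β⟩ = ⟨γ, δ⟩ = 0, ⟨α − β, uγ − vδ⟩ = 0, α 1 = β 1 and u γ 1 = v δ 1. Then also ⟨α, γ⟩ = ⟨α, δ⟩ = ⟨β, γ⟩ = ⟨β, δ⟩ = 0. -/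
theorem result {X : Type*} [Group X] [Fintype X] (α β γ δ : X → ℂ) (hα : Cfsg.IsIrrCharacter X α ∨ Cfsg.IsIrrCharacter X (-α)) (hβ : Cfsg.IsIrrCharacter X β ∨ Cfsg.IsIrrCharacter X (-β)) (hγ : Cfsg.IsIrrCharacter X γ ∨ Cfsg.IsIrrCharacter X (-γ)) (hδ : Cfsg.IsIrrCharacter X δ ∨ Cfsg.IsIrrCharacter X (-δ)) (u v : ℝ) (hu : u ≠ 0) (hv : v ≠ 0) (hab : Cfsg.classInner α β = 0) (hcd : Cfsg.classInner γ δ = 0) (hmix : Cfsg.classInner (α - β) ((u : ℂ) • γ - (v : ℂ) • δ) = 0) (h1 : α 1 = β 1) (h2 : (u : ℂ) * γ 1 = (v : ℂ) * δ 1) : Cfsg.classInner α γ = 0 ∧ Cfsg.classInner α δ = 0 ∧ Cfsg.classInner β γ = 0 ∧ Cfsg.classInner β δ = 0 := by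
  classical
  obtain ⟨χa, sa, da, hsa, hda, hda1, rfl⟩ := signed_irr α hα
  obtain ⟨χb, sb, db, hsb, hdb, hdb1, rfl⟩ := signed_irr β hβ
  obtain ⟨χc, sc, dc, hsc, hdc, hdc1, rfl⟩ := signed_irr γ hγ
  obtain ⟨χd, sd, dd, hsd, hdd, hdd1, rfl⟩ := signed_irr δ hδ
  have hsane : sa ≠ 0 := by rcases hsa with h | h <;> rw [h] <;> norm_num
  have hsbne : sb ≠ 0 := by rcases hsb with h | h <;> rw [h] <;> norm_num
  have hscne : sc ≠ 0 := by rcases hsc with h | h <;> rw [h] <;> norm_num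
  have hsdne : sd ≠ 0 := by rcases hsd with h | h <;> rw [h] <;> norm_num
  simp only [inner_signed] at hab hcd ⊢
  have hneab : χa ≠ χb := by
    intro h
    rw [if_pos h] at hab
    have h3 : sa * sb * 1 = 0 := by exact_mod_cast hab
    exact mul_ne_zero (mul_ne_zero hsane hsbne) one_ne_zero h3
  have hnecd : χc ≠ χd := by
    intro h
    rw [if_pos h] at hcd
    have h3 : sc * sd * 1 = 0 := by exact_mod_cast hcd
    exact mul_ne_zero (mul_ne_zero hscne hsdne) one_ne_zero h3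
  have eL : (sa:ℂ) • χa.1 - (sb:ℂ) • χb.1 = (sa:ℂ) • χa.1 + ((-sb : ℝ):ℂ) • χb.1 := by
    push_cast; rw [neg_smul, sub_eq_add_neg]
  have eR : (u:ℂ) • (sc:ℂ) • χc.1 - (v:ℂ) • (sd:ℂ) • χd.1
      = ((u * sc : ℝ):ℂ) • χc.1 + ((-(v * sd) : ℝ):ℂ) • χd.1 := by
    push_cast; rw [neg_smul, sub_eq_add_neg, smul_smul, smul_smul]
  rw [eL, eR, Lead.classInner_add_left, Lead.classInner_add_right, Lead.classInner_add_right,
    inner_signed, inner_signed, inner_signed, inner_signed] at hmix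
  have hmixR : u*sa*sc*(if χa = χc then (1:ℝ) else 0) - v*sa*sd*(if χa = χd then (1:ℝ) else 0)
      - u*sb*sc*(if χb = χc then (1:ℝ) else 0) + v*sb*sd*(if χb = χd then (1:ℝ) else 0) = 0 := by
    have h3 : ((sa * (u * sc) * (if χa = χc then (1:ℝ) else 0)
        + sa * (-(v * sd)) * (if χa = χd then (1:ℝ) else 0)
        + (-sb) * (u * sc) * (if χb = χc then (1:ℝ) else 0)
        + (-sb) * (-(v * sd)) * (if χb = χd then (1:ℝ) else 0) : ℝ) : ℂ) = 0 := by
      rw [← hmix]; push_cast; ring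
    have h4 := Complex.ofReal_eq_zero.mp h3
    linarith
  have h1R : sa * (da : ℝ) = sb * (db : ℝ) := by
    simp only [Pi.smul_apply, smul_eq_mul, hda1, hdb1] at h1
    exact_mod_cast h1
  have h2R : u * sc * (dc : ℝ) = v * sd * (dd : ℝ) := by
    simp only [Pi.smul_apply, smul_eq_mul, hdc1, hdd1] at h2
    have h3 : ((u * sc * (dc : ℝ) : ℝ) : ℂ) = ((v * sd * (dd : ℝ) : ℝ) : ℂ) := by
      push_cast; linear_combination h2
    exact_mod_cast h3
  have hind : ∀ (χ ξ : Cfsg.IrrCharacter X), (if χ = ξ then (1:ℝ) else 0) = 1 → χ = ξ := by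
    intro χ ξ h
    by_contra hne
    rw [if_neg hne] at h; norm_num at h
  have hind01 : ∀ (χ ξ : Cfsg.IrrCharacter X),
      (if χ = ξ then (1:ℝ) else 0) = 0 ∨ (if χ = ξ then (1:ℝ) else 0) = 1 := by
    intro χ ξ
    by_cases h : χ = ξ
    · right; rw [if_pos h]
    · left; rw [if_neg h]
  have hdeg : ∀ (χ ξ : Cfsg.IrrCharacter X) (d d' : ℕ), χ.1 1 = (d : ℂ) → ξ.1 1 = (d' : ℂ) →
      χ = ξ → (d : ℝ) = (d' : ℝ) := by
    intro χ ξ d d' h h' heq
    rw [heq, h'] at h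
    exact_mod_cast h.symm
  obtain ⟨r1, r2, r3, r4⟩ := real_core sa sb sc sd u v da db dc dd _ _ _ _ hsa hsb hsc hsd
    (by exact_mod_cast hda) (by exact_mod_cast hdb)
    (hind01 χa χc) (hind01 χa χd) (hind01 χb χc) (hind01 χb χd)
    (fun h => hdeg _ _ _ _ hda1 hdc1 (hind _ _ h)) (fun h => hdeg _ _ _ _ hda1 hdd1 (hind _ _ h))
    (fun h => hdeg _ _ _ _ hdb1 hdc1 (hind _ _ h)) (fun h => hdeg _ _ _ _ hdb1 hdd1 (hind _ _ h))
    (fun h => if_neg (fun h' => hnecd ((hind _ _ h).symm.trans h')))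
    (fun h => if_neg (fun h' => hneab ((hind _ _ h).trans h'.symm)))
    (fun h => if_neg (fun h' => hneab ((hind _ _ h).trans h'.symm)))
    (fun h => if_neg (fun h' => hnecd ((hind _ _ h).symm.trans h')))
    hu hv h1R h2R hmixR
  rw [r1, r2, r3, r4]
  simp

end Cfsg.Agent.S1509
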