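import Cfsg.Statements.S1510
import Mathlib
import Cfsg.Agent.Lib.Helper6.SemiFix
import Cfsg.Agent.Lib.Helper6.RealElt
import Cfsg.Agent.Lib.Lead.Coprime

set_option autoImplicit false
open Cfsg
open Cfsg.Agent.Lib.Helper6 Cfsg.Agent.Lib

namespace Cfsg.Agent.S1510


/-- Let L be a finite group with a normal subgroup K and a nontrivial cyclic subgroup W₁ of order coprime to its index, K ⊓ W₁ = ⊥ and K ⊔ W₁ = ⊤; let W₂ ≠ ⊥ be a cyclic subgroup of K with K ⊓ C_L(x) = W₂ for every non-identity x ∈ W₁, and suppose W₁ ⊔ W₂ has odd order. Then (W₁, W₂) is a self-normalising cyclic pair in L. -/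
theorem result {L : Type*} [Group L] [Fintype L] (K W₁ W₂ : Subgroup L) [hK : K.Normal] (hKW₁ : K ⊓ W₁ = ⊥) (hKW₁' : K ⊔ W₁ = ⊤) (hW₁ : W₁ ≠ ⊥) (hW₁c : IsCyclic W₁) (hHall : Nat.Coprime (Nat.card W₁) W₁.index) (hW₂ : W₂ ≠ ⊥) (hW₂c : IsCyclic W₂) (hW₂K : W₂ ≤ K) (hC : ∀ x ∈ W₁, x ≠ 1 → K ⊓ Subgroup.centralizer ({x} : Set L) = W₂) (hodd : Odd (Nat.card ↥(W₁ ⊔ W₂))) : Cfsg.IsSelfNormalizingCyclic W₁ W₂ := by
  classical
  have hcop : (Nat.card W₁).Coprime (Nat.card K) := semi_coprime K W₁ hKW₁ hKW₁' hHall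
  have hcop12 : (Nat.card W₁).Coprime (Nat.card W₂) :=
    Nat.Coprime.coprime_dvd_right (Subgroup.card_dvd_of_le hW₂K) hcop
  have hdisj : W₁ ⊓ W₂ = ⊥ := by
    rw [eq_bot_iff]
    intro y hy
    have h1 : y ∈ K ⊓ W₁ := ⟨hW₂K hy.2, hy.1⟩
    rw [hKW₁] at h1
    exact h1
  have hmemC : ∀ (a : L), a ∈ W₁ → a ≠ 1 → ∀ w : L, w ∈ W₂ ↔ w ∈ K ∧ a * w = w * a := by
    intro a ha ha1 w
    rw [← hC a ha ha1, Subgroup.mem_inf, Subgroup.mem_centralizer_iff]
    constructor
    · rintro ⟨h1, h2⟩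
      exact ⟨h1, h2 a (Set.mem_singleton a)⟩
    · rintro ⟨h1, h2⟩
      refine ⟨h1, ?_⟩
      intro y hy
      rw [Set.mem_singleton_iff] at hy
      rw [hy]; exact h2
  have hcomm : ∀ a ∈ W₁, ∀ b ∈ W₂, a * b = b * a := by
    intro a ha b hb
    by_cases ha1 : a = 1
    · rw [ha1]; simp
    · exact ((hmemC a ha ha1 b).mp hb).2
  have hW₁comm : ∀ a ∈ W₁, ∀ b ∈ W₁, a * b = b * a := by
    intro a ha b hb
    letI := IsCyclic.commGroup (α := W₁)
    have h1 := mul_comm (⟨a, ha⟩ : W₁) ⟨b, hb⟩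
    exact congrArg Subtype.val h1
  have hW₂comm : ∀ a ∈ W₂, ∀ b ∈ W₂, a * b = b * a := by
    intro a ha b hb
    letI := IsCyclic.commGroup (α := W₂)
    have h1 := mul_comm (⟨a, ha⟩ : W₂) ⟨b, hb⟩
    exact congrArg Subtype.val h1
  have hW₂N : W₂ ≤ Subgroup.normalizer (W₁ : Set L) := by
    intro b hb
    rw [Subgroup.mem_normalizer_iff]
    intro a
    have hfix : ∀ a ∈ W₁, b * a * b⁻¹ = a := fun a ha => by
      rw [← hcomm a ha b hb]; group
    constructor
    · intro ha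
      rw [hfix a ha]; exact ha
    · intro ha
      have h4 := hcomm _ ha b hb
      have h5 : a = b * a * b⁻¹ := by
        calc a = b⁻¹ * ((b * a * b⁻¹) * b) := by group
          _ = b⁻¹ * (b * (b * a * b⁻¹)) := by rw [h4]
          _ = b * a * b⁻¹ := by group
      rw [h5]; exact ha
  have hdec : ∀ t ∈ W₁ ⊔ W₂, ∃ a ∈ W₁, ∃ b ∈ W₂, t = a * b :=
    fun t ht => Lead.mem_sup_of_le_normalizer hW₂N ht
  have hWcomm : ∀ t ∈ W₁ ⊔ W₂, ∀ u ∈ W₁ ⊔ W₂, t * u = u * t := by
    intro t ht u hu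
    obtain ⟨a, ha, b, hb, rfl⟩ := hdec t ht
    obtain ⟨a', ha', b', hb', rfl⟩ := hdec u hu
    have h1 := hW₁comm a ha a' ha'
    have h2 := hW₂comm b hb b' hb'
    have h3 := hcomm a ha b' hb'
    have h4 := hcomm a' ha' b hb
    calc a * b * (a' * b') = a * (b * a') * b' := by group
      _ = a * (a' * b) * b' := by rw [h4]
      _ = (a * a') * (b * b') := by group
      _ = (a' * a) * (b' * b) := by rw [h1, h2]
      _ = a' * (a * b') * b := by group
      _ = a' * (b' * a) * b := by rw [h3]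
      _ = a' * b' * (a * b) := by group
  have hpowW₁ : ∀ a ∈ W₁, a ^ Nat.card W₁ = 1 := by
    intro a ha
    have h1 := pow_card_eq_one' (G := W₁) (x := ⟨a, ha⟩)
    exact congrArg Subtype.val h1
  have hpowW₂ : ∀ b ∈ W₂, b ^ Nat.card W₂ = 1 := by
    intro b hb
    have h1 := pow_card_eq_one' (G := W₂) (x := ⟨b, hb⟩)
    exact congrArg Subtype.val h1
  refine ⟨hW₁, hW₂, hdisj, hcomm, ?_, ?_⟩
  · obtain ⟨x, hx⟩ := hW₁c.exists_generator
    obtain ⟨y, hy⟩ := hW₂c.exists_generator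
    have hgen : W₁ ⊔ W₂ ≤ Subgroup.zpowers ((x : L) * (y : L)) := by
      have hxy : Commute (x : L) (y : L) := hcomm x x.2 y y.2
      have hpowx : ((x : L) * y) ^ Nat.card W₂ = (x : L) ^ Nat.card W₂ := by
        rw [hxy.mul_pow, hpowW₂ y y.2, mul_one]
      have hpowy : ((x : L) * y) ^ Nat.card W₁ = (y : L) ^ Nat.card W₁ := by
        rw [hxy.mul_pow, hpowW₁ x x.2, one_mul]
      have hxmem : (x : L) ∈ Subgroup.zpowers ((x : L) * (y : L)) := by
        apply mem_of_pow_mem_of_coprime (a := Nat.card W₂) (b := Nat.card W₁) hcop12.symm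
        · rw [← hpowx]
          exact Subgroup.pow_mem _ (Subgroup.mem_zpowers _) _
        · rw [hpowW₁ x x.2]
          exact Subgroup.one_mem _
      have hymem : (y : L) ∈ Subgroup.zpowers ((x : L) * (y : L)) := by
        apply mem_of_pow_mem_of_coprime (a := Nat.card W₁) (b := Nat.card W₂) hcop12
        · rw [← hpowy]
          exact Subgroup.pow_mem _ (Subgroup.mem_zpowers _) _
        · rw [hpowW₂ y y.2]
          exact Subgroup.one_mem _
      apply sup_le
      · intro a ha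
        obtain ⟨j, hj⟩ := Subgroup.mem_zpowers_iff.mp (hx ⟨a, ha⟩)
        have h1 : a = (x : L) ^ j := by
          have h2 := congrArg Subtype.val hj
          rw [Subgroup.coe_zpow] at h2
          exact h2.symm
        rw [h1]
        exact Subgroup.zpow_mem _ hxmem j
      · intro b hb
        obtain ⟨j, hj⟩ := Subgroup.mem_zpowers_iff.mp (hy ⟨b, hb⟩)
        have h1 : b = (y : L) ^ j := by
          have h2 := congrArg Subtype.val hj
          rw [Subgroup.coe_zpow] at h2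
          exact h2.symm
        rw [h1]
        exact Subgroup.zpow_mem _ hymem j
    refine ⟨⟨⟨(x : L) * (y : L), (W₁ ⊔ W₂).mul_mem ((le_sup_left : W₁ ≤ W₁ ⊔ W₂) x.2)
      ((le_sup_right : W₂ ≤ W₁ ⊔ W₂) y.2)⟩, ?_⟩⟩
    intro w
    obtain ⟨j, hj⟩ := Subgroup.mem_zpowers_iff.mp (hgen w.2)
    refine ⟨j, Subtype.ext ?_⟩
    simp only [Subgroup.coe_zpow]
    exact hj
  · intro X hX hXne
    apply le_antisymm
    · intro g hg
      obtain ⟨t, ht⟩ := hXne
      have htW : t ∈ W₁ ⊔ W₂ := (hX ht).1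
      have htn := (hX ht).2
      have ht' : g * t * g⁻¹ ∈ X := (Subgroup.mem_set_normalizer_iff.mp hg t).mp ht
      obtain ⟨k, hk, s, hs, rfl⟩ := semi_decomp K W₁ hKW₁' g
      have hsW : s ∈ W₁ ⊔ W₂ := (le_sup_left : W₁ ≤ W₁ ⊔ W₂) hs
      have hst : s * t * s⁻¹ = t := by
        rw [hWcomm s hsW t htW]; group
      have hkt : k * t * k⁻¹ ∈ X := by
        have h1 : k * s * t * (k * s)⁻¹ = k * (s * t * s⁻¹) * k⁻¹ := by group
        rw [h1, hst] at ht'
        exact ht'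
      obtain ⟨a, ha, b, hb, rfl⟩ := hdec t htW
      obtain ⟨a', ha', b', hb', hab'⟩ := hdec _ (hX hkt).1
      have ha1 : a ≠ 1 := by
        rintro rfl
        apply htn
        right
        simpa using hb
      have haa' : a' = a := by
        have h1 : a⁻¹ * a' ∈ K := by
          have h2 : a⁻¹ * a' = (a⁻¹ * k * a⁻¹⁻¹) * (b * k⁻¹ * b'⁻¹) := by
            have h3 : a' = k * (a * b) * k⁻¹ * b'⁻¹ := by rw [hab']; group
            rw [h3]; group
          rw [h2]
          exact K.mul_mem (hK.conj_mem k hk a⁻¹)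
            (K.mul_mem (K.mul_mem (hW₂K hb) (K.inv_mem hk)) (K.inv_mem (hW₂K hb')))
        have h3 : a⁻¹ * a' ∈ K ⊓ W₁ := ⟨h1, W₁.mul_mem (W₁.inv_mem ha) ha'⟩
        rw [hKW₁, Subgroup.mem_bot] at h3
        exact (inv_mul_eq_one.mp h3).symm
      rw [haa'] at hab'
      obtain ⟨m, hm1, hm0⟩ := Nat.chineseRemainder hcop12 1 0
      have hpow : ∀ b ∈ W₂, (a * b) ^ m = a := by
        intro b hb
        rw [(show Commute a b from hcomm a ha b hb).mul_pow]
        have h1 : a ^ m = a := by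
          have h2 : m ≡ 1 [MOD orderOf a] :=
            hm1.of_dvd (orderOf_dvd_of_pow_eq_one (hpowW₁ a ha))
          have h3 := pow_eq_pow_iff_modEq.mpr h2
          rw [h3, pow_one]
        have h3 : b ^ m = 1 := by
          rw [← orderOf_dvd_iff_pow_eq_one]
          exact (orderOf_dvd_of_pow_eq_one (hpowW₂ b hb)).trans
            ((Nat.modEq_zero_iff_dvd).mp hm0)
        rw [h1, h3, mul_one]
      have hka : k * a * k⁻¹ = a := by
        have h1 : (k * (a * b) * k⁻¹) ^ m = (a * b') ^ m := by rw [hab']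
        rw [conj_pow, hpow b hb, hpow b' hb'] at h1
        exact h1
      have hkW₂ : k ∈ W₂ := by
        refine (hmemC a ha ha1 k).mpr ⟨hk, ?_⟩
        calc a * k = (k * a * k⁻¹) * k := by rw [hka]
          _ = k * a := by group
      exact (W₁ ⊔ W₂).mul_mem ((le_sup_right : W₂ ≤ W₁ ⊔ W₂) hkW₂) hsW
    · intro g hg
      rw [Subgroup.mem_set_normalizer_iff]
      intro h
      constructor
      · intro hh
        have h1 : g * h * g⁻¹ = h := by
          rw [hWcomm g hg h (hX hh).1]; group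
        rw [h1]; exact hh
      · intro hh
        have h1 : g * h * g⁻¹ ∈ W₁ ⊔ W₂ := (hX hh).1
        have h2 := hWcomm _ h1 g hg
        have h3 : h = g * h * g⁻¹ := by
          calc h = g⁻¹ * ((g * h * g⁻¹) * g) := by group
            _ = g⁻¹ * (g * (g * h * g⁻¹)) := by rw [h2]
            _ = g * h * g⁻¹ := by group
        rw [h3]; exact hh

end Cfsg.Agent.S1510
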