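import Cfsg.Statements.S1512
import Mathlib
import Cfsg.Agent.Lib.Helper6.FixClass

set_option autoImplicit false
open Cfsg
open Cfsg.Agent.Lib.Helper6 Cfsg.Agent.Lib

namespace Cfsg.Agent.S1512


/-- Let K be a normal subgroup of the finite group L and x a non-identity element whose order is coprime to the order of K, such that K ⊓ C_L(y) = W₂ for every non-identity element y of the cyclic group generated by x. Then the number of conjugacy classes of K mapped to themselves by conjugation by x is at most Nat.card W₂. -/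
theorem result {L : Type*} [Group L] [Finite L] (K W₂ : Subgroup L) [hK : K.Normal] (x : L) (hx1 : x ≠ 1) (hx : Nat.Coprime (orderOf x) (Nat.card K)) (hC : ∀ y ∈ Subgroup.zpowers x, y ≠ 1 → K ⊓ Subgroup.centralizer ({y} : Set L) = W₂) : Nat.card {C : ConjClasses K // ConjClasses.map (MulEquiv.toMonoidHom ((MulAut.conjNormal x : MulAut K))) C = C} ≤ Nat.card W₂ := by
  classical
  have hW : K ⊓ Subgroup.centralizer ({x} : Set L) = W₂ := hC x (Subgroup.mem_zpowers x) hx1
  have hex : ∀ C : {C : ConjClasses K // ConjClasses.map (MulEquiv.toMonoidHom ((MulAut.conjNormal x : MulAut K))) C = C},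
      ∃ w : W₂, ∃ hw : (w : L) ∈ K, ConjClasses.mk (⟨(w : L), hw⟩ : K) = C.1 := by
    rintro ⟨C, hCfix⟩
    obtain ⟨k₀, rfl⟩ := ConjClasses.exists_rep C
    change ConjClasses.mk ((MulEquiv.toMonoidHom ((MulAut.conjNormal x : MulAut K))) k₀) = ConjClasses.mk k₀ at hCfix
    rw [ConjClasses.mk_eq_mk_iff_isConj, isConj_iff] at hCfix
    obtain ⟨c, hc⟩ := hCfix
    have hc' : (c : L) * (x * (k₀ : L) * x⁻¹) * (c : L)⁻¹ = k₀ := by
      have := congrArg Subtype.val hc
      simpa using this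
    obtain ⟨k, hk, hcomm⟩ := fixed_class_rep K x hx (k₀ : L)
      ⟨(c : L)⁻¹, K.inv_mem c.2, by conv_rhs => rw [← hc']
                                    group⟩
    have hwK : k * (k₀ : L) * k⁻¹ ∈ K := K.mul_mem (K.mul_mem hk k₀.2) (K.inv_mem hk)
    have hwW : k * (k₀ : L) * k⁻¹ ∈ W₂ := by
      rw [← hW]
      refine ⟨hwK, ?_⟩
      show k * (k₀ : L) * k⁻¹ ∈ Subgroup.centralizer ({x} : Set L)
      rw [Subgroup.mem_centralizer_iff]
      intro y hy
      rw [Set.mem_singleton_iff] at hy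
      rw [hy]; exact hcomm
    refine ⟨⟨_, hwW⟩, hwK, ?_⟩
    rw [ConjClasses.mk_eq_mk_iff_isConj, isConj_iff]
    refine ⟨(⟨k, hk⟩ : K)⁻¹, ?_⟩
    apply Subtype.ext
    show k⁻¹ * (k * (k₀ : L) * k⁻¹) * k⁻¹⁻¹ = k₀
    group
  choose f hf using hex
  apply Nat.card_le_card_of_injective f
  intro C₁ C₂ h
  obtain ⟨hw1, h1⟩ := hf C₁
  obtain ⟨hw2, h2⟩ := hf C₂
  apply Subtype.ext
  rw [← h1, ← h2]
  exact congrArg ConjClasses.mk (Subtype.ext (congrArg (fun w : W₂ => (w : L)) h))

end Cfsg.Agent.S1512
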