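import Cfsg.Statements.S1513
import Mathlib
import Cfsg.Agent.Lib.Helper6.SemiFix
import Cfsg.Agent.Lib.Helper6.CliffCorr2
import Cfsg.Agent.Lib.Lead.ExtCyclic2

set_option autoImplicit false
open Cfsg
open Cfsg.Agent.Lib.Helper6 Cfsg.Agent.Lib

namespace Cfsg.Agent.S1513


/-- Let L be a finite group with K normal with complement W₁ ≠ 1 a cyclic Hall subgroup, and W₂ ≠ 1 a cyclic subgroup of K equal to C_K(x) for every non-identity x ∈ W₁, with W₁W₂ of odd order. For an irreducible character θ of K: if θ is not fixed under conjugation by some element of W₁, then the function induced from θ to L is an irreducible character of L; and the irreducible characters of K fixed by all of W₁ are exactly Nat.card W₂ in number, each inducing to the sum of Nat.card W₁ pairwise distinct irreducible characters of L. -/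
theorem result {L : Type*} [Group L] [Fintype L] (K W₁ W₂ : Subgroup L) [hK : K.Normal] (hKW₁ : K ⊓ W₁ = ⊥) (hKW₁' : K ⊔ W₁ = ⊤) (hW₁ : W₁ ≠ ⊥) (hW₁c : IsCyclic W₁) (hHall : Nat.Coprime (Nat.card W₁) W₁.index) (hW₂ : W₂ ≠ ⊥) (hW₂c : IsCyclic W₂) (hW₂K : W₂ ≤ K) (hC : ∀ x ∈ W₁, x ≠ 1 → K ⊓ Subgroup.centralizer ({x} : Set L) = W₂) (hodd : Odd (Nat.card ↥(W₁ ⊔ W₂))) : (∀ θ : K → ℂ, Cfsg.IsIrrCharacter K θ → (∃ x ∈ W₁, (fun k : K => θ ⟨x * k * x⁻¹, hK.conj_mem (k : L) k.2 x⟩) ≠ θ) → Cfsg.IsIrrCharacter L (Cfsg.indFun K θ)) ∧ Nat.card {θ : Cfsg.IrrCharacter K // ∀ x ∈ W₁, (fun k : K => (θ : K → ℂ) ⟨x * k * x⁻¹, hK.conj_mem (k : L) k.2 x⟩) = θ} = Nat.card W₂ ∧ (∀ θ : K → ℂ, Cfsg.IsIrrCharacter K θ → (∀ x ∈ W₁, (fun k : K => θ ⟨x * k * x⁻¹, hK.conj_mem (k : L) k.2 x⟩) = θ) → ∃ C : Finset (L → ℂ), C.card = Nat.card W₁ ∧ (∀ μ ∈ C, Cfsg.IsIrrCharacter L μ) ∧ Cfsg.indFun K θ = ∑ μ ∈ C, μ) := by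
  classical
  haveI : Fintype (Cfsg.IrrCharacter K) := Fintype.ofFinite _
  haveI : Fintype K := Fintype.ofFinite K
  obtain ⟨x₀, hx₀⟩ := hW₁c.exists_generator
  have hx₀1 : (x₀ : L) ≠ 1 := by
    intro h
    apply hW₁
    rw [eq_bot_iff]
    intro y hy
    have h1 := hx₀ ⟨y, hy⟩
    have h2 : x₀ = 1 := Subtype.ext h
    rw [h2, Subgroup.zpowers_one_eq_bot, Subgroup.mem_bot] at h1
    rw [Subgroup.mem_bot]
    exact congrArg Subtype.val h1
  -- F1
  have F1 : ∀ s ∈ W₁, s ≠ 1 → Nat.card {θ : Cfsg.IrrCharacter K //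
      (θ : K → ℂ) ∘ (MulAut.conjNormal s : K ≃* K) = (θ : K → ℂ)} = Nat.card W₂ :=
    fun s hs hs1 => semi_fixed_count K W₁ W₂ hKW₁ hKW₁' hW₁c hHall hW₂c hW₂K hC s hs hs1
  -- F2
  have F2 : ∀ θ : K → ℂ, (θ ∘ (MulAut.conjNormal (x₀ : L) : K ≃* K) = θ) →
      ∀ x ∈ W₁, (fun k : K => θ ⟨x * k * x⁻¹, hK.conj_mem (k : L) k.2 x⟩) = θ := by
    intro θ hθ x hx
    rw [← mem_inertiaSub]
    have h1 : (x₀ : L) ∈ inertiaSub K θ := by
      rw [mem_inertiaSub, conj_form]; exact hθ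
    have h2 : (⟨x, hx⟩ : W₁) ∈ Subgroup.zpowers x₀ := hx₀ ⟨x, hx⟩
    obtain ⟨j, hj⟩ := Subgroup.mem_zpowers_iff.mp h2
    have h3 : x = (x₀ : L) ^ j := by
      have := congrArg Subtype.val hj
      rw [Subgroup.coe_zpow] at this
      exact this.symm
    rw [h3]
    exact (inertiaSub K θ).zpow_mem h1 j
  -- F3
  have F3 : ∀ s ∈ W₁, s ≠ 1 → ∀ θ : Cfsg.IrrCharacter K,
      (θ : K → ℂ) ∘ (MulAut.conjNormal s : K ≃* K) = (θ : K → ℂ) →
      (θ : K → ℂ) ∘ (MulAut.conjNormal (x₀ : L) : K ≃* K) = (θ : K → ℂ) := by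
    intro s hs hs1 θ hθs
    have hsub : Finset.univ.filter (fun θ : Cfsg.IrrCharacter K =>
          (θ : K → ℂ) ∘ (MulAut.conjNormal (x₀ : L) : K ≃* K) = (θ : K → ℂ))
        ⊆ Finset.univ.filter (fun θ : Cfsg.IrrCharacter K =>
          (θ : K → ℂ) ∘ (MulAut.conjNormal s : K ≃* K) = (θ : K → ℂ)) := by
      intro ξ hξ
      rw [Finset.mem_filter] at hξ ⊢
      refine ⟨Finset.mem_univ _, ?_⟩
      rw [← conj_form]
      exact F2 ξ.1 hξ.2 s hs
    have hcard : (Finset.univ.filter (fun θ : Cfsg.IrrCharacter K =>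
          (θ : K → ℂ) ∘ (MulAut.conjNormal s : K ≃* K) = (θ : K → ℂ))).card
        ≤ (Finset.univ.filter (fun θ : Cfsg.IrrCharacter K =>
          (θ : K → ℂ) ∘ (MulAut.conjNormal (x₀ : L) : K ≃* K) = (θ : K → ℂ))).card := by
      have e1 := F1 s hs hs1
      have e2 := F1 (x₀ : L) x₀.2 hx₀1
      rw [Nat.card_eq_fintype_card, Fintype.card_subtype] at e1 e2
      rw [e1, e2]
    have heq := Finset.eq_of_subset_of_card_le hsub hcard
    have hmem : θ ∈ Finset.univ.filter (fun θ : Cfsg.IrrCharacter K =>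
          (θ : K → ℂ) ∘ (MulAut.conjNormal s : K ≃* K) = (θ : K → ℂ)) := by
      rw [Finset.mem_filter]; exact ⟨Finset.mem_univ _, hθs⟩
    rw [← heq, Finset.mem_filter] at hmem
    exact hmem.2
  refine ⟨?_, ?_, ?_⟩
  · -- part 1
    intro θ hθ hmoved
    apply Lead.isIrrCharacter_of_norm_one
      (Lead.isCharacter_indFun K θ (Lead.isCharacter_of_irr hθ))
    have hnorm := Lead.card_mul_inner_ind_normal (H := K) θ hθ
    have hin : inertiaSub K θ = K := by
      apply le_antisymm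
      · intro t ht
        obtain ⟨k, hk, s, hs, rfl⟩ := semi_decomp K W₁ hKW₁' t
        have hkI : k ∈ inertiaSub K θ := by
          intro k'
          exact Lead.isClassFunction_of_irr ⟨θ, hθ⟩ k' ⟨k, hk⟩
        have hsI : s ∈ inertiaSub K θ := by
          have := (inertiaSub K θ).mul_mem ((inertiaSub K θ).inv_mem hkI) ht
          rwa [inv_mul_cancel_left] at this
        by_cases hs1 : s = 1
        · rw [hs1, mul_one]; exact hk
        · exfalso
          obtain ⟨x, hx, hxθ⟩ := hmoved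
          apply hxθ
          apply F2 θ _ x hx
          have h5 := (mem_inertiaSub K θ s).mp hsI
          rw [conj_form] at h5
          exact F3 s hs hs1 ⟨θ, hθ⟩ h5
      · intro k hk k'
        exact Lead.isClassFunction_of_irr ⟨θ, hθ⟩ k' ⟨k, hk⟩
    have hcardI : Nat.card {g : L // ∀ h : K, θ ⟨g * h * g⁻¹, hK.conj_mem h h.2 g⟩ = θ h}
        = Nat.card K := by
      have : Nat.card {g : L // ∀ h : K, θ ⟨g * h * g⁻¹, hK.conj_mem h h.2 g⟩ = θ h}
          = Nat.card (inertiaSub K θ) := rfl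
      rw [this, hin]
    rw [hcardI] at hnorm
    have hKne : (Nat.card K : ℂ) ≠ 0 := Nat.cast_ne_zero.mpr Nat.card_pos.ne'
    have := mul_left_cancel₀ hKne (hnorm.trans (mul_one _).symm)
    exact this
  · -- part 2
    rw [← F1 (x₀ : L) x₀.2 hx₀1]
    apply Nat.card_congr
    apply Equiv.subtypeEquivRight
    intro θ
    constructor
    · intro h
      rw [← conj_form]
      exact h (x₀ : L) x₀.2
    · intro h x hx
      exact F2 θ.1 h x hx
  · -- part 3
    intro θ hθ hinvW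
    have hinv : ∀ (t : L) (k : K), θ ⟨t * k * t⁻¹, hK.conj_mem (k : L) k.2 t⟩ = θ k := by
      intro t
      have ht : t ∈ inertiaSub K θ := by
        obtain ⟨k, hk, s, hs, rfl⟩ := semi_decomp K W₁ hKW₁' t
        apply (inertiaSub K θ).mul_mem
        · intro k'
          exact Lead.isClassFunction_of_irr ⟨θ, hθ⟩ k' ⟨k, hk⟩
        · rw [mem_inertiaSub]; exact hinvW s hs
      exact ht
    have hcyc : IsCyclic (L ⧸ K) := by
      haveI := hW₁c
      apply isCyclic_of_surjective ((QuotientGroup.mk' K).comp W₁.subtype)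
      intro q
      obtain ⟨t, rfl⟩ := QuotientGroup.mk_surjective q
      obtain ⟨k, hk, s, hs, rfl⟩ := semi_decomp K W₁ hKW₁' t
      refine ⟨⟨s, hs⟩, ?_⟩
      show (QuotientGroup.mk s : L ⧸ K) = QuotientGroup.mk (k * s)
      rw [QuotientGroup.eq]
      have : s⁻¹ * (k * s) = s⁻¹ * k * s⁻¹⁻¹ := by group
      rw [this]
      exact hK.conj_mem k hk s⁻¹
    have hab : ∀ x y : L, x * y * x⁻¹ * y⁻¹ ∈ K := by
      intro x y
      rw [← QuotientGroup.eq_one_iff]
      letI := IsCyclic.commGroup (α := L ⧸ K)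
      have h1 : ((x * y * x⁻¹ * y⁻¹ : L) : L ⧸ K)
          = (x : L ⧸ K) * (y : L ⧸ K) * (x : L ⧸ K)⁻¹ * (y : L ⧸ K)⁻¹ := rfl
      rw [h1, mul_comm (x : L ⧸ K) (y : L ⧸ K)]
      group
    obtain ⟨χ, hχirr, hχext⟩ := Lead.extend_cyclic_quotient K hcyc θ hθ hinv
    obtain ⟨e, P, he, hind, hdeg, hcard, hne⟩ := inv_abelian_decomp K θ hθ hinv hab
    have h1 : Cfsg.classInner (Cfsg.indFun K θ) χ = 1 := by
      rw [Lead.frobenius_reciprocity K θ χ (Lead.isClassFunction_of_irr ⟨χ, hχirr⟩)]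
      have h2 : (fun h : K => χ h) = θ := funext hχext
      rw [h2]
      exact Lead.irr_inner_self ⟨θ, hθ⟩
    have h3 : Cfsg.classInner (Cfsg.indFun K θ) χ
        = (e : ℂ) * (if (⟨χ, hχirr⟩ : Cfsg.IrrCharacter L) ∈ P then 1 else 0) := by
      rw [hind, Lead.classInner_smul_left, Lead.classInner_sum_left]
      congr 1
      have h4 : ∀ ψ ∈ P, Cfsg.classInner (ψ : L → ℂ) χ
          = if ψ = (⟨χ, hχirr⟩ : Cfsg.IrrCharacter L) then 1 else 0 := by
        intro ψ _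
        exact Lead.irr_inner ψ ⟨χ, hχirr⟩
      rw [Finset.sum_congr rfl h4, Finset.sum_ite_eq' P (⟨χ, hχirr⟩ : Cfsg.IrrCharacter L)
        (fun _ => (1 : ℂ))]
    rw [h1] at h3
    have he1 : e = 1 := by
      by_cases hmem : (⟨χ, hχirr⟩ : Cfsg.IrrCharacter L) ∈ P
      · rw [if_pos hmem, mul_one] at h3
        exact_mod_cast h3.symm
      · rw [if_neg hmem, mul_zero] at h3
        exact absurd h3 one_ne_zero
    subst he1
    refine ⟨P.image (fun ψ : Cfsg.IrrCharacter L => (ψ : L → ℂ)), ?_, ?_, ?_⟩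
    · rw [Finset.card_image_of_injective _ Subtype.val_injective]
      have h5 := semi_card K W₁ hKW₁ hKW₁'
      rw [one_pow, one_mul, ← h5] at hcard
      have h6 : P.card * Nat.card K = Nat.card W₁ * Nat.card K := by rw [hcard, mul_comm]
      exact Nat.eq_of_mul_eq_mul_right Nat.card_pos h6
    · intro μ hμ
      obtain ⟨ψ, _, rfl⟩ := Finset.mem_image.mp hμ
      exact ψ.2
    · rw [hind, Finset.sum_image (fun a _ b _ h => Subtype.val_injective h)]
      simp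

end Cfsg.Agent.S1513
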