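import Cfsg.Statements.S1514
import Mathlib
import Cfsg.Agent.Lib.Helper6.GenChar

set_option autoImplicit false
open Cfsg
open Cfsg.Agent.Lib.Helper6 Cfsg.Agent.Lib

namespace Cfsg.Agent.S1514

theorem cI_sub_sub {X : Type*} [Group X] [Fintype X] (a b c d : X → ℂ) :
    Cfsg.classInner (a - b) (c - d) = Cfsg.classInner a c - Cfsg.classInner a d
      - Cfsg.classInner b c + Cfsg.classInner b d := by
  unfold Cfsg.classInner
  simp only [Pi.sub_apply, map_sub, mul_sub, sub_mul, Finset.sum_sub_distrib]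
  ring

theorem cI_neg_right {X : Type*} [Group X] [Fintype X] (a b : X → ℂ) :
    Cfsg.classInner a (-b) = - Cfsg.classInner a b := by
  unfold Cfsg.classInner
  simp only [Pi.neg_apply, map_neg, mul_neg, Finset.sum_neg_distrib]

theorem cI_neg_left {X : Type*} [Group X] [Fintype X] (a b : X → ℂ) :
    Cfsg.classInner (-a) b = - Cfsg.classInner a b := by
  unfold Cfsg.classInner
  simp only [Pi.neg_apply, neg_mul, mul_neg, Finset.sum_neg_distrib]

theorem conjFun_conjFun {X : Type*} (χ : X → ℂ) : Cfsg.conjFun (Cfsg.conjFun χ) = χ := by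
  funext x
  simp [Cfsg.conjFun]


/-- Let S be a nonempty set of irreducible characters of the finite group L, closed under complex conjugation and containing no real-valued member, and τ a linear isometry on the integer combinations of S vanishing at 1, with values virtual characters of G vanishing at 1. Then there is a choice R making (S, τ, R) a coherence system. -/
theorem result {L : Type*} [Group L] [Fintype L] {G : Type*} [Group G] [Fintype G] (S : Set (L → ℂ)) (hS : S.Nonempty) (hirr : ∀ χ ∈ S, Cfsg.IsIrrCharacter L χ) (hconj : ∀ χ ∈ S, Cfsg.conjFun χ ∈ S ∧ Cfsg.conjFun χ ≠ χ) (τ : (L → ℂ) → (G → ℂ)) (hτ : Cfsg.IsLinearIsometryOn (Cfsg.zspanOn S {1}ᶜ) τ) (hτ1 : ∀ α ∈ Cfsg.zspanOn S {1}ᶜ, τ α 1 = 0) : ∃ R : (L → ℂ) → Finset (G → ℂ), Cfsg.IsCoherenceSystem S τ R := by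
  classical
  haveI : Nonempty (Cfsg.IrrCharacter G) := ⟨⟨fun _ => 1, Lead.isIrrCharacter_one⟩⟩
  obtain ⟨hadd, hsmul, hiso, hgen⟩ := hτ
  have hcirr : ∀ χ ∈ S, Cfsg.IsIrrCharacter L (Cfsg.conjFun χ) := fun χ hχ =>
    hirr _ (hconj χ hχ).1
  have hD : ∀ χ ∈ S, (χ - Cfsg.conjFun χ) ∈ Cfsg.zspanOn S {1}ᶜ := by
    intro χ hχ
    refine ⟨Submodule.sub_mem _ (Submodule.subset_span hχ) (Submodule.subset_span (hconj χ hχ).1), ?_⟩
    intro x hx
    have hx1 : x = 1 := by simpa using hx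
    subst hx1
    obtain ⟨d, -, hd⟩ := Lead.irr_one_eq_nat ⟨χ, hirr χ hχ⟩
    show χ 1 - (starRingEnd ℂ) (χ 1) = 0
    rw [show χ 1 = (d : ℂ) from hd, Complex.conj_natCast, sub_self]
  have hinner : ∀ χ ∈ S, ∀ φ ∈ S, Cfsg.classInner χ φ = if χ = φ then 1 else 0 := by
    intro χ hχ φ hφ
    have h := Lead.irr_inner (⟨χ, hirr χ hχ⟩ : Cfsg.IrrCharacter L) ⟨φ, hirr φ hφ⟩
    rw [h]
    by_cases e : χ = φ
    · rw [if_pos e, if_pos (Subtype.ext e)]
    · rw [if_neg e, if_neg (fun h' => e (congrArg Subtype.val h'))]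
  have hnorm2 : ∀ χ ∈ S, Cfsg.classInner (χ - Cfsg.conjFun χ) (χ - Cfsg.conjFun χ) = 2 := by
    intro χ hχ
    have hc := hconj χ hχ
    rw [cI_sub_sub, hinner χ hχ χ hχ, hinner χ hχ _ hc.1, hinner _ hc.1 χ hχ,
      hinner _ hc.1 _ hc.1, if_pos rfl, if_pos rfl, if_neg hc.2, if_neg (Ne.symm hc.2)]
    norm_num
  have hex : ∀ χ : L → ℂ, χ ∈ S → ∃ μν : Cfsg.IrrCharacter G × Cfsg.IrrCharacter G,
      μν.1 ≠ μν.2 ∧ τ (χ - Cfsg.conjFun χ) = μν.1.1 - μν.2.1 := by
    intro χ hχ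
    have h2 : Cfsg.classInner (τ (χ - Cfsg.conjFun χ)) (τ (χ - Cfsg.conjFun χ)) = 2 := by
      rw [hiso _ (hD χ hχ) _ (hD χ hχ)]; exact hnorm2 χ hχ
    obtain ⟨μ, ν, hne, heq⟩ := gen_norm_two_cases _ (hgen _ (hD χ hχ)) h2 (hτ1 _ (hD χ hχ))
    exact ⟨(μ, ν), hne, heq⟩
  choose! μν hμν using hex
  have hposdeg : ∀ a b : Cfsg.IrrCharacter G, a.1 ≠ -b.1 := by
    intro a b h
    obtain ⟨da, hda, hda1⟩ := Lead.irr_one_eq_nat a
    obtain ⟨db, hdb, hdb1⟩ := Lead.irr_one_eq_nat b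
    have h1 := congrFun h 1
    rw [Pi.neg_apply, hda1, hdb1] at h1
    have h2 : ((da + db : ℕ) : ℂ) = 0 := by push_cast; rw [h1]; ring
    have h3 : da + db = 0 := by exact_mod_cast h2
    omega
  have hgenirr : ∀ a : Cfsg.IrrCharacter G, Cfsg.IsGeneralizedCharacter G a.1 := fun a =>
    ⟨a.1, 0, Lead.isCharacter_of_irr a.2, Lead.isCharacter_zero, by simp⟩
  have hgenneg : ∀ a : Cfsg.IrrCharacter G, Cfsg.IsGeneralizedCharacter G (-a.1) := fun a =>
    ⟨0, a.1, Lead.isCharacter_zero, Lead.isCharacter_of_irr a.2, by simp⟩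
  have hRmem : ∀ χ ∈ S, ∀ α : G → ℂ,
      α ∈ (if χ ∈ S then ({(μν χ).1.1, -(μν χ).2.1} : Finset (G → ℂ)) else ∅) ↔
        (α = (μν χ).1.1 ∨ α = -(μν χ).2.1) := by
    intro χ hχ α
    rw [if_pos hχ, Finset.mem_insert, Finset.mem_singleton]
  refine ⟨fun χ => if χ ∈ S then {(μν χ).1.1, -(μν χ).2.1} else ∅, ?_⟩
  refine ⟨hS, fun χ hχ => Lead.isCharacter_of_irr (hirr χ hχ), fun χ hχ => (hconj χ hχ).1,
    fun χ hχ => (hconj χ hχ).2, ⟨hadd, hsmul, hiso, hgen⟩, hτ1, ?_, ?_, ?_, ?_, ?_⟩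
  · intro χ hχ φ hφ hne
    rw [hinner χ hχ φ hφ, if_neg hne]
  · intro χ hχ α hα β hβ
    rw [hRmem χ hχ] at hα hβ
    have hne := (hμν χ hχ).1
    rcases hα with rfl | rfl <;> rcases hβ with rfl | rfl
    · rw [Lead.irr_inner_self, if_pos rfl]
    · rw [cI_neg_right, Lead.irr_inner_ne hne, neg_zero, if_neg (hposdeg _ _)]
    · rw [cI_neg_left, Lead.irr_inner_ne (Ne.symm hne), neg_zero,
        if_neg (fun h => hposdeg _ _ h.symm)]
    · rw [cI_neg_left, cI_neg_right, neg_neg, Lead.irr_inner_self, if_pos rfl]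
  · intro χ hχ α hα
    rw [hRmem χ hχ] at hα
    rcases hα with rfl | rfl
    · exact hgenirr _
    · exact hgenneg _
  · intro χ hχ
    show τ (χ - Cfsg.conjFun χ) = ∑ α ∈ (if χ ∈ S then ({(μν χ).1.1, -(μν χ).2.1} : Finset (G → ℂ)) else ∅), α
    rw [if_pos hχ, Finset.sum_pair (hposdeg _ _), (hμν χ hχ).2, sub_eq_add_neg]
  · intro χ hχ φ hφ h1 h2 α hα β hβ
    rw [hRmem φ hφ] at hα
    rw [hRmem χ hχ] at hβ
    have hcχ := hconj χ hχ
    have hcφ := hconj φ hφ
    have h3 : Cfsg.classInner (Cfsg.conjFun φ) χ = 0 := by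
      rw [hinner _ hcφ.1 χ hχ, if_neg]
      intro h
      have h4 : φ = Cfsg.conjFun χ := by rw [← h, conjFun_conjFun]
      rw [h4, hinner _ hcχ.1 _ hcχ.1, if_pos rfl] at h2
      exact one_ne_zero h2
    have h4 : Cfsg.classInner (Cfsg.conjFun φ) (Cfsg.conjFun χ) = 0 := by
      rw [hinner _ hcφ.1 _ hcχ.1, if_neg]
      intro h
      have h5 : φ = χ := by rw [← conjFun_conjFun φ, h, conjFun_conjFun]
      rw [h5, hinner χ hχ χ hχ, if_pos rfl] at h1
      exact one_ne_zero h1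
    have h5 : Cfsg.classInner (τ (φ - Cfsg.conjFun φ)) (τ (χ - Cfsg.conjFun χ)) = 0 := by
      rw [hiso _ (hD φ hφ) _ (hD χ hχ), cI_sub_sub, h1, h2, h3, h4]; ring
    rw [(hμν φ hφ).2, (hμν χ hχ).2, cI_sub_sub, Lead.irr_inner, Lead.irr_inner, Lead.irr_inner,
      Lead.irr_inner] at h5
    have hneφ := (hμν φ hφ).1
    have hneχ := (hμν χ hχ).1
    have key : (μν φ).1 ≠ (μν χ).1 ∧ (μν φ).1 ≠ (μν χ).2 ∧ (μν φ).2 ≠ (μν χ).1 ∧
        (μν φ).2 ≠ (μν χ).2 := by
      by_cases e1 : (μν φ).1 = (μν χ).1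
      · exfalso
        by_cases e2 : (μν φ).1 = (μν χ).2
        · exact hneχ (e1.symm.trans e2)
        · by_cases e3 : (μν φ).2 = (μν χ).1
          · exact hneφ (e1.trans e3.symm)
          · by_cases e4 : (μν φ).2 = (μν χ).2
            · rw [if_pos e1, if_neg e2, if_neg e3, if_pos e4] at h5; norm_num at h5
            · rw [if_pos e1, if_neg e2, if_neg e3, if_neg e4] at h5; norm_num at h5
      · by_cases e2 : (μν φ).1 = (μν χ).2
        · exfalso
          by_cases e4 : (μν φ).2 = (μν χ).2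
          · exact hneφ (e2.trans e4.symm)
          · by_cases e3 : (μν φ).2 = (μν χ).1
            · rw [if_neg e1, if_pos e2, if_pos e3, if_neg e4] at h5; norm_num at h5
            · rw [if_neg e1, if_pos e2, if_neg e3, if_neg e4] at h5; norm_num at h5
        · by_cases e3 : (μν φ).2 = (μν χ).1
          · exfalso
            by_cases e4 : (μν φ).2 = (μν χ).2
            · exact hneχ (e3.symm.trans e4)
            · rw [if_neg e1, if_neg e2, if_pos e3, if_neg e4] at h5; norm_num at h5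
          · by_cases e4 : (μν φ).2 = (μν χ).2
            · exfalso
              rw [if_neg e1, if_neg e2, if_neg e3, if_pos e4] at h5; norm_num at h5
            · exact ⟨e1, e2, e3, e4⟩
    obtain ⟨k1, k2, k3, k4⟩ := key
    rcases hα with rfl | rfl <;> rcases hβ with rfl | rfl
    · exact Lead.irr_inner_ne k1
    · rw [cI_neg_right, Lead.irr_inner_ne k2, neg_zero]
    · rw [cI_neg_left, Lead.irr_inner_ne k3, neg_zero]
    · rw [cI_neg_left, cI_neg_right, Lead.irr_inner_ne k4, neg_zero, neg_zero]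

end Cfsg.Agent.S1514
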