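import Cfsg.Statements.S1515
import Mathlib
import Cfsg.Agent.Lib.Helper6.GenChar

set_option autoImplicit false
open Cfsg
open Cfsg.Agent.Lib.Helper6 Cfsg.Agent.Lib

namespace Cfsg.Agent.S1515

theorem cI_sub_sub {X : Type*} [Group X] [Fintype X] (a b c d : X → ℂ) :
    Cfsg.classInner (a - b) (c - d) = Cfsg.classInner a c - Cfsg.classInner a d
      - Cfsg.classInner b c + Cfsg.classInner b d := by
  unfold Cfsg.classInner
  simp only [Pi.sub_apply, map_sub, mul_sub, sub_mul, Finset.sum_sub_distrib]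
  ring

theorem gen_inner_int {G : Type*} [Group G] [Fintype G] {θ η : G → ℂ}
    (hθ : Cfsg.IsGeneralizedCharacter G θ) (hη : Cfsg.IsGeneralizedCharacter G η) :
    ∃ n : ℤ, Cfsg.classInner θ η = (n : ℂ) := by
  classical
  haveI : Fintype (Cfsg.IrrCharacter G) := Fintype.ofFinite _
  obtain ⟨a, rfl⟩ := gen_decomp hθ
  obtain ⟨b, rfl⟩ := gen_decomp hη
  exact ⟨_, gen_inner a b⟩


/-- Let (S, τ, R) be a coherence system from L to G, χ ∈ S, and ψ an integer combination of S with ⟨χ, ψ⟩ = ⟨conj χ, ψ⟩ = 0. Let τ₁ be a linear isometry on the integer combinations of χ − ψ and χ − conj χ, with virtual-character values, agreeing with τ on integer multiples of χ − conj χ. Then the sum over α ∈ R χ of the squared absolute values of ⟨τ₁(χ − ψ), α⟩ is at least ⟨χ, χ⟩; and if ⟨τ₁(χ − ψ), τ₁(χ − ψ)⟩ minus that sum is at least ⟨ψ, ψ⟩, then the sum equals ⟨χ, χ⟩ and every ⟨τ₁(χ − ψ), α⟩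 with α ∈ R χ is 0 or 1. -/
theorem result {L : Type*} [Group L] [Fintype L] {G : Type*} [Group G] [Fintype G] (S : Set (L → ℂ)) (τ : (L → ℂ) → (G → ℂ)) (R : (L → ℂ) → Finset (G → ℂ)) (hS : Cfsg.IsCoherenceSystem S τ R) (χ : L → ℂ) (hχ : χ ∈ S) (ψ : L → ℂ) (hψ : ψ ∈ Cfsg.zspan S) (h1 : Cfsg.classInner χ ψ = 0) (h2 : Cfsg.classInner (Cfsg.conjFun χ) ψ = 0) (τ₁ : (L → ℂ) → (G → ℂ)) (hτ₁ : Cfsg.IsLinearIsometryOn (Cfsg.zspan {χ - ψ, χ - Cfsg.conjFun χ}) τ₁) (hagree : ∀ n : ℤ, τ₁ (n • (χ - Cfsg.conjFun χ)) = τ (n • (χ - Cfsg.conjFun χ))) : (Cfsg.classInner χ χ).re ≤ ∑ α ∈ R χ, ‖Cfsg.classInner (τ₁ (χ - ψ)) α‖ ^ 2 ∧ ((Cfsg.classInner ψ ψ).re ≤ (Cfsg.classInner (τ₁ (χ - ψ)) (τ₁ (χ - ψ))).re - ∑ α ∈ R χ, ‖Cfsg.classInner (τ₁ (χ - ψ)) α‖ ^ 2 → (∑ α ∈ R χ, ‖Cfsg.classInner (τ₁ (χ - ψ)) α‖ ^ 2 = (Cfsg.classInner χ χ).re ∧ ∀ α ∈ R χ, Cfsg.classInner (τ₁ (χ - ψ)) α = 0 ∨ Cfsg.classInner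 (τ₁ (χ - ψ)) α = 1)) := by
  classical
  obtain ⟨hadd, hsmul, hiso, hgen⟩ := hτ₁
  have hm1 : (χ - ψ) ∈ Cfsg.zspan {χ - ψ, χ - Cfsg.conjFun χ} :=
    Submodule.subset_span (by simp)
  have hm2 : (χ - Cfsg.conjFun χ) ∈ Cfsg.zspan {χ - ψ, χ - Cfsg.conjFun χ} :=
    Submodule.subset_span (by simp)
  obtain ⟨F, hF⟩ : ∃ F : G → ℂ, F = τ₁ (χ - ψ) := ⟨_, rfl⟩
  rw [← hF]
  have hFgen : Cfsg.IsGeneralizedCharacter G F := by rw [hF]; exact hgen _ hm1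
  have hτeq : τ₁ (χ - Cfsg.conjFun χ) = ∑ α ∈ R χ, α := by
    have h := hagree 1
    rw [one_zsmul] at h
    rw [h, hS.sum_eq χ hχ]
  obtain ⟨n, hn⟩ := Lead.classInner_char_nat (hS.isCharacter χ hχ) (hS.isCharacter χ hχ)
  have hχc : Cfsg.classInner χ (Cfsg.conjFun χ) = 0 :=
    hS.orthogonal χ hχ _ (hS.conj_mem χ hχ) (Ne.symm (hS.conj_ne χ hχ))
  have hψχ : Cfsg.classInner ψ χ = 0 := by rw [← Lead.classInner_conj_symm, h1, map_zero]
  have hψc : Cfsg.classInner ψ (Cfsg.conjFun χ) = 0 := by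
    rw [← Lead.classInner_conj_symm, h2, map_zero]
  have hsumF : Cfsg.classInner F (∑ α ∈ R χ, α) = (n : ℂ) := by
    rw [← hτeq, hF, hiso _ hm1 _ hm2, cI_sub_sub, hn, hχc, hψχ, hψc]; ring
  have hFF : Cfsg.classInner F F = (n : ℂ) + Cfsg.classInner ψ ψ := by
    rw [hF, hiso _ hm1 _ hm1, cI_sub_sub, hn, h1, hψχ]; ring
  have hint : ∀ α ∈ R χ, ∃ a : ℤ, Cfsg.classInner F α = (a : ℂ) := fun α hα =>
    gen_inner_int hFgen (hS.virtual χ hχ α hα)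
  choose! a ha using hint
  have hsum : ∑ α ∈ R χ, a α = (n : ℤ) := by
    have h3 : ((∑ α ∈ R χ, a α : ℤ) : ℂ) = ((n : ℤ) : ℂ) := by
      push_cast
      rw [← hsumF, Lead.classInner_sum_right]
      exact Finset.sum_congr rfl (fun α hα => (ha α hα).symm)
    exact_mod_cast h3
  have hnorm : ∑ α ∈ R χ, ‖Cfsg.classInner F α‖ ^ 2 = ((∑ α ∈ R χ, a α ^ 2 : ℤ) : ℝ) := by
    push_cast
    apply Finset.sum_congr rfl
    intro α hα
    rw [ha α hα, Complex.norm_intCast, sq_abs]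
  have hre : (Cfsg.classInner χ χ).re = ((n : ℤ) : ℝ) := by rw [hn]; simp
  have hle : ∀ α ∈ R χ, a α ≤ a α ^ 2 := fun α _ => Int.le_self_sq (a α)
  have hsumle : (n : ℤ) ≤ ∑ α ∈ R χ, a α ^ 2 := by rw [← hsum]; exact Finset.sum_le_sum hle
  rw [hnorm, hre]
  constructor
  · exact_mod_cast hsumle
  · intro hyp
    rw [hFF] at hyp
    simp only [Complex.add_re, Complex.natCast_re] at hyp
    have h3 : ((∑ α ∈ R χ, a α ^ 2 : ℤ) : ℝ) ≤ ((n : ℤ) : ℝ) := by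
      push_cast; push_cast at hyp; linarith
    have h4 : ∑ α ∈ R χ, a α ^ 2 ≤ (n : ℤ) := by exact_mod_cast h3
    have h5 : ∑ α ∈ R χ, a α ^ 2 = (n : ℤ) := le_antisymm h4 hsumle
    constructor
    · exact_mod_cast h5
    · intro α hα
      have h6 : ∑ α ∈ R χ, (a α ^ 2 - a α) = 0 := by
        rw [Finset.sum_sub_distrib, h5, hsum]; ring
      have h7 := (Finset.sum_eq_zero_iff_of_nonneg
        (fun α hα => sub_nonneg.mpr (hle α hα))).mp h6 α hα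
      have h8 : a α * (a α - 1) = 0 := by rw [← h7]; ring
      rw [ha α hα]
      rcases mul_eq_zero.mp h8 with h | h
      · left; rw [h]; simp
      · right
        have h9 : a α = 1 := by linarith
        rw [h9]; simp

end Cfsg.Agent.S1515
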