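import Cfsg.Statements.S1516
import Mathlib
import Cfsg.Agent.Lib.Helper6.Coh3

set_option autoImplicit false
open Cfsg
open Cfsg.Agent.Lib.Helper6 Cfsg.Agent.Lib

namespace Cfsg.Agent.S1516


/-- Let (S, τ, R) be a coherence system from L to G with degrees φ 1 = d φ and squared norms ⟨φ, φ⟩ = n φ for φ ∈ S. Let S₁ ⊆ S be a finite subset closed under complex conjugation such that (S₁, L minus 1, τ) is coherent, let χ ∈ S with χ ∉ S₁ and conj χ ∉ S₁, and let χ₁ ∈ S₁ with d χ₁ dividing d χ and 2 d χ d χ₁ < Σ_{φ ∈ S₁} (d φ)² / n φ. Then S₁ together with χ and conj χ is coherent. -/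
theorem result {L : Type*} [Group L] [Fintype L] {G : Type*} [Group G] [Fintype G] (S : Set (L → ℂ)) (τ : (L → ℂ) → (G → ℂ)) (R : (L → ℂ) → Finset (G → ℂ)) (hS : Cfsg.IsCoherenceSystem S τ R) (d n : (L → ℂ) → ℕ) (hd : ∀ φ ∈ S, φ 1 = (d φ : ℂ)) (hn : ∀ φ ∈ S, Cfsg.classInner φ φ = (n φ : ℂ)) (S₁ : Finset (L → ℂ)) (hS₁ : ↑S₁ ⊆ S) (hS₁c : ∀ φ ∈ S₁, Cfsg.conjFun φ ∈ S₁) (hcoh : Cfsg.IsCoherent (↑S₁ : Set (L → ℂ)) {1}ᶜ τ) (χ : L → ℂ) (hχ : χ ∈ S) (hχ₁ : χ ∉ S₁) (hχ₂ : Cfsg.conjFun χ ∉ S₁) (χ₁ : L → ℂ) (hχ₁S : χ₁ ∈ S₁) (hdvd : d χ₁ ∣ d χ) (hineq : (2 * d χ * d χ₁ : ℝ) < ∑ φ ∈ S₁, ((d φ : ℝ) ^ 2 / (n φ : ℝ))) : Cfsg.IsCoherent (↑S₁ ∪ {χ, Cfsg.conjFun χ} : Set (L → ℂ)) {1}ᶜ τ := by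
  classical
  obtain ⟨hne0, τ₁, hτ₁, hτ₁τ⟩ := hcoh
  have hτ := hS.isometry
  have hO := hS.orthogonal
  have hχc := hS.conj_mem χ hχ
  have hχne := hS.conj_ne χ hχ
  have hχ₁' : χ₁ ∈ S := hS₁ (Finset.mem_coe.mpr hχ₁S)
  have hS₁' : ∀ φ ∈ S₁, φ ∈ S := fun φ hφ => hS₁ (Finset.mem_coe.mpr hφ)
  have hE := zclosed_zspanOn S ({1}ᶜ : Set L)
  have hE₁ := zclosed_zspan (↑S₁ : Set (L → ℂ))
  have hmem₁ : ∀ φ ∈ S₁, φ ∈ Cfsg.zspan (↑S₁ : Set (L → ℂ)) :=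
    fun φ hφ => zspan_mem (Finset.mem_coe.mpr hφ)
  have hmemS : ∀ φ ∈ S, φ ∈ Cfsg.zspan S := fun φ hφ => zspan_mem hφ
  have hsub₁ : Cfsg.zspanOn (↑S₁ : Set (L → ℂ)) {1}ᶜ ⊆ Cfsg.zspanOn S {1}ᶜ :=
    fun α hα => zspanOn_mono hS₁ hα
  have hs0 : ∀ φ ∈ S, φ ≠ 0 := by
    intro φ hφ h
    apply hS.conj_ne φ hφ
    rw [h]; funext x; simp [Cfsg.conjFun]
  have hdpos : ∀ φ ∈ S, 0 < d φ := by
    intro φ hφ
    have h1 := char_one_ne_zero (hS.isCharacter φ hφ) (hs0 φ hφ)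
    rw [hd φ hφ] at h1
    exact Nat.pos_of_ne_zero (fun h => h1 (by rw [h, Nat.cast_zero]))
  have hnpos : ∀ φ ∈ S, 0 < n φ := by
    intro φ hφ
    apply Nat.pos_of_ne_zero
    intro h
    apply hs0 φ hφ
    apply coh_norm_eq_zero
    rw [hn φ hφ, h, Nat.cast_zero]
  obtain ⟨m, hm⟩ := hdvd
  have hχφ : ∀ φ ∈ S₁, χ ≠ φ := fun φ hφ h => hχ₁ (h ▸ hφ)
  have hχcφ : ∀ φ ∈ S₁, Cfsg.conjFun χ ≠ φ := fun φ hφ h => hχ₂ (h ▸ hφ)
  have hχφc : ∀ φ ∈ S₁, χ ≠ Cfsg.conjFun φ := fun φ hφ h => hχ₁ (h ▸ hS₁c φ hφ)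
  have huu : ∀ φ ∈ S₁, ∀ φ' ∈ S₁,
      Cfsg.classInner (τ₁ φ) (τ₁ φ') = if φ = φ' then (n φ : ℂ) else 0 := by
    intro φ hφ φ' hφ'
    rw [hτ₁.2.2.1 φ (hmem₁ φ hφ) φ' (hmem₁ φ' hφ')]
    by_cases h : φ = φ'
    · rw [if_pos h, ← h]; exact hn φ (hS₁' φ hφ)
    · rw [if_neg h]; exact hO φ (hS₁' φ hφ) φ' (hS₁' φ' hφ') h
  have hugen : ∀ φ ∈ S₁, Cfsg.IsGeneralizedCharacter G (τ₁ φ) :=
    fun φ hφ => hτ₁.2.2.2 φ (hmem₁ φ hφ)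
  have hconj1 : ∀ φ ∈ S, (Cfsg.conjFun φ) 1 = φ 1 := by
    intro φ hφ
    show (starRingEnd ℂ) (φ 1) = φ 1
    rw [hd φ hφ, Complex.conj_natCast]
  -- the images of the members of `S₁` lie in the span of their `R`
  have huspan : ∀ φ ∈ S₁, τ₁ φ ∈ Submodule.span ℂ (↑(R φ) : Set (G → ℂ)) := by
    intro φ hφ
    have hφS := hS₁' φ hφ
    have hφc := hS₁c φ hφ
    have hθm : φ - Cfsg.conjFun φ ∈ Cfsg.zspanOn (↑S₁ : Set (L → ℂ)) {1}ᶜ :=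
      mem_zspanOn_one (zspan_sub (hmem₁ φ hφ) (hmem₁ _ hφc))
        (by rw [Pi.sub_apply, hconj1 φ hφS, sub_self])
    have h1 : ∑ α ∈ R φ, α = τ₁ φ - τ₁ (Cfsg.conjFun φ) := by
      rw [← hS.sum_eq φ hφS, ← hτ₁τ _ hθm]
      exact lin_sub hE₁ hτ₁ (hmem₁ φ hφ) (hmem₁ _ hφc)
    apply on_span_of_sum (hS.orthonormal φ hφS) (hS.virtual φ hφS) (hugen φ hφ) (N := n φ)
    · rw [huu φ hφ φ hφ, if_pos rfl]
    · rw [h1, Lead.classInner_sub_right, huu φ hφ φ hφ, if_pos rfl, huu φ hφ _ hφc,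
        if_neg (Ne.symm (hS.conj_ne φ hφS)), sub_zero]
  have hRχφ : ∀ φ ∈ S₁, ∀ α ∈ R χ, ∀ β ∈ R φ, Cfsg.classInner α β = 0 :=
    fun φ hφ => coh_sys_orth hS hχ (hS₁' φ hφ) (hχφ φ hφ) (hχφc φ hφ)
  have hRφχ : ∀ φ ∈ S₁, ∀ β ∈ R φ, ∀ α ∈ R χ, Cfsg.classInner β α = 0 :=
    fun φ hφ => coh_sys_orth hS (hS₁' φ hφ) hχ (Ne.symm (hχφ φ hφ))
      (fun h => hχcφ φ hφ h.symm)
  have huα : ∀ φ ∈ S₁, ∀ α ∈ R χ, Cfsg.classInner (τ₁ φ) α = 0 :=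
    fun φ hφ α hα => span_orth (hRφχ φ hφ) (huspan φ hφ)
      (Submodule.subset_span (Finset.mem_coe.mpr hα))
  have huSum : ∀ φ ∈ S₁, Cfsg.classInner (τ₁ φ) (∑ α ∈ R χ, α) = 0 :=
    fun φ hφ => span_orth (hRφχ φ hφ) (huspan φ hφ) (sum_mem_span_self _)
  have hSumu : ∀ φ ∈ S₁, Cfsg.classInner (∑ α ∈ R χ, α) (τ₁ φ) = 0 :=
    fun φ hφ => span_orth (hRχφ φ hφ) (sum_mem_span_self _) (huspan φ hφ)
  -- β = χ - m χ₁
  have hβ1 : (χ - (m : ℤ) • χ₁) 1 = 0 := by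
    simp only [Pi.sub_apply, zsmul_fun_apply, Int.cast_natCast, hd χ hχ, hd χ₁ hχ₁', hm]
    push_cast; ring
  have hβm : χ - (m : ℤ) • χ₁ ∈ Cfsg.zspanOn S {1}ᶜ :=
    mem_zspanOn_one (zspan_sub (hmemS χ hχ) (zspan_zsmul (hmemS χ₁ hχ₁') _)) hβ1
  have hBgen : Cfsg.IsGeneralizedCharacter G (τ (χ - (m : ℤ) • χ₁)) := hτ.2.2.2 _ hβm
  have hχχ₁ : Cfsg.classInner χ χ₁ = 0 := hO χ hχ χ₁ hχ₁' (hχφ χ₁ hχ₁S)
  have hχ₁χ : Cfsg.classInner χ₁ χ = 0 := hO χ₁ hχ₁' χ hχ (Ne.symm (hχφ χ₁ hχ₁S))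
  have hnormβ : Cfsg.classInner (τ (χ - (m : ℤ) • χ₁)) (τ (χ - (m : ℤ) • χ₁))
      = (n χ : ℂ) + (m : ℂ) ^ 2 * (n χ₁ : ℂ) := by
    rw [hτ.2.2.1 _ hβm _ hβm]
    have e : χ - (m : ℤ) • χ₁ = (1 : ℤ) • χ - (m : ℤ) • χ₁ := by rw [one_smul]
    rw [e, inner_comb, hn χ hχ, hn χ₁ hχ₁', hχχ₁, hχ₁χ]
    push_cast; ring
  have haint : ∀ φ ∈ S₁, ∃ k : ℤ,
      Cfsg.classInner (τ (χ - (m : ℤ) • χ₁)) (τ₁ φ) = (k : ℂ) :=
    fun φ hφ => gen_inner_int hBgen (hugen φ hφ)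
  choose! a ha using haint
  have hrel : ∀ φ ∈ S₁, (d χ₁ : ℂ) * (a φ : ℂ) - (d φ : ℂ) * (a χ₁ : ℂ)
      = (m : ℂ) * (d φ) * (n χ₁) - (if φ = χ₁ then (m : ℂ) * (d χ₁) * (n χ₁) else 0) := by
    intro φ hφ
    by_cases hφχ₁ : φ = χ₁
    · rw [if_pos hφχ₁, hφχ₁]; ring
    · rw [if_neg hφχ₁, sub_zero]
      have hφS := hS₁' φ hφ
      have hθ1 : ((d χ₁ : ℤ) • φ - (d φ : ℤ) • χ₁) 1 = 0 := by
        simp only [Pi.sub_apply, zsmul_fun_apply, Int.cast_natCast, hd φ hφS, hd χ₁ hχ₁']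
        ring
      have hθm : (d χ₁ : ℤ) • φ - (d φ : ℤ) • χ₁ ∈ Cfsg.zspanOn (↑S₁ : Set (L → ℂ)) {1}ᶜ :=
        mem_zspanOn_one (zspan_sub (zspan_zsmul (hmem₁ φ hφ) _)
          (zspan_zsmul (hmem₁ χ₁ hχ₁S) _)) hθ1
      have h1 : τ ((d χ₁ : ℤ) • φ - (d φ : ℤ) • χ₁)
          = (d χ₁ : ℤ) • τ₁ φ - (d φ : ℤ) • τ₁ χ₁ := by
        rw [← hτ₁τ _ hθm]; exact lin_comb_sub hE₁ hτ₁ (hmem₁ φ hφ) (hmem₁ χ₁ hχ₁S) _ _
      have h2 := hτ.2.2.1 _ hβm _ (hsub₁ hθm)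
      rw [h1, Lead.classInner_sub_right, classInner_zsmul_right, classInner_zsmul_right,
        ha φ hφ, ha χ₁ hχ₁S] at h2
      have e : χ - (m : ℤ) • χ₁ = (1 : ℤ) • χ - (m : ℤ) • χ₁ := by rw [one_smul]
      rw [e, inner_comb, hO χ hχ φ hφS (hχφ φ hφ), hχχ₁,
        hO χ₁ hχ₁' φ hφS (Ne.symm hφχ₁), hn χ₁ hχ₁'] at h2
      push_cast at h2
      linear_combination h2
  obtain ⟨y, hy⟩ : ∃ y : ℤ, y = a χ₁ + (m : ℤ) * (n χ₁ : ℤ) := ⟨_, rfl⟩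
  obtain ⟨E, hEdef⟩ : ∃ E : G → ℂ, E = τ (χ - (m : ℤ) • χ₁) + (m : ℤ) • τ₁ χ₁ := ⟨_, rfl⟩
  have hEgen : Cfsg.IsGeneralizedCharacter G E := by
    rw [hEdef]; exact Lead.isGen_add hBgen (isGen_zsmul (hugen χ₁ hχ₁S) _)
  have hnC : ∀ φ ∈ S₁, (n φ : ℂ) ≠ 0 := fun φ hφ => by
    exact_mod_cast (hnpos φ (hS₁' φ hφ)).ne'
  have hdC : (d χ₁ : ℂ) ≠ 0 := by exact_mod_cast (hdpos χ₁ hχ₁').ne'
  have hEu : ∀ φ ∈ S₁, (d χ₁ : ℂ) * Cfsg.classInner E (τ₁ φ) = (y : ℂ) * (d φ : ℂ) := by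
    intro φ hφ
    rw [hEdef, Lead.classInner_add_left, classInner_zsmul_left, ha φ hφ, huu χ₁ hχ₁S φ hφ, hy]
    have h1 := hrel φ hφ
    by_cases hφχ₁ : φ = χ₁
    · rw [if_pos hφχ₁.symm, hφχ₁]; push_cast; ring
    · rw [if_neg (Ne.symm hφχ₁)]
      rw [if_neg hφχ₁] at h1
      push_cast
      linear_combination h1
  have hEu' : ∀ φ ∈ S₁, Cfsg.classInner E (τ₁ φ) = (y : ℂ) * (d φ : ℂ) / (d χ₁ : ℂ) := by
    intro φ hφ
    rw [eq_div_iff hdC]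
    linear_combination hEu φ hφ
  have hEE : Cfsg.classInner E E = (n χ : ℂ) + 2 * (m : ℂ) * (y : ℂ) := by
    have e : E = (1 : ℤ) • τ (χ - (m : ℤ) • χ₁) - (-(m : ℤ)) • τ₁ χ₁ := by
      rw [hEdef, one_smul, neg_smul, sub_neg_eq_add]
    have h1 : Cfsg.classInner (τ₁ χ₁) (τ (χ - (m : ℤ) • χ₁)) = (a χ₁ : ℂ) := by
      rw [← Lead.classInner_conj_symm, ha χ₁ hχ₁S, map_intCast]
    rw [e, inner_comb, hnormβ, ha χ₁ hχ₁S, h1, huu χ₁ hχ₁S χ₁ hχ₁S, if_pos rfl, hy]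
    push_cast; ring
  -- the auxiliary combination `W`
  obtain ⟨W, hWdef⟩ : ∃ W : G → ℂ, W = ∑ φ ∈ S₁, ((d φ : ℂ) / (n φ : ℂ)) • τ₁ φ := ⟨_, rfl⟩
  have hWu : ∀ φ ∈ S₁, Cfsg.classInner W (τ₁ φ) = (d φ : ℂ) := by
    intro φ hφ
    rw [hWdef, Lead.classInner_sum_left, Finset.sum_eq_single φ]
    · rw [Lead.classInner_smul_left, huu φ hφ φ hφ, if_pos rfl]
      have := hnC φ hφ
      field_simp
    · intro φ' hφ' hne
      rw [Lead.classInner_smul_left, huu φ' hφ' φ hφ, if_neg hne, mul_zero]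
    · intro h; exact absurd hφ h
  have hXW : ∀ F : G → ℂ, Cfsg.classInner F W
      = ∑ φ ∈ S₁, ((d φ : ℂ) / (n φ : ℂ)) * Cfsg.classInner F (τ₁ φ) := by
    intro F
    rw [hWdef, Lead.classInner_sum_right]
    apply Finset.sum_congr rfl
    intro φ hφ
    rw [Lead.classInner_smul_right, map_div₀, Complex.conj_natCast, Complex.conj_natCast]
  obtain ⟨t, htdef⟩ : ∃ t : ℂ, t = (y : ℂ) / (d χ₁ : ℂ) := ⟨_, rfl⟩
  have htconj : (starRingEnd ℂ) t = t := by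
    rw [htdef, map_div₀, map_intCast, Complex.conj_natCast]
  have hFu : ∀ φ ∈ S₁, Cfsg.classInner (E - t • W) (τ₁ φ) = 0 := by
    intro φ hφ
    rw [Lead.classInner_sub_left, Lead.classInner_smul_left, hWu φ hφ, htdef, hEu' φ hφ]
    ring
  have hFW : Cfsg.classInner (E - t • W) W = 0 := by
    rw [hXW]
    apply Finset.sum_eq_zero
    intro φ hφ
    rw [hFu φ hφ, mul_zero]
  have hEW : Cfsg.classInner E W = t * ∑ φ ∈ S₁, (d φ : ℂ) ^ 2 / (n φ : ℂ) := by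
    rw [hXW, Finset.mul_sum]
    apply Finset.sum_congr rfl
    intro φ hφ
    rw [hEu' φ hφ, htdef]
    ring
  have hFF : Cfsg.classInner (E - t • W) (E - t • W)
      = (n χ : ℂ) + 2 * (m : ℂ) * (y : ℂ) - t ^ 2 * ∑ φ ∈ S₁, (d φ : ℂ) ^ 2 / (n φ : ℂ) := by
    have h1 : Cfsg.classInner (E - t • W) (E - t • W) = Cfsg.classInner (E - t • W) E := by
      conv_lhs => rw [Lead.classInner_sub_right, Lead.classInner_smul_right, hFW, mul_zero,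
        sub_zero]
    have h2 : Cfsg.classInner W E = t * ∑ φ ∈ S₁, (d φ : ℂ) ^ 2 / (n φ : ℂ) := by
      rw [← Lead.classInner_conj_symm, hEW, map_mul, htconj, map_sum]
      congr 1
      apply Finset.sum_congr rfl
      intro φ _
      rw [map_div₀, map_pow, Complex.conj_natCast, Complex.conj_natCast]
    rw [h1, Lead.classInner_sub_left, Lead.classInner_smul_left, hEE, h2]
    ring
  -- the coefficients along `R χ`
  have hαgen : ∀ α ∈ R χ, Cfsg.IsGeneralizedCharacter G α := hS.virtual χ hχ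
  have hcint : ∀ α : G → ℂ, ∃ c : ℤ, α ∈ R χ →
      Cfsg.classInner (τ (χ - (m : ℤ) • χ₁)) α = (c : ℂ) := by
    intro α
    by_cases hα : α ∈ R χ
    · obtain ⟨c, hc⟩ := gen_inner_int hBgen (hαgen α hα)
      exact ⟨c, fun _ => hc⟩
    · exact ⟨0, fun h => absurd h hα⟩
  choose c hc using hcint
  have hEα : ∀ α ∈ R χ, Cfsg.classInner E α = (c α : ℂ) := by
    intro α hα
    rw [hEdef, Lead.classInner_add_left, classInner_zsmul_left, huα χ₁ hχ₁S α hα, mul_zero,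
      add_zero, hc α hα]
  have hWα : ∀ α ∈ R χ, Cfsg.classInner W α = 0 := by
    intro α hα
    rw [hWdef, Lead.classInner_sum_left]
    apply Finset.sum_eq_zero
    intro φ hφ
    rw [Lead.classInner_smul_left, huα φ hφ α hα, mul_zero]
  have hFα : ∀ α ∈ R χ, Cfsg.classInner (E - t • W) α = (c α : ℂ) := by
    intro α hα
    rw [Lead.classInner_sub_left, Lead.classInner_smul_left, hWα α hα, mul_zero, sub_zero,
      hEα α hα]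
  have hχχc : Cfsg.classInner χ (Cfsg.conjFun χ) = 0 := hO χ hχ _ hχc (Ne.symm hχne)
  have hmemχ : χ - Cfsg.conjFun χ ∈ Cfsg.zspanOn S {1}ᶜ :=
    mem_zspanOn_one (zspan_sub (hmemS χ hχ) (hmemS _ hχc))
      (by rw [Pi.sub_apply, hconj1 χ hχ, sub_self])
  have hBSum : Cfsg.classInner (τ (χ - (m : ℤ) • χ₁)) (∑ α ∈ R χ, α) = (n χ : ℂ) := by
    rw [← hS.sum_eq χ hχ, hτ.2.2.1 _ hβm _ hmemχ]
    simp only [Lead.classInner_sub_left, Lead.classInner_sub_right, classInner_zsmul_left]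
    rw [hn χ hχ, hχχc, hχ₁χ, hO χ₁ hχ₁' _ hχc (Ne.symm (hχcφ χ₁ hχ₁S))]
    ring
  have hcsum : ∑ α ∈ R χ, c α = (n χ : ℤ) := by
    have h1 : ((∑ α ∈ R χ, c α : ℤ) : ℂ) = (n χ : ℂ) := by
      rw [← hBSum, Lead.classInner_sum_right]
      push_cast
      exact Finset.sum_congr rfl (fun i hi => (hc i hi).symm)
    exact_mod_cast h1
  have hcge : (n χ : ℤ) ≤ ∑ α ∈ R χ, c α ^ 2 := by
    rw [← hcsum]; exact Finset.sum_le_sum (fun i _ => Int.le_self_sq (c i))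
  obtain ⟨r, hr0, hr, -⟩ := bessel_lower (hS.orthonormal χ hχ) (E - t • W) c hFα
  rw [hFF] at hr
  have hSgcast : ∑ φ ∈ S₁, (d φ : ℂ) ^ 2 / (n φ : ℂ)
      = ((∑ φ ∈ S₁, (d φ : ℝ) ^ 2 / (n φ : ℝ) : ℝ) : ℂ) := by
    rw [Complex.ofReal_sum]
    apply Finset.sum_congr rfl
    intro φ _
    rw [Complex.ofReal_div, Complex.ofReal_pow, Complex.ofReal_natCast, Complex.ofReal_natCast]
  have hreal : (n χ : ℝ) + 2 * (m : ℝ) * (y : ℝ)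
      - ((y : ℝ) / (d χ₁ : ℝ)) ^ 2 * ∑ φ ∈ S₁, (d φ : ℝ) ^ 2 / (n φ : ℝ)
      = r + ((∑ α ∈ R χ, c α ^ 2 : ℤ) : ℝ) := by
    rw [hSgcast, htdef] at hr
    exact_mod_cast hr
  have hdR : (0 : ℝ) < (d χ₁ : ℝ) := by exact_mod_cast hdpos χ₁ hχ₁'
  have hcgeR : (n χ : ℝ) ≤ ((∑ α ∈ R χ, c α ^ 2 : ℤ) : ℝ) := by exact_mod_cast hcge
  have hmR : (d χ : ℝ) = (d χ₁ : ℝ) * (m : ℝ) := by exact_mod_cast hm
  obtain ⟨Sg, hSg⟩ : ∃ Sg : ℝ, Sg = ∑ φ ∈ S₁, (d φ : ℝ) ^ 2 / (n φ : ℝ) := ⟨_, rfl⟩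
  rw [← hSg] at hreal hineq
  have hkey : 0 ≤ 2 * (m : ℝ) * (y : ℝ) - ((y : ℝ) / (d χ₁ : ℝ)) ^ 2 * Sg := by linarith
  have hkey2 : 0 ≤ (y : ℝ) * (2 * (m : ℝ) * (d χ₁ : ℝ) ^ 2 - (y : ℝ) * Sg) := by
    have h1 : (y : ℝ) * (2 * (m : ℝ) * (d χ₁ : ℝ) ^ 2 - (y : ℝ) * Sg)
        = (d χ₁ : ℝ) ^ 2 * (2 * (m : ℝ) * (y : ℝ) - ((y : ℝ) / (d χ₁ : ℝ)) ^ 2 * Sg) := by
      field_simp
    rw [h1]; exact mul_nonneg (sq_nonneg _) hkey
  have hlt : 2 * (m : ℝ) * (d χ₁ : ℝ) ^ 2 < Sg := by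
    have h1 : (2 * (d χ : ℝ) * (d χ₁ : ℝ)) = 2 * (m : ℝ) * (d χ₁ : ℝ) ^ 2 := by rw [hmR]; ring
    linarith
  have hy0 : y = 0 := by
    by_contra hne
    have hSgpos : 0 < Sg := by
      have h3 : (0 : ℝ) ≤ 2 * (m : ℝ) * (d χ₁ : ℝ) ^ 2 := by positivity
      linarith
    rcases lt_or_gt_of_ne hne with h | h
    · have h1 : (y : ℝ) < 0 := by exact_mod_cast h
      have h2 : 0 < 2 * (m : ℝ) * (d χ₁ : ℝ) ^ 2 - (y : ℝ) * Sg := by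
        have h3 : (0 : ℝ) ≤ 2 * (m : ℝ) * (d χ₁ : ℝ) ^ 2 := by positivity
        have h4 : (y : ℝ) * Sg < 0 := mul_neg_of_neg_of_pos h1 hSgpos
        linarith
      have h5 := mul_neg_of_neg_of_pos h1 h2
      linarith
    · have h0 : (1 : ℤ) ≤ y := h
      have h1 : (1 : ℝ) ≤ (y : ℝ) := by exact_mod_cast h0
      have h2 : 2 * (m : ℝ) * (d χ₁ : ℝ) ^ 2 - (y : ℝ) * Sg < 0 := by
        have h4 : Sg ≤ (y : ℝ) * Sg := by nlinarith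
        linarith
      have h5 := mul_neg_of_pos_of_neg (by linarith : (0 : ℝ) < (y : ℝ)) h2
      linarith
  -- consequences of `y = 0`
  have hEu0 : ∀ φ ∈ S₁, Cfsg.classInner E (τ₁ φ) = 0 := by
    intro φ hφ
    rw [hEu' φ hφ, hy0]; simp
  have hEE0 : Cfsg.classInner E E = (n χ : ℂ) := by rw [hEE, hy0]; simp
  have hESum : Cfsg.classInner E (∑ α ∈ R χ, α) = (n χ : ℂ) := by
    rw [hEdef, Lead.classInner_add_left, classInner_zsmul_left, huSum χ₁ hχ₁S, mul_zero,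
      add_zero, hBSum]
  have hSumE : Cfsg.classInner (∑ α ∈ R χ, α) E = (n χ : ℂ) := by
    rw [← Lead.classInner_conj_symm, hESum, Complex.conj_natCast]
  have hSumSum : Cfsg.classInner (∑ α ∈ R χ, α) (∑ α ∈ R χ, α) = 2 * (n χ : ℂ) := by
    rw [← hS.sum_eq χ hχ, hτ.2.2.1 _ hmemχ _ hmemχ]
    simp only [Lead.classInner_sub_left, Lead.classInner_sub_right]
    rw [hn χ hχ, hχχc, hO _ hχc χ hχ hχne, classInner_conjFun_self, hn χ hχ]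
    ring
  -- the extension
  have hset : (↑S₁ ∪ {χ, Cfsg.conjFun χ} : Set (L → ℂ))
      = ↑(insert χ (insert (Cfsg.conjFun χ) S₁)) := by
    ext x
    simp only [Finset.coe_insert, Set.mem_union, Set.mem_insert_iff, Finset.mem_coe,
      Set.mem_singleton_iff]
    tauto
  rw [hset]
  obtain ⟨T, hTdef⟩ : ∃ T : (L → ℂ) → (G → ℂ), T = fun s => if s = χ then E
      else if s = Cfsg.conjFun χ then E - ∑ α ∈ R χ, α else τ₁ s := ⟨_, rfl⟩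
  have hTχ : T χ = E := by rw [hTdef]; exact if_pos rfl
  have hTχc : T (Cfsg.conjFun χ) = E - ∑ α ∈ R χ, α := by
    rw [hTdef]; beta_reduce; rw [if_neg hχne, if_pos rfl]
  have hT₁ : ∀ s ∈ (↑S₁ : Set (L → ℂ)), T s = τ₁ s := by
    intro s hs
    have hs' := Finset.mem_coe.mp hs
    rw [hTdef]; beta_reduce
    rw [if_neg (fun h : s = χ => hχ₁ (h ▸ hs')),
      if_neg (fun h : s = Cfsg.conjFun χ => hχ₂ (h ▸ hs'))]
  have hχ₂mem : χ ∈ insert χ (insert (Cfsg.conjFun χ) S₁) := Finset.mem_insert_self _ _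
  have hχc₂mem : Cfsg.conjFun χ ∈ insert χ (insert (Cfsg.conjFun χ) S₁) :=
    Finset.mem_insert_of_mem (Finset.mem_insert_self _ _)
  have hχ₁₂mem : χ₁ ∈ insert χ (insert (Cfsg.conjFun χ) S₁) :=
    Finset.mem_insert_of_mem (Finset.mem_insert_of_mem hχ₁S)
  have hsub₂ : (↑S₁ : Set (L → ℂ)) ⊆ ↑(insert χ (insert (Cfsg.conjFun χ) S₁)) :=
    Finset.coe_subset.mpr ((Finset.subset_insert _ _).trans (Finset.subset_insert _ _))
  have hS₂S : ∀ s ∈ insert χ (insert (Cfsg.conjFun χ) S₁), s ∈ S := by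
    intro s hs
    rcases Finset.mem_insert.mp hs with h | h
    · rw [h]; exact hχ
    rcases Finset.mem_insert.mp h with h | h
    · rw [h]; exact hχc
    · exact hS₁' s h
  have hO₂ : ∀ s ∈ insert χ (insert (Cfsg.conjFun χ) S₁),
      ∀ s' ∈ insert χ (insert (Cfsg.conjFun χ) S₁), s ≠ s' → Cfsg.classInner s s' = 0 :=
    fun s hs s' hs' hne => hO s (hS₂S s hs) s' (hS₂S s' hs') hne
  have hN₂ : ∀ s ∈ insert χ (insert (Cfsg.conjFun χ) S₁), Cfsg.classInner s s ≠ 0 := by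
    intro s hs h
    exact hs0 s (hS₂S s hs) (coh_norm_eq_zero _ h)
  have p11 : Cfsg.classInner E E = Cfsg.classInner χ χ := hEE0.trans (hn χ hχ).symm
  have p12 : Cfsg.classInner E (E - ∑ α ∈ R χ, α) = Cfsg.classInner χ (Cfsg.conjFun χ) := by
    rw [Lead.classInner_sub_right, hEE0, hESum, sub_self, hχχc]
  have p13 : ∀ φ ∈ S₁, Cfsg.classInner E (τ₁ φ) = Cfsg.classInner χ φ := by
    intro φ hφ
    rw [hEu0 φ hφ, hO χ hχ φ (hS₁' φ hφ) (hχφ φ hφ)]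
  have p22 : Cfsg.classInner (E - ∑ α ∈ R χ, α) (E - ∑ α ∈ R χ, α)
      = Cfsg.classInner (Cfsg.conjFun χ) (Cfsg.conjFun χ) := by
    simp only [Lead.classInner_sub_left, Lead.classInner_sub_right]
    rw [hEE0, hESum, hSumE, hSumSum, classInner_conjFun_self, hn χ hχ]
    ring
  have p23 : ∀ φ ∈ S₁, Cfsg.classInner (E - ∑ α ∈ R χ, α) (τ₁ φ)
      = Cfsg.classInner (Cfsg.conjFun χ) φ := by
    intro φ hφ
    rw [Lead.classInner_sub_left, hEu0 φ hφ, hSumu φ hφ, sub_zero,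
      hO _ hχc φ (hS₁' φ hφ) (hχcφ φ hφ)]
  have hsym : ∀ (u v : G → ℂ) (u' v' : L → ℂ), Cfsg.classInner u v = Cfsg.classInner u' v' →
      Cfsg.classInner v u = Cfsg.classInner v' u' := by
    intro u v u' v' h
    rw [← Lead.classInner_conj_symm, h, Lead.classInner_conj_symm]
  have hT : ∀ s ∈ insert χ (insert (Cfsg.conjFun χ) S₁),
      ∀ s' ∈ insert χ (insert (Cfsg.conjFun χ) S₁),
      Cfsg.classInner (T s) (T s') = Cfsg.classInner s s' := by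
    intro s hs s' hs'
    rcases Finset.mem_insert.mp hs with h | h
    · rcases Finset.mem_insert.mp hs' with h' | h'
      · rw [h, h', hTχ]; exact p11
      rcases Finset.mem_insert.mp h' with h' | h'
      · rw [h, h', hTχ, hTχc]; exact p12
      · rw [h, hTχ, hT₁ s' (Finset.mem_coe.mpr h')]; exact p13 s' h'
    rcases Finset.mem_insert.mp h with h | h
    · rcases Finset.mem_insert.mp hs' with h' | h'
      · rw [h, h', hTχ, hTχc]; exact hsym _ _ _ _ p12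
      rcases Finset.mem_insert.mp h' with h' | h'
      · rw [h, h', hTχc]; exact p22
      · rw [h, hTχc, hT₁ s' (Finset.mem_coe.mpr h')]; exact p23 s' h'
    · rcases Finset.mem_insert.mp hs' with h' | h'
      · rw [h', hTχ, hT₁ s (Finset.mem_coe.mpr h)]; exact hsym _ _ _ _ (p13 s h)
      rcases Finset.mem_insert.mp h' with h' | h'
      · rw [h', hTχc, hT₁ s (Finset.mem_coe.mpr h)]; exact hsym _ _ _ _ (p23 s h)
      · rw [hT₁ s (Finset.mem_coe.mpr h), hT₁ s' (Finset.mem_coe.mpr h')]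
        exact hτ₁.2.2.1 s (hmem₁ s h) s' (hmem₁ s' h')
  have hgen₂ : ∀ s ∈ insert χ (insert (Cfsg.conjFun χ) S₁),
      Cfsg.IsGeneralizedCharacter G (T s) := by
    intro s hs
    rcases Finset.mem_insert.mp hs with h | h
    · rw [h, hTχ]; exact hEgen
    rcases Finset.mem_insert.mp h with h | h
    · rw [h, hTχc]
      exact Lead.isGen_sub hEgen (Lead.isGen_sum _ _ (fun α hα => hαgen α hα))
    · rw [hT₁ s (Finset.mem_coe.mpr h)]; exact hugen s h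
  apply coherent_of_ext hO₂ hN₂ hT hgen₂
  · obtain ⟨α, hα, hα0⟩ := hne0
    exact ⟨α, zspanOn_mono hsub₂ hα, hα0⟩
  · intro γ hγ
    have hγ1 : γ 1 = 0 := zspanOn_one_apply hγ
    have hγspan : γ ∈ Submodule.span ℤ
        (↑(insert χ (insert (Cfsg.conjFun χ) S₁)) : Set (L → ℂ)) := hγ.1
    rw [Finset.coe_insert, Submodule.mem_span_insert] at hγspan
    obtain ⟨a', z', hz', rfl⟩ := hγspan
    rw [Finset.coe_insert, Submodule.mem_span_insert] at hz'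
    obtain ⟨b', z, hz, rfl⟩ := hz'
    have hz1 : (z + ((a' + b') * (m : ℤ)) • χ₁) 1 = 0 := by
      have h1 := hγ1
      simp only [Pi.add_apply, zsmul_fun_apply, hconj1 χ hχ, hd χ hχ, hm] at h1
      simp only [Pi.add_apply, zsmul_fun_apply, hd χ₁ hχ₁']
      push_cast at h1 ⊢
      linear_combination h1
    have hz'm : z + ((a' + b') * (m : ℤ)) • χ₁ ∈ Cfsg.zspanOn (↑S₁ : Set (L → ℂ)) {1}ᶜ :=
      mem_zspanOn_one (zspan_add hz (zspan_zsmul (hmem₁ χ₁ hχ₁S) _)) hz1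
    have hdecomp : a' • χ + (b' • Cfsg.conjFun χ + z)
        = ((a' + b') • (χ - (m : ℤ) • χ₁) - b' • (χ - Cfsg.conjFun χ))
          + (z + ((a' + b') * (m : ℤ)) • χ₁) := by
      funext x
      simp only [Pi.add_apply, Pi.sub_apply, zsmul_fun_apply]
      push_cast
      ring
    have h1 : τ (a' • χ + (b' • Cfsg.conjFun χ + z))
        = ((a' + b') • τ (χ - (m : ℤ) • χ₁) - b' • ∑ α ∈ R χ, α)
          + τ₁ (z + ((a' + b') * (m : ℤ)) • χ₁) := by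
      rw [hdecomp, hτ.1 _ (zspanOn_sub (zspanOn_zsmul hβm _) (zspanOn_zsmul hmemχ _)) _
        (hsub₁ hz'm), lin_comb_sub hE hτ hβm hmemχ, hS.sum_eq χ hχ, hτ₁τ _ hz'm]
    have h2 : cohExt (insert χ (insert (Cfsg.conjFun χ) S₁)) T
          (a' • χ + (b' • Cfsg.conjFun χ + z))
        = ((a' + b') • τ (χ - (m : ℤ) • χ₁) - b' • ∑ α ∈ R χ, α)
          + τ₁ (z + ((a' + b') * (m : ℤ)) • χ₁) := by
      rw [hdecomp, cohExt_add,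
        cohExt_eq_on_sub hO₂ hN₂ (↑S₁ : Set (L → ℂ)) hsub₂ τ₁ hτ₁ hT₁ _ hz'm.1]
      simp only [cohExt_sub, cohExt_zsmul]
      rw [cohExt_apply_mem hO₂ hN₂ hχ₂mem, cohExt_apply_mem hO₂ hN₂ hχc₂mem,
        cohExt_apply_mem hO₂ hN₂ hχ₁₂mem, hTχ, hTχc, hT₁ χ₁ (Finset.mem_coe.mpr hχ₁S)]
      have e1 : E - (m : ℤ) • τ₁ χ₁ = τ (χ - (m : ℤ) • χ₁) := by
        rw [hEdef, add_sub_cancel_right]
      have e2 : E - (E - ∑ α ∈ R χ, α) = ∑ α ∈ R χ, α := sub_sub_cancel E _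
      rw [e1, e2]
    rw [h1, h2]

end Cfsg.Agent.S1516
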