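import Cfsg.Statements.S1517
import Mathlib
import Cfsg.Agent.Lib.Helper6.Coh2

set_option autoImplicit false
open Cfsg
open Cfsg.Agent.Lib.Helper6 Cfsg.Agent.Lib

namespace Cfsg.Agent.S1517


/-- Let (S, τ, R) be a coherence system from L to G such that φ 1 = ψ 1 for all φ, ψ ∈ S. Then (S, L minus 1, τ) is coherent. -/
theorem result {L : Type*} [Group L] [Fintype L] {G : Type*} [Group G] [Fintype G] (S : Set (L → ℂ)) (τ : (L → ℂ) → (G → ℂ)) (R : (L → ℂ) → Finset (G → ℂ)) (hS : Cfsg.IsCoherenceSystem S τ R) (hdeg : ∀ φ ∈ S, ∀ ψ ∈ S, φ 1 = ψ 1) : Cfsg.IsCoherent S {1}ᶜ τ := by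
  classical
  obtain ⟨χ, hχ⟩ := hS.nonempty
  have hmem : ∀ φ ∈ S, ∀ ψ ∈ S, φ - ψ ∈ Cfsg.zspanOn S {1}ᶜ := fun φ hφ ψ hψ =>
    mem_zspanOn_one (zspan_sub (zspan_mem hφ) (zspan_mem hψ))
      (by rw [Pi.sub_apply, hdeg φ hφ ψ hψ, sub_self])
  have hE := zclosed_zspanOn S ({1}ᶜ : Set L)
  have hτ := hS.isometry
  have hχc := hS.conj_mem χ hχ
  have hχne := hS.conj_ne χ hχ
  have hO := hS.orthogonal
  have hχ0 : χ ≠ 0 := by
    intro h
    apply hχne
    rw [h]
    funext x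
    simp [Cfsg.conjFun]
  have hd0 : χ 1 ≠ 0 := char_one_ne_zero (hS.isCharacter χ hχ) hχ0
  obtain ⟨n, hn⟩ := gen_norm_nat (Lead.isGen_of_char (hS.isCharacter χ hχ))
  have hne : ∃ α ∈ Cfsg.zspanOn S {1}ᶜ, α ≠ 0 :=
    ⟨χ - Cfsg.conjFun χ, hmem χ hχ _ hχc, sub_ne_zero.mpr (Ne.symm hχne)⟩
  have hX : ∃ X : G → ℂ, Cfsg.IsGeneralizedCharacter G X ∧
      Cfsg.classInner X X = Cfsg.classInner χ χ ∧
      ∀ s ∈ S, s ≠ χ → Cfsg.classInner X (τ (χ - s)) = Cfsg.classInner χ χ := by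
    by_cases hex : ∃ ξ ∈ S, ξ ≠ χ ∧ ξ ≠ Cfsg.conjFun χ
    · obtain ⟨ξ, hξ, hξ1, hξ2⟩ := hex
      have hξc := hS.conj_mem ξ hξ
      obtain ⟨X, Y, hD, hXsp, hYsp, hXgen, hXX, hXR⟩ := coh_sys_split hS hχ hξ hξ1 hξ2
        (hmem χ hχ ξ hξ) (hmem χ hχ _ hχc) (hmem ξ hξ _ hξc)
      have hχξc : χ ≠ Cfsg.conjFun ξ := fun h => hξ2 (by rw [h, conjFun_conjFun])
      have hRo := coh_sys_orth hS hχ hξ (Ne.symm hξ1) hχξc
      have hRo' := coh_sys_orth hS hξ hχ hξ1 hξ2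
      refine ⟨X, hXgen, hXX, ?_⟩
      intro s hs hsχ
      by_cases h1 : s = Cfsg.conjFun χ
      · rw [h1, hS.sum_eq χ hχ]; exact hXR
      by_cases h2 : s = ξ
      · rw [h2, hD, Lead.classInner_add_right, hXX, span_orth hRo hXsp hYsp, add_zero]
      by_cases h3 : s = Cfsg.conjFun ξ
      · have e : χ - Cfsg.conjFun ξ = (χ - ξ) + (ξ - Cfsg.conjFun ξ) := by abel
        rw [h3, e, hτ.1 _ (hmem χ hχ ξ hξ) _ (hmem ξ hξ _ hξc), Lead.classInner_add_right, hD,
          Lead.classInner_add_right, hXX, span_orth hRo hXsp hYsp, hS.sum_eq ξ hξ,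
          span_orth hRo hXsp (sum_mem_span_self _), add_zero, add_zero]
      · have hsc := hS.conj_mem s hs
        obtain ⟨Xs, Ys, hDs, hXssp, hYssp, -, -, -⟩ := coh_sys_split hS hχ hs hsχ h1
          (hmem χ hχ s hs) (hmem χ hχ _ hχc) (hmem s hs _ hsc)
        have hξsc : ξ ≠ Cfsg.conjFun s := fun h => h3 (by rw [h, conjFun_conjFun])
        have hRo2 := coh_sys_orth hS hξ hs (Ne.symm h2) hξsc
        have h4 : Cfsg.classInner (τ (χ - ξ)) (τ (χ - s)) = Cfsg.classInner χ χ := by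
          rw [hτ.2.2.1 _ (hmem χ hχ ξ hξ) _ (hmem χ hχ s hs), Lead.classInner_sub_left,
            Lead.classInner_sub_right, Lead.classInner_sub_right,
            hO χ hχ s hs (Ne.symm hsχ), hO ξ hξ χ hχ hξ1, hO ξ hξ s hs (Ne.symm h2)]
          ring
        have h5 : Cfsg.classInner Y (τ (χ - s)) = 0 := by
          rw [hDs, Lead.classInner_add_right, span_orth hRo' hYsp hXssp,
            span_orth hRo2 hYsp hYssp, add_zero]
        have h6 : Cfsg.classInner X (τ (χ - s))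
            = Cfsg.classInner (τ (χ - ξ)) (τ (χ - s)) - Cfsg.classInner Y (τ (χ - s)) := by
          rw [hD, Lead.classInner_add_left]; ring
        rw [h6, h4, h5, sub_zero]
    · push Not at hex
      have hRon := hS.orthonormal χ hχ
      have hcard : (R χ).card = 2 * n := by
        have h1 := on_sum_inner hRon (Finset.Subset.refl (R χ)) (Finset.Subset.refl (R χ))
        rw [Finset.inter_self, ← hS.sum_eq χ hχ, hτ.2.2.1 _ (hmem χ hχ _ hχc) _ (hmem χ hχ _ hχc),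
          Lead.classInner_sub_left, Lead.classInner_sub_right, Lead.classInner_sub_right,
          hO χ hχ _ hχc (Ne.symm hχne), hO _ hχc χ hχ hχne, classInner_conjFun_self, hn] at h1
        have h2 : (((R χ).card : ℕ) : ℂ) = ((2 * n : ℕ) : ℂ) := by
          rw [← h1]; push_cast; ring
        exact_mod_cast h2
      obtain ⟨A, hA, hAcard⟩ := Finset.exists_subset_card_eq (s := R χ) (n := n) (by omega)
      refine ⟨∑ α ∈ A, α, Lead.isGen_sum _ _ (fun α hα => hS.virtual χ hχ α (hA hα)), ?_, ?_⟩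
      · rw [on_sum_inner hRon hA hA, Finset.inter_self, hAcard, hn]
      · intro s hs hsχ
        rw [hex s hs hsχ, hS.sum_eq χ hχ, on_sum_inner hRon hA (Finset.Subset.refl (R χ)),
          Finset.inter_eq_left.mpr hA, hAcard, hn]
  obtain ⟨X, hXgen, hXX, hXs⟩ := hX
  apply coherent_of_equal_deg hτ hχ hd0 (fun s hs => hdeg s hs χ hχ) hXgen hXX _ hne
  intro s hs
  by_cases hsχ : s = χ
  · rw [hsχ, sub_self, lin_zero hE hτ, Lead.classInner_zero_right, Lead.classInner_zero_right]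
  · have e : s - χ = -(χ - s) := by abel
    rw [e, lin_neg hτ (hmem χ hχ s hs), classInner_neg_right, classInner_neg_right,
      hXs s hs hsχ, Lead.classInner_sub_right, hO χ hχ s hs (Ne.symm hsχ), sub_zero]

end Cfsg.Agent.S1517
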