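import Cfsg.Statements.S1525
import Mathlib
import Cfsg.Agent.Lib.Helper6.Dade

set_option autoImplicit false
open Cfsg
open Cfsg.Agent.Lib.Helper6 Cfsg.Agent.Lib

namespace Cfsg.Agent.S1525


/-- Under the Dade hypothesis for (A, L, H), let χ be a class function of G and let ψ be a function on L whose value at each a ∈ A is the average of χ over the coset a·H(a). Then (1/|G|) Σ |χ g|² over the elements g of G conjugate into some coset a·H(a) with a ∈ A is at least (1/|L|) Σ_{a ∈ A ∩ L} |ψ a|². -/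
theorem result {G : Type*} [Group G] [Fintype G] (A : Set G) (L : Subgroup G) [Fintype L] (H : G → Subgroup G) (hD : Cfsg.DadeHypothesis A L H) (χ : G → ℂ) (hχ : Cfsg.IsClassFunction G χ) (ψ : L → ℂ) (hψ : ∀ a : L, (a : G) ∈ A → ψ a = (Nat.card (H a) : ℂ)⁻¹ * ∑ᶠ u ∈ (H a : Set G), χ (a * u)) : (Nat.card L : ℝ)⁻¹ * ∑ᶠ a ∈ {a : L | (a : G) ∈ A}, ‖ψ a‖ ^ 2 ≤ (Nat.card G : ℝ)⁻¹ * ∑ᶠ g ∈ {g : G | ∃ a ∈ A, ∃ u ∈ H a, ∃ x : G, x * g * x⁻¹ = a * u}, ‖χ g‖ ^ 2 := by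
  classical
  have hcount := dade_count (𝕜 := ℝ) hD (fun g => ‖χ g‖ ^ 2) (fun g x => by
    show ‖χ (x * g * x⁻¹)‖ ^ 2 = ‖χ g‖ ^ 2
    rw [hχ g x])
  rw [hcount]
  have hG : (0:ℝ) < Nat.card G := by exact_mod_cast Nat.card_pos
  rw [← mul_assoc, ← mul_assoc, inv_mul_cancel₀ hG.ne', one_mul]
  apply mul_le_mul_of_nonneg_left _ (inv_nonneg.mpr (Nat.cast_nonneg _))
  rw [finsum_mem_eq_finite_toFinset_sum _ (Set.toFinite _),
    finsum_mem_eq_finite_toFinset_sum _ (Set.toFinite _)]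
  apply Finset.sum_le_sum
  intro a ha
  rw [Set.Finite.mem_toFinset] at ha
  have ha' : (a : G) ∈ A := ha
  rw [hψ a ha', finsum_mem_eq_finite_toFinset_sum _ (Set.toFinite _),
    finsum_mem_eq_finite_toFinset_sum _ (Set.toFinite _)]
  have hcard : (Set.toFinite (H (a:G) : Set G)).toFinset.card = Nat.card (H (a:G)) := by
    rw [← Set.ncard_eq_toFinset_card]
    rfl
  have hpos : (0:ℝ) < Nat.card (H (a:G)) := by exact_mod_cast Nat.card_pos
  rw [norm_mul, norm_inv, Complex.norm_natCast, mul_pow]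
  have h1 : ‖∑ u ∈ (Set.toFinite (H (a:G) : Set G)).toFinset, χ (a * u)‖ ^ 2
      ≤ (Nat.card (H (a:G)) : ℝ)
        * ∑ u ∈ (Set.toFinite (H (a:G) : Set G)).toFinset, ‖χ (a * u)‖ ^ 2 := by
    calc ‖∑ u ∈ (Set.toFinite (H (a:G) : Set G)).toFinset, χ (a * u)‖ ^ 2
        ≤ (∑ u ∈ (Set.toFinite (H (a:G) : Set G)).toFinset, ‖χ (a * u)‖) ^ 2 := by
          apply pow_le_pow_left₀ (norm_nonneg _) (norm_sum_le _ _)
      _ ≤ _ := by
          rw [← hcard]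
          exact sq_sum_le_card_mul_sum_sq
  calc ((Nat.card (H (a:G)) : ℝ))⁻¹ ^ 2
        * ‖∑ u ∈ (Set.toFinite (H (a:G) : Set G)).toFinset, χ (a * u)‖ ^ 2
      ≤ ((Nat.card (H (a:G)) : ℝ))⁻¹ ^ 2 * ((Nat.card (H (a:G)) : ℝ)
        * ∑ u ∈ (Set.toFinite (H (a:G) : Set G)).toFinset, ‖χ (a * u)‖ ^ 2) := by
        apply mul_le_mul_of_nonneg_left h1 (by positivity)
    _ = _ := by field_simp

end Cfsg.Agent.S1525
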