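import Cfsg.Statements.S1527
import Mathlib

set_option autoImplicit false
open Cfsg

namespace Cfsg.Agent.S1527

theorem card_U {G : Type*} [Group G] [Fintype G] [DecidableEq G] (H : Subgroup G)
    (hTI : Cfsg.IsTISubset (H : Set G)) [DecidablePred (fun x : G => x ≠ 1 ∧ ∃ g : G, g⁻¹ * x * g ∈ H)]
    [DecidablePred (fun h : G => h ∈ H)] [DecidablePred (fun h : G => h ∈ Subgroup.normalizer (H : Set G))] :
    (Finset.univ.filter (fun x : G => x ≠ 1 ∧ ∃ g : G, g⁻¹ * x * g ∈ H)).card
      = (Subgroup.normalizer (H : Set G)).index * (Nat.card H - 1) := by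
  have hfib : ∀ x ∈ Finset.univ.filter (fun x : G => x ≠ 1 ∧ ∃ g : G, g⁻¹ * x * g ∈ H),
      ((Finset.univ ×ˢ ((Finset.univ.filter (fun h : G => h ∈ H)).erase 1)).filter
        (fun p : G × G => p.1 * p.2 * p.1⁻¹ = x)).card
        = (Finset.univ.filter (fun h : G => h ∈ Subgroup.normalizer (H : Set G))).card := by
    intro x hx
    simp only [Finset.mem_filter, Finset.mem_univ, true_and] at hx
    obtain ⟨hx1, g₀, hg₀⟩ := hx
    apply Finset.card_bij (fun p _ => g₀⁻¹ * p.1)
    · rintro ⟨g, h⟩ hp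
      simp only [Finset.mem_filter, Finset.mem_product, Finset.mem_univ, true_and,
        Finset.mem_erase] at hp ⊢
      obtain ⟨⟨hh1, hhH⟩, hgh⟩ := hp
      by_contra hn
      apply hh1
      apply hTI (g₀⁻¹ * g) hn h hhH
      have e : g₀⁻¹ * g * h * (g₀⁻¹ * g)⁻¹ = g₀⁻¹ * (g * h * g⁻¹) * g₀ := by group
      rw [e, hgh]; exact hg₀
    · rintro ⟨g, h⟩ hp ⟨g', h'⟩ hp' heq
      simp only [Finset.mem_filter, Finset.mem_product, Finset.mem_univ, true_and,
        Finset.mem_erase] at hp hp'
      have hgg : g = g' := mul_left_cancel heq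
      subst hgg
      have hh : h = h' := by
        have e1 : h = g⁻¹ * (g * h * g⁻¹) * g := by group
        have e2 : h' = g⁻¹ * (g * h' * g⁻¹) * g := by group
        rw [e1, e2, hp.2, hp'.2]
      rw [hh]
    · intro n hn
      simp only [Finset.mem_filter, Finset.mem_univ, true_and] at hn
      refine ⟨(g₀ * n, n⁻¹ * (g₀⁻¹ * x * g₀) * n), ?_, by group⟩
      simp only [Finset.mem_filter, Finset.mem_product, Finset.mem_univ, true_and,
        Finset.mem_erase]
      refine ⟨⟨?_, ?_⟩, by group⟩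
      · intro h1
        apply hx1
        have e : x = g₀ * n * (n⁻¹ * (g₀⁻¹ * x * g₀) * n) * (g₀ * n)⁻¹ := by group
        rw [e, h1]; group
      · rw [Subgroup.mem_normalizer_iff] at hn
        refine (hn _).mpr ?_
        have e : n * (n⁻¹ * (g₀⁻¹ * x * g₀) * n) * n⁻¹ = g₀⁻¹ * x * g₀ := by group
        rw [e]; exact hg₀
  have hA : ((Finset.univ : Finset G) ×ˢ ((Finset.univ.filter (fun h : G => h ∈ H)).erase 1)).card
      = (Finset.univ.filter (fun x : G => x ≠ 1 ∧ ∃ g : G, g⁻¹ * x * g ∈ H)).card *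
        (Finset.univ.filter (fun h : G => h ∈ Subgroup.normalizer (H : Set G))).card := by
    have hmaps : Set.MapsTo (fun p : G × G => p.1 * p.2 * p.1⁻¹)
        ((Finset.univ ×ˢ ((Finset.univ.filter (fun h : G => h ∈ H)).erase 1) : Finset (G × G)) : Set (G × G))
        ((Finset.univ.filter (fun x : G => x ≠ 1 ∧ ∃ g : G, g⁻¹ * x * g ∈ H) : Finset G) : Set G) := by
      rintro ⟨g, h⟩ hp
      simp only [Finset.coe_product, Finset.coe_univ, Finset.coe_erase, Finset.coe_filter,
        Finset.mem_univ, true_and, Set.mem_prod, Set.mem_univ, Set.mem_sdiff,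
        Set.mem_singleton_iff, Set.mem_ofPred_eq] at hp ⊢
      refine ⟨?_, g, ?_⟩
      · intro h1
        apply hp.2
        have e : h = g⁻¹ * (g * h * g⁻¹) * g := by group
        rw [e, h1]; group
      · have e : g⁻¹ * (g * h * g⁻¹) * g = h := by group
        rw [e]; exact hp.1
    rw [Finset.card_eq_sum_card_fiberwise hmaps, Finset.sum_congr rfl hfib, Finset.sum_const,
      smul_eq_mul]
  have hH : ((Finset.univ.filter (fun h : G => h ∈ H)).erase 1).card = Nat.card H - 1 := by
    rw [Finset.card_erase_of_mem (by simp [one_mem]), ← Fintype.card_subtype,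
      Nat.card_eq_fintype_card]
  have hN : (Finset.univ.filter (fun h : G => h ∈ Subgroup.normalizer (H : Set G))).card
      = Nat.card (Subgroup.normalizer (H : Set G)) := by
    rw [← Fintype.card_subtype, Nat.card_eq_fintype_card]
  rw [Finset.card_product, Finset.card_univ, hH, hN] at hA
  have hidx := (Subgroup.normalizer (H : Set G)).index_mul_card
  rw [Nat.card_eq_fintype_card (α := G)] at hidx
  have hNpos : 0 < Nat.card (Subgroup.normalizer (H : Set G)) := Nat.card_pos
  apply Nat.eq_of_mul_eq_mul_right hNpos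
  rw [← hA, ← hidx]; ring

/-- Let G be a finite group and H i (i in a finite index type) subgroups of pairwise coprime orders, each of whose underlying sets is a TI-subset of G, such that every non-identity element of G is conjugate to an element of some H i. Then Nat.card G − 1 = Σ_i [G : N_G(H i)] · (Nat.card (H i) − 1). -/
theorem result {G : Type*} [Group G] [Finite G] {ι : Type*} [Fintype ι] (H : ι → Subgroup G) (hcop : ∀ i j, i ≠ j → Nat.Coprime (Nat.card (H i)) (Nat.card (H j))) (hTI : ∀ i, Cfsg.IsTISubset (H i : Set G)) (hcover : ∀ g : G, g ≠ 1 → ∃ i, ∃ x : G, x * g * x⁻¹ ∈ H i) : Nat.card G - 1 = ∑ i, (Subgroup.normalizer (H i : Set G)).index * (Nat.card (H i) - 1) := by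
  classical
  have := Fintype.ofFinite G
  have hunion : (Finset.univ : Finset G).erase 1 = Finset.univ.biUnion
      (fun i => Finset.univ.filter (fun x : G => x ≠ 1 ∧ ∃ g : G, g⁻¹ * x * g ∈ H i)) := by
    ext x
    simp only [Finset.mem_erase, Finset.mem_univ, and_true, Finset.mem_biUnion, Finset.mem_filter,
      true_and]
    constructor
    · intro hx
      obtain ⟨i, y, hy⟩ := hcover x hx
      refine ⟨i, hx, y⁻¹, ?_⟩
      rw [inv_inv]; exact hy
    · rintro ⟨i, hx, -⟩; exact hx
  have hdisj : ∀ i ∈ (Finset.univ : Finset ι), ∀ j ∈ (Finset.univ : Finset ι), i ≠ j →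
      Disjoint (Finset.univ.filter (fun x : G => x ≠ 1 ∧ ∃ g : G, g⁻¹ * x * g ∈ H i))
        (Finset.univ.filter (fun x : G => x ≠ 1 ∧ ∃ g : G, g⁻¹ * x * g ∈ H j)) := by
    intro i _ j _ hij
    rw [Finset.disjoint_left]
    intro x hxi hxj
    simp only [Finset.mem_filter, Finset.mem_univ, true_and] at hxi hxj
    obtain ⟨hx1, g, hg⟩ := hxi
    obtain ⟨-, k, hk⟩ := hxj
    apply hx1
    have ho : ∀ (K : Subgroup G) (g : G), g⁻¹ * x * g ∈ K → orderOf x ∣ Nat.card K := by
      intro K g hg
      have h3 : (g⁻¹ * x * g) ^ Nat.card K = 1 := by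
        have h1 : (⟨g⁻¹ * x * g, hg⟩ : K) ^ Nat.card K = 1 := pow_card_eq_one'
        have h2 : (((⟨g⁻¹ * x * g, hg⟩ : K) ^ Nat.card K : K) : G) = 1 := by rw [h1]; rfl
        rw [Subgroup.coe_pow] at h2
        exact h2
      have h4 : g⁻¹ * x ^ Nat.card K * g = 1 := by
        have := conj_pow (a := g⁻¹) (b := x) (i := Nat.card K)
        rw [inv_inv] at this
        rw [← this]; exact h3
      have h5 : x ^ Nat.card K = 1 := by
        have : x ^ Nat.card K = g * (g⁻¹ * x ^ Nat.card K * g) * g⁻¹ := by group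
        rw [this, h4]; group
      exact orderOf_dvd_of_pow_eq_one h5
    have h1 := Nat.dvd_gcd (ho (H i) g hg) (ho (H j) k hk)
    rw [hcop i j hij] at h1
    exact orderOf_eq_one_iff.mp (Nat.dvd_one.mp h1)
  rw [Nat.card_eq_fintype_card, ← Finset.card_univ, ← Finset.card_erase_of_mem (Finset.mem_univ 1),
    hunion, Finset.card_biUnion hdisj]
  apply Finset.sum_congr rfl
  intro i _
  exact card_U (H i) (hTI i)

end Cfsg.Agent.S1527
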