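import Cfsg.Statements.S1528
import Mathlib
import Cfsg.Agent.Lib.Helper6.BrauerFix
import Cfsg.Agent.Lib.Lead.Char15

set_option autoImplicit false
open Cfsg
open Cfsg.Agent.Lib.Helper6 Cfsg.Agent.Lib

namespace Cfsg.Agent.S1528


/-- Let N be a normal subgroup of the finite group G such that every element of G commuting with a non-identity element of N lies in N. If χ is an irreducible character of G with χ n ≠ χ 1 for some n ∈ N, then χ is the function induced from some irreducible character of N. -/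
theorem result {G : Type*} [Group G] [Fintype G] (N : Subgroup G) [N.Normal] (hC : ∀ n ∈ N, n ≠ 1 → Subgroup.centralizer ({n} : Set G) ≤ N) (χ : G → ℂ) (hχ : Cfsg.IsIrrCharacter G χ) (hker : ∃ n ∈ N, χ n ≠ χ 1) : ∃ φ : N → ℂ, Cfsg.IsIrrCharacter N φ ∧ χ = Cfsg.indFun N φ := by
  classical
  haveI : Fintype N := Fintype.ofFinite N
  haveI : Fintype (Cfsg.IrrCharacter N) := Fintype.ofFinite _
  obtain ⟨χN, hχN⟩ : ∃ χN : N → ℂ, χN = fun n : N => χ n := ⟨_, rfl⟩
  have hχNchar : Cfsg.IsCharacter N χN := by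
    rw [hχN]; exact Lead.isCharacter_restrict N (Lead.isCharacter_of_irr hχ)
  have hχNcf : Cfsg.IsClassFunction N χN := Lead.isClassFunction_of_char hχNchar
  have hexp := Lead.class_fn_expand' χN hχNcf
  have hex : ∃ φ : Cfsg.IrrCharacter N, (φ.1 : N → ℂ) ≠ (fun _ => 1) ∧
      Cfsg.classInner χN φ.1 ≠ 0 := by
    by_contra hcon
    push Not at hcon
    obtain ⟨n, hn, hne⟩ := hker
    apply hne
    have hval : ∀ m : N, χN m = Cfsg.classInner χN (fun _ => (1:ℂ)) := by
      intro m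
      have h1 := congrFun hexp m
      rw [Finset.sum_apply, Finset.sum_eq_single
        (⟨fun _ => 1, Lead.isIrrCharacter_one⟩ : Cfsg.IrrCharacter N)] at h1
      · rw [h1]; simp
      · intro b _ hb
        rw [hcon b (fun h => hb (Subtype.ext h))]; simp
      · intro h; exact absurd (Finset.mem_univ _) h
    have e1 : χ n = χN ⟨n, hn⟩ := by rw [hχN]
    have e2 : χ 1 = χN 1 := by rw [hχN]; rfl
    rw [e1, e2, hval ⟨n, hn⟩, hval 1]
  obtain ⟨φ, hφ1, hφne⟩ := hex
  have hinert : ∀ g : G, (∀ h : N, φ.1 ⟨g * h * g⁻¹, ‹N.Normal›.conj_mem h h.2 g⟩ = φ.1 h) ↔ g ∈ N := by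
    intro g
    constructor
    · intro hg
      obtain ⟨k₀, hk₀, hk1, c, hc, hceq⟩ :=
        exists_fixed_class_of_fixed_char N g φ.1 φ.2 hφ1 (funext hg)
      have hcent : c⁻¹ * g ∈ Subgroup.centralizer ({k₀} : Set G) := by
        rw [Subgroup.mem_centralizer_iff]
        intro y hy
        rw [Set.mem_singleton_iff] at hy
        rw [hy]
        have h1 : g * k₀ = c * k₀ * c⁻¹ * g := by rw [← hceq]; group
        calc k₀ * (c⁻¹ * g) = c⁻¹ * (c * k₀ * c⁻¹ * g) := by group
          _ = c⁻¹ * (g * k₀) := by rw [h1]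
          _ = c⁻¹ * g * k₀ := by group
      have h2 := hC k₀ hk₀ hk1 hcent
      have h3 : g = c * (c⁻¹ * g) := by group
      rw [h3]; exact N.mul_mem hc h2
    · intro hg h
      exact Lead.isClassFunction_of_irr φ h ⟨g, hg⟩
  have hcard : Nat.card {g : G // ∀ h : N, φ.1 ⟨g * h * g⁻¹, ‹N.Normal›.conj_mem h h.2 g⟩ = φ.1 h}
      = Nat.card N :=
    Nat.card_congr (Equiv.subtypeEquivRight hinert)
  have hnorm := Lead.card_mul_inner_ind_normal N φ.1 φ.2
  rw [hcard] at hnorm
  have hNne : (Nat.card N : ℂ) ≠ 0 := by exact_mod_cast Nat.card_pos.ne'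
  have hnorm1 : Cfsg.classInner (Cfsg.indFun N φ.1) (Cfsg.indFun N φ.1) = 1 :=
    mul_left_cancel₀ hNne (hnorm.trans (mul_one _).symm)
  have hirr : Cfsg.IsIrrCharacter G (Cfsg.indFun N φ.1) :=
    Lead.isIrrCharacter_of_norm_one
      (Lead.isCharacter_indFun N φ.1 (Lead.isCharacter_of_irr φ.2)) hnorm1
  refine ⟨φ.1, φ.2, ?_⟩
  have hfr := Lead.frobenius_reciprocity N φ.1 χ
    (Lead.isClassFunction_of_char (Lead.isCharacter_of_irr hχ))
  have hne2 : Cfsg.classInner (Cfsg.indFun N φ.1) χ ≠ 0 := by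
    rw [hfr, ← hχN, ← Lead.classInner_conj_symm]
    intro h0
    apply hφne
    have := congrArg (starRingEnd ℂ) h0
    rwa [Complex.conj_conj, map_zero] at this
  have hin := Lead.irr_inner (⟨_, hirr⟩ : Cfsg.IrrCharacter G) ⟨χ, hχ⟩
  by_contra hne3
  apply hne2
  rw [hin, if_neg]
  intro h; exact hne3 (congrArg Subtype.val h).symm

end Cfsg.Agent.S1528
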