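import Cfsg.Statements.S1529
import Mathlib
import Cfsg.Agent.Lib.Helper6.GenChar

set_option autoImplicit false
open Cfsg
open Cfsg.Agent.Lib.Helper6 Cfsg.Agent.Lib

namespace Cfsg.Agent.S1529


/-- Let N be a subgroup of the finite group G, S a set of irreducible characters of N with at least two members, and τ₁ a linear isometry on the integer combinations of S with virtual-character values such that τ₁ α vanishes at 1 whenever α ∈ ℤ[S] does. Then there is ε ∈ {1, −1} such that ε • τ₁ χ is an irreducible character of G for every χ ∈ S, and distinct members of S give distinct characters. -/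
theorem result {G : Type*} [Group G] [Fintype G] (N : Subgroup G) [Fintype N] (S : Set (N → ℂ)) (hirr : ∀ χ ∈ S, Cfsg.IsIrrCharacter N χ) (htwo : ∃ χ ∈ S, ∃ ψ ∈ S, χ ≠ ψ) (τ₁ : (N → ℂ) → (G → ℂ)) (hτ₁ : Cfsg.IsLinearIsometryOn (Cfsg.zspan S) τ₁) (h0 : ∀ α ∈ Cfsg.zspan S, α 1 = 0 → τ₁ α 1 = 0) : ∃ ε : ℂ, (ε = 1 ∨ ε = -1) ∧ (∀ χ ∈ S, Cfsg.IsIrrCharacter G (ε • τ₁ χ)) ∧ (∀ χ ∈ S, ∀ ψ ∈ S, τ₁ χ = τ₁ ψ → χ = ψ) := by
  classical
  obtain ⟨hadd, hsmul, hiso, hgen⟩ := hτ₁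
  have hmem : ∀ χ ∈ S, χ ∈ Cfsg.zspan S := fun χ hχ => Submodule.subset_span hχ
  have hnorm : ∀ χ ∈ S, Cfsg.classInner (τ₁ χ) (τ₁ χ) = 1 := by
    intro χ hχ
    rw [hiso χ (hmem χ hχ) χ (hmem χ hχ)]
    exact Lead.irr_inner_self ⟨χ, hirr χ hχ⟩
  have hcases : ∀ χ ∈ S, ∃ p : Cfsg.IrrCharacter G, τ₁ χ = p.1 ∨ τ₁ χ = -p.1 := fun χ hχ =>
    gen_norm_one_cases _ (hgen χ (hmem χ hχ)) (hnorm χ hχ)
  have hinj : ∀ χ ∈ S, ∀ ψ ∈ S, τ₁ χ = τ₁ ψ → χ = ψ := by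
    intro χ hχ ψ hψ heq
    by_contra hne
    have h1 := hiso χ (hmem χ hχ) ψ (hmem ψ hψ)
    rw [← heq, hnorm χ hχ] at h1
    have h2 := Lead.irr_inner_ne (χ := (⟨χ, hirr χ hχ⟩ : Cfsg.IrrCharacter N))
      (ψ := ⟨ψ, hirr ψ hψ⟩) (fun h => hne (congrArg Subtype.val h))
    rw [h2] at h1
    exact one_ne_zero h1
  have hsign : ∀ χ ∈ S, ∀ ψ ∈ S, Cfsg.IsIrrCharacter G (τ₁ χ) →
      Cfsg.IsIrrCharacter G (τ₁ ψ) := by
    intro χ hχ ψ hψ hpos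
    obtain ⟨q, hq | hq⟩ := hcases ψ hψ
    · rw [hq]; exact q.2
    · exfalso
      obtain ⟨dχ, hdχ, hdχ1⟩ := Lead.irr_one_eq_nat ⟨χ, hirr χ hχ⟩
      obtain ⟨dψ, hdψ, hdψ1⟩ := Lead.irr_one_eq_nat ⟨ψ, hirr ψ hψ⟩
      obtain ⟨dp, hdp, hdp1⟩ := Lead.irr_one_eq_nat ⟨τ₁ χ, hpos⟩
      obtain ⟨dq, hdq, hdq1⟩ := Lead.irr_one_eq_nat q
      have hm1 : ((dψ : ℤ) • χ) ∈ Cfsg.zspan S := Submodule.smul_mem _ _ (hmem χ hχ)
      have hm2 : ((-(dχ : ℤ)) • ψ) ∈ Cfsg.zspan S := Submodule.smul_mem _ _ (hmem ψ hψ)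
      have hm : ((dψ : ℤ) • χ + (-(dχ : ℤ)) • ψ) ∈ Cfsg.zspan S := Submodule.add_mem _ hm1 hm2
      have hα1 : ((dψ : ℤ) • χ + (-(dχ : ℤ)) • ψ) 1 = 0 := by
        simp only [Pi.add_apply, Pi.smul_apply]
        simp only [zsmul_eq_mul]
        rw [show χ 1 = (dχ : ℂ) from hdχ1, show ψ 1 = (dψ : ℂ) from hdψ1]
        push_cast; ring
      have h3 := h0 _ hm hα1
      rw [hadd _ hm1 _ hm2, hsmul χ (hmem χ hχ) (dψ : ℤ), hsmul ψ (hmem ψ hψ) (-(dχ : ℤ))] at h3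
      simp only [Pi.add_apply, Pi.smul_apply] at h3
      simp only [zsmul_eq_mul] at h3
      rw [hq, show τ₁ χ 1 = (dp : ℂ) from hdp1] at h3
      simp only [Pi.neg_apply] at h3
      rw [hdq1] at h3
      have h4 : (dψ : ℤ) * dp + (dχ : ℤ) * dq = 0 := by
        have h5 : (((dψ : ℤ) * dp + (dχ : ℤ) * dq : ℤ) : ℂ) = 0 := by
          push_cast; push_cast at h3; linear_combination h3
        exact_mod_cast h5
      have h5 : 0 < (dψ : ℤ) * dp := by positivity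
      have h6 : 0 < (dχ : ℤ) * dq := by positivity
      omega
  obtain ⟨χ₀, hχ₀, -⟩ := htwo
  by_cases hpos : Cfsg.IsIrrCharacter G (τ₁ χ₀)
  · refine ⟨1, Or.inl rfl, ?_, hinj⟩
    intro χ hχ
    rw [one_smul]; exact hsign χ₀ hχ₀ χ hχ hpos
  · refine ⟨-1, Or.inr rfl, ?_, hinj⟩
    intro χ hχ
    obtain ⟨q, hq | hq⟩ := hcases χ hχ
    · exfalso; apply hpos
      exact hsign χ hχ χ₀ hχ₀ (by rw [hq]; exact q.2)
    · rw [hq, neg_smul, one_smul, neg_neg]; exact q.2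

end Cfsg.Agent.S1529
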