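import Cfsg.Statements.S1530
import Mathlib
import Cfsg.Agent.Lib.Helper6.Coh

set_option autoImplicit false
open Cfsg
open Cfsg.Agent.Lib.Helper6 Cfsg.Agent.Lib

namespace Cfsg.Agent.S1530


/-- Let N be a subgroup of the finite group G and S₀ a finite set of irreducible characters of N, χ an irreducible character of N not in S₀, with degrees ξ 1 = d ξ. Let τ be a linear isometry on the integer combinations of S₀ ∪ {χ} vanishing at 1, with values virtual characters of G vanishing at 1, such that (S₀, N minus 1, τ) is coherent. If some ψ ∈ S₀ has d ψ dividing d χ and 2 · d ψ · d χ < Σ_{ξ ∈ S₀} (d ξ)², then (S₀ ∪ {χ}, N minus 1, τ) is coherent. -/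
theorem result {G : Type*} [Group G] [Fintype G] (N : Subgroup G) [Fintype N] (S₀ : Finset (N → ℂ)) (χ : N → ℂ) (hirr : ∀ ξ ∈ S₀, Cfsg.IsIrrCharacter N ξ) (hχ : Cfsg.IsIrrCharacter N χ) (hχS : χ ∉ S₀) (d : (N → ℂ) → ℕ) (hd : ∀ ξ ∈ insert χ S₀, ξ 1 = (d ξ : ℂ)) (τ : (N → ℂ) → (G → ℂ)) (hτ : Cfsg.IsLinearIsometryOn (Cfsg.zspanOn (↑(insert χ S₀) : Set (N → ℂ)) {1}ᶜ) τ) (hτ1 : ∀ α ∈ Cfsg.zspanOn (↑(insert χ S₀) : Set (N → ℂ)) {1}ᶜ, τ α 1 = 0) (hcoh : Cfsg.IsCoherent (↑S₀ : Set (N → ℂ)) {1}ᶜ τ) (ψ : N → ℂ) (hψ : ψ ∈ S₀) (hdvd : d ψ ∣ d χ) (hlt : 2 * d ψ * d χ < ∑ ξ ∈ S₀, d ξ ^ 2) : Cfsg.IsCoherent (↑(insert χ S₀) : Set (N → ℂ)) {1}ᶜ τ := by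
  classical
  obtain ⟨hne0, τ₁, hτ₁, hτ₁τ⟩ := hcoh
  have hχF : χ ∈ insert χ S₀ := Finset.mem_insert_self χ S₀
  have hS₀F : ∀ ξ ∈ S₀, ξ ∈ insert χ S₀ := fun ξ h => Finset.mem_insert_of_mem h
  have hirrF : ∀ ξ ∈ insert χ S₀, Cfsg.IsIrrCharacter N ξ := by
    intro ξ hξ
    rcases Finset.mem_insert.mp hξ with h | h
    · rw [h]; exact hχ
    · exact hirr ξ h
  have hsubS : (↑S₀ : Set (N → ℂ)) ⊆ ↑(insert χ S₀) :=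
    Finset.coe_subset.mpr (Finset.subset_insert χ S₀)
  have hE := zclosed_zspanOn (↑(insert χ S₀) : Set (N → ℂ)) ({1}ᶜ : Set N)
  have hE₀ := zclosed_zspan (↑S₀ : Set (N → ℂ))
  have hψF := hS₀F ψ hψ
  have hχψ : χ ≠ ψ := fun h => hχS (h ▸ hψ)
  have hdpos : ∀ ξ ∈ insert χ S₀, 0 < d ξ := by
    intro ξ hξ
    obtain ⟨n, hn0, hn⟩ := irr_deg' (hirrF ξ hξ)
    have h1 := hd ξ hξ
    rw [hn] at h1
    have h2 : n = d ξ := by exact_mod_cast h1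
    omega
  obtain ⟨m, hm⟩ := hdvd
  have hmem₀ : ∀ ξ ∈ S₀, ξ ∈ Cfsg.zspan (↑S₀ : Set (N → ℂ)) :=
    fun ξ hξ => zspan_mem (Finset.mem_coe.mpr hξ)
  have hmemF : ∀ ξ ∈ insert χ S₀, ξ ∈ Cfsg.zspan (↑(insert χ S₀) : Set (N → ℂ)) :=
    fun ξ hξ => zspan_mem (Finset.mem_coe.mpr hξ)
  have hβ1 : (χ - (m : ℤ) • ψ) 1 = 0 := by
    simp only [Pi.sub_apply, zsmul_fun_apply, Int.cast_natCast, hd χ hχF, hd ψ hψF, hm]
    push_cast; ring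
  have hβm : χ - (m : ℤ) • ψ ∈ Cfsg.zspanOn (↑(insert χ S₀) : Set (N → ℂ)) {1}ᶜ :=
    mem_zspanOn_one (zspan_sub (hmemF χ hχF) (zspan_zsmul (hmemF ψ hψF) _)) hβ1
  have hu : ∀ ξ ∈ S₀, ∀ ξ' ∈ S₀, Cfsg.classInner (τ₁ ξ) (τ₁ ξ') = if ξ = ξ' then 1 else 0 := by
    intro ξ hξ ξ' hξ'
    rw [hτ₁.2.2.1 ξ (hmem₀ ξ hξ) ξ' (hmem₀ ξ' hξ')]
    by_cases h : ξ = ξ'
    · rw [if_pos h, h]; exact irr_norm' (hirr ξ' hξ')
    · rw [if_neg h]; exact irr_orth' (hirr ξ hξ) (hirr ξ' hξ') h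
  have hugen : ∀ ξ ∈ S₀, Cfsg.IsGeneralizedCharacter G (τ₁ ξ) :=
    fun ξ hξ => hτ₁.2.2.2 ξ (hmem₀ ξ hξ)
  have hBgen : Cfsg.IsGeneralizedCharacter G (τ (χ - (m : ℤ) • ψ)) := hτ.2.2.2 _ hβm
  have haint : ∀ ξ ∈ S₀, ∃ n : ℤ, Cfsg.classInner (τ (χ - (m : ℤ) • ψ)) (τ₁ ξ) = (n : ℂ) :=
    fun ξ hξ => gen_inner_int hBgen (hugen ξ hξ)
  choose! a ha using haint
  have hΔorth : ∀ ξ ∈ S₀, Cfsg.classInner (τ (χ - (m : ℤ) • ψ)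
      - ∑ ξ ∈ S₀, Cfsg.classInner (τ (χ - (m : ℤ) • ψ)) (τ₁ ξ) • τ₁ ξ) (τ₁ ξ) = 0 :=
    fun ξ hξ => bessel_orth S₀ τ₁ hu _ ξ hξ
  have hΔnorm := bessel_norm S₀ τ₁ hu (τ (χ - (m : ℤ) • ψ))
  have hΔgen : Cfsg.IsGeneralizedCharacter G (τ (χ - (m : ℤ) • ψ)
      - ∑ ξ ∈ S₀, Cfsg.classInner (τ (χ - (m : ℤ) • ψ)) (τ₁ ξ) • τ₁ ξ) := by
    apply Lead.isGen_sub hBgen
    apply Lead.isGen_sum
    intro ξ hξ
    rw [ha ξ hξ, ← zsmul_fun_eq]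
    exact isGen_zsmul (hugen ξ hξ) _
  obtain ⟨k, hk⟩ := gen_norm_nat hΔgen
  have hnormβ : Cfsg.classInner (τ (χ - (m : ℤ) • ψ)) (τ (χ - (m : ℤ) • ψ))
      = 1 + (m : ℂ) ^ 2 := by
    rw [hτ.2.2.1 _ hβm _ hβm]
    have e : χ - (m : ℤ) • ψ = (1 : ℤ) • χ - (m : ℤ) • ψ := by rw [one_smul]
    rw [e, inner_comb, irr_norm' hχ, irr_norm' (hirr ψ hψ), irr_orth' hχ (hirr ψ hψ) hχψ,
      irr_orth' (hirr ψ hψ) hχ (Ne.symm hχψ)]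
    push_cast; ring
  have hrel : ∀ ξ ∈ S₀, ξ ≠ ψ →
      (d ψ : ℂ) * (a ξ : ℂ) - (d ξ : ℂ) * (a ψ : ℂ) = (m : ℂ) * d ξ ∧
      (d ψ : ℂ) * τ₁ ξ 1 = (d ξ : ℂ) * τ₁ ψ 1 := by
    intro ξ hξ hne
    have hθ1 : ((d ψ : ℤ) • ξ - (d ξ : ℤ) • ψ) 1 = 0 := by
      simp only [Pi.sub_apply, zsmul_fun_apply, Int.cast_natCast, hd ξ (hS₀F ξ hξ), hd ψ hψF]
      ring
    have hθm : (d ψ : ℤ) • ξ - (d ξ : ℤ) • ψ ∈ Cfsg.zspanOn (↑S₀ : Set (N → ℂ)) {1}ᶜ :=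
      mem_zspanOn_one (zspan_sub (zspan_zsmul (hmem₀ ξ hξ) _) (zspan_zsmul (hmem₀ ψ hψ) _)) hθ1
    have hθF := zspanOn_mono hsubS hθm
    have h1 : τ ((d ψ : ℤ) • ξ - (d ξ : ℤ) • ψ) = (d ψ : ℤ) • τ₁ ξ - (d ξ : ℤ) • τ₁ ψ := by
      rw [← hτ₁τ _ hθm]; exact lin_comb_sub hE₀ hτ₁ (hmem₀ ξ hξ) (hmem₀ ψ hψ) _ _
    have hχξ : χ ≠ ξ := fun h => hχS (h ▸ hξ)
    constructor
    · have h2 := hτ.2.2.1 _ hβm _ hθF
      rw [h1, Lead.classInner_sub_right, classInner_zsmul_right, classInner_zsmul_right,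
        ha ξ hξ, ha ψ hψ] at h2
      have e : χ - (m : ℤ) • ψ = (1 : ℤ) • χ - (m : ℤ) • ψ := by rw [one_smul]
      rw [e, inner_comb, irr_orth' hχ (hirr ξ hξ) hχξ, irr_orth' hχ (hirr ψ hψ) hχψ,
        irr_orth' (hirr ψ hψ) (hirr ξ hξ) (Ne.symm hne), irr_norm' (hirr ψ hψ)] at h2
      push_cast at h2
      linear_combination h2
    · have h4 := hτ1 _ hθF
      rw [h1] at h4
      simp only [Pi.sub_apply, zsmul_fun_apply, Int.cast_natCast] at h4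
      linear_combination h4
  have hrelZ : ∀ ξ ∈ S₀, (d ψ : ℤ) * a ξ
      = (a ψ + m) * (d ξ : ℤ) - (if ξ = ψ then (d χ : ℤ) else 0) := by
    intro ξ hξ
    by_cases h : ξ = ψ
    · rw [if_pos h, h, hm]; push_cast; ring
    · rw [if_neg h]
      have h1 := (hrel ξ hξ h).1
      have h2 : (d ψ : ℤ) * a ξ - (d ξ : ℤ) * a ψ = (m : ℤ) * d ξ := by exact_mod_cast h1
      linarith
  have hdegrel : ∀ ξ ∈ S₀, (d ψ : ℂ) * τ₁ ξ 1 = (d ξ : ℂ) * τ₁ ψ 1 := by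
    intro ξ hξ
    by_cases h : ξ = ψ
    · rw [h]
    · exact (hrel ξ hξ h).2
  have hsumsq : ∑ ξ ∈ S₀, ((d ψ : ℤ) * a ξ) ^ 2
      = (a ψ + m) ^ 2 * (∑ ξ ∈ S₀, (d ξ : ℤ) ^ 2) - 2 * (a ψ + m) * (d ψ) * (d χ)
        + (d χ : ℤ) ^ 2 := by
    have hterm : ∀ ξ ∈ S₀, ((d ψ : ℤ) * a ξ) ^ 2 = (a ψ + m) ^ 2 * (d ξ : ℤ) ^ 2
        - (if ξ = ψ then 2 * (a ψ + m) * (d ψ : ℤ) * (d χ : ℤ) - (d χ : ℤ) ^ 2 else 0) := by
      intro ξ hξ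
      rw [hrelZ ξ hξ]
      by_cases h : ξ = ψ
      · rw [if_pos h, if_pos h, h]; ring
      · rw [if_neg h, if_neg h]; ring
    rw [Finset.sum_congr rfl hterm, Finset.sum_sub_distrib, ← Finset.mul_sum,
      Finset.sum_ite_eq' S₀ ψ, if_pos hψ]
    ring
  have hsumdeg : ∑ ξ ∈ S₀, ((d ψ : ℤ) * a ξ) * (d ξ : ℤ)
      = (a ψ + m) * (∑ ξ ∈ S₀, (d ξ : ℤ) ^ 2) - (d χ : ℤ) * (d ψ) := by
    have hterm : ∀ ξ ∈ S₀, ((d ψ : ℤ) * a ξ) * (d ξ : ℤ) = (a ψ + m) * (d ξ : ℤ) ^ 2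
        - (if ξ = ψ then (d χ : ℤ) * (d ψ : ℤ) else 0) := by
      intro ξ hξ
      rw [hrelZ ξ hξ]
      by_cases h : ξ = ψ
      · rw [if_pos h, if_pos h, h]; ring
      · rw [if_neg h, if_neg h]; ring
    rw [Finset.sum_congr rfl hterm, Finset.sum_sub_distrib, ← Finset.mul_sum,
      Finset.sum_ite_eq' S₀ ψ, if_pos hψ]
  -- the norm equation
  have hstar : (d ψ : ℤ) ^ 2 * k = (d ψ : ℤ) ^ 2 - (a ψ + m) ^ 2 * (∑ ξ ∈ S₀, (d ξ : ℤ) ^ 2)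
      + 2 * (a ψ + m) * (d ψ) * (d χ) := by
    have h1 : (k : ℂ) = 1 + (m : ℂ) ^ 2 - ∑ ξ ∈ S₀, ((a ξ : ℤ) : ℂ) * ((a ξ : ℤ) : ℂ) := by
      rw [← hk, hΔnorm, hnormβ]
      congr 1
      apply Finset.sum_congr rfl
      intro ξ hξ
      rw [ha ξ hξ, map_intCast]
    have h2 : (k : ℤ) = 1 + (m : ℤ) ^ 2 - ∑ ξ ∈ S₀, a ξ * a ξ := by exact_mod_cast h1
    have h3 : ∑ ξ ∈ S₀, ((d ψ : ℤ) * a ξ) ^ 2 = (d ψ : ℤ) ^ 2 * ∑ ξ ∈ S₀, a ξ * a ξ := by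
      rw [Finset.mul_sum]
      apply Finset.sum_congr rfl
      intro ξ _
      ring
    have h4 : (d χ : ℤ) = (d ψ : ℤ) * m := by exact_mod_cast hm
    rw [h2]
    have h5 : (d ψ : ℤ) ^ 2 * ∑ ξ ∈ S₀, a ξ * a ξ
        = (a ψ + m) ^ 2 * (∑ ξ ∈ S₀, (d ξ : ℤ) ^ 2) - 2 * (a ψ + m) * (d ψ) * (d χ)
          + (d χ : ℤ) ^ 2 := by rw [← h3, hsumsq]
    rw [h4] at h5 ⊢
    linear_combination -h5
  -- the degree equation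
  have hdeg : (d ψ : ℂ) ^ 2 * (τ (χ - (m : ℤ) • ψ)
      - ∑ ξ ∈ S₀, Cfsg.classInner (τ (χ - (m : ℤ) • ψ)) (τ₁ ξ) • τ₁ ξ) 1
      + τ₁ ψ 1 * (((a ψ + m : ℤ) : ℂ) * ((∑ ξ ∈ S₀, (d ξ : ℤ) ^ 2 : ℤ) : ℂ)
        - (d χ : ℂ) * (d ψ)) = 0 := by
    have h1 := hτ1 _ hβm
    have h2 : ∑ ξ ∈ S₀, (d ψ : ℂ) ^ 2 * (Cfsg.classInner (τ (χ - (m : ℤ) • ψ)) (τ₁ ξ) * τ₁ ξ 1)
        = τ₁ ψ 1 * (((a ψ + m : ℤ) : ℂ) * ((∑ ξ ∈ S₀, (d ξ : ℤ) ^ 2 : ℤ) : ℂ)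
          - (d χ : ℂ) * (d ψ)) := by
      have h3 : ∀ ξ ∈ S₀, (d ψ : ℂ) ^ 2 * (Cfsg.classInner (τ (χ - (m : ℤ) • ψ)) (τ₁ ξ) * τ₁ ξ 1)
          = τ₁ ψ 1 * ((((d ψ : ℤ) * a ξ) * (d ξ : ℤ) : ℤ) : ℂ) := by
        intro ξ hξ
        rw [ha ξ hξ]
        have := hdegrel ξ hξ
        push_cast
        linear_combination (d ψ : ℂ) * (a ξ : ℂ) * this
      rw [Finset.sum_congr rfl h3, ← Finset.mul_sum, ← Int.cast_sum, hsumdeg]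
      push_cast
      ring
    rw [← h2, Pi.sub_apply, Finset.sum_apply, h1, ← Finset.mul_sum]
    simp only [Pi.smul_apply, smul_eq_mul]
    ring
  have hSpos : 0 < ∑ ξ ∈ S₀, (d ξ : ℤ) ^ 2 := by
    have h1 : (d ψ : ℤ) ^ 2 ≤ ∑ ξ ∈ S₀, (d ξ : ℤ) ^ 2 :=
      Finset.single_le_sum (f := fun ξ => (d ξ : ℤ) ^ 2) (fun ξ _ => sq_nonneg _) hψ
    have h2 : 0 < (d ψ : ℤ) := by exact_mod_cast hdpos ψ hψF
    nlinarith
  have hlt' : 2 * (d ψ : ℤ) * (d χ : ℤ) < ∑ ξ ∈ S₀, (d ξ : ℤ) ^ 2 := by exact_mod_cast hlt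
  have hdψ : 0 < (d ψ : ℤ) := by exact_mod_cast hdpos ψ hψF
  have hdχ : 0 < (d χ : ℤ) := by exact_mod_cast hdpos χ hχF
  have hw : τ₁ ψ 1 ≠ 0 := by
    apply gen_norm_one_ne_zero (hugen ψ hψ)
    rw [hu ψ hψ ψ hψ, if_pos rfl]
  -- y = 0 and k = 1
  have hy : a ψ + m = 0 ∧ k = 1 := by
    by_cases hk0 : k = 0
    · exfalso
      rw [hk0, Nat.cast_zero] at hk
      have hΔ0 := coh_norm_eq_zero _ hk
      rw [hΔ0, Pi.zero_apply, mul_zero, zero_add] at hdeg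
      have h1 := (mul_eq_zero.mp hdeg).resolve_left hw
      have h2 : (a ψ + m) * (∑ ξ ∈ S₀, (d ξ : ℤ) ^ 2) - (d χ : ℤ) * (d ψ) = 0 := by
        exact_mod_cast h1
      rw [hk0] at hstar
      have h3 : 0 < a ψ + m := by
        by_contra hneg
        push Not at hneg
        nlinarith
      nlinarith
    · have hk1 : (1 : ℤ) ≤ k := by exact_mod_cast Nat.one_le_iff_ne_zero.mpr hk0
      have hy0 : a ψ + m = 0 := by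
        by_contra hne
        have hprod : (a ψ + m) * ((a ψ + m) * (∑ ξ ∈ S₀, (d ξ : ℤ) ^ 2) - 2 * (d ψ) * (d χ)) ≤ 0 := by
          nlinarith [sq_nonneg (d ψ : ℤ)]
        rcases lt_or_gt_of_ne hne with h | h
        · have h1 : 0 < (-(a ψ + m)) * (2 * (d ψ) * (d χ) - (a ψ + m) * (∑ ξ ∈ S₀, (d ξ : ℤ) ^ 2)) := by
            apply mul_pos (by linarith)
            have h2 : 0 < (-(a ψ + m)) * (∑ ξ ∈ S₀, (d ξ : ℤ) ^ 2) := mul_pos (by linarith) hSpos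
            have h3 : 0 < (d ψ : ℤ) * (d χ) := mul_pos hdψ hdχ
            linarith
          linarith
        · have h1 : 1 ≤ a ψ + m := h
          have h2 : 0 < (a ψ + m) * ((a ψ + m) * (∑ ξ ∈ S₀, (d ξ : ℤ) ^ 2) - 2 * (d ψ) * (d χ)) := by
            apply mul_pos (by linarith)
            have h3 : (∑ ξ ∈ S₀, (d ξ : ℤ) ^ 2) ≤ (a ψ + m) * (∑ ξ ∈ S₀, (d ξ : ℤ) ^ 2) := by
              nlinarith
            linarith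
          linarith
      refine ⟨hy0, ?_⟩
      rw [hy0] at hstar
      have h1 : (d ψ : ℤ) ^ 2 * k = (d ψ : ℤ) ^ 2 := by linarith
      have h2 : (k : ℤ) = 1 := by
        have h3 : (d ψ : ℤ) ^ 2 ≠ 0 := by positivity
        have h4 : (d ψ : ℤ) ^ 2 * k = (d ψ : ℤ) ^ 2 * 1 := by rw [h1, mul_one]
        exact mul_left_cancel₀ h3 h4
      exact_mod_cast h2
  obtain ⟨hy0, hk1⟩ := hy
  rw [hk1, Nat.cast_one] at hk
  have haψ : a ψ = -(m : ℤ) := by linarith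
  have haξ : ∀ ξ ∈ S₀, ξ ≠ ψ → a ξ = 0 := by
    intro ξ hξ hne
    have h1 := hrelZ ξ hξ
    rw [hy0, if_neg hne] at h1
    have h2 : (d ψ : ℤ) * a ξ = 0 := by linarith
    exact (mul_eq_zero.mp h2).resolve_left hdψ.ne'
  have hΔeq : τ (χ - (m : ℤ) • ψ)
      - ∑ ξ ∈ S₀, Cfsg.classInner (τ (χ - (m : ℤ) • ψ)) (τ₁ ξ) • τ₁ ξ
      = τ (χ - (m : ℤ) • ψ) + (m : ℤ) • τ₁ ψ := by
    rw [Finset.sum_eq_single ψ]
    · rw [ha ψ hψ, haψ, ← zsmul_fun_eq, neg_smul, sub_neg_eq_add]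
    · intro ξ hξ hne
      rw [ha ξ hξ, haξ ξ hξ hne, Int.cast_zero, zero_smul]
    · intro h; exact absurd hψ h
  rw [hΔeq] at hk hΔorth hΔgen
  -- the extension
  have hTχ : (fun s => if s = χ then τ (χ - (m : ℤ) • ψ) + (m : ℤ) • τ₁ ψ else τ₁ s) χ
      = τ (χ - (m : ℤ) • ψ) + (m : ℤ) • τ₁ ψ := if_pos rfl
  have hT₀ : ∀ s ∈ (↑S₀ : Set (N → ℂ)),
      (fun s => if s = χ then τ (χ - (m : ℤ) • ψ) + (m : ℤ) • τ₁ ψ else τ₁ s) s = τ₁ s :=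
    fun s hs => if_neg (fun h : s = χ => hχS (h ▸ Finset.mem_coe.mp hs))
  have hO : ∀ s ∈ insert χ S₀, ∀ s' ∈ insert χ S₀, s ≠ s' → Cfsg.classInner s s' = 0 :=
    fun s hs s' hs' hne => irr_orth' (hirrF s hs) (hirrF s' hs') hne
  have hN : ∀ s ∈ insert χ S₀, Cfsg.classInner s s ≠ 0 := fun s hs => by
    rw [irr_norm' (hirrF s hs)]; exact one_ne_zero
  have hT : ∀ s ∈ insert χ S₀, ∀ s' ∈ insert χ S₀,
      Cfsg.classInner ((fun s => if s = χ then τ (χ - (m : ℤ) • ψ) + (m : ℤ) • τ₁ ψ else τ₁ s) s)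
        ((fun s => if s = χ then τ (χ - (m : ℤ) • ψ) + (m : ℤ) • τ₁ ψ else τ₁ s) s')
        = Cfsg.classInner s s' := by
    intro s hs s' hs'
    rcases Finset.mem_insert.mp hs with h1 | h1 <;> rcases Finset.mem_insert.mp hs' with h2 | h2
    · rw [h1, h2, hTχ, hk, irr_norm' hχ]
    · rw [h1, hTχ, hT₀ s' (Finset.mem_coe.mpr h2), hΔorth s' h2]
      exact (irr_orth' hχ (hirr s' h2) (fun h => hχS (h ▸ h2))).symm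
    · rw [h2, hTχ, hT₀ s (Finset.mem_coe.mpr h1), ← Lead.classInner_conj_symm, hΔorth s h1,
        map_zero]
      exact (irr_orth' (hirr s h1) hχ (fun h => hχS (h ▸ h1))).symm
    · rw [hT₀ s (Finset.mem_coe.mpr h1), hT₀ s' (Finset.mem_coe.mpr h2)]
      exact hτ₁.2.2.1 s (hmem₀ s h1) s' (hmem₀ s' h2)
  have hgen : ∀ s ∈ insert χ S₀, Cfsg.IsGeneralizedCharacter G
      ((fun s => if s = χ then τ (χ - (m : ℤ) • ψ) + (m : ℤ) • τ₁ ψ else τ₁ s) s) := by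
    intro s hs
    rcases Finset.mem_insert.mp hs with h1 | h1
    · rw [h1, hTχ]; exact hΔgen
    · rw [hT₀ s (Finset.mem_coe.mpr h1)]; exact hugen s h1
  apply coherent_of_ext hO hN hT hgen
  · obtain ⟨α, hα, hα0⟩ := hne0
    exact ⟨α, zspanOn_mono hsubS hα, hα0⟩
  · intro γ hγ
    have hγ1 : γ 1 = 0 := zspanOn_one_apply hγ
    have hγspan : γ ∈ Submodule.span ℤ (↑(insert χ S₀) : Set (N → ℂ)) := hγ.1
    rw [Finset.coe_insert, Submodule.mem_span_insert] at hγspan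
    obtain ⟨n, z, hz, rfl⟩ := hγspan
    have hz' : z + (n * m) • ψ ∈ Cfsg.zspanOn (↑S₀ : Set (N → ℂ)) {1}ᶜ := by
      apply mem_zspanOn_one (zspan_add hz (zspan_zsmul (hmem₀ ψ hψ) _))
      have h1 := hγ1
      simp only [Pi.add_apply, zsmul_fun_apply, hd χ hχF, hm] at h1
      simp only [Pi.add_apply, zsmul_fun_apply, hd ψ hψF]
      push_cast at h1 ⊢
      linear_combination h1
    have hdecomp : n • χ + z = n • (χ - (m : ℤ) • ψ) + (z + (n * m) • ψ) := by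
      funext x
      simp only [Pi.add_apply, Pi.sub_apply, zsmul_fun_apply]
      push_cast
      ring
    have hz'F := zspanOn_mono hsubS hz'
    have h1 : τ (n • χ + z) = n • τ (χ - (m : ℤ) • ψ) + τ₁ (z + (n * m) • ψ) := by
      rw [hdecomp, hτ.1 _ (hE.2.2 _ hβm n) _ hz'F, hτ.2.1 _ hβm n, hτ₁τ _ hz']
    have h2 : cohExt (insert χ S₀)
        (fun s => if s = χ then τ (χ - (m : ℤ) • ψ) + (m : ℤ) • τ₁ ψ else τ₁ s) (n • χ + z)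
        = n • τ (χ - (m : ℤ) • ψ) + τ₁ (z + (n * m) • ψ) := by
      rw [hdecomp, cohExt_add, cohExt_zsmul, cohExt_sub, cohExt_zsmul,
        cohExt_apply_mem hO hN hχF, cohExt_apply_mem hO hN hψF, if_pos rfl,
        if_neg hχψ.symm,
        cohExt_eq_on_sub hO hN (↑S₀ : Set (N → ℂ)) hsubS τ₁ hτ₁ hT₀ _ hz'.1]
      congr 1
      rw [add_sub_cancel_right]
    rw [h1, h2]

end Cfsg.Agent.S1530
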