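import Cfsg.Statements.S1531
import Mathlib
import Cfsg.Agent.Lib.Helper6.Coh

set_option autoImplicit false
open Cfsg
open Cfsg.Agent.Lib.Helper6 Cfsg.Agent.Lib

namespace Cfsg.Agent.S1531

theorem cross_orth {G : Type*} [Group G] [Fintype G] (N : Subgroup G) [Fintype N]
    (S X Y : Set (N → ℂ)) (hirr : ∀ ξ ∈ S, Cfsg.IsIrrCharacter N ξ) (hXS : X ⊆ S) (hYS : Y ⊆ S)
    (hXY : Disjoint X Y) (α : (N → ℂ) → (G → ℂ))
    (hα : Cfsg.IsLinearIsometryOn (Cfsg.zspanOn S {1}ᶜ) α)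
    (hα1 : ∀ θ ∈ Cfsg.zspanOn S {1}ᶜ, α θ 1 = 0) (σ τ : (N → ℂ) → (G → ℂ))
    (hσ : Cfsg.IsLinearIsometryOn (Cfsg.zspan X) σ)
    (hσα : ∀ θ ∈ Cfsg.zspanOn X {1}ᶜ, σ θ = α θ)
    (hτ : Cfsg.IsLinearIsometryOn (Cfsg.zspan Y) τ)
    (hτα : ∀ θ ∈ Cfsg.zspanOn Y {1}ᶜ, τ θ = α θ)
    (χ χ' : N → ℂ) (hχ : χ ∈ X) (hχ' : χ' ∈ X) (hχχ' : χ ≠ χ')
    (η η' : N → ℂ) (hη : η ∈ Y) (hη' : η' ∈ Y) (hηη' : η ≠ η') :
    Cfsg.classInner (σ χ) (τ η) = 0 := by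
  by_contra hne
  have hXYd : ∀ s, s ∈ X → s ∉ Y := fun s h1 h2 => Set.disjoint_left.mp hXY h1 h2
  obtain ⟨a, ha0, ha⟩ := irr_deg' (hirr χ' (hXS hχ'))
  obtain ⟨b, hb0, hb⟩ := irr_deg' (hirr χ (hXS hχ))
  obtain ⟨c, hc0, hc⟩ := irr_deg' (hirr η' (hYS hη'))
  obtain ⟨d, hd0, hd⟩ := irr_deg' (hirr η (hYS hη))
  have hχX : χ ∈ Cfsg.zspan X := zspan_mem hχ
  have hχ'X : χ' ∈ Cfsg.zspan X := zspan_mem hχ'
  have hηY : η ∈ Cfsg.zspan Y := zspan_mem hη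
  have hη'Y : η' ∈ Cfsg.zspan Y := zspan_mem hη'
  have hθXm : (a : ℤ) • χ - (b : ℤ) • χ' ∈ Cfsg.zspanOn X {1}ᶜ :=
    mem_zspanOn_one (zspan_sub (zspan_zsmul hχX _) (zspan_zsmul hχ'X _)) (by
      simp only [Pi.sub_apply, zsmul_fun_apply, Int.cast_natCast, ha, hb]; ring)
  have hθYm : (c : ℤ) • η - (d : ℤ) • η' ∈ Cfsg.zspanOn Y {1}ᶜ :=
    mem_zspanOn_one (zspan_sub (zspan_zsmul hηY _) (zspan_zsmul hη'Y _)) (by
      simp only [Pi.sub_apply, zsmul_fun_apply, Int.cast_natCast, hc, hd]; ring)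
  have hσθ : σ ((a : ℤ) • χ - (b : ℤ) • χ') = (a : ℤ) • σ χ - (b : ℤ) • σ χ' :=
    lin_comb_sub (zclosed_zspan X) hσ hχX hχ'X a b
  have hτθ : τ ((c : ℤ) • η - (d : ℤ) • η') = (c : ℤ) • τ η - (d : ℤ) • τ η' :=
    lin_comb_sub (zclosed_zspan Y) hτ hηY hη'Y c d
  have hθXS := zspanOn_mono hXS hθXm
  have hθYS := zspanOn_mono hYS hθYm
  have horth : Cfsg.classInner ((a : ℤ) • σ χ - (b : ℤ) • σ χ') ((c : ℤ) • τ η - (d : ℤ) • τ η')
      = 0 := by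
    rw [← hσθ, ← hτθ, hσα _ hθXm, hτα _ hθYm, hα.2.2.1 _ hθXS _ hθYS, inner_comb,
      irr_orth' (hirr χ (hXS hχ)) (hirr η (hYS hη)) (by rintro rfl; exact hXYd _ hχ hη),
      irr_orth' (hirr χ (hXS hχ)) (hirr η' (hYS hη')) (by rintro rfl; exact hXYd _ hχ hη'),
      irr_orth' (hirr χ' (hXS hχ')) (hirr η (hYS hη)) (by rintro rfl; exact hXYd _ hχ' hη),
      irr_orth' (hirr χ' (hXS hχ')) (hirr η' (hYS hη')) (by rintro rfl; exact hXYd _ hχ' hη')]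
    ring
  have hdegX : (a : ℂ) * σ χ 1 = b * σ χ' 1 := by
    have h := hα1 _ hθXS
    rw [← hσα _ hθXm, hσθ] at h
    simp only [Pi.sub_apply, zsmul_fun_apply, Int.cast_natCast] at h
    linear_combination h
  have hdegY : (c : ℂ) * τ η 1 = d * τ η' 1 := by
    have h := hα1 _ hθYS
    rw [← hτα _ hθYm, hτθ] at h
    simp only [Pi.sub_apply, zsmul_fun_apply, Int.cast_natCast] at h
    linear_combination h
  have nu : Cfsg.classInner (σ χ) (σ χ) = 1 := by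
    rw [hσ.2.2.1 χ hχX χ hχX]; exact irr_norm' (hirr χ (hXS hχ))
  have nu' : Cfsg.classInner (σ χ') (σ χ') = 1 := by
    rw [hσ.2.2.1 χ' hχ'X χ' hχ'X]; exact irr_norm' (hirr χ' (hXS hχ'))
  have nuu' : Cfsg.classInner (σ χ) (σ χ') = 0 := by
    rw [hσ.2.2.1 χ hχX χ' hχ'X]; exact irr_orth' (hirr χ (hXS hχ)) (hirr χ' (hXS hχ')) hχχ'
  have nv : Cfsg.classInner (τ η) (τ η) = 1 := by
    rw [hτ.2.2.1 η hηY η hηY]; exact irr_norm' (hirr η (hYS hη))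
  have nv' : Cfsg.classInner (τ η') (τ η') = 1 := by
    rw [hτ.2.2.1 η' hη'Y η' hη'Y]; exact irr_norm' (hirr η' (hYS hη'))
  have nvv' : Cfsg.classInner (τ η) (τ η') = 0 := by
    rw [hτ.2.2.1 η hηY η' hη'Y]; exact irr_orth' (hirr η (hYS hη)) (hirr η' (hYS hη')) hηη'
  have gu := hσ.2.2.2 χ hχX
  have gu' := hσ.2.2.2 χ' hχ'X
  have gv := hτ.2.2.2 η hηY
  have gv' := hτ.2.2.2 η' hη'Y
  obtain ⟨ε, hε, huv⟩ := gen_norm_one_pair gu gv nu nv hne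
  have hε0 : ε ≠ 0 := by rcases hε with h | h <;> rw [h] <;> norm_num
  have i1 : Cfsg.classInner (σ χ) (τ η) = ε := by
    rw [huv, Lead.classInner_smul_left, nv, mul_one]
  have i2 : Cfsg.classInner (σ χ) (τ η') = 0 := by
    rw [huv, Lead.classInner_smul_left, nvv', mul_zero]
  have i3 : Cfsg.classInner (σ χ') (τ η) = 0 := by
    have h : τ η = ε⁻¹ • σ χ := by rw [huv, smul_smul, inv_mul_cancel₀ hε0, one_smul]
    rw [h, Lead.classInner_smul_right, ← Lead.classInner_conj_symm (σ χ) (σ χ'), nuu', map_zero,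
      mul_zero]
  rw [inner_comb, i1, i2, i3] at horth
  have ha' : (a : ℂ) ≠ 0 := Nat.cast_ne_zero.mpr ha0.ne'
  have hb' : (b : ℂ) ≠ 0 := Nat.cast_ne_zero.mpr hb0.ne'
  have hc' : (c : ℂ) ≠ 0 := Nat.cast_ne_zero.mpr hc0.ne'
  have hd' : (d : ℂ) ≠ 0 := Nat.cast_ne_zero.mpr hd0.ne'
  have i4ne : Cfsg.classInner (σ χ') (τ η') ≠ 0 := by
    intro h0
    rw [h0] at horth
    have h1 : (a : ℂ) * c * ε = 0 := by push_cast at horth; linear_combination horth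
    exact (mul_ne_zero (mul_ne_zero ha' hc') hε0) h1
  obtain ⟨ε', hε', hu'v'⟩ := gen_norm_one_pair gu' gv' nu' nv' i4ne
  have i4 : Cfsg.classInner (σ χ') (τ η') = ε' := by
    rw [hu'v', Lead.classInner_smul_left, nv', mul_one]
  rw [i4] at horth
  push_cast at horth
  have hv1 : τ η 1 ≠ 0 := gen_norm_one_ne_zero gv nv
  rw [huv, hu'v'] at hdegX
  simp only [Pi.smul_apply, smul_eq_mul] at hdegX
  have h2 : ((a : ℂ) * d * ε - b * c * ε') * τ η 1 = 0 := by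
    linear_combination (d : ℂ) * hdegX - (b : ℂ) * ε' * hdegY
  have h2' : (a : ℂ) * d * ε - b * c * ε' = 0 := (mul_eq_zero.mp h2).resolve_right hv1
  have h3 : (a : ℂ) * ε * ((c : ℂ) ^ 2 + (d : ℂ) ^ 2) = 0 := by
    linear_combination (c : ℂ) * horth + (d : ℂ) * h2'
  have h4 : ((c : ℂ) ^ 2 + (d : ℂ) ^ 2) ≠ 0 := by
    have : (c ^ 2 + d ^ 2 : ℕ) ≠ 0 := by positivity
    exact_mod_cast this
  exact (mul_ne_zero (mul_ne_zero ha' hε0) h4) h3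

/-- Let N be a subgroup of the finite group G, S a set of irreducible characters of N, and α a linear isometry on the integer combinations of S vanishing at 1 with values virtual characters of G vanishing at 1. Let X, Y ⊆ S be disjoint, each with at least two members, and σ, τ linear isometries on ℤ[X], ℤ[Y] into virtual characters agreeing with α on the members vanishing at 1. Then ⟨σ χ, τ η⟩ = 0 for χ ∈ X, η ∈ Y; and if for some χ₀ ∈ X, η₀ ∈ Y with degrees c = χ₀ 1, e = η₀ 1 one has α (c • η₀ − e • χ₀) = c • τ η₀ − e • σ χ₀, then (X ∪ Y, N minus 1, α) is coherent. -/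
theorem result {G : Type*} [Group G] [Fintype G] (N : Subgroup G) [Fintype N] (S X Y : Set (N → ℂ)) (hirr : ∀ ξ ∈ S, Cfsg.IsIrrCharacter N ξ) (hXS : X ⊆ S) (hYS : Y ⊆ S) (hXY : Disjoint X Y) (hX2 : ∃ a ∈ X, ∃ b ∈ X, a ≠ b) (hY2 : ∃ a ∈ Y, ∃ b ∈ Y, a ≠ b) (α : (N → ℂ) → (G → ℂ)) (hα : Cfsg.IsLinearIsometryOn (Cfsg.zspanOn S {1}ᶜ) α) (hα1 : ∀ θ ∈ Cfsg.zspanOn S {1}ᶜ, α θ 1 = 0) (σ τ : (N → ℂ) → (G → ℂ)) (hσ : Cfsg.IsLinearIsometryOn (Cfsg.zspan X) σ) (hσα : ∀ θ ∈ Cfsg.zspanOn X {1}ᶜ, σ θ = α θ) (hτ : Cfsg.IsLinearIsometryOn (Cfsg.zspan Y) τ) (hτα : ∀ θ ∈ Cfsg.zspanOn Y {1}ᶜ, τ θ = α θ) : (∀ χ ∈ X, ∀ η ∈ Y, Cfsg.classInner (σ χ) (τ η) = 0) ∧ ((∃ χ₀ ∈ X, ∃ η₀ ∈ Y, α (χ₀ 1 • η₀ - η₀ 1 • χ₀) = χ₀ 1 • τ η₀ - η₀ 1 • σ χ₀) → Cfsg.IsCoherent (X ∪ Y) {1}ᶜ α) := by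
  classical
  have hXYd : ∀ s, s ∈ X → s ∉ Y := fun s h1 h2 => Set.disjoint_left.mp hXY h1 h2
  have hcross : ∀ χ ∈ X, ∀ η ∈ Y, Cfsg.classInner (σ χ) (τ η) = 0 := by
    intro χ hχ η hη
    obtain ⟨χ', hχ', hne1⟩ : ∃ χ' ∈ X, χ ≠ χ' := by
      obtain ⟨a, ha, b, hb, hab⟩ := hX2
      by_cases h : χ = a
      · exact ⟨b, hb, by rw [h]; exact hab⟩
      · exact ⟨a, ha, h⟩
    obtain ⟨η', hη', hne2⟩ : ∃ η' ∈ Y, η ≠ η' := by
      obtain ⟨a, ha, b, hb, hab⟩ := hY2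
      by_cases h : η = a
      · exact ⟨b, hb, by rw [h]; exact hab⟩
      · exact ⟨a, ha, h⟩
    exact cross_orth N S X Y hirr hXS hYS hXY α hα hα1 σ τ hσ hσα hτ hτα χ χ' hχ hχ' hne1
      η η' hη hη' hne2
  refine ⟨hcross, ?_⟩
  rintro ⟨χ₀, hχ₀, η₀, hη₀, hkey⟩
  have hfin : (X ∪ Y).Finite := by
    have h1 : (X ∪ Y) ⊆ Set.range (Subtype.val : Cfsg.IrrCharacter N → (N → ℂ)) := by
      rintro s (hs | hs)
      · exact ⟨⟨s, hirr s (hXS hs)⟩, rfl⟩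
      · exact ⟨⟨s, hirr s (hYS hs)⟩, rfl⟩
    haveI : Finite (Cfsg.IrrCharacter N) := inferInstance
    exact (Set.finite_range _).subset h1
  have hF : (↑hfin.toFinset : Set (N → ℂ)) = X ∪ Y := hfin.coe_toFinset
  rw [← hF]
  have hmemF : ∀ s, s ∈ hfin.toFinset ↔ s ∈ X ∨ s ∈ Y := fun s => by
    rw [Set.Finite.mem_toFinset]; rfl
  have hirrF : ∀ s ∈ hfin.toFinset, Cfsg.IsIrrCharacter N s := by
    intro s hs
    rcases (hmemF s).mp hs with h | h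
    · exact hirr s (hXS h)
    · exact hirr s (hYS h)
  have hTX : ∀ s ∈ X, (fun s => if s ∈ X then σ s else τ s) s = σ s := fun s hs => if_pos hs
  have hTY : ∀ s ∈ Y, (fun s => if s ∈ X then σ s else τ s) s = τ s :=
    fun s hs => if_neg (fun h => hXYd s h hs)
  have hO : ∀ s ∈ hfin.toFinset, ∀ s' ∈ hfin.toFinset, s ≠ s' → Cfsg.classInner s s' = 0 :=
    fun s hs s' hs' hne => irr_orth' (hirrF s hs) (hirrF s' hs') hne
  have hN : ∀ s ∈ hfin.toFinset, Cfsg.classInner s s ≠ 0 := fun s hs => by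
    rw [irr_norm' (hirrF s hs)]; exact one_ne_zero
  have hT : ∀ s ∈ hfin.toFinset, ∀ s' ∈ hfin.toFinset,
      Cfsg.classInner ((fun s => if s ∈ X then σ s else τ s) s)
        ((fun s => if s ∈ X then σ s else τ s) s') = Cfsg.classInner s s' := by
    intro s hs s' hs'
    rcases (hmemF s).mp hs with h1 | h1 <;> rcases (hmemF s').mp hs' with h2 | h2
    · rw [hTX s h1, hTX s' h2]; exact hσ.2.2.1 s (zspan_mem h1) s' (zspan_mem h2)
    · rw [hTX s h1, hTY s' h2, hcross s h1 s' h2]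
      exact (irr_orth' (hirrF s hs) (hirrF s' hs') (by rintro rfl; exact hXYd s h1 h2)).symm
    · rw [hTY s h1, hTX s' h2, ← Lead.classInner_conj_symm, hcross s' h2 s h1, map_zero]
      exact (irr_orth' (hirrF s hs) (hirrF s' hs') (by rintro rfl; exact hXYd s h2 h1)).symm
    · rw [hTY s h1, hTY s' h2]; exact hτ.2.2.1 s (zspan_mem h1) s' (zspan_mem h2)
  have hgen : ∀ s ∈ hfin.toFinset,
      Cfsg.IsGeneralizedCharacter G ((fun s => if s ∈ X then σ s else τ s) s) := by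
    intro s hs
    rcases (hmemF s).mp hs with h1 | h1
    · rw [hTX s h1]; exact hσ.2.2.2 s (zspan_mem h1)
    · rw [hTY s h1]; exact hτ.2.2.2 s (zspan_mem h1)
  apply coherent_of_ext hO hN hT hgen
  · obtain ⟨a, ha, b, hb, hab⟩ := hX2
    obtain ⟨m, hm0, hm⟩ := irr_deg' (hirr b (hXS hb))
    obtain ⟨k, hk0, hk⟩ := irr_deg' (hirr a (hXS ha))
    refine ⟨(m : ℤ) • a - (k : ℤ) • b, ?_, ?_⟩
    · rw [hF]
      apply mem_zspanOn_one
      · exact zspan_sub (zspan_zsmul (zspan_mem (Or.inl ha)) _)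
          (zspan_zsmul (zspan_mem (Or.inl hb)) _)
      · simp only [Pi.sub_apply, zsmul_fun_apply, Int.cast_natCast, hm, hk]; ring
    · intro h0
      have h1 : Cfsg.classInner ((m : ℤ) • a - (k : ℤ) • b) a = 0 := by
        rw [h0, Lead.classInner_zero_left]
      rw [Lead.classInner_sub_left, classInner_zsmul_left, classInner_zsmul_left,
        irr_norm' (hirr a (hXS ha)),
        irr_orth' (hirr b (hXS hb)) (hirr a (hXS ha)) (Ne.symm hab)] at h1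
      have h2 : (m : ℂ) = 0 := by push_cast at h1; linear_combination h1
      exact hm0.ne' (Nat.cast_eq_zero.mp h2)
  · intro γ hγ
    rw [hF] at hγ
    have hγ1 : γ 1 = 0 := zspanOn_one_apply hγ
    have hγspan : γ ∈ Submodule.span ℤ (X ∪ Y) := hγ.1
    rw [Submodule.span_union, Submodule.mem_sup] at hγspan
    obtain ⟨γX, hγX, γY, hγY, rfl⟩ := hγspan
    obtain ⟨A, hA⟩ : ∃ A : ℤ, γX 1 = (A : ℂ) := span_deg_int X (fun s hs => by
      obtain ⟨n, -, hn⟩ := irr_deg' (hirr s (hXS hs))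
      exact ⟨n, by rw [hn]; simp⟩) γX hγX
    obtain ⟨c', hc0, hc⟩ := irr_deg' (hirr χ₀ (hXS hχ₀))
    obtain ⟨e', he0, he⟩ := irr_deg' (hirr η₀ (hYS hη₀))
    have hγY1 : γY 1 = -(A : ℂ) := by
      have h := hγ1
      rw [Pi.add_apply, hA] at h
      linear_combination h
    have hPm : ((c' * e' : ℕ) : ℤ) • γX - (A * e') • χ₀ ∈ Cfsg.zspanOn X {1}ᶜ :=
      mem_zspanOn_one (zspan_sub (zspan_zsmul hγX _) (zspan_zsmul (zspan_mem hχ₀) _)) (by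
        simp only [Pi.sub_apply, zsmul_fun_apply, hA, hc]; push_cast; ring)
    have hQm : ((c' * e' : ℕ) : ℤ) • γY + (A * c') • η₀ ∈ Cfsg.zspanOn Y {1}ᶜ :=
      mem_zspanOn_one (zspan_add (zspan_zsmul hγY _) (zspan_zsmul (zspan_mem hη₀) _)) (by
        simp only [Pi.add_apply, zsmul_fun_apply, hγY1, he]; push_cast; ring)
    have hδS : (c' : ℤ) • η₀ - (e' : ℤ) • χ₀ ∈ Cfsg.zspanOn S {1}ᶜ :=
      mem_zspanOn_one (zspan_sub (zspan_zsmul (zspan_mem (hYS hη₀)) _)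
        (zspan_zsmul (zspan_mem (hXS hχ₀)) _)) (by
        simp only [Pi.sub_apply, zsmul_fun_apply, Int.cast_natCast, hc, he]; ring)
    have hδeq : (c' : ℤ) • η₀ - (e' : ℤ) • χ₀ = χ₀ 1 • η₀ - η₀ 1 • χ₀ := by
      rw [hc, he, zsmul_fun_eq, zsmul_fun_eq]; simp
    have hαδ : α ((c' : ℤ) • η₀ - (e' : ℤ) • χ₀) = (c' : ℤ) • τ η₀ - (e' : ℤ) • σ χ₀ := by
      rw [hδeq, hkey, hc, he, zsmul_fun_eq, zsmul_fun_eq]; simp
    have hdecomp : ((c' * e' : ℕ) : ℤ) • (γX + γY)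
        = (((c' * e' : ℕ) : ℤ) • γX - (A * e') • χ₀) + (((c' * e' : ℕ) : ℤ) • γY + (A * c') • η₀)
          - A • ((c' : ℤ) • η₀ - (e' : ℤ) • χ₀) := by
      funext x
      simp only [Pi.add_apply, Pi.sub_apply, zsmul_fun_apply]
      push_cast
      ring
    have hPS := zspanOn_mono hXS hPm
    have hQS := zspanOn_mono hYS hQm
    have hγS : γX + γY ∈ Cfsg.zspanOn S {1}ᶜ := zspanOn_mono (Set.union_subset hXS hYS) hγ
    have hE := zclosed_zspanOn S ({1}ᶜ : Set N)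
    have h1 : α (((c' * e' : ℕ) : ℤ) • (γX + γY)) = ((c' * e' : ℕ) : ℤ) • α (γX + γY) :=
      hα.2.1 _ hγS _
    have h2 : α ((((c' * e' : ℕ) : ℤ) • γX - (A * e') • χ₀)
          + (((c' * e' : ℕ) : ℤ) • γY + (A * c') • η₀) - A • ((c' : ℤ) • η₀ - (e' : ℤ) • χ₀))
        = α (((c' * e' : ℕ) : ℤ) • γX - (A * e') • χ₀)
          + α (((c' * e' : ℕ) : ℤ) • γY + (A * c') • η₀)
          - A • α ((c' : ℤ) • η₀ - (e' : ℤ) • χ₀) := by
      rw [lin_sub hE hα (hE.2.1 _ hPS _ hQS) (hE.2.2 _ hδS A), hα.1 _ hPS _ hQS, hα.2.1 _ hδS A]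
    have h3 : α (((c' * e' : ℕ) : ℤ) • γX - (A * e') • χ₀)
        = ((c' * e' : ℕ) : ℤ) • σ γX - (A * e') • σ χ₀ := by
      rw [← hσα _ hPm]; exact lin_comb_sub (zclosed_zspan X) hσ hγX (zspan_mem hχ₀) _ _
    have h4 : α (((c' * e' : ℕ) : ℤ) • γY + (A * c') • η₀)
        = ((c' * e' : ℕ) : ℤ) • τ γY + (A * c') • τ η₀ := by
      rw [← hτα _ hQm]; exact lin_comb (zclosed_zspan Y) hτ hγY (zspan_mem hη₀) _ _
    have h5 : cohExt hfin.toFinset (fun s => if s ∈ X then σ s else τ s) (γX + γY)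
        = σ γX + τ γY := by
      rw [cohExt_add,
        cohExt_eq_on_sub hO hN X (fun s hs => Finset.mem_coe.mpr ((hmemF s).mpr (Or.inl hs)))
          σ hσ hTX γX hγX,
        cohExt_eq_on_sub hO hN Y (fun s hs => Finset.mem_coe.mpr ((hmemF s).mpr (Or.inr hs)))
          τ hτ hTY γY hγY]
    rw [h5]
    have h6 : ((c' * e' : ℕ) : ℤ) • α (γX + γY) = ((c' * e' : ℕ) : ℤ) • (σ γX + τ γY) := by
      rw [← h1, hdecomp, h2, h3, h4, hαδ]
      funext x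
      simp only [Pi.add_apply, Pi.sub_apply, zsmul_fun_apply]
      push_cast
      ring
    have hce : ((c' * e' : ℕ) : ℂ) ≠ 0 := Nat.cast_ne_zero.mpr (Nat.mul_pos hc0 he0).ne'
    funext x
    have h7 := congrFun h6 x
    simp only [Pi.add_apply, zsmul_fun_apply, Int.cast_natCast] at h7
    rw [Pi.add_apply]
    exact (mul_left_cancel₀ hce h7).symm

end Cfsg.Agent.S1531
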