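import Cfsg.Statements.S1536
import Mathlib
import Cfsg.Agent.Lib.Helper6.FixClass
import Cfsg.Agent.Lib.Lead.Char15

set_option autoImplicit false
open Cfsg
open Cfsg.Agent.Lib.Helper6 Cfsg.Agent.Lib

namespace Cfsg.Agent.S1536


/-- Let H be a normal subgroup of the finite group M whose order is coprime to its index. For x ∈ M: some non-principal irreducible character of H is unchanged under h ↦ θ(x h x⁻¹) if and only if some non-identity element of H commutes with x. -/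
theorem result {M : Type*} [Group M] [Finite M] (H : Subgroup M) [hN : H.Normal] (hHall : Nat.Coprime (Nat.card H) H.index) (x : M) : (∃ θ : H → ℂ, Cfsg.IsIrrCharacter H θ ∧ θ ≠ (fun _ => 1) ∧ (fun h : H => θ ⟨x * h * x⁻¹, hN.conj_mem h h.2 x⟩) = θ) ↔ ∃ h ∈ H, h ≠ 1 ∧ x * h = h * x := by
  classical
  have hB := Lead.fixed_count_aut (MulAut.conjNormal x : H ≃* H)
  have hfixchar : ∀ θ : H → ℂ, (θ ∘ (MulAut.conjNormal x : H ≃* H) = θ) ↔
      (fun h : H => θ ⟨x * h * x⁻¹, hN.conj_mem h h.2 x⟩) = θ := by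
    intro θ
    have : θ ∘ (MulAut.conjNormal x : H ≃* H)
        = (fun h : H => θ ⟨x * h * x⁻¹, hN.conj_mem h h.2 x⟩) := by
      funext h
      show θ ((MulAut.conjNormal x : H ≃* H) h) = _
      congr 1
    rw [this]
  have hfixclass : ∀ k : H, ConjClasses.map (MulAut.conjNormal x : H ≃* H).toMonoidHom (ConjClasses.mk k)
      = ConjClasses.mk k ↔ ∃ c ∈ H, x * (k : M) * x⁻¹ = c * k * c⁻¹ := by
    intro k
    change ConjClasses.mk ((MulAut.conjNormal x : H ≃* H).toMonoidHom k) = ConjClasses.mk k ↔ _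
    rw [ConjClasses.mk_eq_mk_iff_isConj, isConj_iff]
    constructor
    · rintro ⟨c, hc⟩
      have hc' : (c : M) * (x * (k : M) * x⁻¹) * (c : M)⁻¹ = k := by
        have := congrArg Subtype.val hc
        simpa using this
      exact ⟨(c : M)⁻¹, H.inv_mem c.2, by conv_rhs => rw [← hc']
                                          group⟩
    · rintro ⟨c, hc, h⟩
      refine ⟨(⟨c, hc⟩ : H)⁻¹, ?_⟩
      apply Subtype.ext
      show c⁻¹ * (x * (k : M) * x⁻¹) * c⁻¹⁻¹ = k
      rw [h]; group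
  constructor
  · rintro ⟨θ, hθ, hθ1, hθx⟩
    have h2 : 1 < Nat.card {χ : Cfsg.IrrCharacter H //
        (χ : H → ℂ) ∘ (MulAut.conjNormal x : H ≃* H) = (χ : H → ℂ)} := by
      rw [Finite.one_lt_card_iff_nontrivial]
      refine ⟨⟨⟨⟨θ, hθ⟩, (hfixchar θ).mpr hθx⟩, ⟨⟨fun _ => 1, Lead.isIrrCharacter_one⟩, rfl⟩, ?_⟩⟩
      intro h
      apply hθ1
      exact congrArg (fun χ => (χ.1.1 : H → ℂ)) h
    rw [← hB, Finite.one_lt_card_iff_nontrivial] at h2
    obtain ⟨⟨C₁, C₂, hne⟩⟩ := h2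
    have hexC : ∃ C : {C : ConjClasses H //
        ConjClasses.map (MulAut.conjNormal x : H ≃* H).toMonoidHom C = C}, C.1 ≠ ConjClasses.mk 1 := by
      by_contra hcon
      push Not at hcon
      exact hne (Subtype.ext ((hcon C₁).trans (hcon C₂).symm))
    obtain ⟨⟨C, hCfix⟩, hC1⟩ := hexC
    obtain ⟨k₀, rfl⟩ := ConjClasses.exists_rep C
    have hk₀ : k₀ ≠ 1 := by rintro rfl; exact hC1 rfl
    have hfix := (hfixclass k₀).mp hCfix
    by_cases hxm : x ^ H.index = 1
    · have hcop : (orderOf x).Coprime (Nat.card H) :=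
        Nat.Coprime.coprime_dvd_left (orderOf_dvd_of_pow_eq_one hxm) hHall.symm
      obtain ⟨k, hk, hcomm⟩ := fixed_class_rep H x hcop (k₀ : M) hfix
      refine ⟨k * (k₀ : M) * k⁻¹, H.mul_mem (H.mul_mem hk k₀.2) (H.inv_mem hk), ?_, hcomm⟩
      intro h1
      apply hk₀
      apply Subtype.ext
      have e : (k₀ : M) = k⁻¹ * (k * (k₀ : M) * k⁻¹) * k := by group
      rw [e, h1]; simp
    · exact ⟨x ^ H.index, H.pow_index_mem x, hxm, by rw [← pow_succ', pow_succ]⟩
  · rintro ⟨h, hh, hh1, hcomm⟩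
    have h2 : 1 < Nat.card {C : ConjClasses H //
        ConjClasses.map (MulAut.conjNormal x : H ≃* H).toMonoidHom C = C} := by
      rw [Finite.one_lt_card_iff_nontrivial]
      refine ⟨⟨⟨ConjClasses.mk 1, ?_⟩, ⟨ConjClasses.mk ⟨h, hh⟩, ?_⟩, ?_⟩⟩
      · rw [hfixclass]; exact ⟨1, H.one_mem, by simp⟩
      · rw [hfixclass]; exact ⟨1, H.one_mem, by
          show x * h * x⁻¹ = 1 * h * 1⁻¹
          rw [hcomm]; group⟩
      · intro heq
        have h3 := congrArg Subtype.val heq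
        simp only at h3
        rw [ConjClasses.mk_eq_mk_iff_isConj, isConj_iff] at h3
        obtain ⟨c, hc⟩ := h3
        apply hh1
        have h4 := congrArg Subtype.val hc
        simpa using h4.symm
    rw [hB, Finite.one_lt_card_iff_nontrivial] at h2
    obtain ⟨⟨χ₁, χ₂, hne⟩⟩ := h2
    have hexχ : ∃ χ : {χ : Cfsg.IrrCharacter H //
        (χ : H → ℂ) ∘ (MulAut.conjNormal x : H ≃* H) = (χ : H → ℂ)},
        (χ.1.1 : H → ℂ) ≠ fun _ => 1 := by
      by_contra hcon
      push Not at hcon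
      exact hne (Subtype.ext (Subtype.ext ((hcon χ₁).trans (hcon χ₂).symm)))
    obtain ⟨⟨⟨θ, hθ⟩, hfix⟩, hne1⟩ := hexχ
    exact ⟨θ, hθ, hne1, (hfixchar θ).mp hfix⟩

end Cfsg.Agent.S1536
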