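import Cfsg.Statements.S1546
import Mathlib

set_option autoImplicit false
open Cfsg

namespace Cfsg.Agent.S1546

open Finset in
theorem odd_geom (p q : ℕ) (hp : Odd p) (hq : Odd q) : Odd (∑ k ∈ range q, p ^ k) := by
  have h : ∀ n : ℕ, (∑ k ∈ range n, p ^ k) % 2 = n % 2 := by
    intro n
    induction n with
    | zero => simp
    | succ n ih =>
      have h1 : p ^ n % 2 = 1 := Nat.odd_iff.mp hp.pow
      rw [Finset.sum_range_succ, Nat.add_mod, ih, h1]
      omega
  rw [Nat.odd_iff, h q]
  exact Nat.odd_iff.mp hq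

open Finset in
theorem cast_geom (p q r : ℕ) (h : r ∣ p - 1) (hp : 1 ≤ p) :
    ((∑ k ∈ range q, p ^ k : ℕ) : ZMod r) = (q : ZMod r) := by
  have h1 : (p : ZMod r) = 1 := by
    have : ((p - 1 : ℕ) : ZMod r) = 0 := (ZMod.natCast_eq_zero_iff _ _).mpr h
    have h2 : p = (p - 1) + 1 := by omega
    rw [h2, Nat.cast_add, this]; simp
  push_cast
  rw [h1]; simp

open Finset in
theorem prime_dvd (p q : ℕ) (hp : p.Prime) (hq : q.Prime) (hq2 : q ≠ 2) (hpq : p % q ≠ 1)
    (r : ℕ) (hr : r.Prime) (hrN : r ∣ ∑ k ∈ range q, p ^ k) : ¬ r ∣ p - 1 ∧ r % q = 1 := by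
  have hq3 : 3 ≤ q := by
    have := hq.two_le; omega
  have hnot : ¬ r ∣ p - 1 := by
    intro h
    have h1 := cast_geom p q r h hp.one_lt.le
    rw [(ZMod.natCast_eq_zero_iff _ _).mpr hrN] at h1
    have h2 : r ∣ q := (ZMod.natCast_eq_zero_iff _ _).mp h1.symm
    have h3 : r = q := (Nat.prime_dvd_prime_iff_eq hr hq).mp h2
    rw [h3] at h
    apply hpq
    obtain ⟨c, hc⟩ := h
    have : p = q * c + 1 := by have := hp.one_lt; omega
    rw [this, Nat.add_mod, Nat.mul_mod_right, zero_add, Nat.mod_mod]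
    exact Nat.mod_eq_of_lt (by omega)
  refine ⟨hnot, ?_⟩
  have : Fact r.Prime := ⟨hr⟩
  have hpow : (p : ZMod r) ^ q = 1 := by
    have h1 : ((∑ k ∈ range q, p ^ k : ℕ) : ZMod r) = 0 := (ZMod.natCast_eq_zero_iff _ _).mpr hrN
    push_cast at h1
    have h2 := geom_sum_mul (p : ZMod r) q
    rw [h1, zero_mul] at h2
    exact (sub_eq_zero.mp h2.symm)
  have hne1 : (p : ZMod r) ≠ 1 := by
    intro h
    apply hnot
    have : ((p - 1 : ℕ) : ZMod r) = 0 := by
      rw [Nat.cast_sub hp.one_lt.le, h]; simp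
    exact (ZMod.natCast_eq_zero_iff _ _).mp this
  have : Fact q.Prime := ⟨hq⟩
  have hord : orderOf (p : ZMod r) = q := orderOf_eq_prime hpow hne1
  have hne0 : (p : ZMod r) ≠ 0 := by
    intro h
    rw [h, zero_pow hq.ne_zero] at hpow
    exact zero_ne_one hpow
  have h3 : q ∣ r - 1 := by
    rw [← hord]
    exact orderOf_dvd_of_pow_eq_one (ZMod.pow_card_sub_one_eq_one hne0)
  obtain ⟨c, hc⟩ := h3
  have : r = q * c + 1 := by have := hr.one_lt; omega
  rw [this, Nat.add_mod, Nat.mul_mod_right, zero_add, Nat.mod_mod]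
  exact Nat.mod_eq_of_lt (by omega)

open Finset in
/-- Let p and q be odd primes and N = (p ^ q − 1) / (p − 1) = 1 + p + ⋯ + p^(q−1). Then N is odd; if p ≡ 1 (mod q) then q ∣ N; and if p is not ≡ 1 (mod q) then N is coprime to p − 1 and every divisor of N is ≡ 1 (mod q). -/
theorem result (p q : ℕ) (hp : p.Prime) (hq : q.Prime) (hp2 : p ≠ 2) (hq2 : q ≠ 2) : Odd ((p ^ q - 1) / (p - 1)) ∧ (p % q = 1 → q ∣ (p ^ q - 1) / (p - 1)) ∧ (p % q ≠ 1 → Nat.Coprime ((p ^ q - 1) / (p - 1)) (p - 1) ∧ ∀ x : ℕ, x ∣ (p ^ q - 1) / (p - 1) → x % q = 1) := by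
  rw [← Nat.geomSum_eq hp.two_le q]
  have hq3 : 3 ≤ q := by
    have := hq.two_le; omega
  have hpodd : Odd p := hp.odd_of_ne_two hp2
  have hqodd : Odd q := hq.odd_of_ne_two hq2
  refine ⟨?_, ?_, ?_⟩
  · exact odd_geom p q hpodd hqodd
  · intro h
    have h1 : q ∣ p - 1 := by
      have := Nat.mod_add_div p q
      rw [h] at this
      exact ⟨p / q, by omega⟩
    have h2 := cast_geom p q q h1 hp.one_lt.le
    rw [ZMod.natCast_self] at h2
    exact (ZMod.natCast_eq_zero_iff _ _).mp h2
  · intro hpq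
    constructor
    · by_contra hcop
      obtain ⟨r, hr, hr1, hr2⟩ := Nat.Prime.not_coprime_iff_dvd.mp hcop
      exact (prime_dvd p q hp hq hq2 hpq r hr hr1).1 hr2
    · intro x
      induction x using Nat.strong_induction_on with
      | _ x ih =>
        intro hx
        by_cases hx1 : x = 1
        · rw [hx1]; exact Nat.mod_eq_of_lt (by omega)
        · have hr := Nat.minFac_prime hx1
          obtain ⟨x', hx'⟩ := Nat.minFac_dvd x
          have hx0 : x ≠ 0 := by
            rintro rfl
            have h0 := Nat.eq_zero_of_zero_dvd hx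
            have : Odd (∑ k ∈ range q, p ^ k) := odd_geom p q hpodd hqodd
            rw [h0] at this
            exact (Nat.not_odd_iff_even.mpr (by decide : Even 0)) this
          have hx'lt : x' < x := by
            have h2 := hr.two_le
            have hx'pos : 0 < x' := by
              rcases Nat.eq_zero_or_pos x' with h | h
              · rw [h, mul_zero] at hx'; exact absurd hx' hx0
              · exact h
            calc x' = 1 * x' := (one_mul _).symm
              _ < x.minFac * x' := Nat.mul_lt_mul_of_pos_right (by omega) hx'pos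
              _ = x := hx'.symm
          have h1 := (prime_dvd p q hp hq hq2 hpq _ hr ((Nat.minFac_dvd x).trans hx)).2
          have h2 := ih x' hx'lt ((Dvd.intro_left _ hx'.symm).trans hx)
          rw [hx', Nat.mul_mod, h1, h2]
          exact Nat.mod_eq_of_lt (by omega)

end Cfsg.Agent.S1546
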