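import Cfsg.Statements.S1556
import Mathlib
import Cfsg.Agent.Lib.Helper9.M24Oct
-- import your own Cfsg.Agent.* helpers here

set_option autoImplicit false
open scoped Pointwise
open Cfsg

namespace Cfsg.Agent.S1556

/-- Two octads meeting a fixed octad in equally many points are in the same orbit of its stabiliser. -/
theorem result (o o' o'' : Finset Cfsg.GolayPt) (ho : o ∈ Cfsg.octads) (ho' : o' ∈ Cfsg.octads) (ho'' : o'' ∈ Cfsg.octads) (h : (o ∩ o').card = (o ∩ o'').card) : ∃ g : Equiv.Perm Cfsg.GolayPt, g ∈ Cfsg.M24 ∧ g • o = o ∧ g • o' = o'' := by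
  obtain ⟨g0, hg0, rfl⟩ := Cfsg.Agent.Lib.Helper9.M24T.octad_trans o ho
  have h1 : ∀ x : Finset Cfsg.GolayPt, (Cfsg.Agent.Lib.Helper9.M24B.Oset ∩ g0⁻¹ • x).card =
      (g0 • Cfsg.Agent.Lib.Helper9.M24B.Oset ∩ x).card := by
    intro x
    have : g0 • (Cfsg.Agent.Lib.Helper9.M24B.Oset ∩ g0⁻¹ • x) =
        g0 • Cfsg.Agent.Lib.Helper9.M24B.Oset ∩ x := by
      rw [Finset.smul_finset_inter, smul_inv_smul]
    rw [← this, Finset.card_smul_finset]
  obtain ⟨g, hg, hgo⟩ := Cfsg.Agent.Lib.Helper9.M24Oct.octad_orbits (g0⁻¹ • o') (g0⁻¹ • o'')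
    (Cfsg.Agent.Lib.Helper9.M24B.smul_octad (inv_mem hg0) ho')
    (Cfsg.Agent.Lib.Helper9.M24B.smul_octad (inv_mem hg0) ho'') (by rw [h1, h1]; exact h)
  rw [Cfsg.Agent.Lib.Helper9.M24Oct.mem_StabO] at hg
  refine ⟨g0 * g * g0⁻¹, mul_mem (mul_mem hg0 hg.1) (inv_mem hg0), ?_, ?_⟩
  · rw [mul_smul, mul_smul, inv_smul_smul, hg.2]
  · rw [mul_smul, mul_smul, hgo, smul_inv_smul]

end Cfsg.Agent.S1556
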