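import Cfsg.Statements.S1587
import Mathlib

set_option autoImplicit false
open Matrix
open Cfsg

namespace Cfsg.Agent.S1587

/-- First step of the characterisation of the rank-24 lattice: in an even lattice without roots, norm-8 vectors congruent modulo 2 are equal, opposite or orthogonal. -/
theorem result (B : Matrix (Fin 24) (Fin 24) ℤ) (hsymm : B.IsSymm) (hpos : ∀ x : Fin 24 → ℤ, x ≠ 0 → 0 < x ⬝ᵥ (B *ᵥ x)) (heven : ∀ x : Fin 24 → ℤ, (2 : ℤ) ∣ x ⬝ᵥ (B *ᵥ x)) (h2 : ∀ x : Fin 24 → ℤ, x ⬝ᵥ (B *ᵥ x) ≠ 2) (x y : Fin 24 → ℤ) (hx : x ⬝ᵥ (B *ᵥ x) = 8) (hy : y ⬝ᵥ (B *ᵥ y) = 8) (hc : ∀ i, (2 : ℤ) ∣ (x - y) i) : y = x ∨ y = -x ∨ x ⬝ᵥ (B *ᵥ y) = 0 := by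
  have hsym : ∀ u v : Fin 24 → ℤ, u ⬝ᵥ (B *ᵥ v) = v ⬝ᵥ (B *ᵥ u) := by
    intro u v
    rw [Matrix.dotProduct_mulVec, ← Matrix.mulVec_transpose, hsymm.eq, dotProduct_comm]
  have hnn : ∀ v : Fin 24 → ℤ, 0 ≤ v ⬝ᵥ (B *ᵥ v) := by
    intro v
    by_cases hv : v = 0
    · simp [hv]
    · exact (hpos v hv).le
  have hz0 : ∀ v : Fin 24 → ℤ, v ⬝ᵥ (B *ᵥ v) = 0 → v = 0 := by
    intro v hv
    by_contra h
    have := hpos v h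
    omega
  choose z hz using hc
  have hxz : x = y + (2 : ℤ) • z := by
    funext i
    have := hz i
    simp only [Pi.sub_apply, Pi.add_apply, Pi.smul_apply, smul_eq_mul] at this ⊢
    linarith
  -- expansions
  have e1 : x ⬝ᵥ (B *ᵥ x) = y ⬝ᵥ (B *ᵥ y) + 4 * (y ⬝ᵥ (B *ᵥ z)) + 4 * (z ⬝ᵥ (B *ᵥ z)) := by
    rw [hxz]
    simp only [Matrix.mulVec_add, Matrix.mulVec_smul, add_dotProduct, dotProduct_add,
      smul_dotProduct, dotProduct_smul, smul_eq_mul]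
    rw [hsym z y]
    ring
  have e2 : (y + z) ⬝ᵥ (B *ᵥ (y + z)) = y ⬝ᵥ (B *ᵥ y) + 2 * (y ⬝ᵥ (B *ᵥ z)) + z ⬝ᵥ (B *ᵥ z) := by
    simp only [Matrix.mulVec_add, add_dotProduct, dotProduct_add]
    rw [hsym z y]
    ring
  have e3 : x ⬝ᵥ (B *ᵥ y) = y ⬝ᵥ (B *ᵥ y) + 2 * (y ⬝ᵥ (B *ᵥ z)) := by
    rw [hxz]
    simp only [add_dotProduct, smul_dotProduct, smul_eq_mul]
    rw [hsym z y]
  have hb : y ⬝ᵥ (B *ᵥ z) = - (z ⬝ᵥ (B *ᵥ z)) := by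
    rw [hx, hy] at e1
    linarith
  have hw : (y + z) ⬝ᵥ (B *ᵥ (y + z)) = 8 - z ⬝ᵥ (B *ᵥ z) := by
    rw [e2, hy, hb]; ring
  have hxy : x ⬝ᵥ (B *ᵥ y) = 8 - 2 * (z ⬝ᵥ (B *ᵥ z)) := by
    rw [e3, hy, hb]; ring
  have p1 := hnn z
  have p2 := hnn (y + z)
  obtain ⟨k, hk⟩ := heven z
  obtain ⟨l, hl⟩ := heven (y + z)
  have q1 := h2 z
  have q2 := h2 (y + z)
  have hcases : z ⬝ᵥ (B *ᵥ z) = 0 ∨ z ⬝ᵥ (B *ᵥ z) = 4 ∨ z ⬝ᵥ (B *ᵥ z) = 8 := by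
    omega
  rcases hcases with h | h | h
  · left
    have := hz0 z h
    rw [hxz, this]; simp
  · right; right
    rw [hxy, h]; norm_num
  · right; left
    have hw0 : (y + z) ⬝ᵥ (B *ᵥ (y + z)) = 0 := by rw [hw, h]; norm_num
    have := hz0 _ hw0
    have hzy : z = -y := by
      funext i
      have := congrFun this i
      simp only [Pi.add_apply, Pi.zero_apply, Pi.neg_apply] at this ⊢
      linarith
    rw [hxz, hzy]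
    funext i
    simp only [Pi.add_apply, Pi.smul_apply, Pi.neg_apply, smul_eq_mul]
    ring

end Cfsg.Agent.S1587
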