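import Cfsg.Statements.S1591
import Mathlib

set_option autoImplicit false
open Cfsg

namespace Cfsg.Agent.S1591

theorem sum3_91 (f : ZMod 3 → ZMod 3) : ∑ r : ZMod 3, f r = f 0 + f 1 + f 2 :=
  Fin.sum_univ_three f

/-- Any two words of the length-12 ternary code have dot product zero. -/
theorem result (x y : Cfsg.ArrayPt → ZMod 3) (hx : x ∈ Cfsg.ternaryGolayCode) (hy : y ∈ Cfsg.ternaryGolayCode) : ∑ p, x p * y p = 0 := by
  obtain ⟨s, hs, hs'⟩ := hx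
  obtain ⟨s2, hs2, hs2'⟩ := hy
  have h3 : (3 : ZMod 3) = 0 := by decide
  have m1 : (![0, 1, 1, 1] : Fin 4 → ZMod 3) ∈ Cfsg.tetracode :=
    Submodule.subset_span (Set.mem_insert _ _)
  have m2 : (![1, 0, 1, 2] : Fin 4 → ZMod 3) ∈ Cfsg.tetracode :=
    Submodule.subset_span (Set.mem_insert_of_mem _ (Set.mem_singleton _))
  have mw0 : (![0, 0, 0, 0] : Fin 4 → ZMod 3) ∈ Cfsg.tetracode := by
    have e : (![0, 0, 0, 0] : Fin 4 → ZMod 3) = (0 : ZMod 3) • ![0, 1, 1, 1] + (0 : ZMod 3) • ![1, 0, 1, 2] := by decide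
    rw [e]
    exact Submodule.add_mem _ (Submodule.smul_mem _ _ m1) (Submodule.smul_mem _ _ m2)
  have mw1 : (![1, 0, 1, 2] : Fin 4 → ZMod 3) ∈ Cfsg.tetracode := by
    have e : (![1, 0, 1, 2] : Fin 4 → ZMod 3) = (0 : ZMod 3) • ![0, 1, 1, 1] + (1 : ZMod 3) • ![1, 0, 1, 2] := by decide
    rw [e]
    exact Submodule.add_mem _ (Submodule.smul_mem _ _ m1) (Submodule.smul_mem _ _ m2)
  have mw2 : (![2, 0, 2, 1] : Fin 4 → ZMod 3) ∈ Cfsg.tetracode := by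
    have e : (![2, 0, 2, 1] : Fin 4 → ZMod 3) = (0 : ZMod 3) • ![0, 1, 1, 1] + (2 : ZMod 3) • ![1, 0, 1, 2] := by decide
    rw [e]
    exact Submodule.add_mem _ (Submodule.smul_mem _ _ m1) (Submodule.smul_mem _ _ m2)
  have mw3 : (![0, 1, 1, 1] : Fin 4 → ZMod 3) ∈ Cfsg.tetracode := by
    have e : (![0, 1, 1, 1] : Fin 4 → ZMod 3) = (1 : ZMod 3) • ![0, 1, 1, 1] + (0 : ZMod 3) • ![1, 0, 1, 2] := by decide
    rw [e]
    exact Submodule.add_mem _ (Submodule.smul_mem _ _ m1) (Submodule.smul_mem _ _ m2)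
  have mw4 : (![1, 1, 2, 0] : Fin 4 → ZMod 3) ∈ Cfsg.tetracode := by
    have e : (![1, 1, 2, 0] : Fin 4 → ZMod 3) = (1 : ZMod 3) • ![0, 1, 1, 1] + (1 : ZMod 3) • ![1, 0, 1, 2] := by decide
    rw [e]
    exact Submodule.add_mem _ (Submodule.smul_mem _ _ m1) (Submodule.smul_mem _ _ m2)
  have mw5 : (![2, 1, 0, 2] : Fin 4 → ZMod 3) ∈ Cfsg.tetracode := by
    have e : (![2, 1, 0, 2] : Fin 4 → ZMod 3) = (1 : ZMod 3) • ![0, 1, 1, 1] + (2 : ZMod 3) • ![1, 0, 1, 2] := by decide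
    rw [e]
    exact Submodule.add_mem _ (Submodule.smul_mem _ _ m1) (Submodule.smul_mem _ _ m2)
  have mw6 : (![0, 2, 2, 2] : Fin 4 → ZMod 3) ∈ Cfsg.tetracode := by
    have e : (![0, 2, 2, 2] : Fin 4 → ZMod 3) = (2 : ZMod 3) • ![0, 1, 1, 1] + (0 : ZMod 3) • ![1, 0, 1, 2] := by decide
    rw [e]
    exact Submodule.add_mem _ (Submodule.smul_mem _ _ m1) (Submodule.smul_mem _ _ m2)
  have mw7 : (![1, 2, 0, 1] : Fin 4 → ZMod 3) ∈ Cfsg.tetracode := by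
    have e : (![1, 2, 0, 1] : Fin 4 → ZMod 3) = (2 : ZMod 3) • ![0, 1, 1, 1] + (1 : ZMod 3) • ![1, 0, 1, 2] := by decide
    rw [e]
    exact Submodule.add_mem _ (Submodule.smul_mem _ _ m1) (Submodule.smul_mem _ _ m2)
  have mw8 : (![2, 2, 1, 0] : Fin 4 → ZMod 3) ∈ Cfsg.tetracode := by
    have e : (![2, 2, 1, 0] : Fin 4 → ZMod 3) = (2 : ZMod 3) • ![0, 1, 1, 1] + (2 : ZMod 3) • ![1, 0, 1, 2] := by decide
    rw [e]
    exact Submodule.add_mem _ (Submodule.smul_mem _ _ m1) (Submodule.smul_mem _ _ m2)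
  have hxc0 : x (0, 0) + x (0, 1) + x (0, 2) = -s := by
    have h := hs 0
    rw [sum3_91] at h
    exact h
  have hxc1 : x (1, 0) + x (1, 1) + x (1, 2) = -s := by
    have h := hs 1
    rw [sum3_91] at h
    exact h
  have hxc2 : x (2, 0) + x (2, 1) + x (2, 2) = -s := by
    have h := hs 2
    rw [sum3_91] at h
    exact h
  have hxc3 : x (3, 0) + x (3, 1) + x (3, 2) = -s := by
    have h := hs 3
    rw [sum3_91] at h
    exact h
  have hxt0 : x (0, 0) + x (1, 0) + x (2, 0) + x (3, 0) = s := by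
    have h := hs' ![0, 0, 0, 0] mw0
    rw [Fin.sum_univ_four] at h
    exact h
  have hxt1 : x (0, 1) + x (1, 0) + x (2, 1) + x (3, 2) = s := by
    have h := hs' ![1, 0, 1, 2] mw1
    rw [Fin.sum_univ_four] at h
    exact h
  have hxt2 : x (0, 2) + x (1, 0) + x (2, 2) + x (3, 1) = s := by
    have h := hs' ![2, 0, 2, 1] mw2
    rw [Fin.sum_univ_four] at h
    exact h
  have hxt3 : x (0, 0) + x (1, 1) + x (2, 1) + x (3, 1) = s := by
    have h := hs' ![0, 1, 1, 1] mw3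
    rw [Fin.sum_univ_four] at h
    exact h
  have hxt4 : x (0, 1) + x (1, 1) + x (2, 2) + x (3, 0) = s := by
    have h := hs' ![1, 1, 2, 0] mw4
    rw [Fin.sum_univ_four] at h
    exact h
  have hxt5 : x (0, 2) + x (1, 1) + x (2, 0) + x (3, 2) = s := by
    have h := hs' ![2, 1, 0, 2] mw5
    rw [Fin.sum_univ_four] at h
    exact h
  have hxt6 : x (0, 0) + x (1, 2) + x (2, 2) + x (3, 2) = s := by
    have h := hs' ![0, 2, 2, 2] mw6
    rw [Fin.sum_univ_four] at h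
    exact h
  have hxt7 : x (0, 1) + x (1, 2) + x (2, 0) + x (3, 1) = s := by
    have h := hs' ![1, 2, 0, 1] mw7
    rw [Fin.sum_univ_four] at h
    exact h
  have hxt8 : x (0, 2) + x (1, 2) + x (2, 1) + x (3, 0) = s := by
    have h := hs' ![2, 2, 1, 0] mw8
    rw [Fin.sum_univ_four] at h
    exact h
  have hyc0 : y (0, 0) + y (0, 1) + y (0, 2) = -s2 := by
    have h := hs2 0
    rw [sum3_91] at h
    exact h
  have hyc1 : y (1, 0) + y (1, 1) + y (1, 2) = -s2 := by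
    have h := hs2 1
    rw [sum3_91] at h
    exact h
  have hyc2 : y (2, 0) + y (2, 1) + y (2, 2) = -s2 := by
    have h := hs2 2
    rw [sum3_91] at h
    exact h
  have hyc3 : y (3, 0) + y (3, 1) + y (3, 2) = -s2 := by
    have h := hs2 3
    rw [sum3_91] at h
    exact h
  have hyt0 : y (0, 0) + y (1, 0) + y (2, 0) + y (3, 0) = s2 := by
    have h := hs2' ![0, 0, 0, 0] mw0
    rw [Fin.sum_univ_four] at h
    exact h
  have hyt1 : y (0, 1) + y (1, 0) + y (2, 1) + y (3, 2) = s2 := by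
    have h := hs2' ![1, 0, 1, 2] mw1
    rw [Fin.sum_univ_four] at h
    exact h
  have hyt2 : y (0, 2) + y (1, 0) + y (2, 2) + y (3, 1) = s2 := by
    have h := hs2' ![2, 0, 2, 1] mw2
    rw [Fin.sum_univ_four] at h
    exact h
  have hyt3 : y (0, 0) + y (1, 1) + y (2, 1) + y (3, 1) = s2 := by
    have h := hs2' ![0, 1, 1, 1] mw3
    rw [Fin.sum_univ_four] at h
    exact h
  have hyt4 : y (0, 1) + y (1, 1) + y (2, 2) + y (3, 0) = s2 := by
    have h := hs2' ![1, 1, 2, 0] mw4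
    rw [Fin.sum_univ_four] at h
    exact h
  have hyt5 : y (0, 2) + y (1, 1) + y (2, 0) + y (3, 2) = s2 := by
    have h := hs2' ![2, 1, 0, 2] mw5
    rw [Fin.sum_univ_four] at h
    exact h
  have hyt6 : y (0, 0) + y (1, 2) + y (2, 2) + y (3, 2) = s2 := by
    have h := hs2' ![0, 2, 2, 2] mw6
    rw [Fin.sum_univ_four] at h
    exact h
  have hyt7 : y (0, 1) + y (1, 2) + y (2, 0) + y (3, 1) = s2 := by
    have h := hs2' ![1, 2, 0, 1] mw7
    rw [Fin.sum_univ_four] at h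
    exact h
  have hyt8 : y (0, 2) + y (1, 2) + y (2, 1) + y (3, 0) = s2 := by
    have h := hs2' ![2, 2, 1, 0] mw8
    rw [Fin.sum_univ_four] at h
    exact h
  rw [Fintype.sum_prod_type, Fin.sum_univ_four, sum3_91, sum3_91, sum3_91, sum3_91]
  linear_combination (exp := 1) (0 - y (1, 2) - y (2, 1) + y (3, 0) - y (3, 1) - y (3, 2)) * hxc0
    + (0 + x (0, 2)) * hyc0
    + (0 + y (1, 2)) * hxc1
    + (0 + x (0, 0) + x (0, 1) + x (0, 2) - x (1, 0) - x (1, 1)) * hyc1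
    + (0 + y (2, 2)) * hxc2
    + (0 + x (0, 0) - x (0, 1) + x (1, 0) - x (1, 1) + x (2, 0)) * hyc2
    + (0 + y (2, 1) - y (2, 2) - y (3, 1) - y (3, 2)) * hxc3
    + (0 - x (0, 0) + x (0, 1) - x (0, 2) - x (1, 1) - x (2, 0)) * hyc3
    + (0 - y (2, 1) + y (2, 2) + y (3, 0) + y (3, 1) + y (3, 2)) * hxt0
    + (0 - x (0, 0) + x (0, 1) - x (1, 0) + x (1, 1)) * hyt0
    + (0 - y (2, 1) + y (2, 2) + y (3, 1) - y (3, 2)) * hxt1
    + (0 + x (0, 1) - x (0, 2)) * hyt1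
    + (0 - y (2, 1) + y (2, 2) - y (3, 1) + y (3, 2)) * hxt3
    + (0 - x (0, 0) - x (0, 1) - x (0, 2) + x (1, 0) - x (1, 1)) * hyt3
    + (0 + (1) * (x (0, 0) * y (0, 0)) + (1) * (x (0, 0) * y (2, 1)) + (-1) * (x (0, 0) * y (2, 2)) + (1) * (x (0, 0) * y (3, 1)) + (-1) * (x (0, 0) * s2) + (-1) * (x (0, 1) * y (1, 0)) + (1) * (x (0, 1) * y (2, 1)) + (-1) * (x (0, 1) * y (3, 0)) + (1) * (x (0, 2) * y (2, 1)) + (1) * (x (0, 2) * y (3, 1)) + (1) * (x (0, 2) * y (3, 2)) + (-1) * (x (0, 2) * s2) + (1) * (x (1, 0) * y (1, 0)) + (-1) * (x (1, 0) * y (2, 2)) + (-1) * (x (1, 0) * y (3, 1)) + (1) * (x (1, 1) * y (1, 1)) + (1) * (x (1, 1) * y (2, 1)) + (1) * (x (1, 1) * y (3, 1)) + (1) * (x (1, 1) * s2) + (-1) * (x (2, 0) * y (2, 2)) + (1) * (x (2, 1) * y (2, 1)) + (-1) * (x (2, 1) * y (2, 2)) + (1) * (x (3, 1) * y (3, 1)) + (1) * (x (3, 2) * y (3, 2)) + (-1) * (s * y (2, 1)) + (1) * (s * y (2, 2)) +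 (1) * (s * y (3, 1)) + (1) * (s * y (3, 2))) * h3

end Cfsg.Agent.S1591
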