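import Cfsg.Statements.S1595
import Mathlib
import Cfsg.Agent.Lib.Lead.SteinerCount

set_option autoImplicit false
open Cfsg

namespace Cfsg.Agent.S1595

open Cfsg.Agent.Lib.Lead

def G95 (i : ℕ) : ℤ :=
  (i.choose 1 : ℤ) - 2 * (i.choose 2 : ℤ) + 3 * (i.choose 3 : ℤ) - 4 * (i.choose 4 : ℤ)

theorem G95_nonneg : ∀ i < 5, 0 ≤ G95 i := by decide
theorem G95_zero : ∀ i < 5, G95 i = 0 → i = 0 ∨ i = 2 ∨ i = 3 ∨ i = 4 := by decide
theorem G95_six : G95 6 = -24 := by decide

def K95 (i : ℕ) : ℤ := (i.choose 0 : ℤ) - (i.choose 1 : ℤ) + (i.choose 2 : ℤ)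

theorem K95_val : ∀ i ≤ 2, K95 i = if i = 0 then 1 else 0 := by decide
theorem K95_three : K95 (6 - 3) = 1 := by decide
theorem K95_four : K95 (6 - 2) = 3 := by decide

def K96 (i : ℕ) : ℤ := (i.choose 0 : ℤ) - (i.choose 1 : ℤ)

theorem K96_val : ∀ i ≤ 0, K96 i = if i = 0 then 1 else 0 := by decide
theorem K96_two : K96 (6 - 4) = -1 := by decide

section
variable {α : Type*} [Fintype α] [DecidableEq α]

theorem sum_G95 (s : Finset (Finset α)) (b : Finset α) :
    ∑ c ∈ s, G95 (c ∩ b).card =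
      ((∑ c ∈ s, ((c ∩ b).card).choose 1 : ℕ) : ℤ) -
        2 * ((∑ c ∈ s, ((c ∩ b).card).choose 2 : ℕ) : ℤ) +
        3 * ((∑ c ∈ s, ((c ∩ b).card).choose 3 : ℕ) : ℤ) -
        4 * ((∑ c ∈ s, ((c ∩ b).card).choose 4 : ℕ) : ℤ) := by
  simp only [G95, Finset.sum_add_distrib, Finset.sum_sub_distrib, ← Finset.mul_sum, Nat.cast_sum]

theorem sum_K95 (S : Finset (Finset α)) (Y : Finset α) :
    ∑ c ∈ S, K95 (c ∩ Y).card =
      ((∑ c ∈ S, ((c ∩ Y).card).choose 0 : ℕ) : ℤ) -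
        ((∑ c ∈ S, ((c ∩ Y).card).choose 1 : ℕ) : ℤ) +
        ((∑ c ∈ S, ((c ∩ Y).card).choose 2 : ℕ) : ℤ) := by
  simp only [K95, Finset.sum_add_distrib, Finset.sum_sub_distrib, Nat.cast_sum]

theorem sum_K96 (S : Finset (Finset α)) (Y : Finset α) :
    ∑ c ∈ S, K96 (c ∩ Y).card =
      ((∑ c ∈ S, ((c ∩ Y).card).choose 0 : ℕ) : ℤ) -
        ((∑ c ∈ S, ((c ∩ Y).card).choose 1 : ℕ) : ℤ) := by
  simp only [K96, Finset.sum_sub_distrib, Nat.cast_sum]

theorem part1_95 (hα : Fintype.card α = 12) {B : Set (Finset α)}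
    (hB : Cfsg.IsSteinerSystem 5 6 B) {b : Finset α} (hb : b ∈ B) : ∀ c ∈ B, c ≠ b →
      (c ∩ b).card = 0 ∨ (c ∩ b).card = 2 ∨ (c ∩ b).card = 3 ∨ (c ∩ b).card = 4 := by
  have h1 : ∑ c ∈ blocks B, ((c ∩ b).card).choose 1 = 396 :=
    sum_choose_val hB hb 1 (by norm_num) 396 (by rw [hα]; decide) (by decide)
  have h2 : ∑ c ∈ blocks B, ((c ∩ b).card).choose 2 = 450 :=
    sum_choose_val hB hb 2 (by norm_num) 450 (by rw [hα]; decide) (by decide)
  have h3 : ∑ c ∈ blocks B, ((c ∩ b).card).choose 3 = 240 :=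
    sum_choose_val hB hb 3 (by norm_num) 240 (by rw [hα]; decide) (by decide)
  have h4 : ∑ c ∈ blocks B, ((c ∩ b).card).choose 4 = 60 :=
    sum_choose_val hB hb 4 (by norm_num) 60 (by rw [hα]; decide) (by decide)
  have hbf : b ∈ blocks B := (mem_blocks B b).mpr hb
  have hsum : ∑ c ∈ blocks B, G95 (c ∩ b).card = G95 b.card := by
    rw [sum_G95, h1, h2, h3, h4, hB.1 b hb, G95_six]
    norm_num
  have hi : ∀ c ∈ blocks B, c ≠ b → (c ∩ b).card < 5 := fun c hc hcb =>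
    inter_card_lt hB hb ((mem_blocks B c).mp hc) (Ne.symm hcb)
  have hz := test_function_zero (blocks B) b hbf G95 5 G95_nonneg hi hsum
  intro c hc hcb
  have hcf : c ∈ blocks B := (mem_blocks B c).mpr hc
  exact G95_zero _ (hi c hcf hcb) (hz c hcf hcb)

theorem T95 (hα : Fintype.card α = 12) {B : Set (Finset α)} (hB : Cfsg.IsSteinerSystem 5 6 B)
    (b s : Finset α) (m : ℕ) (hsm : s.card + m ≤ 5) :
    (∑ c ∈ (blocks B).filter (fun c => s ⊆ c), ((c ∩ (b \ s)).card).choose m)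
        * (6 - (s.card + m)).choose (5 - (s.card + m))
      = ((b \ s).card).choose m * (12 - (s.card + m)).choose (5 - (s.card + m)) := by
  rw [Cfsg.Agent.Lib.Helper9.Steiner.sum_choose_inter, Finset.sum_mul]
  have h1 : ∀ Z ∈ (b \ s).powersetCard m,
      (((blocks B).filter (fun c => s ⊆ c)).filter (fun c => Z ⊆ c)).card
          * (6 - (s.card + m)).choose (5 - (s.card + m))
        = (12 - (s.card + m)).choose (5 - (s.card + m)) := by
    intro Z hZ
    obtain ⟨hZsub, hZc⟩ := Finset.mem_powersetCard.mp hZ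
    have hdisj : Disjoint s Z := by
      rw [Finset.disjoint_left]
      intro x hxs hxZ
      exact (Finset.mem_sdiff.mp (hZsub hxZ)).2 hxs
    have hcard : (s ∪ Z).card = s.card + m := by
      rw [Finset.card_union_of_disjoint hdisj, hZc]
    have hfil : ((blocks B).filter (fun c => s ⊆ c)).filter (fun c => Z ⊆ c)
        = (blocks B).filter (fun c => s ∪ Z ⊆ c) := by
      rw [Finset.filter_filter]
      apply Finset.filter_congr
      intro c _
      exact Finset.union_subset_iff.symm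
    have h2 := Cfsg.Agent.Lib.Helper9.Steiner.steiner_count (blocks B) 5 6
      (steiner_blocks_card hB) (steiner_blocks_unique hB) (s ∪ Z) (by rw [hcard]; exact hsm)
    rw [hcard, hα] at h2
    rw [hfil]
    exact h2
  rw [Finset.sum_congr rfl h1, Finset.sum_const, Finset.card_powersetCard, smul_eq_mul]

theorem Tval95 (hα : Fintype.card α = 12) {B : Set (Finset α)}
    (hB : Cfsg.IsSteinerSystem 5 6 B) (b s : Finset α) (hsb : s ⊆ b) (hbc : b.card = 6)
    (j m N : ℕ) (hj : s.card = j) (hjm : j + m ≤ 5)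
    (hN : N * (6 - (j + m)).choose (5 - (j + m))
      = (6 - j).choose m * (12 - (j + m)).choose (5 - (j + m)))
    (hpos : 0 < (6 - (j + m)).choose (5 - (j + m))) :
    ∑ c ∈ (blocks B).filter (fun c => s ⊆ c), ((c ∩ (b \ s)).card).choose m = N := by
  have h := T95 hα hB b s m (by rw [hj]; exact hjm)
  rw [Finset.card_sdiff_of_subset hsb, hbc, hj] at h
  exact Nat.eq_of_mul_eq_mul_right hpos (h.trans hN.symm)

theorem count95 (S : Finset (Finset α)) (b Y : Finset α) (hbS : b ∈ S) (κ : ℕ → ℤ) (M : ℕ)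
    (hκ : ∀ i ≤ M, κ i = if i = 0 then 1 else 0)
    (hle : ∀ c ∈ S, c ≠ b → (c ∩ Y).card ≤ M) (hbY : (b ∩ Y).card ≠ 0) :
    ((S.filter (fun c => (c ∩ Y).card = 0)).card : ℤ)
      = ∑ c ∈ S, κ (c ∩ Y).card - κ (b ∩ Y).card := by
  rw [Finset.card_filter, Nat.cast_sum]
  have h1 : ∀ c ∈ S, ((if (c ∩ Y).card = 0 then 1 else 0 : ℕ) : ℤ)
      = κ (c ∩ Y).card - (if c = b then κ (b ∩ Y).card else 0) := by
    intro c hc
    by_cases hcb : c = b
    · rw [hcb, if_neg hbY, if_pos rfl]; simp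
    · rw [if_neg hcb, hκ _ (hle c hc hcb)]
      by_cases h0 : (c ∩ Y).card = 0
      · rw [if_pos h0, if_pos h0]; simp
      · rw [if_neg h0, if_neg h0]; simp
  rw [Finset.sum_congr rfl h1, Finset.sum_sub_distrib, Finset.sum_ite_eq' S b, if_pos hbS]

theorem n95 (hα : Fintype.card α = 12) {B : Set (Finset α)} (hB : Cfsg.IsSteinerSystem 5 6 B)
    {b : Finset α} (hb : b ∈ B) (s : Finset α) (hsb : s ⊆ b) (κ : ℕ → ℤ) (hs4 : s.card ≤ 4)
    (hκ : ∀ i ≤ 4 - s.card, κ i = if i = 0 then 1 else 0) :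
    (({c : Finset α | c ∈ B ∧ b ∩ c = s}.ncard : ℕ) : ℤ)
      = ∑ c ∈ (blocks B).filter (fun c => s ⊆ c), κ (c ∩ (b \ s)).card - κ (6 - s.card) := by
  have hbf : b ∈ blocks B := (mem_blocks B b).mpr hb
  have hbc : b.card = 6 := hB.1 b hb
  have hbS : b ∈ (blocks B).filter (fun c => s ⊆ c) := Finset.mem_filter.mpr ⟨hbf, hsb⟩
  have hbY : b ∩ (b \ s) = b \ s := Finset.inter_eq_right.mpr Finset.sdiff_subset
  have hYc : (b \ s).card = 6 - s.card := by rw [Finset.card_sdiff_of_subset hsb, hbc]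
  have hbYc : (b ∩ (b \ s)).card = 6 - s.card := by rw [hbY, hYc]
  have hle : ∀ c ∈ (blocks B).filter (fun c => s ⊆ c), c ≠ b →
      (c ∩ (b \ s)).card ≤ 4 - s.card := by
    intro c hc hcb
    obtain ⟨hcf, hsc⟩ := Finset.mem_filter.mp hc
    have h5 : (c ∩ b).card < 5 :=
      inter_card_lt hB hb ((mem_blocks B c).mp hcf) (Ne.symm hcb)
    have hsub : (c ∩ (b \ s)) ∪ s ⊆ c ∩ b := by
      intro x hx
      rcases Finset.mem_union.mp hx with h | h
      · obtain ⟨h1, h2⟩ := Finset.mem_inter.mp h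
        exact Finset.mem_inter.mpr ⟨h1, (Finset.mem_sdiff.mp h2).1⟩
      · exact Finset.mem_inter.mpr ⟨hsc h, hsb h⟩
    have hdisj : Disjoint (c ∩ (b \ s)) s := by
      rw [Finset.disjoint_left]
      intro x hx hxs
      exact (Finset.mem_sdiff.mp (Finset.mem_inter.mp hx).2).2 hxs
    have h6 := Finset.card_le_card hsub
    rw [Finset.card_union_of_disjoint hdisj] at h6
    omega
  have hconv : {c : Finset α | c ∈ B ∧ b ∩ c = s}.ncard
      = (((blocks B).filter (fun c => s ⊆ c)).filter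
          (fun c => (c ∩ (b \ s)).card = 0)).card := by
    rw [← Set.ncard_coe_finset]
    congr 1
    ext c
    simp only [Set.mem_setOf_eq, Finset.mem_coe, Finset.mem_filter, mem_blocks]
    constructor
    · rintro ⟨hcB, hbc'⟩
      refine ⟨⟨hcB, ?_⟩, ?_⟩
      · rw [← hbc']; exact Finset.inter_subset_right
      · rw [Finset.card_eq_zero, Finset.eq_empty_iff_forall_notMem]
        intro x hx
        obtain ⟨h1, h2⟩ := Finset.mem_inter.mp hx
        obtain ⟨h3, h4⟩ := Finset.mem_sdiff.mp h2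
        have h7 : x ∈ b ∩ c := Finset.mem_inter.mpr ⟨h3, h1⟩
        rw [hbc'] at h7
        exact h4 h7
    · rintro ⟨⟨hcB, hsc⟩, h0⟩
      refine ⟨hcB, ?_⟩
      rw [Finset.card_eq_zero, Finset.eq_empty_iff_forall_notMem] at h0
      ext x
      constructor
      · intro hx
        obtain ⟨h1, h2⟩ := Finset.mem_inter.mp hx
        by_contra hxs
        exact h0 x (Finset.mem_inter.mpr ⟨h2, Finset.mem_sdiff.mpr ⟨h1, hxs⟩⟩)
      · intro hx
        exact Finset.mem_inter.mpr ⟨hsb hx, hsc hx⟩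
  rw [hconv, count95 _ b (b \ s) hbS κ (4 - s.card) hκ hle (by rw [hbYc]; omega), hbYc]

theorem two95 (hα : Fintype.card α = 12) {B : Set (Finset α)} (hB : Cfsg.IsSteinerSystem 5 6 B)
    {b : Finset α} (hb : b ∈ B) (s : Finset α) (hsb : s ⊆ b) (hs : s.card = 2) :
    {c : Finset α | c ∈ B ∧ b ∩ c = s}.ncard = 3 := by
  have hbc := hB.1 b hb
  have h := n95 hα hB hb s hsb K95 (by omega) (by intro i hi; exact K95_val i (by omega))
  have t0 := Tval95 hα hB b s hsb hbc 2 0 30 hs (by norm_num) (by decide) (by decide)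
  have t1 := Tval95 hα hB b s hsb hbc 2 1 48 hs (by norm_num) (by decide) (by decide)
  have t2 := Tval95 hα hB b s hsb hbc 2 2 24 hs (by norm_num) (by decide) (by decide)
  rw [sum_K95, t0, t1, t2, hs, K95_four] at h
  have h' : (({c : Finset α | c ∈ B ∧ b ∩ c = s}.ncard : ℕ) : ℤ) = 3 := by rw [h]; norm_num
  exact_mod_cast h'

theorem three95 (hα : Fintype.card α = 12) {B : Set (Finset α)}
    (hB : Cfsg.IsSteinerSystem 5 6 B)
    {b : Finset α} (hb : b ∈ B) (s : Finset α) (hsb : s ⊆ b) (hs : s.card = 3) :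
    {c : Finset α | c ∈ B ∧ b ∩ c = s}.ncard = 2 := by
  have hbc := hB.1 b hb
  have h := n95 hα hB hb s hsb K95 (by omega) (by intro i hi; exact K95_val i (by omega))
  have t0 := Tval95 hα hB b s hsb hbc 3 0 12 hs (by norm_num) (by decide) (by decide)
  have t1 := Tval95 hα hB b s hsb hbc 3 1 12 hs (by norm_num) (by decide) (by decide)
  have t2 := Tval95 hα hB b s hsb hbc 3 2 3 hs (by norm_num) (by decide) (by decide)
  rw [sum_K95, t0, t1, t2, hs, K95_three] at h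
  have h' : (({c : Finset α | c ∈ B ∧ b ∩ c = s}.ncard : ℕ) : ℤ) = 2 := by rw [h]; norm_num
  exact_mod_cast h'

theorem four95 (hα : Fintype.card α = 12) {B : Set (Finset α)}
    (hB : Cfsg.IsSteinerSystem 5 6 B)
    {b : Finset α} (hb : b ∈ B) (s : Finset α) (hsb : s ⊆ b) (hs : s.card = 4) :
    {c : Finset α | c ∈ B ∧ b ∩ c = s}.ncard = 3 := by
  have hbc := hB.1 b hb
  have h := n95 hα hB hb s hsb K96 (by omega) (by intro i hi; exact K96_val i (by omega))
  have t0 := Tval95 hα hB b s hsb hbc 4 0 4 hs (by norm_num) (by decide) (by decide)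
  have t1 := Tval95 hα hB b s hsb hbc 4 1 2 hs (by norm_num) (by decide) (by decide)
  rw [sum_K96, t0, t1, hs, K96_two] at h
  have h' : (({c : Finset α | c ∈ B ∧ b ∩ c = s}.ncard : ℕ) : ℤ) = 3 := by rw [h]; norm_num
  exact_mod_cast h'

end

/-- Leech triangle of S(5, 6, 12): blocks meet in 0, 2, 3 or 4 points, and a block is met exactly in a given 2-, 3- or 4-subset by 3, 2, 3 blocks respectively. -/
theorem result {α : Type*} [Fintype α] [DecidableEq α] (hα : Fintype.card α = 12) {B : Set (Finset α)} (hB : Cfsg.IsSteinerSystem 5 6 B) (b : Finset α) (hb : b ∈ B) : (∀ c ∈ B, c ≠ b → (b ∩ c).card = 0 ∨ (b ∩ c).card = 2 ∨ (b ∩ c).card = 3 ∨ (b ∩ c).card = 4) ∧ ∀ s ⊆ b, (s.card = 2 → {c : Finset α | c ∈ B ∧ b ∩ c = s}.ncard = 3) ∧ (s.card = 3 → {c : Finset α | c ∈ B ∧ b ∩ c = s}.ncard = 2) ∧ (s.card = 4 → {c : Finset α | c ∈ B ∧ b ∩ c = s}.ncard = 3) := by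
  refine ⟨?_, ?_⟩
  · intro c hc hcb
    have h := part1_95 hα hB hb c hc hcb
    rw [Finset.inter_comm b c]
    exact h
  · intro s hs
    exact ⟨fun h2 => two95 hα hB hb s hs h2, fun h3 => three95 hα hB hb s hs h3,
      fun h4 => four95 hα hB hb s hs h4⟩

end Cfsg.Agent.S1595
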