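import Cfsg.Statements.S1635
import Mathlib
import Cfsg.Agent.Lib.Helper9.GolayC
-- import your own Cfsg.Agent.* helpers here

set_option autoImplicit false
open Cfsg

namespace Cfsg.Agent.S1635

/-- Coset leaders of the length-24 code: a coset contains a unique word of weight ≤ 3, or else exactly six words of weight 4 and none lighter. -/
theorem result (w : Cfsg.GolayPt → ZMod 2) : ({v : Cfsg.GolayPt → ZMod 2 | hammingNorm v ≤ 4 ∧ w - v ∈ Cfsg.golayCode}.ncard = 1 ∧ ∃ v : Cfsg.GolayPt → ZMod 2, hammingNorm v ≤ 3 ∧ w - v ∈ Cfsg.golayCode) ∨ ({v : Cfsg.GolayPt → ZMod 2 | hammingNorm v ≤ 4 ∧ w - v ∈ Cfsg.golayCode}.ncard = 6 ∧ ∀ v : Cfsg.GolayPt → ZMod 2, w - v ∈ Cfsg.golayCode → hammingNorm v ≤ 4 → hammingNorm v = 4) := by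
  classical
  have hset : {v : Cfsg.GolayPt → ZMod 2 | hammingNorm v ≤ 4 ∧ w - v ∈ Cfsg.golayCode} =
      ↑(Cfsg.Agent.Lib.Helper9.Golay.lead Cfsg.golayCode 4 w) := by
    ext v
    rw [Finset.mem_coe, Cfsg.Agent.Lib.Helper9.Golay.mem_lead, Set.mem_setOf_eq]
    have h1 : v - w = -(w - v) := by ring
    constructor
    · rintro ⟨h, h'⟩
      exact ⟨by rw [h1]; exact Cfsg.golayCode.neg_mem h', h⟩
    · rintro ⟨h, h'⟩
      refine ⟨h', ?_⟩
      have h2 : w - v = -(v - w) := by ring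
      rw [h2]
      exact Cfsg.golayCode.neg_mem h
  have hmem : ∀ v : Cfsg.GolayPt → ZMod 2, v ∈ Cfsg.Agent.Lib.Helper9.Golay.lead Cfsg.golayCode 4 w ↔
      hammingNorm v ≤ 4 ∧ w - v ∈ Cfsg.golayCode := by
    intro v
    rw [← Finset.mem_coe, ← hset]
    rfl
  rw [hset, Set.ncard_coe_finset]
  rcases Cfsg.Agent.Lib.Helper9.Golay.coset_leaders Cfsg.golayCode
    Cfsg.Agent.Lib.Helper9.GolayC.min_weight Cfsg.Agent.Lib.Helper9.GolayC.card_pts
    Cfsg.Agent.Lib.Helper9.GolayC.finrank_golay w with ⟨u, hu, hu3⟩ | ⟨h6, hall⟩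
  · left
    refine ⟨by rw [hu]; exact Finset.card_singleton u, u, hu3, ?_⟩
    have : u ∈ Cfsg.Agent.Lib.Helper9.Golay.lead Cfsg.golayCode 4 w := by
      rw [hu]
      exact Finset.mem_singleton_self u
    exact ((hmem u).mp this).2
  · right
    refine ⟨h6, fun v hv hv4 => ?_⟩
    exact (hall v ((hmem v).mpr ⟨hv4, hv⟩)).1

end Cfsg.Agent.S1635
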