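import Cfsg.Statements.S1691
import Mathlib

set_option autoImplicit false
open Cfsg

namespace Cfsg.Agent.S1691

theorem comm_braid_eq {A : Type*} [CommGroup A] {u v : A} (hu : u ^ 2 = 1) (hv : v ^ 2 = 1)
    (huv : (u * v) ^ 3 = 1) : u = v := by
  have h1 : u * v = 1 := by
    have h2 : (u * v) ^ 3 = (u ^ 2 * v ^ 2) * (u * v) := by
      rw [mul_pow, pow_succ u 2, pow_succ v 2]
      exact mul_mul_mul_comm _ _ _ _
    rw [h2, hu, hv, one_mul, one_mul] at huv
    exact huv
  have h3 : u = v⁻¹ := eq_inv_of_mul_eq_one_left h1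
  have h4 : v⁻¹ = v := by
    rw [inv_eq_iff_mul_eq_one, ← pow_two, hv]
  rw [h3, h4]

/-- The commutator subgroup of the presented group Fi₂₄ has index 2 (the presented group is Fi₂₄′:2 with Fi₂₄′ its derived subgroup). -/
theorem result : (commutator Cfsg.Spor.Fi24).index = 2 := by
  -- the sign homomorphism
  obtain ⟨f, hfdef⟩ : ∃ f : Spor.Fi24.Gen → Multiplicative (ZMod 2),
      f = fun _ => Multiplicative.ofAdd 1 := ⟨_, rfl⟩
  have huu : (Multiplicative.ofAdd (1 : ZMod 2)) * Multiplicative.ofAdd (1 : ZMod 2) = 1 := by decide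
  have hu1 : (Multiplicative.ofAdd (1 : ZMod 2)) ≠ 1 := by decide
  have hf : ∀ r ∈ (Spor.coxRelators Spor.Fi24.edges ∪ {r | r ∈ Spor.Fi24.extra}),
      FreeGroup.lift f r = 1 := by
    intro r hr
    rcases hr with ⟨x, -, y, -, rfl⟩ | hr
    · rw [map_pow, map_mul, FreeGroup.lift_apply_of, FreeGroup.lift_apply_of, hfdef]
      show (Multiplicative.ofAdd (1 : ZMod 2) * Multiplicative.ofAdd (1 : ZMod 2)) ^ _ = 1
      rw [huu, one_pow]
    · have hr' : r ∈ Spor.Fi24.extra := hr
      simp only [Spor.Fi24.extra, List.mem_cons, List.mem_nil_iff, or_false] at hr'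
      rcases hr' with rfl | rfl
      · simp only [map_mul, map_pow, map_inv, FreeGroup.lift_apply_of, hfdef]
        decide
      · simp only [map_mul, map_pow, FreeGroup.lift_apply_of, hfdef]
        decide
  obtain ⟨σ, hσ⟩ : ∃ σ : Spor.Fi24 →* Multiplicative (ZMod 2),
      ∀ x, σ (PresentedGroup.of x) = Multiplicative.ofAdd 1 := by
    refine ⟨PresentedGroup.toGroup hf, fun x => ?_⟩
    rw [PresentedGroup.toGroup.of, hfdef]
  obtain ⟨τ, hτ⟩ : ∃ τ : Abelianization Spor.Fi24 →* Multiplicative (ZMod 2),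
      ∀ x, τ (Abelianization.of x) = σ x :=
    ⟨Abelianization.lift σ, fun x => Abelianization.lift_apply_of _ _⟩
  -- the images of the generators in the abelianization
  obtain ⟨ab, hab⟩ : ∃ ab : Spor.Fi24.Gen → Abelianization Spor.Fi24,
      ab = fun x => Abelianization.of (PresentedGroup.of x) := ⟨_, rfl⟩
  have hrel : ∀ x y : Spor.Fi24.Gen, x ∈ Spor.coxNodes Spor.Fi24.edges →
      y ∈ Spor.coxNodes Spor.Fi24.edges → (ab x * ab y) ^ Spor.coxLabel Spor.Fi24.edges x y = 1 := by
    intro x y hx hy
    have h1 : (PresentedGroup.mk (Spor.coxRelators Spor.Fi24.edges ∪ {r | r ∈ Spor.Fi24.extra}))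
        ((FreeGroup.of x * FreeGroup.of y) ^ Spor.coxLabel Spor.Fi24.edges x y) = 1 := by
      apply (QuotientGroup.eq_one_iff _).mpr
      apply Subgroup.subset_normalClosure
      left
      exact ⟨x, hx, y, hy, rfl⟩
    rw [map_pow, map_mul] at h1
    have h2 := congrArg (Abelianization.of (G := Spor.Fi24)) h1
    rw [map_pow, map_mul, map_one] at h2
    rw [hab]
    exact h2
  have hnode : ∀ x : Spor.Fi24.Gen, x ∈ Spor.coxNodes Spor.Fi24.edges := by
    intro x
    cases x <;> decide
  have hsq : ∀ x, ab x ^ 2 = 1 := by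
    intro x
    have h1 := hrel x x (hnode x) (hnode x)
    have h2 : Spor.coxLabel Spor.Fi24.edges x x = 1 := by
      unfold Spor.coxLabel
      rw [if_pos rfl]
    rw [h2, pow_one, ← pow_two] at h1
    exact h1
  have hedge : ∀ x y : Spor.Fi24.Gen, Spor.coxLabel Spor.Fi24.edges x y = 3 → ab x = ab y := by
    intro x y hxy
    have h1 := hrel x y (hnode x) (hnode y)
    rw [hxy] at h1
    exact comm_braid_eq (hsq x) (hsq y) h1
  have e1 : ab .l = ab .k := hedge _ _ (by decide)
  have e2 : ab .k = ab .a := hedge _ _ (by decide)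
  have e3 : ab .a = ab .b := hedge _ _ (by decide)
  have e4 : ab .b = ab .c := hedge _ _ (by decide)
  have e5 : ab .c = ab .d := hedge _ _ (by decide)
  have e6 : ab .d = ab .e := hedge _ _ (by decide)
  have e7 : ab .d = ab .h := hedge _ _ (by decide)
  have e8 : ab .e = ab .f := hedge _ _ (by decide)
  have e9 : ab .f = ab .g := hedge _ _ (by decide)
  have e10 : ab .g = ab .j := hedge _ _ (by decide)
  have e11 : ab .h = ab .i := hedge _ _ (by decide)
  have hall : ∀ x, ab x = ab .l := by
    intro x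
    cases x
    · rfl
    · exact e1.symm
    · exact (e1.trans e2).symm
    · exact (e1.trans (e2.trans e3)).symm
    · exact (e1.trans (e2.trans (e3.trans e4))).symm
    · exact (e1.trans (e2.trans (e3.trans (e4.trans e5)))).symm
    · exact (e1.trans (e2.trans (e3.trans (e4.trans (e5.trans e6))))).symm
    · exact (e1.trans (e2.trans (e3.trans (e4.trans (e5.trans (e6.trans e8)))))).symm
    · exact (e1.trans (e2.trans (e3.trans (e4.trans (e5.trans (e6.trans (e8.trans e9))))))).symm
    · exact (e1.trans (e2.trans (e3.trans (e4.trans (e5.trans (e6.trans (e8.trans (e9.trans e10)))))))).symm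
    · exact (e1.trans (e2.trans (e3.trans (e4.trans (e5.trans e7))))).symm
    · exact (e1.trans (e2.trans (e3.trans (e4.trans (e5.trans (e7.trans e11)))))).symm
  -- every element of the abelianization is `1` or `t`
  have hmem : ∀ w : FreeGroup Spor.Fi24.Gen,
      Abelianization.of (PresentedGroup.mk (Spor.coxRelators Spor.Fi24.edges ∪ {r | r ∈ Spor.Fi24.extra}) w) ∈
        Subgroup.zpowers (ab .l) := by
    intro w
    induction w using FreeGroup.induction_on with
    | C1 => rw [map_one, map_one]; exact Subgroup.one_mem _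
    | of x =>
      have h1 : Abelianization.of (PresentedGroup.mk (Spor.coxRelators Spor.Fi24.edges ∪ {r | r ∈ Spor.Fi24.extra})
          (FreeGroup.of x)) = ab x := by rw [hab]; rfl
      rw [h1, hall x]
      exact Subgroup.mem_zpowers _
    | inv_of x ih => rw [map_inv, map_inv]; exact Subgroup.inv_mem _ ih
    | mul x y hx hy => rw [map_mul, map_mul]; exact Subgroup.mul_mem _ hx hy
  have hcases : ∀ z : Abelianization Spor.Fi24, z = 1 ∨ z = ab .l := by
    intro z
    obtain ⟨g, rfl⟩ := QuotientGroup.mk_surjective z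
    obtain ⟨w, rfl⟩ := QuotientGroup.mk_surjective g
    have h1 := hmem w
    obtain ⟨k, hk⟩ := Subgroup.mem_zpowers_iff.mp h1
    have h2 : ab Spor.Fi24.Gen.l ^ (2 : ℤ) = 1 := by
      rw [zpow_ofNat]; exact hsq _
    have h3 : k = 2 * (k / 2) + k % 2 := (Int.mul_ediv_add_emod k 2).symm
    have h4 : ab Spor.Fi24.Gen.l ^ k = ab Spor.Fi24.Gen.l ^ (k % 2) := by
      conv_lhs => rw [h3]
      rw [zpow_add, zpow_mul, h2, one_zpow, one_mul]
    rcases Int.emod_two_eq_zero_or_one k with h5 | h5
    · left
      rw [h5, zpow_zero] at h4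
      exact hk.symm.trans h4
    · right
      rw [h5, zpow_one] at h4
      exact hk.symm.trans h4
  have hτl : τ (ab .l) = Multiplicative.ofAdd 1 := by
    rw [hab, hτ, hσ]
  have hinj : Function.Injective τ := by
    rw [injective_iff_map_eq_one]
    intro z hz
    rcases hcases z with h | h
    · exact h
    · rw [h, hτl] at hz
      exact absurd hz hu1
  have hsurj : Function.Surjective τ := by
    intro b
    have hb : ∀ b : Multiplicative (ZMod 2), b = 1 ∨ b = Multiplicative.ofAdd 1 := by decide
    rcases hb b with h | h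
    · exact ⟨1, by rw [map_one, h]⟩
    · exact ⟨ab .l, by rw [hτl, h]⟩
  have hcard : Nat.card (Abelianization Spor.Fi24) = 2 := by
    rw [Nat.card_congr (Equiv.ofBijective τ ⟨hinj, hsurj⟩), Nat.card_eq_fintype_card]
    decide
  exact hcard

end Cfsg.Agent.S1691
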