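import Cfsg.Statements.S1755
import Cfsg.Agent.Lib.Helper3.Quasi
import Cfsg.Agent.Lib.Helper3.Conj

set_option autoImplicit false
open Cfsg

namespace Cfsg.Agent.S1755

theorem core {G : Type*} [Group G] [Finite G] (z : G) (hz : orderOf z = 2)
    (C : Subgroup G) (hCdef : ∀ x : G, x ∈ C ↔ x * z = z * x)
    (Q : Subgroup ↥C) (hQn : Q.Normal)
    (hQ : Cfsg.IsOfSymplecticType ↥Q) (hzC : z ∈ C)
    (hzQ : (⟨z, hzC⟩ : ↥C) ∈ Q)
    (B : Subgroup ↥Q) (hBc : B.Characteristic) (hBa : IsMulCommutative ↥B) (g : G) :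
    ((B.map Q.subtype).map C.subtype).map (MulAut.conj g).toMonoidHom =
        (B.map Q.subtype).map C.subtype ∨
      ((B.map Q.subtype).map C.subtype).map (MulAut.conj g).toMonoidHom ⊓
        (B.map Q.subtype).map C.subtype = ⊥ := by
  set Bt := (B.map Q.subtype).map C.subtype with hBt
  let φ : ↥Q →* G := C.subtype.comp Q.subtype
  have hφ : Function.Injective φ := fun a b h => Subtype.ext (Subtype.ext h)
  have hmem : ∀ x : G, x ∈ Bt ↔ ∃ b ∈ B, φ b = x := by
    intro x
    constructor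
    · rintro ⟨_, ⟨b, hb, rfl⟩, rfl⟩
      exact ⟨b, hb, rfl⟩
    · rintro ⟨b, hb, rfl⟩
      exact ⟨_, ⟨b, hb, rfl⟩, rfl⟩
  haveI hBcyc : IsCyclic B := hQ.2 B hBc hBa
  haveI hZcyc : IsCyclic (Subgroup.center ↥Q) := hQ.2 (Subgroup.center ↥Q) inferInstance inferInstance
  let zQ : ↥Q := ⟨⟨z, hzC⟩, hzQ⟩
  have hφz : φ zQ = z := rfl
  have hzQ2 : orderOf zQ = 2 := by
    rw [← orderOf_injective φ hφ zQ, hφz, hz]
  have hzQcen : zQ ∈ Subgroup.center ↥Q := by
    rw [Subgroup.mem_center_iff]
    intro q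
    apply Subtype.ext
    apply Subtype.ext
    exact ((hCdef _).mp q.1.2)
  haveI hBn : B.Normal := Subgroup.normal_of_characteristic B
  -- key claim
  have hK : ∀ b ∈ B, orderOf b = 2 → b = zQ := by
    intro b hb hb2
    have hbcen : b ∈ Subgroup.center ↥Q := by
      rw [Subgroup.mem_center_iff]
      intro q
      have h1 : q * b * q⁻¹ ∈ B := hBn.conj_mem b hb q
      have h2 : orderOf (q * b * q⁻¹) = 2 := by
        rw [Cfsg.Agent.Lib.Helper3.orderOf_conj_eq, hb2]
      have h3 : (⟨q * b * q⁻¹, h1⟩ : B) = ⟨b, hb⟩ :=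
        Cfsg.Agent.Lib.Helper3.uniq_invol_cyclic _ _ (by rw [Subgroup.orderOf_mk, h2])
          (by rw [Subgroup.orderOf_mk, hb2])
      have h4 : q * b * q⁻¹ = b := congrArg Subtype.val h3
      calc q * b = q * b * q⁻¹ * q := by group
        _ = b * q := by rw [h4]
    have h5 : (⟨b, hbcen⟩ : Subgroup.center ↥Q) = ⟨zQ, hzQcen⟩ :=
      Cfsg.Agent.Lib.Helper3.uniq_invol_cyclic _ _ (by rw [Subgroup.orderOf_mk, hb2])
        (by rw [Subgroup.orderOf_mk, hzQ2])
    exact congrArg Subtype.val h5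
  have hK' : ∀ x ∈ Bt, orderOf x = 2 → x = z := by
    intro x hx hx2
    obtain ⟨b, hb, rfl⟩ := (hmem x).mp hx
    rw [orderOf_injective φ hφ b] at hx2
    rw [hK b hb hx2]
    exact hφz
  by_cases hint : Bt.map (MulAut.conj g).toMonoidHom ⊓ Bt = ⊥
  · right; exact hint
  · left
    have hBt2 : IsPGroup 2 Bt := ((hQ.1.to_subgroup B).map _).map _
    have hK2 : IsPGroup 2 ↥(Bt.map (MulAut.conj g).toMonoidHom ⊓ Bt) := hBt2.to_le inf_le_right
    obtain ⟨w, hw, hw2⟩ := Cfsg.Agent.Lib.Helper3.exists_invol_of_ne_bot _ hK2 hint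
    obtain ⟨hw1, hwB⟩ := Subgroup.mem_inf.mp hw
    have hwz : w = z := hK' w hwB hw2
    rw [Cfsg.Agent.Lib.Helper3.mem_map_conj_iff] at hw1
    have hgz : g⁻¹ * w * g = z :=
      hK' _ hw1 (by rw [Cfsg.Agent.Lib.Helper3.orderOf_conj_eq', hw2])
    rw [hwz] at hgz
    have hgC : g ∈ C := by
      rw [hCdef]
      calc g * z = g * (g⁻¹ * z * g) := by rw [hgz]
        _ = z * g := by group
    haveI hB'n : (B.map Q.subtype).Normal := ConjAct.normal_of_characteristic_of_normal
    ext x
    rw [Cfsg.Agent.Lib.Helper3.mem_map_conj_iff]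
    constructor
    · rintro ⟨c, hc, hcx⟩
      have h1 := hB'n.conj_mem c hc ⟨g, hgC⟩
      refine ⟨_, h1, ?_⟩
      show g * (C.subtype c) * g⁻¹ = x
      rw [hcx]; group
    · rintro ⟨c, hc, rfl⟩
      have h1 := hB'n.conj_mem c hc (⟨g, hgC⟩ : C)⁻¹
      refine ⟨_, h1, ?_⟩
      show g⁻¹ * (C.subtype c) * g⁻¹⁻¹ = g⁻¹ * (C.subtype c) * g
      rw [inv_inv]

/-- Let G be a finite group and let z be an involution of G such that Q, the generalized Fitting subgroup of the centralizer C of z, is a 2-group of symplectic type (every characteristic abelian subgroup of Q is cyclic). Let B be a characteristic abelian subgroup of Q, viewed as a subgroup of G. Then for every g in G, the conjugate of B by g either equals B or meets B trivially. -/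
theorem result {G : Type*} [Group G] [Finite G] (z : G) (hz : orderOf z = 2) (hQ : Cfsg.IsOfSymplecticType ↥(Cfsg.generalizedFittingSubgroup ↥(Subgroup.centralizer ({z} : Set G))))
    (B : Subgroup ↥(Cfsg.generalizedFittingSubgroup ↥(Subgroup.centralizer ({z} : Set G)))) (hBc : B.Characteristic) (hBa : IsMulCommutative ↥B) (g : G) :
    ((B.map (Cfsg.generalizedFittingSubgroup ↥(Subgroup.centralizer ({z} : Set G))).subtype).map (Subgroup.centralizer ({z} : Set G)).subtype).map (MulAut.conj g).toMonoidHom =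
        (B.map (Cfsg.generalizedFittingSubgroup ↥(Subgroup.centralizer ({z} : Set G))).subtype).map (Subgroup.centralizer ({z} : Set G)).subtype ∨
      ((B.map (Cfsg.generalizedFittingSubgroup ↥(Subgroup.centralizer ({z} : Set G))).subtype).map (Subgroup.centralizer ({z} : Set G)).subtype).map (MulAut.conj g).toMonoidHom ⊓
        (B.map (Cfsg.generalizedFittingSubgroup ↥(Subgroup.centralizer ({z} : Set G))).subtype).map (Subgroup.centralizer ({z} : Set G)).subtype = ⊥ := by
  have hzC : z ∈ Subgroup.centralizer ({z} : Set G) := by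
    rw [Subgroup.mem_centralizer_singleton_iff]
  have hzcen : (⟨z, hzC⟩ : ↥(Subgroup.centralizer ({z} : Set G))) ∈
      Subgroup.center ↥(Subgroup.centralizer ({z} : Set G)) := by
    rw [Subgroup.mem_center_iff]
    intro c
    apply Subtype.ext
    exact (Subgroup.mem_centralizer_singleton_iff.mp c.2)
  exact core z hz _ (fun x => Subgroup.mem_centralizer_singleton_iff) _
    (Cfsg.Agent.Lib.Helper3.generalizedFittingSubgroup_normal _) hQ hzC
    (Cfsg.Agent.Lib.Helper3.central_mem_generalizedFittingSubgroup _ hzcen) B hBc hBa g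

end Cfsg.Agent.S1755
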