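import Cfsg.Statements.S1756
import Mathlib
import Cfsg.Agent.Lib.Helper3.Extraspecial

set_option autoImplicit false
open Cfsg

namespace Cfsg.Agent.S1756

open Cfsg.Agent.Lib.Helper3 in
theorem aux {G : Type*} [Group G] [Finite G] (Q : Subgroup G)
    (hQ : Cfsg.IsExtraspecial 2 ↥Q) (t : G) (ht : orderOf t = 2)
    (htN : t ∈ Subgroup.normalizer (Q : Set G))
    (hi : (Subgroup.centralizer ({t} : Set G) ⊓ Q).relIndex Q ≤ 2) :
    t ∈ Q ⊔ Subgroup.centralizer (Q : Set G) := by
  have ht2 : t * t = 1 := by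
    have := pow_orderOf_eq_one t
    rw [ht, pow_two] at this
    exact this
  have htinv : t⁻¹ = t := inv_eq_of_mul_eq_one_left ht2
  have hmem : ∀ x : ↥Q, t * (x : G) * t⁻¹ ∈ Q := fun x =>
    (Subgroup.mem_normalizer_iff.mp htN x).mp x.2
  obtain ⟨τ, hτdef⟩ : ∃ τ : ↥Q →* ↥Q, ∀ x : ↥Q, ((τ x : ↥Q) : G) = t * (x : G) * t⁻¹ := by
    refine ⟨{ toFun := fun x => ⟨t * (x : G) * t⁻¹, hmem x⟩, map_one' := ?_, map_mul' := ?_ },
      fun x => rfl⟩
    · apply Subtype.ext
      show t * ((1 : ↥Q) : G) * t⁻¹ = ((1 : ↥Q) : G)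
      rw [Subgroup.coe_one]; group
    · intro a b
      apply Subtype.ext
      show t * ((a * b : ↥Q) : G) * t⁻¹ = (t * (a : G) * t⁻¹) * (t * (b : G) * t⁻¹)
      rw [Subgroup.coe_mul]; group
  have hτ : ∀ x, τ (τ x) = x := by
    intro x
    apply Subtype.ext
    rw [hτdef, hτdef, htinv]
    calc t * (t * (x : G) * t) * t = (t * t) * (x : G) * (t * t) := by group
      _ = (x : G) := by rw [ht2]; group
  have hM : ∀ x : ↥Q, x ∈ (Subgroup.centralizer ({t} : Set G) ⊓ Q).subgroupOf Q ↔ τ x = x := by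
    intro x
    rw [Subgroup.mem_subgroupOf, Subgroup.mem_inf, Subgroup.mem_centralizer_iff]
    constructor
    · rintro ⟨h, -⟩
      apply Subtype.ext
      rw [hτdef, h t rfl]; group
    · intro h
      refine ⟨fun y hy => ?_, x.2⟩
      rw [Set.mem_singleton_iff] at hy
      rw [hy]
      have h1 := congrArg Subtype.val h
      rw [hτdef] at h1
      calc t * (x : G) = t * (x : G) * t⁻¹ * t := by group
        _ = (x : G) * t := by rw [h1]
  obtain ⟨q, hq⟩ := extraspecial_inner hQ τ hτ _ hM hi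
  have hu : (q : G) * t ∈ Subgroup.centralizer (Q : Set G) := by
    rw [Subgroup.mem_centralizer_iff]
    intro x hx
    have h1 := congrArg Subtype.val (hq ⟨x, hx⟩)
    rw [Subgroup.coe_mul, Subgroup.coe_mul, hτdef, Subgroup.coe_inv] at h1
    have h2 : (q : G) * (t * x * t⁻¹) * (q : G)⁻¹ = x := h1
    calc x * ((q : G) * t) = ((q : G) * (t * x * t⁻¹) * (q : G)⁻¹) * ((q : G) * t) := by rw [h2]
      _ = (q : G) * t * x := by group
  have e : t = (q : G)⁻¹ * ((q : G) * t) := by group
  rw [e]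
  exact Subgroup.mul_mem_sup (inv_mem q.2) hu

/-- Let Q be an extraspecial 2-subgroup of the finite group G (special with centre of order 2) and t an involution of G normalizing Q such that the centralizer of t in Q has index at most 2 in Q. Then t lies in the product of Q with the centralizer of Q. -/
theorem result {G : Type*} [Group G] [Finite G] (Q : Subgroup G)
    (hQ : Cfsg.IsExtraspecial 2 ↥Q) (t : G) (ht : orderOf t = 2) (htN : t ∈ Subgroup.normalizer (Q : Set G))
    (hi : (Subgroup.centralizer ({t} : Set G) ⊓ Q).relIndex Q ≤ 2) :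
    t ∈ Q ⊔ Subgroup.centralizer (Q : Set G) := by
  exact aux Q hQ t ht htN hi

end Cfsg.Agent.S1756
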