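import Cfsg.Statements.S1780
import Mathlib

set_option autoImplicit false
open Cfsg

namespace Cfsg.Agent.S1780

theorem aut_step {A : Type*} [CommGroup A] (hA : IsPGroup 2 A) (s : MulAut A)
    (hs : ∀ a : A, s (s a) = a → s a = a) :
    ∀ a : A, (s * s) ((s * s) a) = a → (s * s) a = a := by
  -- Step A
  have stepA : ∀ c : A, s (s c) = c⁻¹ → c ^ 2 = 1 → s c = c := by
    intro c h1 h2
    apply hs
    rw [h1]
    exact inv_eq_of_mul_eq_one_left (by rw [← pow_two]; exact h2)
  -- Step B
  have stepB : ∀ c : A, s (s c) = c⁻¹ → c ^ 4 = 1 → c ^ 2 = 1 := by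
    intro c h1 h4
    have hc2 : s (c ^ 2) = c ^ 2 := by
      apply stepA
      · rw [map_pow, map_pow, h1, inv_pow]
      · rw [← pow_mul]; exact h4
    have he2 : (c⁻¹ * s c) ^ 2 = 1 := by
      rw [mul_pow, inv_pow, ← map_pow, hc2]
      exact inv_mul_cancel _
    have he : s (c⁻¹ * s c) = c⁻¹ * s c := by
      apply stepA _ _ he2
      rw [map_mul, map_mul, map_inv, map_inv, h1, map_inv, mul_inv, inv_inv]
    have hsc : s c = c * (c⁻¹ * s c) := by rw [mul_inv_cancel_left]
    have h3 : s (s c) = c := by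
      calc s (s c) = s (c * (c⁻¹ * s c)) := by rw [← hsc]
        _ = s c * (c⁻¹ * s c) := by rw [map_mul, he]
        _ = c * (c⁻¹ * s c) ^ 2 := by rw [pow_two, ← mul_assoc c, ← hsc]
        _ = c := by rw [he2, mul_one]
    rw [h3] at h1
    rw [pow_two]
    exact mul_eq_one_iff_eq_inv.mpr h1
  -- Step C
  have stepC : ∀ m : ℕ, ∀ c : A, s (s c) = c⁻¹ → c ^ (2 ^ m) = 1 → c ^ 2 = 1 := by
    intro m
    induction m with
    | zero => intro c _ h; rw [pow_zero, pow_one] at h; rw [h, one_pow]
    | succ m ih =>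
      intro c h1 h2
      rcases Nat.eq_zero_or_pos m with hm | hm
      · subst hm; simpa using h2
      · apply ih c h1
        have hd : (c ^ (2 ^ (m - 1))) ^ 2 = 1 := by
          apply stepB
          · rw [map_pow, map_pow, h1, inv_pow]
          · rw [← pow_mul]
            have : 2 ^ (m - 1) * 4 = 2 ^ (m + 1) := by
              have : m + 1 = (m - 1) + 2 := by omega
              rw [this, pow_add]; norm_num
            rw [this]; exact h2
        rw [← pow_mul] at hd
        have : 2 ^ (m - 1) * 2 = 2 ^ m := by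
          have : m = (m - 1) + 1 := by omega
          nth_rewrite 2 [this]
          rw [pow_succ]
        rw [this] at hd
        exact hd
  -- Step D
  intro a ha
  simp only [MulAut.mul_apply] at ha ⊢
  have hx : s (a * s (s a)) = a * s (s a) := by
    apply hs
    rw [map_mul, map_mul, ha, mul_comm]
  have hb : s (s (a⁻¹ * s a)) = (a⁻¹ * s a)⁻¹ := by
    have h3 : s (s (s a)) = a * s (s a) * (s a)⁻¹ := by
      rw [map_mul] at hx
      rw [← hx, mul_comm (s a), mul_inv_cancel_right]
    rw [map_mul, map_mul, map_inv, map_inv, h3, mul_inv, inv_inv]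
    rw [mul_comm a (s (s a)), mul_assoc, inv_mul_cancel_left, mul_comm]
  obtain ⟨m, hm⟩ := hA (a⁻¹ * s a)
  have hb2 : (a⁻¹ * s a) ^ 2 = 1 := stepC m _ hb hm
  have hbs : s (a⁻¹ * s a) = a⁻¹ * s a := stepA _ hb hb2
  have hsa : s a = a * (a⁻¹ * s a) := by rw [mul_inv_cancel_left]
  calc s (s a) = s (a * (a⁻¹ * s a)) := by rw [← hsa]
    _ = s a * (a⁻¹ * s a) := by rw [map_mul, hbs]
    _ = a * (a⁻¹ * s a) ^ 2 := by rw [pow_two, ← mul_assoc a, ← hsa]
    _ = a := by rw [hb2, mul_one]

/-- Let A be a finite abelian 2-group and t an automorphism of A whose order is a power of 2. If every element of A fixed by t² is fixed by t, then t fixes every element of A. -/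
theorem result {A : Type*} [CommGroup A] [Finite A]
    (hA : IsPGroup 2 A) (t : MulAut A) (ht : ∃ k : ℕ, orderOf t = 2 ^ k) (hC : ∀ a : A, t (t a) = a → t a = a) :
    ∀ a : A, t a = a := by
  obtain ⟨k, hk⟩ := ht
  have hP : ∀ j : ℕ, ∀ a : A, (t ^ (2 ^ j)) ((t ^ (2 ^ j)) a) = a → (t ^ (2 ^ j)) a = a := by
    intro j
    induction j with
    | zero => simpa using hC
    | succ j ih =>
      have e : t ^ (2 ^ (j + 1)) = t ^ (2 ^ j) * t ^ (2 ^ j) := by
        rw [← pow_add]; congr 1; ring
      rw [e]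
      exact aut_step hA _ ih
  have hfin : ∀ i : ℕ, i ≤ k → ∀ a : A, (t ^ (2 ^ (k - i))) a = a := by
    intro i
    induction i with
    | zero =>
      intro _ a
      have : t ^ (2 ^ (k - 0)) = 1 := by
        rw [Nat.sub_zero, ← hk]; exact pow_orderOf_eq_one t
      rw [this]; rfl
    | succ i ih =>
      intro hi a
      have h1 := ih (by omega) a
      have e : t ^ (2 ^ (k - i)) = t ^ (2 ^ (k - (i + 1))) * t ^ (2 ^ (k - (i + 1))) := by
        rw [← pow_add]; congr 1
        have : k - i = (k - (i + 1)) + 1 := by omega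
        rw [this, pow_succ]; ring
      rw [e] at h1
      exact hP _ a h1
  intro a
  have := hfin k le_rfl a
  simpa using this

end Cfsg.Agent.S1780
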