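import Cfsg.Statements.S1781
import Mathlib
import Cfsg.Agent.S1780

set_option autoImplicit false
open Cfsg

namespace Cfsg.Agent.S1781

theorem mem_map_conj_iff {G : Type*} [Group G] (A : Subgroup G) (h x : G) :
    x ∈ A.map (MulAut.conj h).toMonoidHom ↔ h⁻¹ * x * h ∈ A := by
  constructor
  · rintro ⟨y, hy, rfl⟩
    have e : h⁻¹ * (MulAut.conj h).toMonoidHom y * h = y := by
      simp only [MulEquiv.coe_toMonoidHom, MulAut.conj_apply]; group
    rw [e]; exact hy
  · intro hx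
    refine ⟨h⁻¹ * x * h, hx, ?_⟩
    simp only [MulEquiv.coe_toMonoidHom, MulAut.conj_apply]; group

theorem ti_mem_normalizer {G : Type*} [Group G] (A : Subgroup G)
    (hti : ∀ h : G, A.map (MulAut.conj h).toMonoidHom = A ∨ A.map (MulAut.conj h).toMonoidHom ⊓ A = ⊥)
    (a : G) (ha : a ∈ A) (ha1 : a ≠ 1) (b : G) (hab : a * b = b * a) :
    b ∈ Subgroup.normalizer (A : Set G) := by
  rcases hti b with h | h
  · rw [Subgroup.mem_normalizer_iff]
    intro x
    have h2 : b * x * b⁻¹ ∈ A.map (MulAut.conj b).toMonoidHom ↔ b * x * b⁻¹ ∈ A := by rw [h]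
    rw [mem_map_conj_iff] at h2
    have e : b⁻¹ * (b * x * b⁻¹) * b = x := by group
    rw [e] at h2
    exact h2
  · exfalso
    have h2 : a ∈ A.map (MulAut.conj b).toMonoidHom ⊓ A := by
      refine Subgroup.mem_inf.mpr ⟨?_, ha⟩
      rw [mem_map_conj_iff]
      have e : b⁻¹ * a * b = a := by rw [mul_assoc, hab]; group
      rw [e]; exact ha
    rw [h, Subgroup.mem_bot] at h2
    exact ha1 h2

theorem comm_of_normalizers {G : Type*} [Group G] (A B : Subgroup G) (hAB : A ⊓ B = ⊥) (a b : G)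
    (ha : a ∈ A) (haN : a ∈ Subgroup.normalizer (B : Set G)) (hb : b ∈ B)
    (hbN : b ∈ Subgroup.normalizer (A : Set G)) : a * b = b * a := by
  have h1 : a * b * a⁻¹ * b⁻¹ ∈ A ⊓ B := by
    refine Subgroup.mem_inf.mpr ⟨?_, ?_⟩
    · have h2 := (Subgroup.mem_normalizer_iff.mp hbN a⁻¹).mp (inv_mem ha)
      have e : a * b * a⁻¹ * b⁻¹ = a * (b * a⁻¹ * b⁻¹) := by group
      rw [e]; exact mul_mem ha h2
    · have h2 := (Subgroup.mem_normalizer_iff.mp haN b).mp hb
      exact mul_mem h2 (inv_mem hb)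
  rw [hAB, Subgroup.mem_bot] at h1
  calc a * b = (a * b * a⁻¹ * b⁻¹) * (b * a) := by group
    _ = b * a := by rw [h1, one_mul]

theorem key {G : Type*} [Group G] [Finite G] (A B : Subgroup G) (hB2 : IsPGroup 2 B)
    (htiA : ∀ h : G, A.map (MulAut.conj h).toMonoidHom = A ∨ A.map (MulAut.conj h).toMonoidHom ⊓ A = ⊥)
    (hAB : A ⊓ B = ⊥) (a : G) (haA : a ∈ A) (haN : a ∈ Subgroup.normalizer (B : Set G))
    (ha2 : a ^ 2 ≠ 1) (hA2 : IsPGroup 2 A) (hBa : IsMulCommutative B) :
    ∀ b ∈ B, a * b = b * a := by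
  letI : CommGroup B := { (inferInstance : Group B) with
    mul_comm := fun x y => hBa.is_comm.comm x y }
  let t : MulAut B := Subgroup.normalizerMonoidHom B ⟨a, haN⟩
  have ht_apply : ∀ b : B, ((t b : B) : G) = a * b * a⁻¹ := fun b => rfl
  have hC : ∀ b : B, t (t b) = b → t b = b := by
    intro b hb
    have h1 : a ^ 2 * (b : G) = (b : G) * a ^ 2 := by
      have h0 := congrArg Subtype.val hb
      rw [ht_apply, ht_apply] at h0
      have e : a ^ 2 * (b : G) = (a * (a * b * a⁻¹) * a⁻¹) * a ^ 2 := by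
        rw [pow_two]; simp [mul_assoc]
      rw [e, h0]
    have h2 : (b : G) ∈ Subgroup.normalizer (A : Set G) :=
      ti_mem_normalizer A htiA (a ^ 2) (pow_mem haA 2) ha2 b h1
    have h3 := comm_of_normalizers A B hAB a b haA haN b.2 h2
    apply Subtype.ext
    rw [ht_apply, h3]; group
  have ht : ∃ k : ℕ, orderOf t = 2 ^ k := by
    obtain ⟨m, hm⟩ := hA2 ⟨a, haA⟩
    have hm' : a ^ (2 ^ m) = 1 := by
      have := congrArg Subtype.val hm
      simpa using this
    have h1 : t ^ (2 ^ m) = 1 := by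
      show (Subgroup.normalizerMonoidHom B ⟨a, haN⟩) ^ (2 ^ m) = 1
      rw [← map_pow]
      have h2 : (⟨a, haN⟩ : Subgroup.normalizer (B : Set G)) ^ (2 ^ m) = 1 := Subtype.ext (by simpa using hm')
      rw [h2, map_one]
    obtain ⟨k, _, hk⟩ := (Nat.dvd_prime_pow Nat.prime_two).mp (orderOf_dvd_of_pow_eq_one h1)
    exact ⟨k, hk⟩
  have hres := Cfsg.Agent.S1780.result hB2 t ht hC
  intro b hb
  have h := congrArg Subtype.val (hres ⟨b, hb⟩)
  rw [ht_apply] at h
  calc a * b = (a * b * a⁻¹) * a := by group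
    _ = b * a := by rw [h]

/-- Let A be an abelian 2-subgroup of the finite group G such that every conjugate of A equals A or meets A trivially, and let g ∈ G with g A g⁻¹ ≠ A. Then either the subgroup of those elements of A that normalize g A g⁻¹ is an elementary abelian 2-group, or A and g A g⁻¹ commute elementwise. -/
theorem result {G : Type*} [Group G] [Finite G] (A : Subgroup G)
    (hA2 : IsPGroup 2 ↥A) (hAa : IsMulCommutative ↥A)
    (hti : ∀ h : G, A.map (MulAut.conj h).toMonoidHom = A ∨ A.map (MulAut.conj h).toMonoidHom ⊓ A = ⊥)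
    (g : G) (hg : A.map (MulAut.conj g).toMonoidHom ≠ A) :
    Cfsg.IsElementaryAbelian 2 (A ⊓ Subgroup.normalizer ((A.map (MulAut.conj g).toMonoidHom : Subgroup G) : Set G)) ∨
      ⁅A, A.map (MulAut.conj g).toMonoidHom⁆ = ⊥ := by
  set B := A.map (MulAut.conj g).toMonoidHom with hB
  by_cases hall : ∀ a ∈ A ⊓ Subgroup.normalizer (B : Set G), a ^ 2 = 1
  · left
    refine ⟨⟨⟨fun x y => Subtype.ext ?_⟩⟩, hall⟩
    have h3 := hAa.is_comm.comm (⟨x.1, (Subgroup.mem_inf.mp x.2).1⟩ : A) ⟨y.1, (Subgroup.mem_inf.mp y.2).1⟩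
    have h4 : (x : G) * (y : G) = (y : G) * (x : G) := congrArg Subtype.val h3
    exact h4
  · right
    push Not at hall
    obtain ⟨a, haAN, ha2⟩ := hall
    obtain ⟨haA, haN⟩ := Subgroup.mem_inf.mp haAN
    have ha1 : a ≠ 1 := by
      intro h; apply ha2; rw [h, one_pow]
    have hB2 : IsPGroup 2 B := hA2.map _
    have hBa : IsMulCommutative B := by
      refine ⟨⟨fun x y => Subtype.ext ?_⟩⟩
      obtain ⟨x', hx', hx⟩ := x.2
      obtain ⟨y', hy', hy⟩ := y.2
      have h1 := congrArg Subtype.val (hAa.is_comm.comm (⟨x', hx'⟩ : A) ⟨y', hy'⟩)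
      have h2 : x' * y' = y' * x' := h1
      show (x : G) * (y : G) = (y : G) * (x : G)
      rw [← hx, ← hy, ← map_mul, ← map_mul, h2]
    have htiB : ∀ h : G, B.map (MulAut.conj h).toMonoidHom = B ∨
        B.map (MulAut.conj h).toMonoidHom ⊓ B = ⊥ := by
      intro h
      rcases hti (g⁻¹ * h * g) with h1 | h1
      · left
        ext x
        rw [mem_map_conj_iff, hB, mem_map_conj_iff, mem_map_conj_iff]
        have h2 : g⁻¹ * x * g ∈ A.map (MulAut.conj (g⁻¹ * h * g)).toMonoidHom ↔ g⁻¹ * x * g ∈ A := by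
          rw [h1]
        rw [mem_map_conj_iff] at h2
        have e : (g⁻¹ * h * g)⁻¹ * (g⁻¹ * x * g) * (g⁻¹ * h * g) = g⁻¹ * (h⁻¹ * x * h) * g := by group
        rw [e] at h2
        exact h2
      · right
        rw [eq_bot_iff]
        intro x hx
        obtain ⟨hx1, hx2⟩ := Subgroup.mem_inf.mp hx
        rw [mem_map_conj_iff, hB, mem_map_conj_iff] at hx1
        rw [hB, mem_map_conj_iff] at hx2
        have h2 : g⁻¹ * x * g ∈ A.map (MulAut.conj (g⁻¹ * h * g)).toMonoidHom ⊓ A := by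
          refine Subgroup.mem_inf.mpr ⟨?_, hx2⟩
          rw [mem_map_conj_iff]
          have e : (g⁻¹ * h * g)⁻¹ * (g⁻¹ * x * g) * (g⁻¹ * h * g) = g⁻¹ * (h⁻¹ * x * h) * g := by group
          rw [e]; exact hx1
        rw [h1, Subgroup.mem_bot] at h2
        rw [Subgroup.mem_bot]
        calc x = g * (g⁻¹ * x * g) * g⁻¹ := by group
          _ = 1 := by rw [h2]; group
    have hAB : A ⊓ B = ⊥ := by
      rcases hti g with h | h
      · exact absurd h hg
      · rw [inf_comm]; exact h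
    have h1 : ∀ b ∈ B, a * b = b * a := key A B hB2 hti hAB a haA haN ha2 hA2 hBa
    have hBN : B ≤ Subgroup.normalizer (A : Set G) :=
      fun b hb => ti_mem_normalizer A hti a haA ha1 b (h1 b hb)
    have hb₀B : g * a * g⁻¹ ∈ B := ⟨a, haA, rfl⟩
    have hb₀2 : (g * a * g⁻¹) ^ 2 ≠ 1 := by
      intro h
      apply ha2
      have e : (g * a * g⁻¹) ^ 2 = g * a ^ 2 * g⁻¹ := by rw [pow_two, pow_two]; group
      rw [e] at h
      calc a ^ 2 = g⁻¹ * (g * a ^ 2 * g⁻¹) * g := by group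
        _ = 1 := by rw [h]; group
    have hb₀1 : g * a * g⁻¹ ≠ 1 := by
      intro h; apply hb₀2; rw [h, one_pow]
    have hBA : B ⊓ A = ⊥ := by rw [inf_comm]; exact hAB
    have h2 : ∀ a' ∈ A, (g * a * g⁻¹) * a' = a' * (g * a * g⁻¹) :=
      key B A hA2 htiB hBA _ hb₀B (hBN hb₀B) hb₀2 hB2 hAa
    have hAN : A ≤ Subgroup.normalizer (B : Set G) :=
      fun a' ha' => ti_mem_normalizer B htiB _ hb₀B hb₀1 a' (h2 a' ha')
    rw [Subgroup.commutator_eq_bot_iff_le_centralizer]
    intro a' ha'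
    rw [Subgroup.mem_centralizer_iff]
    intro b hb
    exact (comm_of_normalizers A B hAB a' b ha' (hAN ha') hb (hBN hb)).symm

end Cfsg.Agent.S1781
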