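import Cfsg.Statements.S1757
import Mathlib
import Cfsg.Agent.S1781

set_option autoImplicit false
open Cfsg

namespace Cfsg.Agent.S1757

/-- Let p be a prime and A, B p-subgroups of the finite group G, each of which meets every conjugate of itself other than itself trivially. Suppose the order of A is at most that of B, A and B intersect trivially, and B normalizes A. Then A and B commute elementwise. -/
theorem result {G : Type*} [Group G] [Finite G] (p : ℕ) [Fact p.Prime] (A B : Subgroup G)
    (hA : IsPGroup p ↥A) (hB : IsPGroup p ↥B)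
    (hAti : ∀ g : G, A.map (MulAut.conj g).toMonoidHom = A ∨ A.map (MulAut.conj g).toMonoidHom ⊓ A = ⊥)
    (hBti : ∀ g : G, B.map (MulAut.conj g).toMonoidHom = B ∨ B.map (MulAut.conj g).toMonoidHom ⊓ B = ⊥)
    (hle : Nat.card ↥A ≤ Nat.card ↥B) (hAB : A ⊓ B = ⊥) (hN : B ≤ Subgroup.normalizer (A : Set G)) : ⁅A, B⁆ = ⊥ := by
  rw [Subgroup.commutator_eq_bot_iff_le_centralizer]
  by_contra hcon
  obtain ⟨a, haA, ha⟩ := SetLike.not_le_iff_exists.mp hcon
  rw [Subgroup.mem_centralizer_iff] at ha
  push Not at ha
  obtain ⟨b₀, hb₀, hab₀⟩ := ha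
  have ha1 : a ≠ 1 := by
    intro h; apply hab₀; rw [h]; simp
  have hconjA : ∀ b ∈ B, b * a * b⁻¹ ∈ A := fun b hb =>
    (Subgroup.mem_normalizer_iff.mp (hN hb) a).mp haA
  let f : Option B → A := fun o => match o with
    | none => 1
    | some b => ⟨(b : G) * a * (b : G)⁻¹, hconjA b b.2⟩
  have hf : Function.Injective f := by
    intro o₁ o₂ h
    match o₁, o₂ with
    | none, none => rfl
    | none, some b =>
      exfalso
      have h1 : (1 : G) = (b : G) * a * (b : G)⁻¹ := congrArg Subtype.val h
      apply ha1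
      calc a = (b : G)⁻¹ * ((b : G) * a * (b : G)⁻¹) * b := by group
        _ = 1 := by rw [← h1]; group
    | some b, none =>
      exfalso
      have h1 : (b : G) * a * (b : G)⁻¹ = 1 := congrArg Subtype.val h
      apply ha1
      calc a = (b : G)⁻¹ * ((b : G) * a * (b : G)⁻¹) * b := by group
        _ = 1 := by rw [h1]; group
    | some b, some b' =>
      have h1 : (b : G) * a * (b : G)⁻¹ = (b' : G) * a * (b' : G)⁻¹ := congrArg Subtype.val h
      have h2 : ((b' : G)⁻¹ * b) * a = a * ((b' : G)⁻¹ * b) := by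
        calc ((b' : G)⁻¹ * b) * a = (b' : G)⁻¹ * ((b : G) * a * (b : G)⁻¹) * b := by group
          _ = (b' : G)⁻¹ * ((b' : G) * a * (b' : G)⁻¹) * b := by rw [h1]
          _ = a * ((b' : G)⁻¹ * b) := by group
      by_cases hc : (b' : G)⁻¹ * b = 1
      · have : (b : G) = b' := by
          calc (b : G) = b' * ((b' : G)⁻¹ * b) := by group
            _ = b' := by rw [hc, mul_one]
        exact congrArg some (Subtype.ext this)
      · exfalso
        have hcB : (b' : G)⁻¹ * b ∈ B := B.mul_mem (B.inv_mem b'.2) b.2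
        have haN : a ∈ Subgroup.normalizer (B : Set G) :=
          Cfsg.Agent.S1781.ti_mem_normalizer B hBti _ hcB hc a h2
        exact hab₀ (Cfsg.Agent.S1781.comm_of_normalizers A B hAB a b₀ haA haN hb₀ (hN hb₀)).symm
  have hcard := Nat.card_le_card_of_injective f hf
  rw [Finite.card_option] at hcard
  omega

end Cfsg.Agent.S1757
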