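import Cfsg.Statements.S1783
import Mathlib
import Cfsg.Agent.Lib.Helper3.TIFam
import Cfsg.Agent.Lib.Helper2.Comp5
import Cfsg.Agent.Lib.Lead.Coprime
import Cfsg.Agent.Lib.Lead.Fitting2

set_option autoImplicit false
open Cfsg

namespace Cfsg.Agent.S1783

open Cfsg.Agent.Lib.Helper3 in
theorem ti_conj {X : Type*} [Group X] (A : Subgroup X)
    (hti : ∀ h : X, A.map (MulAut.conj h).toMonoidHom = A ∨ A.map (MulAut.conj h).toMonoidHom ⊓ A = ⊥)
    (s s' : X) : A.map (MulAut.conj s).toMonoidHom = A.map (MulAut.conj s').toMonoidHom ∨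
      A.map (MulAut.conj s).toMonoidHom ⊓ A.map (MulAut.conj s').toMonoidHom = ⊥ := by
  rcases hti (s⁻¹ * s') with h | h
  · left
    ext x
    rw [mem_map_conj_iff, mem_map_conj_iff]
    have key : ∀ y, y ∈ A ↔ (s⁻¹ * s')⁻¹ * y * (s⁻¹ * s') ∈ A := fun y => by
      rw [← mem_map_conj_iff, h]
    rw [key (s⁻¹ * x * s)]
    have : (s⁻¹ * s')⁻¹ * (s⁻¹ * x * s) * (s⁻¹ * s') = s'⁻¹ * x * s' := by group
    rw [this]
  · right
    rw [eq_bot_iff]
    intro x hx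
    obtain ⟨hx1, hx2⟩ := Subgroup.mem_inf.mp hx
    rw [mem_map_conj_iff] at hx1 hx2
    have h1 : s⁻¹ * x * s ∈ A.map (MulAut.conj (s⁻¹ * s')).toMonoidHom ⊓ A := by
      refine Subgroup.mem_inf.mpr ⟨?_, hx1⟩
      rw [mem_map_conj_iff]
      have : (s⁻¹ * s')⁻¹ * (s⁻¹ * x * s) * (s⁻¹ * s') = s'⁻¹ * x * s' := by group
      rw [this]; exact hx2
    rw [h, Subgroup.mem_bot] at h1
    rw [Subgroup.mem_bot]
    calc x = s * (s⁻¹ * x * s) * s⁻¹ := by group
      _ = 1 := by rw [h1]; group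

open Cfsg.Agent.Lib.Helper3 in
theorem map_conj_map_conj {X : Type*} [Group X] (A : Subgroup X) (t s : X) :
    (A.map (MulAut.conj s).toMonoidHom).map (MulAut.conj t).toMonoidHom =
      A.map (MulAut.conj (t * s)).toMonoidHom := by
  ext x
  rw [mem_map_conj_iff, mem_map_conj_iff, mem_map_conj_iff]
  have : (t * s)⁻¹ * x * (t * s) = s⁻¹ * (t⁻¹ * x * t) * s := by group
  rw [this]

open Cfsg.Agent.Lib.Helper3 in
theorem conj_family_commute {X : Type*} [Group X] [Finite X] (A H N : Subgroup X)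
    (hH : IsPGroup 2 H) (hAN : ∀ s ∈ N, A.map (MulAut.conj s).toMonoidHom ≤ H) (hHN : H ≤ N)
    (hti : ∀ s s' : X, A.map (MulAut.conj s).toMonoidHom = A.map (MulAut.conj s').toMonoidHom ∨
      A.map (MulAut.conj s).toMonoidHom ⊓ A.map (MulAut.conj s').toMonoidHom = ⊥)
    (y : X) (hy : y ∈ A) (hy2 : y ^ 2 ≠ 1) (hy4 : y ^ 4 = 1) :
    ∀ s ∈ N, ∀ s' ∈ N, A.map (MulAut.conj s).toMonoidHom ≠ A.map (MulAut.conj s').toMonoidHom →
      ∀ a ∈ A, ∀ b ∈ A, (s * a * s⁻¹) * (s' * b * s'⁻¹) = (s' * b * s'⁻¹) * (s * a * s⁻¹) := by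
  have key := ti_family_commute {R : Subgroup X | ∃ s ∈ N, R = A.map (MulAut.conj s).toMonoidHom}
    (by
      rintro _ ⟨s, hs, rfl⟩ _ ⟨s', hs', rfl⟩
      exact hH.to_le (sup_le (hAN s hs) (hAN s' hs')))
    (by
      rintro _ ⟨s, hs, rfl⟩ _ ⟨s', hs', rfl⟩ t ht
      exact ⟨t * s, N.mul_mem (hHN (hAN s' hs' ht)) hs, map_conj_map_conj A t s⟩)
    (by
      rintro _ ⟨s, hs, rfl⟩
      refine ⟨s * y * s⁻¹, conj_mem_map_conj A s y hy, ?_, ?_⟩
      · rw [conj_pow]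
        intro h
        apply hy2
        calc y ^ 2 = s⁻¹ * (s * y ^ 2 * s⁻¹) * s := by group
          _ = 1 := by rw [h]; group
      · rw [conj_pow, hy4]; group)
    (by
      rintro _ ⟨s, hs, rfl⟩ _ ⟨s', hs', rfl⟩
      rw [Subgroup.card_map_of_injective (MulEquiv.injective _),
        Subgroup.card_map_of_injective (MulEquiv.injective _)])
    (by
      rintro _ ⟨s, hs, rfl⟩ _ ⟨s', hs', rfl⟩
      exact hti s s')
  intro s hs s' hs' hne a ha b hb
  have h1 := key _ ⟨s, hs, rfl⟩ _ ⟨s', hs', rfl⟩ hne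
  rw [Subgroup.commutator_eq_bot_iff_le_centralizer] at h1
  exact (Subgroup.mem_centralizer_iff.mp (h1 (conj_mem_map_conj A s a ha)) _
    (conj_mem_map_conj A s' b hb)).symm

theorem sq_map_conj {X : Type*} [Group X] (A : Subgroup X) (g : X) :
    (Subgroup.closure ((fun a : X => a ^ 2) '' (A : Set X))).map (MulAut.conj g).toMonoidHom =
      Subgroup.closure ((fun a : X => a ^ 2) ''
        ((A.map (MulAut.conj g).toMonoidHom : Subgroup X) : Set X)) := by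
  rw [MonoidHom.map_closure]
  congr 1
  ext x
  constructor
  · rintro ⟨_, ⟨a, ha, rfl⟩, rfl⟩
    exact ⟨g * a * g⁻¹, ⟨a, ha, rfl⟩, by simp [conj_pow]⟩
  · rintro ⟨_, ⟨a, ha, rfl⟩, rfl⟩
    exact ⟨a ^ 2, ⟨a, ha, rfl⟩, by simp [conj_pow]⟩

open Cfsg.Agent.Lib.Helper3 Cfsg.Agent.Lib.Lead in
theorem part1 {X : Type*} [Group X] [Finite X]
    (hX : Cfsg.generalizedFittingSubgroup X = Cfsg.pCore 2 X) (A : Subgroup X)
    (hA2 : IsPGroup 2 ↥A) (hAa : IsMulCommutative ↥A)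
    (hti : ∀ h : X, A.map (MulAut.conj h).toMonoidHom = A ∨
      A.map (MulAut.conj h).toMonoidHom ⊓ A = ⊥) : ∀ a ∈ A, a ^ 2 ∈ Cfsg.pCore 2 X := by
  haveI : Fact (Nat.Prime 2) := ⟨Nat.prime_two⟩
  obtain ⟨Q, hQ⟩ : ∃ Q, Q = Cfsg.pCore 2 X := ⟨_, rfl⟩
  rw [← hQ]
  have hQn : Q.Normal := hQ ▸ pCore_normal 2 X
  have hQ2 : IsPGroup 2 Q := hQ ▸ pCore_isPGroup' 2
  have hCQ : Subgroup.centralizer (Q : Set X) ≤ Q := by
    have := Cfsg.Agent.Lib.Helper2.Comp.centralizer_gfs_le (G := X)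
    rw [hX, ← hQ] at this; exact this
  by_cases hex : ∀ a ∈ A, a ^ 2 = 1
  · intro a ha; rw [hex a ha]; exact one_mem _
  push Not at hex
  obtain ⟨w, hwA, hw⟩ := hex
  obtain ⟨j, hy2, hy4⟩ := exists_order_four_of_sq_ne w (by
    obtain ⟨k, hk⟩ := hA2 ⟨w, hwA⟩
    exact ⟨k, by simpa using congrArg Subtype.val hk⟩) hw
  have hyA : w ^ 2 ^ j ∈ A := pow_mem hwA _
  have hH : IsPGroup 2 ↥(A ⊔ Q) := hA2.to_sup_of_normal_right hQ2
  have hcomm := conj_family_commute A (A ⊔ Q) (A ⊔ Q) hH (by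
    rintro s hs _ ⟨a, ha, rfl⟩
    simp only [MulEquiv.coe_toMonoidHom, MulAut.conj_apply]
    exact Subgroup.mul_mem _ (Subgroup.mul_mem _ hs (Subgroup.mem_sup_left ha)) (inv_mem hs))
    le_rfl (ti_conj A hti) _ hyA hy2 hy4
  have hA1 : A.map (MulAut.conj (1 : X)).toMonoidHom = A := by
    ext x; rw [mem_map_conj_iff]; simp
  have hquad : ∀ a ∈ A, ∀ q ∈ Q, a * (q * a * q⁻¹) = (q * a * q⁻¹) * a := by
    intro a ha q hq
    by_cases hAq : A.map (MulAut.conj q).toMonoidHom = A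
    · have hmem : q * a * q⁻¹ ∈ A := hAq ▸ conj_mem_map_conj A q a ha
      exact congrArg Subtype.val (hAa.is_comm.comm ⟨a, ha⟩ ⟨q * a * q⁻¹, hmem⟩)
    · have h1 := hcomm 1 (one_mem _) q (Subgroup.mem_sup_right hq) (by
        rw [hA1]; exact fun h => hAq h.symm) a ha a ha
      simpa using h1
  obtain ⟨Φ, hΦ⟩ : ∃ Φ : Subgroup X, Φ = (frattini ↥Q).map Q.subtype := ⟨_, rfl⟩
  have hΦn : Φ.Normal := by rw [hΦ]; infer_instance
  have hsq : ∀ w ∈ Q, w ^ 2 ∈ Φ := by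
    intro w hw
    rw [hΦ]
    exact ⟨⟨w, hw⟩ ^ 2, (commutator_le_frattini_and_pow_mem hQ2).2 ⟨w, hw⟩, by simp⟩
  have hkey : ∀ a ∈ A, ∀ q ∈ Q, a ^ 2 * q * (a ^ 2)⁻¹ * q⁻¹ ∈ Φ := by
    intro a ha q hq
    have hw : a * (q * a * q⁻¹)⁻¹ ∈ Q := by
      have : a * (q * a * q⁻¹)⁻¹ = (a * q * a⁻¹) * q⁻¹ := by group
      rw [this]; exact Q.mul_mem (hQn.conj_mem q hq a) (inv_mem hq)
    have hc : Commute a (q * a * q⁻¹)⁻¹ :=
      (show Commute a (q * a * q⁻¹) from hquad a ha q hq).inv_right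
    have h2 := hsq _ hw
    rw [hc.mul_pow, inv_pow, conj_pow] at h2
    have : a ^ 2 * q * (a ^ 2)⁻¹ * q⁻¹ = a ^ 2 * (q * a ^ 2 * q⁻¹)⁻¹ := by group
    rw [this]; exact h2
  obtain ⟨C, hC⟩ : ∃ C : Subgroup X, C = (Subgroup.centralizer
      ((Q.map (QuotientGroup.mk' Φ) : Subgroup (X ⧸ Φ)) : Set (X ⧸ Φ))).comap
        (QuotientGroup.mk' Φ) := ⟨_, rfl⟩
  have hCmem : ∀ c : X, c ∈ C ↔ ∀ q ∈ Q, (q * c)⁻¹ * (c * q) ∈ Φ := by
    intro c
    rw [hC, Subgroup.mem_comap, Subgroup.mem_centralizer_iff]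
    constructor
    · intro h q hq
      have := h _ (Subgroup.mem_map_of_mem (QuotientGroup.mk' Φ) hq)
      rw [← map_mul, ← map_mul] at this
      exact QuotientGroup.eq.mp this
    · rintro h _ ⟨q, hq, rfl⟩
      rw [← map_mul, ← map_mul]
      exact QuotientGroup.eq.mpr (h q hq)
  have hCn : C.Normal := by
    haveI : (Q.map (QuotientGroup.mk' Φ)).Normal := hQn.map _ (QuotientGroup.mk'_surjective Φ)
    rw [hC]; infer_instance
  have hodd : ∀ x ∈ C, ∀ m : ℕ, Odd m → x ^ m = 1 → x = 1 := by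
    intro x hxC m hm hxm
    obtain ⟨Z, hZ⟩ : ∃ Z, Z = Subgroup.zpowers x := ⟨_, rfl⟩
    have hZC : Z ≤ C := by rw [hZ, Subgroup.zpowers_le]; exact hxC
    have hZN : Z ≤ Subgroup.normalizer (Q : Set X) := by
      rw [Subgroup.normalizer_eq_top]; exact le_top
    have hcop : (Nat.card Z).Coprime (Nat.card Q) := by
      obtain ⟨n, hn⟩ := IsPGroup.iff_card.mp hQ2
      rw [hn, hZ, Nat.card_zpowers]
      apply Nat.Coprime.pow_right
      have hd : orderOf x ∣ m := orderOf_dvd_of_pow_eq_one hxm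
      exact Nat.Coprime.coprime_dvd_left hd hm.coprime_two_right
    have hcomΦ : ⁅Q, Z⁆ ≤ Φ := by
      rw [Subgroup.commutator_le]
      intro q hq z hz
      rw [commutatorElement_def]
      have h1 := (hCmem z⁻¹).mp (hZC (inv_mem hz)) q⁻¹ (inv_mem hq)
      have h2 := inv_mem h1
      convert h2 using 1
      group
    have hQle : Q ≤ Subgroup.centralizer (Z : Set X) := by
      obtain ⟨K, hK⟩ : ∃ K : Subgroup ↥Q,
        K = (Q ⊓ Subgroup.centralizer (Z : Set X)).subgroupOf Q := ⟨_, rfl⟩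
      have hsup : K ⊔ frattini ↥Q = ⊤ := by
        rw [eq_top_iff]
        rintro ⟨k, hk⟩ -
        obtain ⟨d, hd, c, hc, rfl⟩ := exists_commutator_mul_centralizer Z Q hZN hcop
          (Or.inr (by haveI := hQ2.isNilpotent; infer_instance)) hk
        have hdΦ := hcomΦ hd
        rw [hΦ] at hdΦ
        obtain ⟨d', hd', hdd⟩ := hdΦ
        have : (⟨d * c, hk⟩ : ↥Q) = d' * ⟨c, hc.1⟩ := by
          subst hdd; rfl
        rw [this]
        exact Subgroup.mul_mem _ (Subgroup.mem_sup_right hd') (Subgroup.mem_sup_left (by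
          rw [hK]; exact Subgroup.mem_subgroupOf.mpr hc))
      have hKtop := frattini_nongenerating hsup
      intro q hq
      have : (⟨q, hq⟩ : ↥Q) ∈ K := hKtop ▸ Subgroup.mem_top _
      rw [hK, Subgroup.mem_subgroupOf] at this
      exact this.2
    have hxQ : x ∈ Q := hCQ (by
      rw [Subgroup.mem_centralizer_iff]
      intro q hq
      have := Subgroup.mem_centralizer_iff.mp (hQle hq) x (hZ ▸ Subgroup.mem_zpowers x)
      exact this.symm)
    obtain ⟨k, hk⟩ := hQ2 ⟨x, hxQ⟩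
    have hk' : x ^ 2 ^ k = 1 := by simpa using congrArg Subtype.val hk
    have h1 : orderOf x ∣ Nat.gcd (2 ^ k) m :=
      Nat.dvd_gcd (orderOf_dvd_of_pow_eq_one hk') (orderOf_dvd_of_pow_eq_one hxm)
    have h2 : Nat.gcd (2 ^ k) m = 1 := Nat.Coprime.pow_left k hm.coprime_two_left
    rw [h2, Nat.dvd_one, orderOf_eq_one_iff] at h1; exact h1
  have hC2 : IsPGroup 2 C := by
    rintro ⟨c, hc⟩
    have hpos : orderOf c ≠ 0 := (orderOf_pos c).ne'
    obtain ⟨k, m, hm, hkm⟩ := Nat.exists_eq_two_pow_mul_odd hpos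
    refine ⟨k, Subtype.ext ?_⟩
    have := hodd (c ^ 2 ^ k) (pow_mem hc _) m hm (by rw [← pow_mul, ← hkm, pow_orderOf_eq_one])
    simpa using this
  have hCQ' : C ≤ Q := by rw [hQ]; exact le_sSup ⟨hCn, hC2⟩
  intro a ha
  apply hCQ'
  rw [hCmem]
  intro q hq
  have := hkey a⁻¹ (inv_mem ha) q⁻¹ (inv_mem hq)
  convert this using 1
  group

open Cfsg.Agent.Lib.Helper3 Cfsg.Agent.Lib.Lead in
theorem part2 {X : Type*} [Group X] [Finite X] (A : Subgroup X)
    (hA2 : IsPGroup 2 ↥A) (hAa : IsMulCommutative ↥A)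
    (hti : ∀ h : X, A.map (MulAut.conj h).toMonoidHom = A ∨
      A.map (MulAut.conj h).toMonoidHom ⊓ A = ⊥)
    (hB : ∀ a ∈ A, a ^ 2 ∈ Cfsg.pCore 2 X)
    (hne : ¬ Cfsg.IsElementaryAbelian 2 (Subgroup.closure ((fun a : X => a ^ 2) '' (A : Set X)))) :
    IsMulCommutative ↥(Subgroup.normalClosure ((fun a : X => a ^ 2) '' (A : Set X))) := by
  haveI : Fact (Nat.Prime 2) := ⟨Nat.prime_two⟩
  obtain ⟨B, hB'⟩ : ∃ B, B = Subgroup.closure ((fun a : X => a ^ 2) '' (A : Set X)) := ⟨_, rfl⟩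
  rw [← hB'] at hne
  have hBA : B ≤ A := by
    rw [hB', Subgroup.closure_le]; rintro _ ⟨a, ha, rfl⟩; exact pow_mem ha 2
  have hQn := pCore_normal 2 X
  have hBQ : B ≤ Cfsg.pCore 2 X := by
    rw [hB', Subgroup.closure_le]; rintro _ ⟨a, ha, rfl⟩; exact hB a ha
  have hAcomm : ∀ a ∈ A, ∀ b ∈ A, a * b = b * a := fun a ha b hb =>
    congrArg Subtype.val (hAa.is_comm.comm ⟨a, ha⟩ ⟨b, hb⟩)
  have hex : ∃ b ∈ B, b ^ 2 ≠ 1 := by
    by_contra hcon
    push Not at hcon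
    exact hne ⟨⟨⟨fun a b => Subtype.ext (hAcomm a (hBA a.2) b (hBA b.2))⟩⟩, hcon⟩
  obtain ⟨w, hwB, hw⟩ := hex
  obtain ⟨j, hy2, hy4⟩ := exists_order_four_of_sq_ne w (by
    obtain ⟨k, hk⟩ := hA2 ⟨w, hBA hwB⟩
    exact ⟨k, by simpa using congrArg Subtype.val hk⟩) hw
  have hTI : ∀ s s' : X, B.map (MulAut.conj s).toMonoidHom = B.map (MulAut.conj s').toMonoidHom ∨
      B.map (MulAut.conj s).toMonoidHom ⊓ B.map (MulAut.conj s').toMonoidHom = ⊥ := by
    intro s s'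
    rcases ti_conj A hti s s' with h | h
    · left; rw [hB', sq_map_conj, sq_map_conj, h]
    · right; rw [eq_bot_iff, ← h]
      exact inf_le_inf (Subgroup.map_mono hBA) (Subgroup.map_mono hBA)
  have hcomm := conj_family_commute B (Cfsg.pCore 2 X) ⊤ (pCore_isPGroup' 2) (by
    rintro s - _ ⟨b, hb, rfl⟩
    simp only [MulEquiv.coe_toMonoidHom, MulAut.conj_apply]
    exact hQn.conj_mem b (hBQ hb) s) le_top hTI _ (pow_mem hwB _) hy2 hy4
  have hpair : ∀ g g' : X, ∀ b ∈ B, ∀ b' ∈ B,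
      (g * b * g⁻¹) * (g' * b' * g'⁻¹) = (g' * b' * g'⁻¹) * (g * b * g⁻¹) := by
    intro g g' b hb b' hb'
    by_cases h : B.map (MulAut.conj g).toMonoidHom = B.map (MulAut.conj g').toMonoidHom
    · have h1 : g' * b' * g'⁻¹ ∈ B.map (MulAut.conj g).toMonoidHom :=
        h ▸ conj_mem_map_conj B g' b' hb'
      rw [mem_map_conj_iff] at h1
      have h2 := hAcomm _ (hBA hb) _ (hBA h1)
      calc g * b * g⁻¹ * (g' * b' * g'⁻¹)
          = g * (b * (g⁻¹ * (g' * b' * g'⁻¹) * g)) * g⁻¹ := by group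
        _ = g * ((g⁻¹ * (g' * b' * g'⁻¹) * g) * b) * g⁻¹ := by rw [h2]
        _ = g' * b' * g'⁻¹ * (g * b * g⁻¹) := by group
    · exact hcomm g (Subgroup.mem_top g) g' (Subgroup.mem_top g') h b hb b' hb'
  have hgen : ∀ x ∈ Group.conjugatesOfSet ((fun a : X => a ^ 2) '' (A : Set X)),
      ∀ y ∈ Group.conjugatesOfSet ((fun a : X => a ^ 2) '' (A : Set X)), x * y = y * x := by
    intro x hx y hy
    rw [Group.mem_conjugatesOfSet_iff] at hx hy
    obtain ⟨_, ⟨a, ha, rfl⟩, hconj⟩ := hx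
    obtain ⟨_, ⟨a', ha', rfl⟩, hconj'⟩ := hy
    obtain ⟨c, rfl⟩ := isConj_iff.mp hconj
    obtain ⟨c', rfl⟩ := isConj_iff.mp hconj'
    exact hpair c c' _ (hB' ▸ Subgroup.subset_closure ⟨a, ha, rfl⟩) _
      (hB' ▸ Subgroup.subset_closure ⟨a', ha', rfl⟩)
  exact Subgroup.isMulCommutative_closure hgen

/-- Let X be a finite group whose generalized Fitting subgroup equals its largest normal 2-subgroup Q, and let A be an abelian 2-subgroup of X such that every conjugate of A equals A or meets A trivially. Let B be the subgroup generated by the squares of the elements of A. Then B lies in Q, and if B is not an elementary abelian 2-group then the normal closure of B in X is commutative. -/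
theorem result {X : Type*} [Group X] [Finite X]
    (hX : Cfsg.generalizedFittingSubgroup X = Cfsg.pCore 2 X) (A : Subgroup X) (hA2 : IsPGroup 2 ↥A) (hAa : IsMulCommutative ↥A)
    (hti : ∀ h : X, A.map (MulAut.conj h).toMonoidHom = A ∨ A.map (MulAut.conj h).toMonoidHom ⊓ A = ⊥) :
    Subgroup.closure ((fun a : X => a ^ 2) '' (A : Set X)) ≤ Cfsg.pCore 2 X ∧
      (¬ Cfsg.IsElementaryAbelian 2 (Subgroup.closure ((fun a : X => a ^ 2) '' (A : Set X))) →
        IsMulCommutative ↥(Subgroup.normalClosure ((fun a : X => a ^ 2) '' (A : Set X)))) := by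
  have h1 := part1 hX A hA2 hAa hti
  refine ⟨?_, part2 A hA2 hAa hti h1⟩
  rw [Subgroup.closure_le]
  rintro _ ⟨a, ha, rfl⟩
  exact h1 a ha

end Cfsg.Agent.S1783
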