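import Cfsg.Statements.S1961
import Mathlib
import Cfsg.Agent.Lib.Helper3.LocGlob

set_option autoImplicit false
open Cfsg

namespace Cfsg.Agent.S1961

/-- Local-to-global control of strong fusion through well-placed subgroups. Let p be a prime, G a finite group with Sylow p-subgroup S, and W a conjugacy functor for p on G. If W controls strong fusion in N_G(T) for every nonidentity subgroup T of S that is well placed in S with respect to W, then W controls strong fusion in G. -/
theorem result {G : Type*} [Group G] [Finite G] {p : ℕ} [Fact p.Prime] (S : Sylow p G) (W : Subgroup G → Subgroup G) (hW : Cfsg.IsConjugacyFunctor p W) (hloc : ∀ T : Subgroup G, T ≠ ⊥ → Cfsg.IsWellPlaced p W (S : Subgroup G) T → Cfsg.ControlsStrongFusionIn p W (Subgroup.normalizer ((T : Subgroup G) : Set G))) : Cfsg.ControlsStrongFusionIn p W ⊤ := by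
  refine ⟨S, le_top, S.isPGroup', ?_, fun A h _ hA hAh => ?_⟩
  · rw [Subgroup.relIndex_top_right]; exact S.not_dvd_index
  by_cases htriv : ∀ a ∈ A, a = 1
  · exact ⟨1, Subgroup.one_mem _, fun a ha => by rw [htriv a ha]; simp⟩
  · push Not at htriv
    obtain ⟨a₀, ha₀, ha₀1⟩ := htriv
    obtain ⟨l, hd, hp⟩ := Lib.Helper3.exists_dec_wellPlaced hW S A h⁻¹ hA (fun a ha => by
      rw [inv_inv]; exact hAh ⟨a, ha, rfl⟩)
    obtain ⟨y, hy, hy2⟩ := Lib.Helper3.dec_sf hW S hloc l A hd ⟨a₀, ha₀, ha₀1⟩
    refine ⟨y⁻¹, Subgroup.mem_inf.mpr ⟨Subgroup.mem_top _, Subgroup.inv_mem _ hy⟩, fun a ha => ?_⟩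
    have := hy2 a ha
    rw [hp, inv_inv] at this
    rw [inv_inv]; exact this

end Cfsg.Agent.S1961
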