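import Cfsg.Statements.S1962
import Mathlib
import Cfsg.Agent.Lib.Helper3.LocGlob

set_option autoImplicit false
open Cfsg

namespace Cfsg.Agent.S1962

/-- Local-to-global control of transfer through well-placed subgroups. Let p be a prime, G a finite group with Sylow p-subgroup S, and W a conjugacy functor for p on G. If W controls transfer in N_G(T) for every nonidentity subgroup T of S that is well placed in S with respect to W, then W controls transfer in G: S ∩ G' = S ∩ (N_G(W(S)))'. -/
theorem result {G : Type*} [Group G] [Finite G] {p : ℕ} [Fact p.Prime] (S : Sylow p G) (W : Subgroup G → Subgroup G) (hW : Cfsg.IsConjugacyFunctor p W) (hloc : ∀ T : Subgroup G, T ≠ ⊥ → Cfsg.IsWellPlaced p W (S : Subgroup G) T → Cfsg.ControlsTransferIn p W (Subgroup.normalizer ((T : Subgroup G) : Set G))) : Cfsg.ControlsTransferIn p W ⊤ := by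
  refine ⟨S, le_top, S.isPGroup', ?_, le_antisymm ?_ ?_⟩
  · rw [Subgroup.relIndex_top_right]; exact S.not_dvd_index
  · rw [top_inf_eq]
    have hf : (S : Subgroup G) ⊓ ⁅(⊤ : Subgroup G), ⊤⁆ = (S : Subgroup G).focalSubgroup := by
      rw [inf_comm]; exact Subgroup.commutator_inf_eq_focalSubgroup S
    rw [hf, Subgroup.focalSubgroup_def, Subgroup.closure_le]
    rintro g ⟨hgS, x, hxS, u, rfl⟩
    rw [commutatorElement_def] at hgS
    rw [SetLike.mem_coe, commutatorElement_def]
    by_cases hx1 : x = 1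
    · rw [hx1]
      have : (1 : G) * u * 1⁻¹ * u⁻¹ = 1 := by group
      rw [this]; exact Subgroup.one_mem _
    · have hux : u * x * u⁻¹ ∈ (S : Subgroup G) := by
        have h1 : u * x⁻¹ * u⁻¹ ∈ (S : Subgroup G) := by
          have : u * x⁻¹ * u⁻¹ = x⁻¹ * (x * u * x⁻¹ * u⁻¹) := by group
          rw [this]; exact Subgroup.mul_mem _ (Subgroup.inv_mem _ hxS) hgS
        have : u * x * u⁻¹ = (u * x⁻¹ * u⁻¹)⁻¹ := by group
        rw [this]; exact Subgroup.inv_mem _ h1
      obtain ⟨l, hd, hp⟩ := Lib.Helper3.exists_dec_wellPlaced hW S {x} u⁻¹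
        (by intro a ha; rw [Set.mem_singleton_iff.mp ha]; exact hxS)
        (fun a ha => by rw [Set.mem_singleton_iff.mp ha, inv_inv]; exact hux)
      have := Lib.Helper3.dec_tr hW S hloc l x hx1 hd
      rw [hp] at this
      have e : x * u * x⁻¹ * u⁻¹ = x * (u⁻¹⁻¹ * x * u⁻¹)⁻¹ := by group
      rw [e]; exact this
  · exact inf_le_inf_left _ (Subgroup.commutator_mono inf_le_left inf_le_left)

end Cfsg.Agent.S1962
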