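import Cfsg.Statements.S1965
import Mathlib
import Cfsg.Agent.Lib.Helper3.ConjFam

set_option autoImplicit false
open Cfsg

namespace Cfsg.Agent.S1965

/-- Let p be a prime, G a finite group with Sylow p-subgroup S and 𝓕 a set of subgroups of S. Suppose that every subgroup T of S is G-conjugate to some member U of 𝓕 for which N_S(U) is a Sylow p-subgroup of N_G(U). Then 𝓕 is a conjugation family for S in G. -/
theorem result {G : Type*} [Group G] [Finite G] {p : ℕ} [Fact p.Prime] (S : Sylow p G) (𝓕 : Set (Subgroup G)) (h𝓕 : ∀ U ∈ 𝓕, U ≤ (S : Subgroup G)) (h : ∀ T : Subgroup G, T ≤ (S : Subgroup G) → ∃ U ∈ 𝓕, (∃ g : G, T.map (MulAut.conj g).toMonoidHom = U) ∧ ¬ p ∣ ((S : Subgroup G) ⊓ Subgroup.normalizer ((U : Subgroup G) : Set G)).relIndex (Subgroup.normalizer ((U : Subgroup G) : Set G))) : Cfsg.IsConjugationFamily 𝓕 (S : Subgroup G) := by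
  refine ⟨h𝓕, fun A g _ hAS hAg => ?_⟩
  have hA₀S : Subgroup.closure A ≤ (S : Subgroup G) := (Subgroup.closure_le _).mpr hAS
  have hA₀g : ∀ a ∈ Subgroup.closure A, g⁻¹ * a * g ∈ (S : Subgroup G) := by
    have hle : Subgroup.closure A ≤ (S : Subgroup G).map (MulAut.conj g).toMonoidHom := by
      rw [Subgroup.closure_le]
      intro a ha
      rw [SetLike.mem_coe, Lib.Helper3.mem_map_conj_iff]
      exact hAg ⟨a, ha, rfl⟩
    intro a ha
    exact (Lib.Helper3.mem_map_conj_iff _ _ _).mp (hle ha)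
  obtain ⟨l, hd, hp⟩ := Lib.Helper3.exists_dec_of_extremal S 𝓕 h𝓕 h _ (Subgroup.closure A) rfl hA₀S g hA₀g
  exact Lib.Helper3.dec_to_fin 𝓕 A g l (Lib.Helper3.dec_mono 𝓕 l Subgroup.subset_closure hd) hp

end Cfsg.Agent.S1965
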