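import Cfsg.Statements.S1966
import Cfsg.Agent.Lib.Helper3.Cores

set_option autoImplicit false
open Cfsg

namespace Cfsg.Agent.S1966

/-- Let p be a prime, G a finite group with Sylow p-subgroup S and 𝓕 a conjugation family for S in G. Then the members of 𝓕 containing O_p(G) still form a conjugation family for S in G. -/
theorem result {G : Type*} [Group G] [Finite G] {p : ℕ} [Fact p.Prime] (S : Sylow p G) (𝓕 : Set (Subgroup G)) (h : Cfsg.IsConjugationFamily 𝓕 (S : Subgroup G)) : Cfsg.IsConjugationFamily {T : Subgroup G | T ∈ 𝓕 ∧ Cfsg.pCore p G ≤ T} (S : Subgroup G) := by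
  obtain ⟨h1, h2⟩ := h
  refine ⟨fun T hT => h1 T hT.1, ?_⟩
  intro A g hne hAS hAg
  have hQn : (Cfsg.pCore p G).Normal := Cfsg.Agent.Lib.Helper3.pCore_normal p G
  have hQS : Cfsg.pCore p G ≤ (S : Subgroup G) := Cfsg.Agent.Lib.Helper3.pCore_le_sylow S
  have hconj : ∀ (y q : G), q ∈ Cfsg.pCore p G → y⁻¹ * q * y ∈ Cfsg.pCore p G := by
    intro y q hq
    have := hQn.conj_mem q hq y⁻¹
    simpa using this
  obtain ⟨n, T, x, hprod, hT, hx, h0, hstep⟩ := h2 (A ∪ (Cfsg.pCore p G : Set G)) g
    (hne.mono Set.subset_union_left) (Set.union_subset hAS hQS) (by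
      rintro _ ⟨a, ha | ha, rfl⟩
      · exact hAg ⟨a, ha, rfl⟩
      · exact hQS (hconj g a ha))
  refine ⟨n, T, x, hprod, fun i => ⟨hT i, ?_⟩, hx,
    fun h => (Set.subset_union_left).trans (h0 h), fun i h => ?_⟩
  · rcases Nat.eq_zero_or_pos i.val with hi | hi
    · have hi' : i = ⟨0, by omega⟩ := Fin.ext hi
      intro q hq
      rw [hi']
      exact h0 (by omega) (Or.inr hq)
    · have hlt : (i.val - 1) + 1 < n := by omega
      have hs := hstep ⟨i.val - 1, by omega⟩ hlt
      have hi' : (⟨(i.val - 1) + 1, hlt⟩ : Fin n) = i := Fin.ext (by simp; omega)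
      simp only [hi'] at hs
      intro q hq
      apply hs
      set y := ((List.ofFn x).take (i.val - 1 + 1)).prod with hy
      refine ⟨y * q * y⁻¹, Or.inr (hQn.conj_mem q hq y), ?_⟩
      simp only
      group
  · exact (Set.image_mono Set.subset_union_left).trans (hstep i h)

end Cfsg.Agent.S1966
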