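import Cfsg.Statements.S1971
import Mathlib
import Cfsg.Agent.Lib.Helper3.SecIso
open Cfsg.Agent.Lib.Helper3

set_option autoImplicit false
universe u
open Cfsg

namespace Cfsg.Agent.S1971

/-- Let p be a prime, G a finite group with nontrivial Sylow p-subgroup S, and W an isomorphism-invariant p-group functor (W assigns to every group Q a subgroup W(Q), nontrivial whenever Q is a nontrivial finite p-group, and every isomorphism from a finite p-group Q onto a group R carries W(Q) onto W(R)) that controls transfer in every section of G. If N_G(S)/C_G(S) is a p-group (every element of N_G(S) of order prime to p centralizes S), then G has a normal subgroup of index p. -/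
theorem result {G : Type u} [Group G] [Finite G] {p : ℕ} [Fact p.Prime] (W : ∀ (Q : Type u) [Group Q], Subgroup Q) (hW : Cfsg.IsCharPFunctor.{u} p W) (hctl : ∀ (K R : Subgroup G) [hR : (R.subgroupOf K).Normal], Cfsg.ControlsTransferIn p (Cfsg.inducedFunctor (G := (↥K ⧸ R.subgroupOf K)) W) ⊤) (S : Sylow p G) (hS : (S : Subgroup G) ≠ ⊥) (hN : ∀ g ∈ Subgroup.normalizer (((S : Subgroup G) : Subgroup G) : Set G), (orderOf g).Coprime p → g ∈ Subgroup.centralizer ((S : Subgroup G) : Set G)) : ∃ N : Subgroup G, N.Normal ∧ N.index = p := by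
  have claim : ∀ n : ℕ, ∀ (K R : Subgroup G) (hn : (R.subgroupOf K).Normal),
      Nat.card (↥K ⧸ R.subgroupOf K) ≤ n → AutPCond p (↥K ⧸ R.subgroupOf K) →
        HasIndexP p (↥K ⧸ R.subgroupOf K) := by
    intro n
    induction n with
    | zero =>
      intro K R hn hcard
      have := Nat.card_pos (α := ↥K ⧸ R.subgroupOf K)
      omega
    | succ n ih =>
      intro K R hn hcard hA
      refine hasIndexP_core W hW (hctl K R) ?_ ?_ hA
      · intro M hM hAM
        obtain ⟨K₁, hn₁, ⟨e⟩⟩ := section_subgroup_iso K R M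
        have hc : Nat.card (↥K₁ ⧸ R.subgroupOf K₁) ≤ n := by
          rw [Nat.card_congr e.toEquiv]
          have h1 : Nat.card ↥M < Nat.card (⊤ : Subgroup (↥K ⧸ R.subgroupOf K)) :=
            card_lt_card_of_lt' (lt_top_iff_ne_top.mpr hM)
          rw [Subgroup.card_top] at h1
          omega
        exact hasIndexP_of_mulEquiv e.symm (ih K₁ R hn₁ hc (autPCond_of_mulEquiv e.symm hAM))
      · intro Z hZ hZne hAZ
        obtain ⟨R₂, hn₂, ⟨e⟩⟩ := section_quotient_iso K R Z
        have hc : Nat.card (↥K ⧸ R₂.subgroupOf K) ≤ n := by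
          rw [Nat.card_congr e.toEquiv]
          have h1 := Subgroup.card_eq_card_quotient_mul_card_subgroup Z
          have h2 : 1 < Nat.card Z := (Subgroup.one_lt_card_iff_ne_bot Z).mpr hZne
          have h3 : 0 < Nat.card ((↥K ⧸ R.subgroupOf K) ⧸ Z) := Nat.card_pos
          nlinarith
        exact hasIndexP_of_mulEquiv e.symm (ih K R₂ hn₂ hc (autPCond_of_mulEquiv e.symm hAZ))
  obtain ⟨hn, ⟨e⟩⟩ := top_bot_section_iso G
  have hAG : AutPCond p G := ⟨S, S.isPGroup', S.not_dvd_index, hS, hN⟩
  have h1 := claim _ ⊤ ⊥ hn le_rfl (autPCond_of_mulEquiv e.symm hAG)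
  exact hasIndexP_of_mulEquiv e.symm h1

end Cfsg.Agent.S1971
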