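import Cfsg.Statements.S2160
import Mathlib
import Cfsg.Agent.Lib.Helper3.ChevFund

set_option autoImplicit false
open Cfsg

namespace Cfsg.Agent.S2160

open Cfsg.Lie Cfsg.Agent.Lib.Helper3

/-- In a Chevalley group of type G₂, B₂, D₄, F₄, E₆, E₇ or E₈ over a finite field, every field automorphism commutes with every graph automorphism. -/
theorem result {F : Type*} [Field F] [Finite F] (D : Cfsg.Lie.ChevalleyDatum) (hD : D ∈ [Cfsg.Lie.chevG2, Cfsg.Lie.chevB2, Cfsg.Lie.chevD4, Cfsg.Lie.chevF4, Cfsg.Lie.chevE6, Cfsg.Lie.chevE7, Cfsg.Lie.chevE8]) (f g : ↥(D.group F) ≃* ↥(D.group F))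
    (hf : D.IsFieldAut f) (hg : D.IsGraphAut g) (y : ↥(D.group F)) : f (g y) = g (f y) := by
  obtain ⟨σ, hσ⟩ := hf
  obtain ⟨π, -, hπ⟩ := hg
  have hSi := chkSimple_all D hD
  have hn := (reflOK_all D hD).1
  have hlt : ∀ i < D.rank, D.simple i < D.nroots ∧ D.neg (D.simple i) < D.nroots := by
    intro i hi
    have h1 := (chkSimple_spec D hSi i hi).1
    refine ⟨h1, ?_⟩
    have h2 := chkNegF_spec D hn _ h1
    unfold Cfsg.Lie.ChevalleyDatum.neg
    rw [h2]
    omega
  have hmem : y ∈ MonoidHom.eqLocus (f.toMonoidHom.comp g.toMonoidHom)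
      (g.toMonoidHom.comp f.toMonoidHom) := by
    apply fund_induction D hD
    intro y i t hi h
    show f (g y) = g (f y)
    rcases h with h | h
    · have h1 := (hπ y ⟨i, hi⟩ t).1 h
      have h2 := hσ (g y) _ _ (hlt _ (π ⟨i, hi⟩).isLt).1 h1
      have h3 := hσ y _ t (hlt i hi).1 h
      have h4 := (hπ (f y) ⟨i, hi⟩ (σ t)).1 h3
      apply Subtype.ext
      apply Units.ext
      rw [h2, h4, map_pow]
    · have h1 := (hπ y ⟨i, hi⟩ t).2 h
      have h2 := hσ (g y) _ _ (hlt _ (π ⟨i, hi⟩).isLt).2 h1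
      have h3 := hσ y _ t (hlt i hi).2 h
      have h4 := (hπ (f y) ⟨i, hi⟩ (σ t)).2 h3
      apply Subtype.ext
      apply Units.ext
      rw [h2, h4, map_pow]
  exact hmem

end Cfsg.Agent.S2160
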