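import Cfsg.Statements.S2301
import Mathlib
import Cfsg.Agent.Lib.Lead.SL2Sylow

set_option autoImplicit false
open Cfsg

namespace Cfsg.Agent.S2301

open Cfsg.Agent.Lib.Lead

section
variable {F : Type*} [Field F]

theorem uM00 (b : F) : uMat b 0 0 = 1 := rfl
theorem uM01 (b : F) : uMat b 0 1 = b := rfl
theorem uM10 (b : F) : uMat b 1 0 = 0 := rfl
theorem uM11 (b : F) : uMat b 1 1 = 1 := rfl

def dM (x y w : F) : Matrix (Fin 2) (Fin 2) F := !![x, y; 0, w]
theorem dM00 (x y w : F) : dM x y w 0 0 = x := rfl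
theorem dM01 (x y w : F) : dM x y w 0 1 = y := rfl
theorem dM10 (x y w : F) : dM x y w 1 0 = 0 := rfl
theorem dM11 (x y w : F) : dM x y w 1 1 = w := rfl

theorem dM_det (x y w : F) (h : x * w = 1) : (dM x y w).det = 1 := by
  rw [dM, Matrix.det_fin_two_of, mul_zero, sub_zero]
  exact h

/-- the unipotent element with upper right entry `b` -/
noncomputable def u01 (b : F) : Matrix.SpecialLinearGroup (Fin 2) F :=
  uSL (Multiplicative.ofAdd b)

theorem u01_val (b : F) : (u01 b).1 = uMat b := rfl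

theorem eqU (g : Matrix.SpecialLinearGroup (Fin 2) F)
    (h00 : (g : Matrix (Fin 2) (Fin 2) F) 0 0 = 1) (h11 : (g : Matrix (Fin 2) (Fin 2) F) 1 1 = 1)
    (h10 : (g : Matrix (Fin 2) (Fin 2) F) 1 0 = 0) :
    g = u01 ((g : Matrix (Fin 2) (Fin 2) F) 0 1) := by
  apply Matrix.SpecialLinearGroup.ext
  intro i j
  fin_cases i <;> fin_cases j
  · exact h00
  · rfl
  · exact h10
  · exact h11

theorem conjU (b c : F) (hb : b ≠ 0) (hc : c ≠ 0) :
    IsConj (u01 b) (u01 c) ↔ IsSquare (b * c) := by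
  rw [isConj_iff]
  constructor
  · rintro ⟨k, hk⟩
    have hk' : k * u01 b = u01 c * k := mul_inv_eq_iff_eq_mul.mp hk
    have hm : k.1 * uMat b = uMat c * k.1 := congrArg Subtype.val hk'
    have e00 := congrFun (congrFun hm 0) 0
    have e01 := congrFun (congrFun hm 0) 1
    simp only [Matrix.mul_apply, Fin.sum_univ_two, uM00, uM01, uM10, uM11] at e00 e01
    have hdet := k.2
    rw [Matrix.det_fin_two] at hdet
    have hz : c * k.1 1 0 = 0 := by linear_combination (-1 : F) * e00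
    have hk10 : k.1 1 0 = 0 := (mul_eq_zero.mp hz).resolve_left hc
    exact ⟨b * k.1 0 0, by
      linear_combination (-(b * c)) * hdet - (b * c * k.1 0 1) * hk10 - (b * k.1 0 0) * e01⟩
  · rintro ⟨s, hs⟩
    have hs0 : s ≠ 0 := by
      rintro rfl
      rw [mul_zero] at hs
      exact (mul_ne_zero hb hc) hs
    have h01 : s / b * b = c * (b / s) := by
      rw [div_mul_cancel₀ _ hb, ← mul_div_assoc, mul_comm c b, hs, mul_div_assoc, div_self hs0,
        mul_one]
    have hxw : s / b * (b / s) = 1 := by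
      field_simp
    obtain ⟨k, hk⟩ : ∃ k : Matrix.SpecialLinearGroup (Fin 2) F,
        k.1 = dM (s / b) 0 (b / s) := ⟨⟨_, dM_det _ _ _ hxw⟩, rfl⟩
    refine ⟨k, ?_⟩
    rw [mul_inv_eq_iff_eq_mul]
    apply Subtype.ext
    show k.1 * uMat b = uMat c * k.1
    rw [hk, ← Matrix.ext_iff]
    simp only [Fin.forall_fin_two, Matrix.mul_apply, Fin.sum_univ_two, uM00, uM01, uM10, uM11,
      dM00, dM01, dM10, dM11]
    exact ⟨⟨by ring, by linear_combination h01⟩, by ring, by ring⟩

theorem centU (b : F) (hb : b ≠ 0) (k : Matrix.SpecialLinearGroup (Fin 2) F) :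
    k ∈ Subgroup.centralizer ({u01 b} : Set (Matrix.SpecialLinearGroup (Fin 2) F))
      ↔ (k.1 1 0 = 0 ∧ k.1 0 0 = k.1 1 1) := by
  rw [Subgroup.mem_centralizer_singleton_iff]
  have hc : k * u01 b = u01 b * k ↔ k.1 * uMat b = uMat b * k.1 := by
    constructor
    · intro h
      exact congrArg Subtype.val h
    · intro h
      exact Subtype.ext h
  rw [hc, ← Matrix.ext_iff]
  simp only [Fin.forall_fin_two, Matrix.mul_apply, Fin.sum_univ_two, uM00, uM01, uM10, uM11]
  constructor
  · rintro ⟨⟨e00, e01⟩, -, -⟩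
    have hz : b * k.1 1 0 = 0 := by linear_combination (-1 : F) * e00
    have hk10 : k.1 1 0 = 0 := (mul_eq_zero.mp hz).resolve_left hb
    have hz2 : b * (k.1 0 0 - k.1 1 1) = 0 := by linear_combination e01
    exact ⟨hk10, sub_eq_zero.mp ((mul_eq_zero.mp hz2).resolve_left hb)⟩
  · rintro ⟨h10, h00⟩
    rw [h10, h00]
    exact ⟨⟨by ring, by ring⟩, by ring, by ring⟩

theorem card_sq1 (h2 : (2 : F) ≠ 0) : Nat.card {x : F // x * x = 1} = 2 := by
  rw [Nat.card_eq_two_iff]
  refine ⟨⟨1, by ring⟩, ⟨-1, by ring⟩, ?_, ?_⟩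
  · intro h
    have h' : (1 : F) = -1 := congrArg Subtype.val h
    apply h2
    linear_combination h'
  · ext ⟨z, hz⟩
    simp only [Set.mem_insert_iff, Set.mem_singleton_iff, Set.mem_univ, iff_true]
    have h1 : (z - 1) * (z + 1) = 0 := by linear_combination hz
    rcases mul_eq_zero.mp h1 with h | h
    · left
      exact Subtype.ext (show z = 1 by linear_combination h)
    · right
      exact Subtype.ext (show z = -1 by linear_combination h)

theorem card_centU [Finite F] (h2 : (2 : F) ≠ 0) (b : F) (hb : b ≠ 0) :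
    Nat.card ↥(Subgroup.centralizer ({u01 b} : Set (Matrix.SpecialLinearGroup (Fin 2) F)))
      = 2 * Nat.card F := by
  have hbij : Function.Bijective (fun q : {x : F // x * x = 1} × F =>
      (⟨⟨dM q.1.1 q.2 q.1.1, dM_det _ _ _ q.1.2⟩, (centU b hb _).mpr ⟨rfl, rfl⟩⟩ :
        ↥(Subgroup.centralizer ({u01 b} : Set (Matrix.SpecialLinearGroup (Fin 2) F))))) := by
    constructor
    · rintro ⟨⟨x, hx⟩, y⟩ ⟨⟨x', hx'⟩, y'⟩ h
      have hm : dM x y x = dM x' y' x' := congrArg (fun z : ↥(Subgroup.centralizer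
        ({u01 b} : Set (Matrix.SpecialLinearGroup (Fin 2) F))) => z.1.1) h
      have e1 : x = x' := congrFun (congrFun hm 0) 0
      have e2 : y = y' := congrFun (congrFun hm 0) 1
      subst e1
      subst e2
      rfl
    · rintro ⟨k, hk⟩
      obtain ⟨h10, h00⟩ := (centU b hb k).mp hk
      have hdet := k.2
      rw [Matrix.det_fin_two, h10, mul_zero, sub_zero, ← h00] at hdet
      refine ⟨(⟨k.1 0 0, hdet⟩, k.1 0 1), ?_⟩
      apply Subtype.ext
      apply Matrix.SpecialLinearGroup.ext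
      intro i j
      fin_cases i <;> fin_cases j
      · rfl
      · rfl
      · exact h10.symm
      · exact h00
  rw [← Nat.card_congr (Equiv.ofBijective _ hbij), Nat.card_prod, card_sq1 h2]

variable [Fintype F] (p : ℕ) [Fact p.Prime] [CharP F p]

theorem two_ne01 (hp : p ≠ 2) : (2 : F) ≠ 0 := by
  intro h
  have h1 : p ∣ 2 := (CharP.cast_eq_zero_iff F p 2).mp (by exact_mod_cast h)
  exact hp ((Nat.prime_dvd_prime_iff_eq (Fact.out : p.Prime) Nat.prime_two).mp h1)

theorem ord01 (b : F) (hb : b ≠ 0) : orderOf (u01 b) = p := by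
  apply orderOf_eq_prime
  · show uSL (Multiplicative.ofAdd b) ^ p = 1
    rw [← map_pow, ← ofAdd_nsmul, nsmul_eq_mul, CharP.cast_eq_zero, zero_mul]
    exact map_one _
  · intro h
    have h1 : Multiplicative.ofAdd b = 1 := uSL_injective (h.trans (map_one uSL).symm)
    exact hb h1

theorem nf01 (g : Matrix.SpecialLinearGroup (Fin 2) F) (hg : orderOf g = p) :
    ∃ b : F, b ≠ 0 ∧ IsConj g (u01 b) := by
  have hP : IsPGroup p (Subgroup.zpowers g) :=
    IsPGroup.of_card (n := 1) (by rw [Nat.card_zpowers, hg, pow_one])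
  obtain ⟨Q, hQ⟩ := hP.exists_le_sylow
  obtain ⟨k, hk⟩ := MulAction.exists_smul_eq (Matrix.SpecialLinearGroup (Fin 2) F) (PUS p) Q
  have hgQ : g ∈ (Q : Subgroup (Matrix.SpecialLinearGroup (Fin 2) F)) :=
    hQ (Subgroup.mem_zpowers g)
  rw [← hk, Sylow.coe_subgroup_smul, Subgroup.mem_pointwise_smul_iff_inv_smul_mem] at hgQ
  have h2 : k⁻¹ * g * k ∈ (USL : Subgroup (Matrix.SpecialLinearGroup (Fin 2) F)) := hgQ
  obtain ⟨m, hm⟩ := h2
  refine ⟨Multiplicative.toAdd m, ?_, ?_⟩
  · intro h0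
    have hm1 : m = 1 := h0
    rw [hm1, map_one] at hm
    have hg1 : g = 1 := by
      have := congrArg (fun x => k * x * k⁻¹) hm.symm
      simpa [mul_assoc] using this
    rw [hg1, orderOf_one] at hg
    exact (Fact.out : p.Prime).one_lt.ne hg
  · rw [isConj_iff]
    exact ⟨k⁻¹, by rw [inv_inv]; exact hm.symm⟩

theorem cls01 (hp : p ≠ 2) (b : F) (hb : b ≠ 0) :
    Nat.card (ConjClasses.mk (u01 b)).carrier = (Fintype.card F ^ 2 - 1) / 2 := by
  have h1 := card_centU (two_ne01 p hp) b hb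
  have h := Subgroup.card_mul_index
    (MulAction.stabilizer (ConjAct (Matrix.SpecialLinearGroup (Fin 2) F)) (u01 b))
  rw [MulAction.index_stabilizer, ConjAct.orbit_eq_carrier_conjClasses,
    ← Nat.card_coe_set_eq] at h
  have h3 : Nat.card ↥(MulAction.stabilizer (ConjAct (Matrix.SpecialLinearGroup (Fin 2) F))
      (u01 b)) = Nat.card ↥(Subgroup.centralizer
        ({u01 b} : Set (Matrix.SpecialLinearGroup (Fin 2) F))) := by
    rw [ConjAct.stabilizer_eq_centralizer]
    rfl
  have h4 : Nat.card (ConjAct (Matrix.SpecialLinearGroup (Fin 2) F))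
      = Fintype.card F * (Fintype.card F ^ 2 - 1) := card_SL2
  rw [h3, h1, h4, Nat.card_eq_fintype_card] at h
  have hq : 0 < Fintype.card F := Fintype.card_pos
  have h5 : Nat.card (ConjClasses.mk (u01 b)).carrier * 2 * Fintype.card F
      = (Fintype.card F ^ 2 - 1) * Fintype.card F := by
    calc Nat.card (ConjClasses.mk (u01 b)).carrier * 2 * Fintype.card F
        = 2 * Fintype.card F * Nat.card (ConjClasses.mk (u01 b)).carrier := by ring
      _ = Fintype.card F * (Fintype.card F ^ 2 - 1) := h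
      _ = (Fintype.card F ^ 2 - 1) * Fintype.card F := by ring
  have h6 := Nat.eq_of_mul_eq_mul_right hq h5
  omega

theorem nsq_mul {b e : F} (hb : ¬ IsSquare b) (he : ¬ IsSquare e) : IsSquare (b * e) := by
  classical
  have h1 := quadraticChar_neg_one_iff_not_isSquare.mpr hb
  have h2 := quadraticChar_neg_one_iff_not_isSquare.mpr he
  have hb0 : b ≠ 0 := by
    rintro rfl
    exact hb IsSquare.zero
  have he0 : e ≠ 0 := by
    rintro rfl
    exact he IsSquare.zero
  rw [← quadraticChar_one_iff_isSquare (mul_ne_zero hb0 he0), map_mul, h1, h2]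
  norm_num

theorem two_classes (hp : p ≠ 2) :
    Nat.card {C : ConjClasses (Matrix.SpecialLinearGroup (Fin 2) F) //
      ∃ g : Matrix.SpecialLinearGroup (Fin 2) F, orderOf g = p ∧ ConjClasses.mk g = C} = 2 := by
  classical
  have hchar : ringChar F ≠ 2 := by
    rw [ringChar.eq F p]
    exact hp
  obtain ⟨ε, hε⟩ := FiniteField.exists_nonsquare hchar
  have hε0 : ε ≠ 0 := by
    rintro rfl
    exact hε IsSquare.zero
  rw [Nat.card_eq_two_iff]
  refine ⟨⟨ConjClasses.mk (u01 (1 : F)), u01 1, ord01 p 1 one_ne_zero, rfl⟩,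
    ⟨ConjClasses.mk (u01 ε), u01 ε, ord01 p ε hε0, rfl⟩, ?_, ?_⟩
  · intro h
    have h' : ConjClasses.mk (u01 (1 : F)) = ConjClasses.mk (u01 ε) := congrArg Subtype.val h
    rw [ConjClasses.mk_eq_mk_iff_isConj, conjU 1 ε one_ne_zero hε0, one_mul] at h'
    exact hε h'
  · ext ⟨C, g, hg, hC⟩
    simp only [Set.mem_insert_iff, Set.mem_singleton_iff, Set.mem_univ, iff_true]
    obtain ⟨b, hb, hconj⟩ := nf01 p g hg
    by_cases hsq : IsSquare b
    · left
      apply Subtype.ext
      show C = ConjClasses.mk (u01 1)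
      rw [← hC, ConjClasses.mk_eq_mk_iff_isConj]
      refine hconj.trans ?_
      rw [conjU b 1 hb one_ne_zero, mul_one]
      exact hsq
    · right
      apply Subtype.ext
      show C = ConjClasses.mk (u01 ε)
      rw [← hC, ConjClasses.mk_eq_mk_iff_isConj]
      refine hconj.trans ?_
      rw [conjU b ε hb hε0]
      exact nsq_mul hsq hε

end

/-- Over a finite field with q elements of odd characteristic p, the elements of order p of SL₂ (the non-identity unipotent elements) fall into exactly two conjugacy classes, each of size (q² − 1)/2; two upper unitriangular matrices with non-zero off-diagonal entries b and b′ are conjugate exactly when bb′ is a square. -/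
theorem result {F : Type*} [Field F] [Fintype F] (p : ℕ) [Fact p.Prime] [CharP F p] (hp : p ≠ 2) :
    Nat.card {C : ConjClasses (Matrix.SpecialLinearGroup (Fin 2) F) // ∃ g : Matrix.SpecialLinearGroup (Fin 2) F, orderOf g = p ∧ ConjClasses.mk g = C} = 2 ∧
    (∀ g : Matrix.SpecialLinearGroup (Fin 2) F, orderOf g = p → Nat.card (ConjClasses.mk g).carrier = (Fintype.card F ^ 2 - 1) / 2) ∧
    ∀ g h : Matrix.SpecialLinearGroup (Fin 2) F, (g : Matrix (Fin 2) (Fin 2) F) 0 0 = 1 → (g : Matrix (Fin 2) (Fin 2) F) 1 1 = 1 → (g : Matrix (Fin 2) (Fin 2) F) 1 0 = 0 → (g : Matrix (Fin 2) (Fin 2) F) 0 1 ≠ 0 →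
      (h : Matrix (Fin 2) (Fin 2) F) 0 0 = 1 → (h : Matrix (Fin 2) (Fin 2) F) 1 1 = 1 → (h : Matrix (Fin 2) (Fin 2) F) 1 0 = 0 → (h : Matrix (Fin 2) (Fin 2) F) 0 1 ≠ 0 →
      (IsConj g h ↔ IsSquare ((g : Matrix (Fin 2) (Fin 2) F) 0 1 * (h : Matrix (Fin 2) (Fin 2) F) 0 1)) := by
  refine ⟨two_classes p hp, ?_, ?_⟩
  · intro g hg
    obtain ⟨b, hb, hconj⟩ := nf01 p g hg
    rw [ConjClasses.mk_eq_mk_iff_isConj.mpr hconj]
    exact cls01 p hp b hb
  · intro g h g00 g11 g10 g01 h00 h11 h10 h01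
    have eg := eqU g g00 g11 g10
    have eh := eqU h h00 h11 h10
    have e1 : IsConj g h ↔ IsConj (u01 ((g : Matrix (Fin 2) (Fin 2) F) 0 1))
        (u01 ((h : Matrix (Fin 2) (Fin 2) F) 0 1)) := by
      rw [← eg, ← eh]
    exact e1.trans (conjU _ _ g01 h01)

end Cfsg.Agent.S2301
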