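import Cfsg.Statements.S2331
import Mathlib
import Cfsg.Statements.S2331
import Cfsg.Agent.S2330

set_option autoImplicit false
open Cfsg
open scoped commutatorElement

namespace Cfsg.Agent.S2331

noncomputable def phi31 {F : Type*} [Field F] (g : Matrix.SpecialLinearGroup (Fin 2) F) :
    Option F :=
  haveI := Classical.propDecidable (g = 1)
  if g = 1 then none else some ((g : Matrix (Fin 2) (Fin 2) F).trace)

theorem isConj_SL_of31 {F : Type*} [Field F] [Finite F] [CharP F 2]
    (g h : Matrix.SpecialLinearGroup (Fin 2) F)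
    (P : Matrix (Fin 2) (Fin 2) F) (hP : P.det ≠ 0)
    (hgP : (g : Matrix (Fin 2) (Fin 2) F) * P = P * (h : Matrix (Fin 2) (Fin 2) F)) :
    IsConj g h := by
  obtain ⟨ε, hε⟩ := FiniteField.isSquare_of_char_two (ringChar.eq F 2) P.det
  have hε0 : ε ≠ 0 := by
    rintro rfl
    apply hP; rw [hε]; simp
  have hdet : (ε⁻¹ • P).det = 1 := by
    rw [Matrix.det_smul, Fintype.card_fin, hε]
    field_simp
  obtain ⟨U, hU⟩ : ∃ U : Matrix.SpecialLinearGroup (Fin 2) F,
      (U : Matrix (Fin 2) (Fin 2) F) = ε⁻¹ • P := ⟨⟨_, hdet⟩, rfl⟩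
  have h1 : g * U = U * h := by
    apply Subtype.ext
    rw [Matrix.SpecialLinearGroup.coe_mul, Matrix.SpecialLinearGroup.coe_mul, hU,
      Matrix.mul_smul, Matrix.smul_mul, hgP]
  rw [isConj_iff]
  refine ⟨U⁻¹, ?_⟩
  rw [inv_inv, mul_assoc, h1, ← mul_assoc, inv_mul_cancel, one_mul]

/-- Over a finite field with q elements, q even, the special linear group SL₂ has exactly q + 1 conjugacy classes. -/
theorem result {F : Type*} [Field F] [Fintype F] [CharP F 2] :
    Nat.card (ConjClasses (Matrix.SpecialLinearGroup (Fin 2) F)) = Fintype.card F + 1 := by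
  classical
  have hcard : Nat.card (Option F) = Fintype.card F + 1 := by
    rw [Nat.card_eq_fintype_card, Fintype.card_option]
  rw [← hcard]
  have hns : ∀ g : Matrix.SpecialLinearGroup (Fin 2) F, g ≠ 1 →
      ¬ ∃ a : F, (g : Matrix (Fin 2) (Fin 2) F) = a • (1 : Matrix (Fin 2) (Fin 2) F) := by
    rintro g hg ⟨a, ha⟩
    apply hg
    have hdet : (g : Matrix (Fin 2) (Fin 2) F).det = 1 := g.2
    rw [ha, Matrix.det_smul, Fintype.card_fin, Matrix.det_one, mul_one] at hdet
    have h2 : (a - 1) * (a - 1) = 0 := by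
      have h3 : (a - 1) * (a - 1) = a ^ 2 - 2 * a + 1 := by ring
      rw [h3, hdet, CharTwo.two_eq_zero]; ring_nf
      exact CharTwo.two_eq_zero
    have h4 : a = 1 := sub_eq_zero.mp (mul_self_eq_zero.mp h2)
    apply Subtype.ext
    rw [ha, h4, one_smul]; rfl
  apply Cfsg.Agent.S2330.card_conjClasses_eq30 (phi31 (F := F))
  · intro g h hgh
    rw [isConj_iff] at hgh
    obtain ⟨c, rfl⟩ := hgh
    by_cases hg : g = 1
    · subst hg
      simp
    · have hg' : c * g * c⁻¹ ≠ 1 := by
        intro h1
        apply hg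
        have : g = c⁻¹ * (c * g * c⁻¹) * c := by group
        rw [this, h1]; group
      unfold phi31
      rw [if_neg hg, if_neg hg']
      congr 1
      rw [Matrix.SpecialLinearGroup.coe_mul, Matrix.SpecialLinearGroup.coe_mul,
        Matrix.trace_mul_comm, ← Matrix.mul_assoc]
      have : ((c⁻¹ : Matrix.SpecialLinearGroup (Fin 2) F) : Matrix (Fin 2) (Fin 2) F) *
          (c : Matrix (Fin 2) (Fin 2) F) = 1 := by
        rw [← Matrix.SpecialLinearGroup.coe_mul, inv_mul_cancel]; rfl
      rw [this, Matrix.one_mul]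
  · intro g h hgh
    by_cases hg : g = 1
    · by_cases hh : h = 1
      · rw [hg, hh]
        exact IsConj.refl 1
      · unfold phi31 at hgh
        rw [if_pos hg, if_neg hh] at hgh
        exact absurd hgh (by simp)
    · by_cases hh : h = 1
      · unfold phi31 at hgh
        rw [if_neg hg, if_pos hh] at hgh
        exact absurd hgh (by simp)
      · unfold phi31 at hgh
        rw [if_neg hg, if_neg hh] at hgh
        have htr := Option.some.inj hgh
        have hdet : (g : Matrix (Fin 2) (Fin 2) F).det = (h : Matrix (Fin 2) (Fin 2) F).det := by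
          rw [g.2, h.2]
        obtain ⟨P, hP, hgP⟩ := Cfsg.Agent.S2330.conj_of_trace_det30 _ _ (hns g hg) (hns h hh)
          htr hdet
        exact isConj_SL_of31 g h P hP hgP
  · intro t
    rcases t with _ | t
    · refine ⟨1, ?_⟩
      unfold phi31
      rw [if_pos rfl]
    · have hdet : (!![0, -1; 1, t] : Matrix (Fin 2) (Fin 2) F).det = 1 := by
        rw [Matrix.det_fin_two_of]; ring
      obtain ⟨x, hx⟩ : ∃ x : Matrix.SpecialLinearGroup (Fin 2) F,
          (x : Matrix (Fin 2) (Fin 2) F) = !![0, -1; 1, t] := ⟨⟨_, hdet⟩, rfl⟩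
      refine ⟨x, ?_⟩
      have hne : x ≠ 1 := by
        intro h1
        have h2 := congrArg (fun y : Matrix.SpecialLinearGroup (Fin 2) F =>
          (y : Matrix (Fin 2) (Fin 2) F) 1 0) h1
        simp [hx] at h2
      unfold phi31
      rw [if_neg hne]
      congr 1
      rw [hx]
      simp [Matrix.trace_fin_two]

end Cfsg.Agent.S2331
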