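import Cfsg.Statements.S2302
import Mathlib
import Cfsg.Statements.S2302
import Cfsg.Agent.S2330
import Cfsg.Agent.S2331

set_option autoImplicit false
open Cfsg
open scoped commutatorElement

namespace Cfsg.Agent.S2302

theorem sq_inj02 {F : Type*} [Field F] [CharP F 2] (a b : F) (h : a * a = b * b) : a = b := by
  have h1 : (a - b) * (a - b) = 0 := by
    have h2 : (a - b) * (a - b) = a * a + b * b - 2 * (a * b) := by ring
    rw [h2, h, CharTwo.two_eq_zero, zero_mul, sub_zero, ← two_mul, CharTwo.two_eq_zero,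
      zero_mul]
  exact sub_eq_zero.mp (mul_self_eq_zero.mp h1)

theorem nonscalar02 {F : Type*} [Field F] [CharP F 2] (g : Matrix.SpecialLinearGroup (Fin 2) F)
    (hg : g ≠ 1) :
    ¬ ∃ a : F, (g : Matrix (Fin 2) (Fin 2) F) = a • (1 : Matrix (Fin 2) (Fin 2) F) := by
  rintro ⟨a, ha⟩
  apply hg
  have hdet : (g : Matrix (Fin 2) (Fin 2) F).det = 1 := g.2
  rw [ha, Matrix.det_smul, Fintype.card_fin, Matrix.det_one, mul_one] at hdet
  have h4 : a = 1 := sq_inj02 a 1 (by rw [← pow_two, hdet]; ring)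
  apply Subtype.ext
  rw [ha, h4, one_smul]; rfl

theorem trace_zero02 {F : Type*} [Field F] [CharP F 2] (g : Matrix.SpecialLinearGroup (Fin 2) F)
    (hg : g * g = 1) : (g : Matrix (Fin 2) (Fin 2) F).trace = 0 := by
  have h1 : (g : Matrix (Fin 2) (Fin 2) F) * (g : Matrix (Fin 2) (Fin 2) F) = 1 := by
    rw [← Matrix.SpecialLinearGroup.coe_mul, hg]; rfl
  have h00 := congrFun (congrFun h1 0) 0
  have h01 := congrFun (congrFun h1 0) 1
  have h10 := congrFun (congrFun h1 1) 0
  have h11 := congrFun (congrFun h1 1) 1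
  simp only [Matrix.mul_apply, Fin.sum_univ_two, Matrix.one_apply_eq, Matrix.one_apply_ne,
    ne_eq, Fin.reduceEq, not_false_eq_true] at h00 h01 h10 h11
  rw [Matrix.trace_fin_two]
  by_contra hne
  have hb : (g : Matrix (Fin 2) (Fin 2) F) 0 1 = 0 := by
    have : (g : Matrix (Fin 2) (Fin 2) F) 0 1 *
        ((g : Matrix (Fin 2) (Fin 2) F) 0 0 + (g : Matrix (Fin 2) (Fin 2) F) 1 1) = 0 := by
      rw [← h01]; ring
    rcases mul_eq_zero.mp this with h | h
    · exact h
    · exact absurd h hne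
  have hc : (g : Matrix (Fin 2) (Fin 2) F) 1 0 = 0 := by
    have : (g : Matrix (Fin 2) (Fin 2) F) 1 0 *
        ((g : Matrix (Fin 2) (Fin 2) F) 0 0 + (g : Matrix (Fin 2) (Fin 2) F) 1 1) = 0 := by
      rw [← h10]; ring
    rcases mul_eq_zero.mp this with h | h
    · exact h
    · exact absurd h hne
  rw [hb, hc] at h00 h11
  have ha : (g : Matrix (Fin 2) (Fin 2) F) 0 0 = 1 := sq_inj02 _ 1 (by rw [one_mul]; simpa using h00)
  have hd : (g : Matrix (Fin 2) (Fin 2) F) 1 1 = 1 := sq_inj02 _ 1 (by rw [one_mul]; simpa using h11)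
  apply hne
  rw [ha, hd]
  have := CharTwo.two_eq_zero (R := F)
  rw [← this]; norm_num

/-- Over a finite field with q elements of characteristic 2, the involutions of SL₂ (the non-identity unipotent elements) form a single conjugacy class, of size q² − 1. -/
theorem result {F : Type*} [Field F] [Fintype F] [CharP F 2] (g h : Matrix.SpecialLinearGroup (Fin 2) F) (hg : orderOf g = 2) (hh : orderOf h = 2) :
    IsConj g h ∧ Nat.card (ConjClasses.mk g).carrier = Fintype.card F ^ 2 - 1 := by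
  classical
  have hord : ∀ x : Matrix.SpecialLinearGroup (Fin 2) F, orderOf x = 2 → x ≠ 1 ∧ x * x = 1 := by
    intro x hx
    constructor
    · rintro rfl; rw [orderOf_one] at hx; omega
    · have h2 := pow_orderOf_eq_one x
      rw [hx] at h2
      rw [← pow_two]; exact h2
  have hconj : ∀ x y : Matrix.SpecialLinearGroup (Fin 2) F, x ≠ 1 →
      (x : Matrix (Fin 2) (Fin 2) F).trace = 0 → y ≠ 1 →
      (y : Matrix (Fin 2) (Fin 2) F).trace = 0 → IsConj x y := by
    intro x y hx hxt hy hyt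
    obtain ⟨P, hP, hxP⟩ := Cfsg.Agent.S2330.conj_of_trace_det30 _ _ (nonscalar02 x hx)
      (nonscalar02 y hy) (by rw [hxt, hyt]) (by rw [x.2, y.2])
    exact Cfsg.Agent.S2331.isConj_SL_of31 x y P hP hxP
  obtain ⟨hg1, hg2⟩ := hord g hg
  obtain ⟨hh1, hh2⟩ := hord h hh
  refine ⟨hconj g h hg1 (trace_zero02 g hg2) hh1 (trace_zero02 h hh2), ?_⟩
  have hcarrier : ∀ x : Matrix.SpecialLinearGroup (Fin 2) F, x ∈ (ConjClasses.mk g).carrier ↔
      (x ≠ 1 ∧ (x : Matrix (Fin 2) (Fin 2) F).trace = 0) := by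
    intro x
    rw [ConjClasses.mem_carrier_iff_mk_eq, ConjClasses.mk_eq_mk_iff_isConj]
    constructor
    · intro hxg
      rw [isConj_iff] at hxg
      obtain ⟨c, hc⟩ := hxg
      have hx1 : x ≠ 1 := by
        rintro rfl
        apply hg1; rw [← hc]; group
      have hx2 : x * x = 1 := by
        have : x = c⁻¹ * g * c := by rw [← hc]; group
        rw [this]
        have : c⁻¹ * g * c * (c⁻¹ * g * c) = c⁻¹ * (g * g) * c := by group
        rw [this, hg2]; group
      exact ⟨hx1, trace_zero02 x hx2⟩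
    · rintro ⟨hx1, hxt⟩
      exact hconj x g hx1 hxt hg1 (trace_zero02 g hg2)
  have hcard : Nat.card (ConjClasses.mk g).carrier = Nat.card {p : F × F // p ≠ (0, 0)} := by
    apply Nat.card_congr
    have hmap : ∀ x : (ConjClasses.mk g).carrier,
        (((x : Matrix.SpecialLinearGroup (Fin 2) F) : Matrix (Fin 2) (Fin 2) F) 0 1,
          ((x : Matrix.SpecialLinearGroup (Fin 2) F) : Matrix (Fin 2) (Fin 2) F) 1 0) ≠
          ((0 : F), (0 : F)) := by
      rintro ⟨x, hx⟩ h0
      obtain ⟨hx1, hxt⟩ := (hcarrier x).mp hx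
      simp only [Prod.mk.injEq] at h0
      obtain ⟨hb, hc⟩ := h0
      rw [Matrix.trace_fin_two] at hxt
      have hdet : (x : Matrix (Fin 2) (Fin 2) F).det = 1 := x.2
      rw [Matrix.det_fin_two, hb, hc] at hdet
      have hd : (x : Matrix (Fin 2) (Fin 2) F) 1 1 = (x : Matrix (Fin 2) (Fin 2) F) 0 0 := by
        have h3 : (x : Matrix (Fin 2) (Fin 2) F) 1 1 = -(x : Matrix (Fin 2) (Fin 2) F) 0 0 :=
          eq_neg_of_add_eq_zero_right hxt
        rw [h3, CharTwo.neg_eq]
      rw [hd] at hdet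
      have ha : (x : Matrix (Fin 2) (Fin 2) F) 0 0 = 1 := sq_inj02 _ 1 (by rw [one_mul]; simpa using hdet)
      apply hx1
      apply Subtype.ext
      ext i j
      fin_cases i <;> fin_cases j <;> simp [ha, hb, hc, hd]
    refine Equiv.ofBijective (fun x => (⟨_, hmap x⟩ : {p : F × F // p ≠ (0, 0)})) ⟨?_, ?_⟩
    · rintro ⟨x, hx⟩ ⟨y, hy⟩ hxy
      have h1 := congrArg Subtype.val hxy
      simp only [Prod.mk.injEq] at h1
      obtain ⟨hb, hc⟩ := h1
      obtain ⟨hx1, hxt⟩ := (hcarrier x).mp hx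
      obtain ⟨hy1, hyt⟩ := (hcarrier y).mp hy
      rw [Matrix.trace_fin_two] at hxt hyt
      have hdx : (x : Matrix (Fin 2) (Fin 2) F) 1 1 = (x : Matrix (Fin 2) (Fin 2) F) 0 0 := by
        have h3 : (x : Matrix (Fin 2) (Fin 2) F) 1 1 = -(x : Matrix (Fin 2) (Fin 2) F) 0 0 :=
          eq_neg_of_add_eq_zero_right hxt
        rw [h3, CharTwo.neg_eq]
      have hdy : (y : Matrix (Fin 2) (Fin 2) F) 1 1 = (y : Matrix (Fin 2) (Fin 2) F) 0 0 := by
        have h3 : (y : Matrix (Fin 2) (Fin 2) F) 1 1 = -(y : Matrix (Fin 2) (Fin 2) F) 0 0 :=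
          eq_neg_of_add_eq_zero_right hyt
        rw [h3, CharTwo.neg_eq]
      have hdetx : (x : Matrix (Fin 2) (Fin 2) F).det = 1 := x.2
      have hdety : (y : Matrix (Fin 2) (Fin 2) F).det = 1 := y.2
      rw [Matrix.det_fin_two, hdx] at hdetx
      rw [Matrix.det_fin_two, hdy, ← hb, ← hc] at hdety
      have ha : (x : Matrix (Fin 2) (Fin 2) F) 0 0 = (y : Matrix (Fin 2) (Fin 2) F) 0 0 := by
        apply sq_inj02
        have : (x : Matrix (Fin 2) (Fin 2) F) 0 0 * (x : Matrix (Fin 2) (Fin 2) F) 0 0 -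
            (x : Matrix (Fin 2) (Fin 2) F) 0 1 * (x : Matrix (Fin 2) (Fin 2) F) 1 0 =
            (y : Matrix (Fin 2) (Fin 2) F) 0 0 * (y : Matrix (Fin 2) (Fin 2) F) 0 0 -
            (x : Matrix (Fin 2) (Fin 2) F) 0 1 * (x : Matrix (Fin 2) (Fin 2) F) 1 0 := by
          rw [hdetx, hdety]
        exact sub_left_injective this
      apply Subtype.ext
      apply Subtype.ext
      ext i j
      fin_cases i <;> fin_cases j
      · exact ha
      · exact hb
      · exact hc
      · show (x : Matrix (Fin 2) (Fin 2) F) 1 1 = (y : Matrix (Fin 2) (Fin 2) F) 1 1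
        rw [hdx, hdy, ha]
    · rintro ⟨⟨b, c⟩, hp⟩
      obtain ⟨a, ha⟩ := FiniteField.isSquare_of_char_two (ringChar.eq F 2) (1 + b * c)
      have hdet : (!![a, b; c, a] : Matrix (Fin 2) (Fin 2) F).det = 1 := by
        rw [Matrix.det_fin_two_of, ← ha]; ring
      obtain ⟨x, hx⟩ : ∃ x : Matrix.SpecialLinearGroup (Fin 2) F,
          (x : Matrix (Fin 2) (Fin 2) F) = !![a, b; c, a] := ⟨⟨_, hdet⟩, rfl⟩
      have hx1 : x ≠ 1 := by
        intro h1
        apply hp
        have hb := congrArg (fun y : Matrix.SpecialLinearGroup (Fin 2) F =>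
          (y : Matrix (Fin 2) (Fin 2) F) 0 1) h1
        have hc := congrArg (fun y : Matrix.SpecialLinearGroup (Fin 2) F =>
          (y : Matrix (Fin 2) (Fin 2) F) 1 0) h1
        simp [hx] at hb hc
        rw [hb, hc]
      have hxt : (x : Matrix (Fin 2) (Fin 2) F).trace = 0 := by
        rw [hx, Matrix.trace_fin_two]
        simp
        rw [← two_mul, CharTwo.two_eq_zero, zero_mul]
      refine ⟨⟨x, (hcarrier x).mpr ⟨hx1, hxt⟩⟩, ?_⟩
      apply Subtype.ext
      simp [hx]
  rw [hcard, Nat.card_eq_fintype_card]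
  have hc1 := Fintype.card_subtype_compl (fun p : F × F => p = (0, 0))
  have hc2 : Fintype.card {p : F × F // p = (0, 0)} = 1 := Fintype.card_subtype_eq _
  have hc3 : Fintype.card (F × F) = Fintype.card F ^ 2 := by
    rw [Fintype.card_prod, pow_two]
  rw [← hc3, ← hc2]
  convert hc1 using 2

end Cfsg.Agent.S2302
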