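import Cfsg.Statements.S2303
import Mathlib
import Cfsg.Statements.S2303

set_option autoImplicit false
open Cfsg
open scoped commutatorElement

namespace Cfsg.Agent.S2303

theorem memC03 {F : Type*} [Field F] (g k : Matrix.GeneralLinearGroup (Fin 2) F) :
    k ∈ Subgroup.centralizer ({g} : Set (Matrix.GeneralLinearGroup (Fin 2) F)) ↔
      (k : Matrix (Fin 2) (Fin 2) F) * (g : Matrix (Fin 2) (Fin 2) F) =
        (g : Matrix (Fin 2) (Fin 2) F) * (k : Matrix (Fin 2) (Fin 2) F) := by
  rw [Subgroup.mem_centralizer_singleton_iff]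
  constructor
  · intro h; have h' := congrArg Units.val h; simpa using h'
  · intro h; apply Units.ext; simpa using h

theorem card_ne_zero03 {F : Type*} [Field F] [Fintype F] :
    Nat.card {p : F × F // p ≠ (0, 0)} = Fintype.card F ^ 2 - 1 := by
  classical
  rw [Nat.card_eq_fintype_card]
  have hc1 := Fintype.card_subtype_compl (fun p : F × F => p = (0, 0))
  have hc2 : Fintype.card {p : F × F // p = (0, 0)} = 1 := Fintype.card_subtype_eq _
  have hc3 : Fintype.card (F × F) = Fintype.card F ^ 2 := by
    rw [Fintype.card_prod, pow_two]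
  rw [← hc3, ← hc2]
  convert hc1 using 2

/-- Over a finite field with q elements: a diagonal element of GL₂ with two distinct diagonal entries has centralizer of order (q − 1)² (so q(q + 1) conjugates), and an element of GL₂ with no eigenvector in F² has centralizer of order q² − 1 (so q(q − 1) conjugates). -/
theorem result {F : Type*} [Field F] [Fintype F] (g : Matrix.GeneralLinearGroup (Fin 2) F) :
    ((g : Matrix (Fin 2) (Fin 2) F) 0 1 = 0 → (g : Matrix (Fin 2) (Fin 2) F) 1 0 = 0 → (g : Matrix (Fin 2) (Fin 2) F) 0 0 ≠ (g : Matrix (Fin 2) (Fin 2) F) 1 1 →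
      Nat.card (Subgroup.centralizer ({g} : Set (Matrix.GeneralLinearGroup (Fin 2) F))) = (Fintype.card F - 1) ^ 2) ∧
    ((∀ (c : F) (v : Fin 2 → F), v ≠ 0 → (g : Matrix (Fin 2) (Fin 2) F).mulVec v ≠ c • v) →
      Nat.card (Subgroup.centralizer ({g} : Set (Matrix.GeneralLinearGroup (Fin 2) F))) = Fintype.card F ^ 2 - 1) := by
  classical
  obtain ⟨G, hG⟩ : ∃ G : Matrix (Fin 2) (Fin 2) F, G = g := ⟨_, rfl⟩
  have hGeta : G = !![G 0 0, G 0 1; G 1 0, G 1 1] := Matrix.eta_fin_two G
  constructor
  · intro hb hc hae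
    rw [← hG] at hb hc hae
    have hcard : Nat.card (Fˣ × Fˣ) = (Fintype.card F - 1) ^ 2 := by
      rw [Nat.card_prod, Nat.card_eq_fintype_card, Fintype.card_units, pow_two]
    rw [← hcard]
    symm
    apply Nat.card_congr
    have hdet : ∀ p : Fˣ × Fˣ, (!![(p.1 : F), 0; 0, (p.2 : F)] : Matrix (Fin 2) (Fin 2) F).det ≠ 0 := by
      intro p; rw [Matrix.det_fin_two_of]; simp
    have hmem : ∀ p : Fˣ × Fˣ, Matrix.GeneralLinearGroup.mkOfDetNeZero _ (hdet p) ∈
        Subgroup.centralizer ({g} : Set (Matrix.GeneralLinearGroup (Fin 2) F)) := by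
      intro p
      rw [memC03, ← hG]
      show !![(p.1 : F), 0; 0, (p.2 : F)] * G = G * !![(p.1 : F), 0; 0, (p.2 : F)]
      rw [hGeta, hb, hc]
      ext i j; fin_cases i <;> fin_cases j <;> simp [Matrix.mul_apply, Fin.sum_univ_two, mul_comm]
    refine Equiv.ofBijective (fun p => (⟨_, hmem p⟩ :
      ↥(Subgroup.centralizer ({g} : Set (Matrix.GeneralLinearGroup (Fin 2) F))))) ⟨?_, ?_⟩
    · intro p p' h
      have h1 := congrArg (fun x : ↥(Subgroup.centralizer ({g} : Set (Matrix.GeneralLinearGroup (Fin 2) F))) =>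
        ((x : Matrix.GeneralLinearGroup (Fin 2) F) : Matrix (Fin 2) (Fin 2) F)) h
      have h00 := congrFun (congrFun h1 0) 0
      have h11 := congrFun (congrFun h1 1) 1
      simp [Matrix.GeneralLinearGroup.mkOfDetNeZero] at h00 h11
      exact Prod.ext (Units.ext h00) (Units.ext h11)
    · rintro ⟨x, hx⟩
      rw [memC03, ← hG] at hx
      obtain ⟨X, hX⟩ : ∃ X : Matrix (Fin 2) (Fin 2) F, X = x := ⟨_, rfl⟩
      rw [← hX] at hx
      have hXeta : X = !![X 0 0, X 0 1; X 1 0, X 1 1] := Matrix.eta_fin_two X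
      have h01 := congrFun (congrFun hx 0) 1
      have h10 := congrFun (congrFun hx 1) 0
      simp only [Matrix.mul_apply, Fin.sum_univ_two, hb, hc, mul_zero, zero_mul, add_zero,
        zero_add] at h01 h10
      have hX01 : X 0 1 = 0 := by
        have : X 0 1 * (G 1 1 - G 0 0) = 0 := by rw [mul_sub, h01]; ring
        rcases mul_eq_zero.mp this with h | h
        · exact h
        · exact absurd (sub_eq_zero.mp h).symm hae
      have hX10 : X 1 0 = 0 := by
        have : X 1 0 * (G 0 0 - G 1 1) = 0 := by rw [mul_sub, h10]; ring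
        rcases mul_eq_zero.mp this with h | h
        · exact h
        · exact absurd (sub_eq_zero.mp h) hae
      have hdetX : X.det ≠ 0 := by
        rw [hX]
        have := (Matrix.GeneralLinearGroup.det x).ne_zero
        simpa using this
      rw [Matrix.det_fin_two, hX01, hX10, mul_zero, sub_zero] at hdetX
      have h0 : X 0 0 ≠ 0 := left_ne_zero_of_mul hdetX
      have h1 : X 1 1 ≠ 0 := right_ne_zero_of_mul hdetX
      refine ⟨(Units.mk0 _ h0, Units.mk0 _ h1), ?_⟩
      apply Subtype.ext
      apply Units.ext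
      show !![X 0 0, 0; 0, X 1 1] = (x : Matrix (Fin 2) (Fin 2) F)
      rw [← hX]
      conv_rhs => rw [hXeta, hX01, hX10]
  · intro hev
    rw [← hG] at hev
    have hc0 : G 1 0 ≠ 0 := by
      intro h0
      apply hev (G 0 0) ![1, 0] (by intro h; have := congrFun h 0; simp at this)
      ext i; fin_cases i <;> simp [Matrix.mulVec, dotProduct, Fin.sum_univ_two, h0]
    rw [← card_ne_zero03]
    symm
    apply Nat.card_congr
    have hdet : ∀ p : {p : F × F // p ≠ (0, 0)}, (p.1.1 • (1 : Matrix (Fin 2) (Fin 2) F) + p.1.2 • G).det ≠ 0 := by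
      rintro ⟨⟨x, y⟩, hp⟩ hd
      obtain ⟨v, hv, hMv⟩ := Matrix.exists_mulVec_eq_zero_iff.mpr hd
      simp only [Matrix.add_mulVec, Matrix.smul_mulVec, Matrix.one_mulVec] at hMv
      by_cases hy : y = 0
      · rw [hy, zero_smul, add_zero] at hMv
        have hx : x = 0 := by
          by_contra hx
          apply hv
          have := congrArg (fun w => x⁻¹ • w) hMv
          simpa [smul_smul, inv_mul_cancel₀ hx] using this
        exact hp (by rw [hx, hy])
      · apply hev (-x / y) v hv
        have h1 : y • G.mulVec v = -(x • v) := eq_neg_of_add_eq_zero_right hMv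
        have h2 := congrArg (fun w => y⁻¹ • w) h1
        simp only [smul_smul, inv_mul_cancel₀ hy, one_smul] at h2
        rw [h2, smul_neg, smul_smul, ← neg_smul]
        congr 1
        field_simp
    have hmem : ∀ p : {p : F × F // p ≠ (0, 0)}, Matrix.GeneralLinearGroup.mkOfDetNeZero _ (hdet p) ∈
        Subgroup.centralizer ({g} : Set (Matrix.GeneralLinearGroup (Fin 2) F)) := by
      intro p
      rw [memC03, ← hG]
      show (p.1.1 • (1 : Matrix (Fin 2) (Fin 2) F) + p.1.2 • G) * G =
        G * (p.1.1 • (1 : Matrix (Fin 2) (Fin 2) F) + p.1.2 • G)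
      rw [add_mul, mul_add, Matrix.smul_mul, Matrix.mul_smul, Matrix.smul_mul, Matrix.mul_smul,
        Matrix.one_mul, Matrix.mul_one]
    refine Equiv.ofBijective (fun p => (⟨_, hmem p⟩ :
      ↥(Subgroup.centralizer ({g} : Set (Matrix.GeneralLinearGroup (Fin 2) F))))) ⟨?_, ?_⟩
    · rintro ⟨⟨x, y⟩, hp⟩ ⟨⟨x', y'⟩, hp'⟩ h
      have h1 := congrArg (fun x : ↥(Subgroup.centralizer ({g} : Set (Matrix.GeneralLinearGroup (Fin 2) F))) =>
        ((x : Matrix.GeneralLinearGroup (Fin 2) F) : Matrix (Fin 2) (Fin 2) F)) h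
      have h2 : x • (1 : Matrix (Fin 2) (Fin 2) F) + y • G = x' • (1 : Matrix (Fin 2) (Fin 2) F) + y' • G := h1
      have h10 := congrFun (congrFun h2 1) 0
      have h00 := congrFun (congrFun h2 0) 0
      simp at h10 h00
      have hy : y = y' := by
        rcases h10 with h | h
        · exact h
        · exact absurd h hc0
      rw [hy] at h00
      have hx : x = x' := by simpa using h00
      exact Subtype.ext (Prod.ext hx hy)
    · rintro ⟨k, hk⟩
      rw [memC03, ← hG] at hk
      obtain ⟨X, hX⟩ : ∃ X : Matrix (Fin 2) (Fin 2) F, X = k := ⟨_, rfl⟩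
      rw [← hX] at hk
      have h00 := congrFun (congrFun hk 0) 0
      have h10 := congrFun (congrFun hk 1) 0
      simp only [Matrix.mul_apply, Fin.sum_univ_two] at h00 h10
      have hXeq : X = (X 0 0 - G 0 0 * (X 1 0 / G 1 0)) • (1 : Matrix (Fin 2) (Fin 2) F) +
          (X 1 0 / G 1 0) • G := by
        ext i j
        fin_cases i <;> fin_cases j
        · simp
          ring
        · simp
          field_simp
          linear_combination h00
        · simp
          field_simp
        · simp
          field_simp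
          linear_combination h10
      have hp : ((X 0 0 - G 0 0 * (X 1 0 / G 1 0)), (X 1 0 / G 1 0)) ≠ ((0 : F), (0 : F)) := by
        intro h0
        simp only [Prod.mk.injEq] at h0
        have hdetX : X.det ≠ 0 := by
          rw [hX]
          have := (Matrix.GeneralLinearGroup.det k).ne_zero
          simpa using this
        apply hdetX
        rw [hXeq, h0.1, h0.2]; simp
      refine ⟨⟨_, hp⟩, ?_⟩
      apply Subtype.ext
      apply Units.ext
      show (X 0 0 - G 0 0 * (X 1 0 / G 1 0)) • (1 : Matrix (Fin 2) (Fin 2) F) +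
          (X 1 0 / G 1 0) • G = (k : Matrix (Fin 2) (Fin 2) F)
      rw [← hX]; exact hXeq.symm

end Cfsg.Agent.S2303
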