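import Cfsg.Statements.S2329
import Mathlib

set_option autoImplicit false
open Cfsg
open scoped commutatorElement

namespace Cfsg.Agent.S2329

theorem ch2g {F : Type*} [Field F] (M : Matrix (Fin 2) (Fin 2) F) :
    M * M = (M 0 0 + M 1 1) • M - M.det • (1 : Matrix (Fin 2) (Fin 2) F) := by
  rw [Matrix.det_fin_two]
  ext i j
  fin_cases i <;> fin_cases j <;>
    simp [Matrix.mul_apply, Fin.sum_univ_two] <;> ring1

theorem nilp_sq {F : Type*} [Field F] (N : Matrix (Fin 2) (Fin 2) F) (k : ℕ) (hk : N ^ k = 0) :
    N * N = 0 := by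
  by_cases hN : N = 0
  · rw [hN, mul_zero]
  have hdet : N.det = 0 := by
    have := congrArg Matrix.det hk
    rw [Matrix.det_pow, Matrix.det_zero] at this
    exact eq_zero_of_pow_eq_zero this
  have hsq := ch2g N
  rw [hdet, zero_smul, sub_zero] at hsq
  have hpow : ∀ j : ℕ, N ^ (j + 1) = (N 0 0 + N 1 1) ^ j • N := by
    intro j
    induction j with
    | zero => simp
    | succ j ih =>
      rw [pow_succ, ih, Matrix.smul_mul, hsq, smul_smul, pow_succ]
  have hk0 : k ≠ 0 := by
    rintro rfl
    rw [pow_zero] at hk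
    have := congrFun (congrFun hk 0) 0
    simp at this
  obtain ⟨j, rfl⟩ := Nat.exists_eq_succ_of_ne_zero hk0
  rw [hpow] at hk
  rcases smul_eq_zero.mp hk with h | h
  · have ht : N 0 0 + N 1 1 = 0 := eq_zero_of_pow_eq_zero h
    rw [hsq, ht, zero_smul]
  · exact absurd h hN

noncomputable def Jmat (F : Type*) [Field F] : Matrix.GeneralLinearGroup (Fin 2) F :=
  Matrix.GeneralLinearGroup.mkOfDetNeZero !![1, 1; 0, 1] (by simp [Matrix.det_fin_two])

theorem conj_J {F : Type*} [Field F] (g : Matrix.GeneralLinearGroup (Fin 2) F)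
    (hg1 : g ≠ 1) (hN : ((g : Matrix (Fin 2) (Fin 2) F) - 1) * ((g : Matrix (Fin 2) (Fin 2) F) - 1) = 0) :
    IsConj g (Jmat F) := by
  have e00 := congrFun (congrFun hN 0) 0
  have e01 := congrFun (congrFun hN 0) 1
  have e10 := congrFun (congrFun hN 1) 0
  have e11 := congrFun (congrFun hN 1) 1
  simp [Matrix.mul_apply, Fin.sum_univ_two] at e00 e01 e10 e11
  set a := (g : Matrix (Fin 2) (Fin 2) F) 0 0 with ha
  set b := (g : Matrix (Fin 2) (Fin 2) F) 0 1 with hb
  set c := (g : Matrix (Fin 2) (Fin 2) F) 1 0 with hc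
  set d := (g : Matrix (Fin 2) (Fin 2) F) 1 1 with hd
  have hgm : (g : Matrix (Fin 2) (Fin 2) F) = !![a, b; c, d] := by
    ext i j; fin_cases i <;> fin_cases j <;> rfl
  rw [isConj_comm, isConj_iff]
  by_cases hc0 : c = 0
  · by_cases hb0 : b = 0
    · exfalso
      apply hg1
      have ha1 : a = 1 := by
        rw [hb0, hc0] at e00
        have : (a - 1) * (a - 1) = 0 := by linear_combination e00
        have := mul_self_eq_zero.mp this
        linear_combination this
      have hd1 : d = 1 := by
        rw [hb0, hc0] at e11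
        have : (d - 1) * (d - 1) = 0 := by linear_combination e11
        have := mul_self_eq_zero.mp this
        linear_combination this
      apply Units.ext
      rw [hgm, ha1, hb0, hc0, hd1]
      ext i j; fin_cases i <;> fin_cases j <;> simp
    · have ha1 : a = 1 := by
        rw [hc0] at e00
        have : (a - 1) * (a - 1) = 0 := by linear_combination e00
        have := mul_self_eq_zero.mp this
        linear_combination this
      have hd1 : d = 1 := by
        rw [hc0] at e11
        have : (d - 1) * (d - 1) = 0 := by linear_combination e11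
        have := mul_self_eq_zero.mp this
        linear_combination this
      refine ⟨Matrix.GeneralLinearGroup.mkOfDetNeZero !![b, 0; 0, 1] (by simp [Matrix.det_fin_two, hb0]), ?_⟩
      rw [mul_inv_eq_iff_eq_mul]
      apply Units.ext
      simp only [Units.val_mul, Jmat, Matrix.GeneralLinearGroup.mkOfDetNeZero]
      rw [hgm, ha1, hc0, hd1]
      ext i j; fin_cases i <;> fin_cases j <;> simp [Matrix.mul_apply, Fin.sum_univ_two]
  · refine ⟨Matrix.GeneralLinearGroup.mkOfDetNeZero !![a - 1, 1; c, 0] (by simp [Matrix.det_fin_two, hc0]), ?_⟩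
    rw [mul_inv_eq_iff_eq_mul]
    apply Units.ext
    simp only [Units.val_mul, Jmat, Matrix.GeneralLinearGroup.mkOfDetNeZero]
    rw [hgm]
    ext i j; fin_cases i <;> fin_cases j <;> simp [Matrix.mul_apply, Fin.sum_univ_two] <;>
      first | ring1 | linear_combination e00 | linear_combination e10 | linear_combination (-1 : F) * e00 | linear_combination (-1 : F) * e10

theorem unip_of_order {F : Type*} [Field F] (p : ℕ) [Fact p.Prime] [CharP F p]
    (g : Matrix.GeneralLinearGroup (Fin 2) F) (hg : orderOf g = p) :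
    g ≠ 1 ∧ ((g : Matrix (Fin 2) (Fin 2) F) - 1) * ((g : Matrix (Fin 2) (Fin 2) F) - 1) = 0 := by
  have hpp : p.Prime := Fact.out
  constructor
  · rintro rfl
    rw [orderOf_one] at hg
    exact hpp.one_lt.ne hg
  · apply nilp_sq _ p
    have hcomm : Commute (g : Matrix (Fin 2) (Fin 2) F) 1 := Commute.one_right _
    rw [sub_pow_char_of_commute p hcomm, one_pow]
    have h1 : g ^ p = 1 := by rw [← hg, pow_orderOf_eq_one]
    have h2 : (g : Matrix (Fin 2) (Fin 2) F) ^ p = 1 := by
      rw [← Units.val_pow_eq_pow_val, h1]; rfl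
    rw [h2, sub_self]


/-- Over a finite field of characteristic p, any two elements of order p of GL₂ are conjugate: there is a single conjugacy class of non-identity unipotent elements. -/
theorem result {F : Type*} [Field F] [Fintype F] (p : ℕ) [Fact p.Prime] [CharP F p] (g h : Matrix.GeneralLinearGroup (Fin 2) F)
    (hg : orderOf g = p) (hh : orderOf h = p) : IsConj g h := by
  obtain ⟨hg1, hgN⟩ := unip_of_order p g hg
  obtain ⟨hh1, hhN⟩ := unip_of_order p h hh
  exact (conj_J g hg1 hgN).trans (conj_J h hh1 hhN).symm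

end Cfsg.Agent.S2329
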