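import Cfsg.Statements.S2367
import Mathlib
import Cfsg.Agent.Lib.Helper1.SPO

set_option autoImplicit false
open Cfsg

namespace Cfsg.Agent.S2367

/-- Let G be an alternating group of degree at least 5 or a simple group with the order of one of the 26 sporadic groups, and let p be an odd prime such that p³ is the exact power of p dividing the order of G. Then p³ is less than the 2-part of the order of G. -/
theorem result {G : Type*} [Group G] [Finite G] (hG : Cfsg.IsAlternating G ∨ Cfsg.IsSporadic G)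
    (p : ℕ) (hp : p.Prime) (hodd : p ≠ 2) (h3 : (Nat.card G).factorization p = 3) :
    p ^ 3 < 2 ^ (Nat.card G).factorization 2 := by
  rcases hG with ⟨n, hn, ⟨e⟩⟩ | hS
  · have hcard : 2 * Nat.card G = n.factorial := by
      haveI : Nontrivial (Fin n) := Fin.nontrivial_iff_two_le.mpr (by omega)
      rw [Nat.card_congr e.toEquiv, two_mul_nat_card_alternatingGroup, Nat.card_perm, Nat.card_fin]
    exact Cfsg.Agent.Lib.Helper1.spo_alt n hn _ hcard p hp hodd h3
  · unfold Cfsg.IsSporadic at hS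
    rcases hS with h | h | h | h | h | h | h | h | h | h | h | h | h | h | h | h | h | h | h | h | h | h | h | h | h | h
    · obtain ⟨-, hN⟩ := h
      rw [hN] at h3 ⊢
      exact Cfsg.Agent.Lib.Helper1.spo_7920 p hp hodd h3
    · obtain ⟨-, hN⟩ := h
      rw [hN] at h3 ⊢
      exact Cfsg.Agent.Lib.Helper1.spo_95040 p hp hodd h3
    · obtain ⟨-, hN⟩ := h
      rw [hN] at h3 ⊢
      exact Cfsg.Agent.Lib.Helper1.spo_443520 p hp hodd h3
    · obtain ⟨-, hN⟩ := h
      rw [hN] at h3 ⊢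
      exact Cfsg.Agent.Lib.Helper1.spo_10200960 p hp hodd h3
    · obtain ⟨-, hN⟩ := h
      rw [hN] at h3 ⊢
      exact Cfsg.Agent.Lib.Helper1.spo_244823040 p hp hodd h3
    · obtain ⟨-, hN⟩ := h
      rw [hN] at h3 ⊢
      exact Cfsg.Agent.Lib.Helper1.spo_175560 p hp hodd h3
    · obtain ⟨-, hN⟩ := h
      rw [hN] at h3 ⊢
      exact Cfsg.Agent.Lib.Helper1.spo_604800 p hp hodd h3
    · obtain ⟨-, hN⟩ := h
      rw [hN] at h3 ⊢
      exact Cfsg.Agent.Lib.Helper1.spo_50232960 p hp hodd h3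
    · obtain ⟨-, hN⟩ := h
      rw [hN] at h3 ⊢
      exact Cfsg.Agent.Lib.Helper1.spo_86775571046077562880 p hp hodd h3
    · obtain ⟨-, hN⟩ := h
      rw [hN] at h3 ⊢
      exact Cfsg.Agent.Lib.Helper1.spo_4157776806543360000 p hp hodd h3
    · obtain ⟨-, hN⟩ := h
      rw [hN] at h3 ⊢
      exact Cfsg.Agent.Lib.Helper1.spo_42305421312000 p hp hodd h3
    · obtain ⟨-, hN⟩ := h
      rw [hN] at h3 ⊢
      exact Cfsg.Agent.Lib.Helper1.spo_495766656000 p hp hodd h3
    · obtain ⟨-, hN⟩ := h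
      rw [hN] at h3 ⊢
      exact Cfsg.Agent.Lib.Helper1.spo_64561751654400 p hp hodd h3
    · obtain ⟨-, hN⟩ := h
      rw [hN] at h3 ⊢
      exact Cfsg.Agent.Lib.Helper1.spo_4089470473293004800 p hp hodd h3
    · obtain ⟨-, hN⟩ := h
      rw [hN] at h3 ⊢
      exact Cfsg.Agent.Lib.Helper1.spo_1255205709190661721292800 p hp hodd h3
    · obtain ⟨-, hN⟩ := h
      rw [hN] at h3 ⊢
      exact Cfsg.Agent.Lib.Helper1.spo_44352000 p hp hodd h3
    · obtain ⟨-, hN⟩ := h
      rw [hN] at h3 ⊢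
      exact Cfsg.Agent.Lib.Helper1.spo_898128000 p hp hodd h3
    · obtain ⟨-, hN⟩ := h
      rw [hN] at h3 ⊢
      exact Cfsg.Agent.Lib.Helper1.spo_4030387200 p hp hodd h3
    · obtain ⟨-, hN⟩ := h
      rw [hN] at h3 ⊢
      exact Cfsg.Agent.Lib.Helper1.spo_145926144000 p hp hodd h3
    · obtain ⟨-, hN⟩ := h
      rw [hN] at h3 ⊢
      exact Cfsg.Agent.Lib.Helper1.spo_448345497600 p hp hodd h3
    · obtain ⟨-, hN⟩ := h
      rw [hN] at h3 ⊢
      exact Cfsg.Agent.Lib.Helper1.spo_460815505920 p hp hodd h3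
    · obtain ⟨-, hN⟩ := h
      rw [hN] at h3 ⊢
      exact Cfsg.Agent.Lib.Helper1.spo_273030912000000 p hp hodd h3
    · obtain ⟨-, hN⟩ := h
      rw [hN] at h3 ⊢
      exact Cfsg.Agent.Lib.Helper1.spo_51765179004000000 p hp hodd h3
    · obtain ⟨-, hN⟩ := h
      rw [hN] at h3 ⊢
      exact Cfsg.Agent.Lib.Helper1.spo_90745943887872000 p hp hodd h3
    · obtain ⟨-, hN⟩ := h
      rw [hN] at h3 ⊢
      exact Cfsg.Agent.Lib.Helper1.spo_4154781481226426191177580544000000 p hp hodd h3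
    · obtain ⟨-, hN⟩ := h
      rw [hN] at h3 ⊢
      exact Cfsg.Agent.Lib.Helper1.spo_808017424794512875886459904961710757005754368000000000 p hp hodd h3

end Cfsg.Agent.S2367
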