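import Cfsg.Statements.S2573
import Mathlib
import Cfsg.Statements.S2573

set_option autoImplicit false
open Cfsg
open scoped commutatorElement

namespace Cfsg.Agent.S2573

open Module

theorem ker_pow_finrank_le73 {K V : Type*} [Field K] [AddCommGroup V] [Module K V]
    [FiniteDimensional K V] (f : Module.End K V) (h1 : finrank K (LinearMap.ker f) ≤ 1) (k : ℕ) :
    finrank K (LinearMap.ker (f ^ k)) ≤ k := by
  induction k with
  | zero =>
    have : LinearMap.ker (f ^ 0) = ⊥ := by
      rw [pow_zero]; exact LinearMap.ker_id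
    rw [this]; simp
  | succ k ih =>
    have hmaps : ∀ x ∈ LinearMap.ker (f ^ (k+1)), f x ∈ LinearMap.ker (f ^ k) := by
      intro x hx
      rw [LinearMap.mem_ker] at hx ⊢
      rw [pow_succ] at hx
      exact hx
    obtain ⟨g, hg⟩ : ∃ g, g = f.restrict hmaps := ⟨_, rfl⟩
    have hrn := LinearMap.finrank_range_add_finrank_ker g
    have h2 : finrank K (LinearMap.range g) ≤ finrank K (LinearMap.ker (f^k)) :=
      Submodule.finrank_le _
    have h3 : finrank K (LinearMap.ker g) ≤ finrank K (LinearMap.ker f) := by
      have hmem : ∀ x : LinearMap.ker g,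
          ((LinearMap.ker (f^(k+1))).subtype ∘ₗ (LinearMap.ker g).subtype) x ∈ LinearMap.ker f := by
        intro x
        have h4 := x.2
        rw [LinearMap.mem_ker] at h4 ⊢
        have h5 := congrArg Subtype.val h4
        have hgx : ∀ y, ((g y : LinearMap.ker (f ^ k)) : V) = f y := by
          intro y; rw [hg]; rfl
        rw [hgx] at h5
        simpa using h5
      apply LinearMap.finrank_le_finrank_of_injective
        (f := LinearMap.codRestrict (LinearMap.ker f)
          ((LinearMap.ker (f^(k+1))).subtype ∘ₗ (LinearMap.ker g).subtype) hmem)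
      intro a b hab
      have h6 := congrArg Subtype.val hab
      simp only [LinearMap.codRestrict_apply, LinearMap.coe_comp, Submodule.coe_subtype,
        Function.comp_apply] at h6
      exact Subtype.ext (Subtype.ext h6)
    omega

/-- The invariant subspaces of a regular unipotent matrix form a chain: over a finite field, if u is an n × n matrix with (u − 1)^n = 0 and rank(u − 1) = n − 1, then every subspace W of F^n with u W ⊆ W is the kernel of (u − 1)^(dim W); so u has at most one invariant subspace of each dimension. -/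
theorem result {F : Type*} [Field F] [Finite F] {n : ℕ} (u : Matrix (Fin n) (Fin n) F) (hnil : (u - 1) ^ n = 0) (hreg : (u - 1).rank = n - 1) (W : Submodule F (Fin n → F)) (hW : ∀ v ∈ W, u.mulVec v ∈ W) : W = LinearMap.ker (Matrix.mulVecLin ((u - 1) ^ Module.finrank F W)) := by
  classical
  obtain ⟨N, hN⟩ : ∃ N, N = u - 1 := ⟨_, rfl⟩
  obtain ⟨f, hf⟩ : ∃ f : Module.End F (Fin n → F), f = Matrix.mulVecLin N := ⟨_, rfl⟩
  rw [← hN] at hnil hreg ⊢
  have hpow : ∀ k, Matrix.mulVecLin (N ^ k) = f ^ k := by
    intro k
    induction k with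
    | zero => rw [pow_zero, pow_zero, Matrix.mulVecLin_one]; rfl
    | succ k ih => rw [pow_succ, Matrix.mulVecLin_mul, ih, pow_succ, hf]; rfl
  rw [hpow]
  have hWf : ∀ v ∈ W, f v ∈ W := by
    intro v hv
    have : f v = u.mulVec v - v := by
      rw [hf, hN]; simp [Matrix.sub_mulVec]
    rw [this]; exact W.sub_mem (hW v hv) hv
  have hfn : f ^ n = 0 := by rw [← hpow, hnil]; simp
  have hres : (f.restrict hWf) ^ (finrank F W) = 0 := by
    have h1 := Module.End.ker_pow_le_ker_pow_finrank (f.restrict hWf) n
    have h2 : (f.restrict hWf) ^ n = 0 := by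
      rw [Module.End.pow_restrict]
      ext x
      simp [hfn]
    rw [h2, LinearMap.ker_zero] at h1
    exact LinearMap.ker_eq_top.mp (top_le_iff.mp h1)
  have hle : W ≤ LinearMap.ker (f ^ finrank F W) := by
    intro v hv
    rw [LinearMap.mem_ker]
    rw [Module.End.pow_restrict] at hres
    have h3 := congrArg (fun g : W →ₗ[F] W => ((g ⟨v, hv⟩ : W) : Fin n → F)) hres
    simpa using h3
  apply Submodule.eq_of_le_of_finrank_le hle
  apply ker_pow_finrank_le73
  have h4 := LinearMap.finrank_range_add_finrank_ker f
  have hr : finrank F (LinearMap.range f) = n - 1 := by rw [hf]; exact hreg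
  rw [Module.finrank_fin_fun] at h4
  omega

end Cfsg.Agent.S2573
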