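import Cfsg.Statements.S2571
import Mathlib
import Cfsg.Statements.S2571
import Cfsg.Agent.S2573

set_option autoImplicit false
open Cfsg
open scoped commutatorElement

namespace Cfsg.Agent.S2571

open Module

theorem inv_top71 {F : Type*} [Field F] [Finite F] {n : ℕ} (u : Matrix (Fin n) (Fin n) F)
    (hnil : (u - 1) ^ n = 0) (hreg : (u - 1).rank = n - 1) (v : Fin n → F)
    (hv : ((u - 1) ^ (n - 1)).mulVec v ≠ 0)
    (W : Submodule F (Fin n → F)) (hW : ∀ x ∈ W, u.mulVec x ∈ W) (hvW : v ∈ W) : W = ⊤ := by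
  have h1 := Cfsg.Agent.S2573.result u hnil hreg W hW
  have hd : finrank F W ≤ n := by
    have := Submodule.finrank_le W
    rwa [Module.finrank_fin_fun] at this
  apply Submodule.eq_top_of_finrank_eq
  rw [Module.finrank_fin_fun]
  by_contra hne
  have hlt : finrank F W ≤ n - 1 := by omega
  apply hv
  have hvW' := hvW
  rw [h1] at hvW'
  rw [LinearMap.mem_ker, Matrix.mulVecLin_apply] at hvW'
  have : n - 1 = (n - 1 - finrank F W) + finrank F W := by omega
  rw [this, pow_add, ← Matrix.mulVec_mulVec, hvW', Matrix.mulVec_zero]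

/-- Centraliser of a regular unipotent element in GL_n(q): if u is an invertible n × n matrix over the field with q elements, n ≥ 1, with (u − 1)^n = 0 and rank(u − 1) = n − 1 (a single unipotent Jordan block), then its centraliser in GL_n(q) has order (q − 1) q^(n−1). -/
theorem result {F : Type*} [Field F] [Fintype F] {q n : ℕ} (hF : Fintype.card F = q) (hn : 1 ≤ n) (u : GL (Fin n) F) (hnil : ((u : Matrix (Fin n) (Fin n) F) - 1) ^ n = 0) (hreg : ((u : Matrix (Fin n) (Fin n) F) - 1).rank = n - 1) : Nat.card ↥(Subgroup.centralizer ({u} : Set (GL (Fin n) F))) = (q - 1) * q ^ (n - 1) := by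
  classical
  obtain ⟨A, hA⟩ : ∃ A : Matrix (Fin n) (Fin n) F, A = u := ⟨_, rfl⟩
  rw [← hA] at hnil hreg
  obtain ⟨N, hN⟩ : ∃ N, N = A - 1 := ⟨_, rfl⟩
  rw [← hN] at hnil hreg
  have hpow : ∀ k, Matrix.mulVecLin (N ^ k) = (Matrix.mulVecLin N) ^ k := by
    intro k
    induction k with
    | zero => rw [pow_zero, pow_zero, Matrix.mulVecLin_one]; rfl
    | succ k ih => rw [pow_succ, Matrix.mulVecLin_mul, ih, pow_succ]; rfl
  have hk1 : finrank F (LinearMap.ker (Matrix.mulVecLin N)) ≤ 1 := by
    have h4 := LinearMap.finrank_range_add_finrank_ker (Matrix.mulVecLin N)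
    have hr : finrank F (LinearMap.range (Matrix.mulVecLin N)) = n - 1 := hreg
    rw [Module.finrank_fin_fun] at h4
    omega
  have hkdim : finrank F (LinearMap.ker (Matrix.mulVecLin (N ^ (n - 1)))) = n - 1 := by
    apply le_antisymm
    · rw [hpow]; exact Cfsg.Agent.S2573.ker_pow_finrank_le73 _ hk1 (n - 1)
    · have hr : LinearMap.range (Matrix.mulVecLin (N ^ (n - 1))) ≤
          LinearMap.ker (Matrix.mulVecLin N) := by
        rintro _ ⟨x, rfl⟩
        rw [LinearMap.mem_ker, Matrix.mulVecLin_apply, Matrix.mulVecLin_apply,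
          Matrix.mulVec_mulVec, ← pow_succ', show n - 1 + 1 = n by omega, hnil,
          Matrix.zero_mulVec]
      have h1 := Submodule.finrank_mono hr
      have h2 := LinearMap.finrank_range_add_finrank_ker (Matrix.mulVecLin (N ^ (n - 1)))
      rw [Module.finrank_fin_fun] at h2
      omega
  obtain ⟨v, hv⟩ : ∃ v : Fin n → F, (N ^ (n - 1)).mulVec v ≠ 0 := by
    by_contra hcon
    push Not at hcon
    have htop : LinearMap.ker (Matrix.mulVecLin (N ^ (n - 1))) = ⊤ := by
      rw [eq_top_iff]; intro x _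
      rw [LinearMap.mem_ker, Matrix.mulVecLin_apply]; exact hcon x
    rw [htop, finrank_top, Module.finrank_fin_fun] at hkdim
    omega
  have hcommN : ∀ X : Matrix (Fin n) (Fin n) F, X * A = A * X → X * N = N * X := by
    intro X h; rw [hN, mul_sub, sub_mul, h, mul_one, one_mul]
  have hcommNk : ∀ (X : Matrix (Fin n) (Fin n) F) (k : ℕ), X * A = A * X →
      X * N ^ k = N ^ k * X := by
    intro X k h
    exact (Commute.pow_right (show Commute X N from hcommN X h) k).eq
  have hnilA : (A - 1) ^ n = 0 := by rw [← hN]; exact hnil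
  have hregA : (A - 1).rank = n - 1 := by rw [← hN]; exact hreg
  have hK : ∀ W : Submodule F (Fin n → F), (∀ x ∈ W, A.mulVec x ∈ W) → v ∈ W → W = ⊤ :=
    fun W hW hvW => inv_top71 A hnilA hregA v (by rw [← hN]; exact hv) W hW hvW
  have hkerinv : ∀ X : Matrix (Fin n) (Fin n) F, X * A = A * X →
      ∀ x ∈ LinearMap.ker (Matrix.mulVecLin X), A.mulVec x ∈ LinearMap.ker (Matrix.mulVecLin X) := by
    intro X hX x hx
    rw [LinearMap.mem_ker, Matrix.mulVecLin_apply] at hx ⊢
    rw [Matrix.mulVec_mulVec, hX, ← Matrix.mulVec_mulVec, hx, Matrix.mulVec_zero]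
  have E1 : ∀ X : Matrix (Fin n) (Fin n) F, X * A = A * X → X.mulVec v = 0 → X = 0 := by
    intro X hX hXv
    have hker : LinearMap.ker (Matrix.mulVecLin X) = ⊤ := by
      apply hK _ (hkerinv X hX)
      rw [LinearMap.mem_ker, Matrix.mulVecLin_apply]; exact hXv
    have h0 : Matrix.mulVecLin X = 0 := LinearMap.ker_eq_top.mp hker
    ext i j
    have h3 := congrArg (fun f : (Fin n → F) →ₗ[F] (Fin n → F) => f (Pi.single j 1) i) h0
    simpa using h3
  have E2 : ∀ w : Fin n → F, ∃ X : Matrix (Fin n) (Fin n) F, X * A = A * X ∧ X.mulVec v = w := by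
    let S : Submodule F (Fin n → F) :=
      { carrier := {w | ∃ X : Matrix (Fin n) (Fin n) F, X * A = A * X ∧ X.mulVec v = w}
        add_mem' := by
          rintro a b ⟨X, hX, rfl⟩ ⟨Y, hY, rfl⟩
          exact ⟨X + Y, by rw [add_mul, mul_add, hX, hY], by rw [Matrix.add_mulVec]⟩
        zero_mem' := ⟨0, by simp, by simp⟩
        smul_mem' := by
          rintro c a ⟨X, hX, rfl⟩
          exact ⟨c • X, by rw [Matrix.smul_mul, Matrix.mul_smul, hX],
            by rw [Matrix.smul_mulVec]⟩ }
    have hS : S = ⊤ := by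
      apply hK
      · rintro x ⟨X, hX, rfl⟩
        exact ⟨A * X, by rw [Matrix.mul_assoc, hX],
          by rw [Matrix.mulVec_mulVec]⟩
      · exact ⟨1, by simp, by simp⟩
    intro w
    have hw : w ∈ S := by rw [hS]; trivial
    exact hw
  have hinv : ∀ X : Matrix (Fin n) (Fin n) F, X * A = A * X →
      (N ^ (n - 1)).mulVec (X.mulVec v) ≠ 0 → IsUnit X := by
    intro X hX hne
    rw [← Matrix.mulVec_injective_iff_isUnit]
    have h1 := Cfsg.Agent.S2573.result A hnilA hregA _ (hkerinv X hX)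
    by_cases hd : finrank F (LinearMap.ker (Matrix.mulVecLin X)) = 0
    · have hbot : LinearMap.ker (Matrix.mulVecLin X) = ⊥ := Submodule.finrank_eq_zero.mp hd
      exact LinearMap.ker_eq_bot.mp hbot
    · exfalso; apply hne
      have hmem : (N ^ (n - 1)).mulVec v ∈ LinearMap.ker (Matrix.mulVecLin X) := by
        rw [h1, LinearMap.mem_ker, Matrix.mulVecLin_apply, Matrix.mulVec_mulVec, ← hN, ← pow_add]
        obtain ⟨j, hj⟩ : ∃ j, finrank F ↥(LinearMap.ker (Matrix.mulVecLin X)) + (n - 1) = n + j :=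
          ⟨finrank F ↥(LinearMap.ker (Matrix.mulVecLin X)) - 1, by omega⟩
        rw [hj, pow_add, hnil, zero_mul, Matrix.zero_mulVec]
      rw [LinearMap.mem_ker, Matrix.mulVecLin_apply, Matrix.mulVec_mulVec] at hmem
      rw [Matrix.mulVec_mulVec, ← hcommNk X (n - 1) hX]; exact hmem
  have hfwd : ∀ X : Matrix (Fin n) (Fin n) F, X * A = A * X → IsUnit X →
      (N ^ (n - 1)).mulVec (X.mulVec v) ≠ 0 := by
    intro X hX hu h0
    rw [Matrix.mulVec_mulVec, ← hcommNk X (n - 1) hX, ← Matrix.mulVec_mulVec] at h0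
    have hinj := Matrix.mulVec_injective_iff_isUnit.mpr hu
    apply hv
    apply hinj
    rw [h0, Matrix.mulVec_zero]
  have hmemC : ∀ g : GL (Fin n) F, g ∈ Subgroup.centralizer ({u} : Set (GL (Fin n) F)) ↔
      (g : Matrix (Fin n) (Fin n) F) * A = A * (g : Matrix (Fin n) (Fin n) F) := by
    intro g
    rw [Subgroup.mem_centralizer_singleton_iff, hA]
    constructor
    · intro h; have h' := congrArg Units.val h; simpa using h'
    · intro h; apply Units.ext; simpa using h
  have hcard : Nat.card ↥(Subgroup.centralizer ({u} : Set (GL (Fin n) F))) =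
      Nat.card {w : Fin n → F // (N ^ (n - 1)).mulVec w ≠ 0} := by
    apply Nat.card_congr
    refine Equiv.ofBijective (fun g : ↥(Subgroup.centralizer ({u} : Set (GL (Fin n) F))) =>
      (⟨((g.1 : GL (Fin n) F) : Matrix (Fin n) (Fin n) F).mulVec v,
        hfwd _ ((hmemC g.1).mp g.2) (Units.isUnit g.1)⟩ :
        {w : Fin n → F // (N ^ (n - 1)).mulVec w ≠ 0})) ⟨?_, ?_⟩
    · intro g g' h
      have h1 := congrArg Subtype.val h
      simp only at h1
      have h2 : (((g.1 : GL (Fin n) F) : Matrix (Fin n) (Fin n) F) -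
          ((g'.1 : GL (Fin n) F) : Matrix (Fin n) (Fin n) F)) = 0 := by
        apply E1
        · rw [sub_mul, mul_sub, (hmemC g.1).mp g.2, (hmemC g'.1).mp g'.2]
        · rw [Matrix.sub_mulVec, h1, sub_self]
      exact Subtype.ext (Units.ext (sub_eq_zero.mp h2))
    · rintro ⟨w, hw⟩
      obtain ⟨X, hX, hXv⟩ := E2 w
      have hu : IsUnit X := hinv X hX (by rw [hXv]; exact hw)
      obtain ⟨g, hg⟩ := hu
      refine ⟨⟨g, (hmemC g).mpr (by rw [hg]; exact hX)⟩, ?_⟩
      apply Subtype.ext
      show ((g : GL (Fin n) F) : Matrix (Fin n) (Fin n) F).mulVec v = w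
      rw [hg]
      exact hXv
  rw [hcard, Nat.card_eq_fintype_card]
  have hc1 := Fintype.card_subtype_compl (fun w : Fin n → F => (N ^ (n - 1)).mulVec w = 0)
  have hc2 : Fintype.card {w : Fin n → F // (N ^ (n - 1)).mulVec w = 0} = q ^ (n - 1) := by
    have h5 : Fintype.card {w : Fin n → F // (N ^ (n - 1)).mulVec w = 0} =
        Fintype.card ↥(LinearMap.ker (Matrix.mulVecLin (N ^ (n - 1)))) := by
      apply Fintype.card_congr
      exact Equiv.subtypeEquivRight (fun w => by rw [LinearMap.mem_ker, Matrix.mulVecLin_apply])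
    rw [h5, Module.card_eq_pow_finrank (K := F), hkdim, hF]
  have hc3 : Fintype.card (Fin n → F) = q ^ n := by
    rw [Fintype.card_fun, Fintype.card_fin, hF]
  have hgoal : Fintype.card {w : Fin n → F // (N ^ (n - 1)).mulVec w ≠ 0} =
      q ^ n - q ^ (n - 1) := by
    rw [← hc2, ← hc3]
    convert hc1 using 2
  rw [hgoal]
  have hq : q ^ n = q * q ^ (n - 1) := by
    rw [← pow_succ', show n - 1 + 1 = n by omega]
  rw [hq, Nat.sub_mul, one_mul]

end Cfsg.Agent.S2571
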