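import Cfsg.Statements.S2578
import Mathlib
import Cfsg.Statements.S2578
import Cfsg.Agent.S2573
import Cfsg.Agent.S2571
import Cfsg.Agent.S2579

set_option autoImplicit false
open Cfsg
open scoped commutatorElement

namespace Cfsg.Agent.S2578

open Module

/-- the superdiagonal shift matrix -/
def shiftJ78 (F : Type*) [Field F] (n : ℕ) : Matrix (Fin n) (Fin n) F :=
  Matrix.of (fun i j : Fin n => if j.val = i.val + 1 then (1 : F) else 0)

theorem shiftJ_mulVec78 {F : Type*} [Field F] {n : ℕ} (x : Fin n → F) (i : Fin n) :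
    ((shiftJ78 F n).mulVec x) i = if h : i.val + 1 < n then x ⟨i.val + 1, h⟩ else 0 := by
  unfold shiftJ78
  simp only [Matrix.mulVec, dotProduct, Matrix.of_apply]
  split_ifs with h
  · rw [Finset.sum_eq_single ⟨i.val + 1, h⟩]
    · simp
    · intro j _ hj
      have : j.val ≠ i.val + 1 := fun hh => hj (Fin.ext hh)
      simp [this]
    · intro hh; exact absurd (Finset.mem_univ _) hh
  · apply Finset.sum_eq_zero
    intro j _
    have : j.val ≠ i.val + 1 := by have := j.isLt; omega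
    simp [this]

theorem shiftJ_vecMul78 {F : Type*} [Field F] {n : ℕ} (x : Fin n → F) (j : Fin n) :
    (Matrix.vecMul x (shiftJ78 F n)) j =
      if h : 0 < j.val then x ⟨j.val - 1, by have := j.isLt; omega⟩ else 0 := by
  unfold shiftJ78
  simp only [Matrix.vecMul, dotProduct, Matrix.of_apply]
  split_ifs with h
  · rw [Finset.sum_eq_single ⟨j.val - 1, by have := j.isLt; omega⟩]
    · have : j.val = j.val - 1 + 1 := by omega
      simp [← this]
    · intro k _ hk
      have : j.val ≠ k.val + 1 := by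
        intro hh; apply hk; apply Fin.ext; simp; omega
      simp [this]
    · intro hh; exact absurd (Finset.mem_univ _) hh
  · apply Finset.sum_eq_zero
    intro k _
    have : j.val ≠ k.val + 1 := by omega
    simp [this]

theorem shiftJ_pow78 {F : Type*} [Field F] {n : ℕ} : (shiftJ78 F n) ^ n = 0 := by
  have key : ∀ (k : ℕ) (x : Fin n → F), (∀ j : Fin n, k ≤ j.val → x j = 0) →
      ((shiftJ78 F n) ^ k).mulVec x = 0 := by
    intro k
    induction k with
    | zero =>
      intro x hx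
      have : x = 0 := by ext j; exact hx j (Nat.zero_le _)
      rw [this, Matrix.mulVec_zero]
    | succ k ih =>
      intro x hx
      rw [pow_succ, ← Matrix.mulVec_mulVec]
      apply ih
      intro j hj
      rw [shiftJ_mulVec78]
      split_ifs with h
      · exact hx _ (by simp; omega)
      · rfl
  apply Matrix.ext_of_mulVec_single
  intro i
  rw [key n _ (fun j hj => absurd j.isLt (by omega)), Matrix.zero_mulVec]

theorem shiftJ_rank78 {F : Type*} [Field F] {n : ℕ} (hn : 1 ≤ n) :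
    (shiftJ78 F n).rank = n - 1 := by
  have hker : LinearMap.ker (Matrix.mulVecLin (shiftJ78 F n)) =
      Submodule.span F {(Pi.single (⟨0, by omega⟩ : Fin n) (1 : F) : Fin n → F)} := by
    ext x
    rw [LinearMap.mem_ker, Matrix.mulVecLin_apply, Submodule.mem_span_singleton]
    constructor
    · intro hx
      refine ⟨x ⟨0, by omega⟩, ?_⟩
      ext j
      by_cases hj : j.val = 0
      · have : j = ⟨0, by omega⟩ := Fin.ext hj
        rw [this]; simp
      · have h1 := congrFun hx ⟨j.val - 1, by have := j.isLt; omega⟩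
        rw [shiftJ_mulVec78] at h1
        have h2 : (⟨j.val - 1, by have := j.isLt; omega⟩ : Fin n).val + 1 < n := by
          have := j.isLt; simp; omega
        rw [dif_pos h2] at h1
        have h3 : (⟨(⟨j.val - 1, by have := j.isLt; omega⟩ : Fin n).val + 1, h2⟩ : Fin n) = j := by
          apply Fin.ext; simp; omega
        rw [h3] at h1
        have hj' : j ≠ ⟨0, by omega⟩ := fun hh => hj (congrArg Fin.val hh)
        simp [h1, Pi.single_apply, hj']
    · rintro ⟨c, rfl⟩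
      ext i
      rw [shiftJ_mulVec78]
      split_ifs with h
      · simp [Pi.single_apply, Fin.ext_iff]
      · rfl
  have h1 : finrank F (LinearMap.ker (Matrix.mulVecLin (shiftJ78 F n))) = 1 := by
    rw [hker]
    apply finrank_span_singleton
    intro h0
    have := congrFun h0 ⟨0, by omega⟩
    simp at this
  have h2 := LinearMap.finrank_range_add_finrank_ker (Matrix.mulVecLin (shiftJ78 F n))
  rw [Module.finrank_fin_fun, h1] at h2
  have h3 : (shiftJ78 F n).rank = finrank F (LinearMap.range (Matrix.mulVecLin (shiftJ78 F n))) := rfl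
  omega

theorem shiftJ_det78 {F : Type*} [Field F] {n : ℕ} : (1 + shiftJ78 F n).det = 1 := by
  have htri : (1 + shiftJ78 F n).IsUpperTriangular := by
    intro i j hij
    have hij' : j.val < i.val := hij
    have h1 : i ≠ j := by intro h; rw [h] at hij'; omega
    have h2 : j.val ≠ i.val + 1 := by omega
    simp [shiftJ78, Matrix.one_apply_ne h1, h2]
  rw [Matrix.det_of_isUpperTriangular htri]
  apply Finset.prod_eq_one
  intro i _
  simp [shiftJ78]

theorem exists_cyclic78 {F : Type*} [Field F] [Finite F] {n : ℕ} (hn : 1 ≤ n)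
    (A : Matrix (Fin n) (Fin n) F) (hnil : (A - 1) ^ n = 0) (hreg : (A - 1).rank = n - 1) :
    ∃ v : Fin n → F, ((A - 1) ^ (n - 1)).mulVec v ≠ 0 := by
  obtain ⟨N, hN⟩ : ∃ N, N = A - 1 := ⟨_, rfl⟩
  rw [← hN] at hnil hreg ⊢
  have hpow : ∀ k, Matrix.mulVecLin (N ^ k) = (Matrix.mulVecLin N) ^ k := by
    intro k
    induction k with
    | zero => rw [pow_zero, pow_zero, Matrix.mulVecLin_one]; rfl
    | succ k ih => rw [pow_succ, Matrix.mulVecLin_mul, ih, pow_succ]; rfl
  have hk1 : finrank F (LinearMap.ker (Matrix.mulVecLin N)) ≤ 1 := by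
    have h4 := LinearMap.finrank_range_add_finrank_ker (Matrix.mulVecLin N)
    have hr : finrank F (LinearMap.range (Matrix.mulVecLin N)) = n - 1 := hreg
    rw [Module.finrank_fin_fun] at h4
    omega
  have hkdim : finrank F (LinearMap.ker (Matrix.mulVecLin (N ^ (n - 1)))) ≤ n - 1 := by
    rw [hpow]; exact Cfsg.Agent.S2573.ker_pow_finrank_le73 _ hk1 (n - 1)
  by_contra hcon
  push Not at hcon
  have htop : LinearMap.ker (Matrix.mulVecLin (N ^ (n - 1))) = ⊤ := by
    rw [eq_top_iff]; intro x _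
    rw [LinearMap.mem_ker, Matrix.mulVecLin_apply]; exact hcon x
  rw [htop, finrank_top, Module.finrank_fin_fun] at hkdim
  omega

theorem exists_conj_shift78 {F : Type*} [Field F] [Finite F] {n : ℕ} (hn : 1 ≤ n)
    (A : Matrix (Fin n) (Fin n) F) (hnil : (A - 1) ^ n = 0) (hreg : (A - 1).rank = n - 1) :
    ∃ P : Matrix (Fin n) (Fin n) F, IsUnit P.det ∧ A * P = P * (1 + shiftJ78 F n) := by
  classical
  obtain ⟨v, hv⟩ := exists_cyclic78 hn A hnil hreg
  obtain ⟨N, hN⟩ : ∃ N, N = A - 1 := ⟨_, rfl⟩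
  have hnilN : N ^ n = 0 := by rw [hN]; exact hnil
  obtain ⟨P, hP⟩ : ∃ P : Matrix (Fin n) (Fin n) F,
      P = Matrix.of (fun i j : Fin n => ((N ^ (n - 1 - j.val)).mulVec v) i) := ⟨_, rfl⟩
  have hPcol : ∀ j : Fin n, (fun k => P k j) = (N ^ (n - 1 - j.val)).mulVec v := by
    intro j; ext k; rw [hP]; rfl
  have hNP : N * P = P * shiftJ78 F n := by
    ext i j
    have h1 : (N * P) i j = ((N ^ (n - j.val)).mulVec v) i := by
      have h0 : (N * P) i j = (N.mulVec (fun k => P k j)) i := by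
        simp [Matrix.mul_apply, Matrix.mulVec, dotProduct]
      rw [h0, hPcol, Matrix.mulVec_mulVec, ← pow_succ']
      have : n - 1 - j.val + 1 = n - j.val := by have := j.isLt; omega
      rw [this]
    have h2 : (P * shiftJ78 F n) i j = (Matrix.vecMul (fun k => P i k) (shiftJ78 F n)) j := by
      simp [Matrix.mul_apply, Matrix.vecMul, dotProduct]
    rw [h1, h2, shiftJ_vecMul78]
    split_ifs with h
    · have h3 := congrFun (hPcol ⟨j.val - 1, by have := j.isLt; omega⟩) i
      simp only at h3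
      rw [h3]
      have : n - 1 - (j.val - 1) = n - j.val := by have := j.isLt; omega
      rw [this]
    · have hj0 : j.val = 0 := by omega
      rw [hj0, Nat.sub_zero, hnilN, Matrix.zero_mulVec]; rfl
  have hAP : A * P = P * (1 + shiftJ78 F n) := by
    have : A = 1 + N := by rw [hN]; abel
    rw [this, add_mul, one_mul, mul_add, mul_one, hNP]
  refine ⟨P, ?_, hAP⟩
  rw [← Matrix.isUnit_iff_isUnit_det, ← Matrix.mulVec_surjective_iff_isUnit]
  have hW : LinearMap.range (Matrix.mulVecLin P) = ⊤ := by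
    apply Cfsg.Agent.S2571.inv_top71 A hnil hreg v hv
    · rintro x ⟨c, rfl⟩
      refine ⟨(1 + shiftJ78 F n).mulVec c, ?_⟩
      rw [Matrix.mulVecLin_apply, Matrix.mulVecLin_apply, Matrix.mulVec_mulVec,
        Matrix.mulVec_mulVec, hAP]
    · refine ⟨Pi.single ⟨n - 1, by omega⟩ 1, ?_⟩
      rw [Matrix.mulVecLin_apply, Matrix.mulVec_single_one]
      have h4 := hPcol ⟨n - 1, by omega⟩
      simp only [Nat.sub_self, pow_zero, Matrix.one_mulVec] at h4
      rw [← h4]; rfl
  intro y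
  have hy : y ∈ LinearMap.range (Matrix.mulVecLin P) := by rw [hW]; trivial
  obtain ⟨c, hc⟩ := hy
  exact ⟨c, by rw [← hc]; rfl⟩

theorem det_commutant78 {F : Type*} [Field F] [Finite F] {n : ℕ} (A : Matrix (Fin n) (Fin n) F)
    (hnil : (A - 1) ^ n = 0) (hreg : (A - 1).rank = n - 1) (X : Matrix (Fin n) (Fin n) F)
    (hX : X * A = A * X) : ∃ a : F, X.det = a ^ n := by
  classical
  rcases Nat.eq_zero_or_pos n with h0 | hpos
  · subst h0
    exact ⟨1, by simp⟩
  obtain ⟨N, hN⟩ : ∃ N, N = A - 1 := ⟨_, rfl⟩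
  rw [← hN] at hnil hreg
  have hXN : X * N = N * X := by rw [hN, mul_sub, sub_mul, hX, mul_one, one_mul]
  have hk1 : finrank F (LinearMap.ker (Matrix.mulVecLin N)) = 1 := by
    have h4 := LinearMap.finrank_range_add_finrank_ker (Matrix.mulVecLin N)
    have hr : finrank F (LinearMap.range (Matrix.mulVecLin N)) = n - 1 := hreg
    rw [Module.finrank_fin_fun] at h4
    omega
  obtain ⟨⟨w, hwmem⟩, hw0, hwspan⟩ := finrank_eq_one_iff'.mp hk1
  have hNw : N.mulVec w = 0 := by
    rw [LinearMap.mem_ker, Matrix.mulVecLin_apply] at hwmem; exact hwmem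
  have hXw : N.mulVec (X.mulVec w) = 0 := by
    rw [Matrix.mulVec_mulVec, ← hXN, ← Matrix.mulVec_mulVec, hNw, Matrix.mulVec_zero]
  obtain ⟨a, ha⟩ := hwspan ⟨X.mulVec w, by
    rw [LinearMap.mem_ker, Matrix.mulVecLin_apply]; exact hXw⟩
  have ha' : a • w = X.mulVec w := congrArg Subtype.val ha
  obtain ⟨M, hM⟩ : ∃ M, M = X - a • (1 : Matrix (Fin n) (Fin n) F) := ⟨_, rfl⟩
  have hMN : M * N = N * M := by
    rw [hM, sub_mul, mul_sub, hXN]; simp
  have hMw : M.mulVec w = 0 := by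
    rw [hM, Matrix.sub_mulVec, ← ha']; simp [Matrix.smul_mulVec]
  have hMker : ∀ x, N.mulVec x = 0 → M.mulVec x = 0 := by
    intro x hx
    obtain ⟨c, hc⟩ := hwspan ⟨x, by rw [LinearMap.mem_ker, Matrix.mulVecLin_apply]; exact hx⟩
    have hc' : c • w = x := congrArg Subtype.val hc
    rw [← hc', Matrix.mulVec_smul, hMw, smul_zero]
  have hMNk : ∀ k : ℕ, M * N ^ k = N ^ k * M :=
    fun k => (Commute.pow_right (show Commute M N from hMN) k).eq
  have key : ∀ (k : ℕ) (x : Fin n → F), (N ^ k).mulVec x = 0 → (M ^ k).mulVec x = 0 := by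
    intro k
    induction k with
    | zero => intro x hx; simpa using hx
    | succ k ih =>
      intro x hx
      rw [pow_succ, ← Matrix.mulVec_mulVec]
      apply ih
      rw [Matrix.mulVec_mulVec, ← hMNk, ← Matrix.mulVec_mulVec]
      apply hMker
      rw [Matrix.mulVec_mulVec, ← pow_succ']; exact hx
  have hMn : M ^ n = 0 := by
    apply Matrix.ext_of_mulVec_single
    intro i
    rw [key n _ (by rw [hnil, Matrix.zero_mulVec]), Matrix.zero_mulVec]
  refine ⟨a, ?_⟩
  have hnilM : IsNilpotent (-M) := ⟨n, by rw [neg_pow, hMn, mul_zero]⟩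
  have hcp : (-M).charpoly = Polynomial.X ^ n := by
    have h1 := Matrix.isNilpotent_charpoly_sub_pow_of_isNilpotent hnilM
    rw [isNilpotent_iff_eq_zero, Fintype.card_fin] at h1
    exact sub_eq_zero.mp h1
  have h2 := Matrix.eval_charpoly (-M) a
  rw [hcp] at h2
  simp only [Polynomial.eval_pow, Polynomial.eval_X] at h2
  have h3 : (Matrix.scalar (Fin n)) a - -M = X := by
    rw [hM, sub_neg_eq_add]
    have : (Matrix.scalar (Fin n)) a = a • (1 : Matrix (Fin n) (Fin n) F) := by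
      ext i j; simp [Matrix.scalar_apply, Matrix.diagonal_apply, Matrix.one_apply]
    rw [this]; abel
  rw [h3] at h2
  exact h2.symm

theorem card_classes_sub78 {G T : Type*} [Group G] (R : G → Prop) (Φ : G → T)
    (hinv : ∀ g h, R g → IsConj g h → Φ g = Φ h)
    (hinj : ∀ g h, R g → R h → Φ g = Φ h → IsConj g h)
    (hsurj : ∀ t, ∃ g, R g ∧ Φ g = t) :
    Nat.card {C : ConjClasses G // ∃ u, ConjClasses.mk u = C ∧ R u} = Nat.card T := by
  apply Nat.card_congr
  refine Equiv.ofBijective (fun C => Φ C.2.choose) ⟨?_, ?_⟩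
  · rintro ⟨C, hC⟩ ⟨C', hC'⟩ h
    have h1 := hC.choose_spec
    have h2 := hC'.choose_spec
    have h3 : Φ hC.choose = Φ hC'.choose := h
    have h4 := hinj _ _ h1.2 h2.2 h3
    apply Subtype.ext
    show C = C'
    rw [← h1.1, ← h2.1]
    exact ConjClasses.mk_eq_mk_iff_isConj.mpr h4
  · intro t
    obtain ⟨g, hg, rfl⟩ := hsurj t
    have hex : ∃ u, ConjClasses.mk u = ConjClasses.mk g ∧ R u := ⟨g, rfl, hg⟩
    refine ⟨⟨ConjClasses.mk g, hex⟩, ?_⟩
    have h1 := hex.choose_spec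
    exact hinv _ _ h1.2 (ConjClasses.mk_eq_mk_iff_isConj.mp h1.1)

theorem R_conj78 {F : Type*} [Field F] {n : ℕ} (C C' N : Matrix (Fin n) (Fin n) F)
    (h1 : C * C' = 1) (h2 : C' * C = 1) (hnil : N ^ n = 0) (hreg : N.rank = n - 1) :
    (C * N * C') ^ n = 0 ∧ (C * N * C').rank = n - 1 := by
  have hpow : ∀ k : ℕ, (C * N * C') ^ k = C * N ^ k * C' := by
    intro k
    induction k with
    | zero => rw [pow_zero, pow_zero, Matrix.mul_one, h1]
    | succ k ih =>
      rw [pow_succ, ih, pow_succ]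
      calc C * N ^ k * C' * (C * N * C') = C * N ^ k * (C' * C) * N * C' := by
            simp only [Matrix.mul_assoc]
        _ = C * (N ^ k * N) * C' := by rw [h2, Matrix.mul_one]; simp only [Matrix.mul_assoc]
  have hCu : IsUnit C.det := by
    have := congrArg Matrix.det h1
    rw [Matrix.det_mul, Matrix.det_one] at this
    exact IsUnit.of_mul_eq_one _ this
  have hC'u : IsUnit C'.det := by
    have := congrArg Matrix.det h2
    rw [Matrix.det_mul, Matrix.det_one] at this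
    exact IsUnit.of_mul_eq_one _ this
  refine ⟨by rw [hpow, hnil]; simp, ?_⟩
  rw [Matrix.rank_mul_eq_left_of_isUnit_det C' _ hC'u,
    Matrix.rank_mul_eq_right_of_isUnit_det C _ hCu, hreg]

/-- Regular unipotent classes of SL_n(q): for n ≥ 2 over the field with q elements, the matrices u of determinant one with (u − 1)^n = 0 and rank(u − 1) = n − 1 form a single GL_n(q)-class which splits into exactly gcd(n, q − 1) conjugacy classes of SL_n(q). -/
theorem result {F : Type*} [Field F] [Fintype F] {q : ℕ} (hF : Fintype.card F = q) {n : ℕ} (hn : 2 ≤ n) : Nat.card {C : ConjClasses (Matrix.SpecialLinearGroup (Fin n) F) // ∃ u : Matrix.SpecialLinearGroup (Fin n) F, ConjClasses.mk u = C ∧ ((u : Matrix (Fin n) (Fin n) F) - 1) ^ n = 0 ∧ ((u : Matrix (Fin n) (Fin n) F) - 1).rank = n - 1} = Nat.gcd n (q - 1) := by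
  classical
  have hn1 : 1 ≤ n := by omega
  obtain ⟨u₀, hu₀⟩ : ∃ u₀ : Matrix (Fin n) (Fin n) F, u₀ = 1 + shiftJ78 F n := ⟨_, rfl⟩
  have hu₀nil : (u₀ - 1) ^ n = 0 := by rw [hu₀, add_sub_cancel_left]; exact shiftJ_pow78
  have hu₀reg : (u₀ - 1).rank = n - 1 := by
    rw [hu₀, add_sub_cancel_left]; exact shiftJ_rank78 hn1
  have hu₀det : u₀.det = 1 := by rw [hu₀]; exact shiftJ_det78
  have hT : Nat.card (Fˣ ⧸ (powMonoidHom n : Fˣ →* Fˣ).range) = Nat.gcd n (q - 1) := by
    have h1 := IsCyclic.index_powMonoidHom_range Fˣ n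
    rw [Nat.card_eq_fintype_card, Fintype.card_units, hF] at h1
    rw [Nat.gcd_comm]; exact h1
  rw [← hT]
  have hex : ∀ u : Matrix.SpecialLinearGroup (Fin n) F,
      (((u : Matrix (Fin n) (Fin n) F) - 1) ^ n = 0 ∧
        ((u : Matrix (Fin n) (Fin n) F) - 1).rank = n - 1) →
      ∃ d : Fˣ, ∃ P : Matrix (Fin n) (Fin n) F, P.det = d ∧
        (u : Matrix (Fin n) (Fin n) F) * P = P * u₀ := by
    rintro u ⟨h1, h2⟩
    obtain ⟨P, hPu, hP⟩ := exists_conj_shift78 hn1 _ h1 h2
    exact ⟨hPu.unit, P, rfl, by rw [hu₀]; exact hP⟩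
  have huniq : ∀ (U : Matrix (Fin n) (Fin n) F) (d d' : Fˣ) (P P' : Matrix (Fin n) (Fin n) F),
      P.det = d → U * P = P * u₀ → P'.det = d' → U * P' = P' * u₀ →
      (QuotientGroup.mk d : Fˣ ⧸ (powMonoidHom n : Fˣ →* Fˣ).range) = QuotientGroup.mk d' := by
    intro U d d' P P' hd hP hd' hP'
    have hPu : IsUnit P.det := by rw [hd]; exact d.isUnit
    have h1 : P⁻¹ * U = u₀ * P⁻¹ := by
      have h0 : P⁻¹ * (U * P) * P⁻¹ = P⁻¹ * (P * u₀) * P⁻¹ := by rw [hP]
      rw [← Matrix.mul_assoc P⁻¹ P, Matrix.nonsing_inv_mul _ hPu, Matrix.one_mul,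
        Matrix.mul_assoc, Matrix.mul_assoc, Matrix.mul_nonsing_inv _ hPu, Matrix.mul_one] at h0
      exact h0
    have hXc : (P⁻¹ * P') * u₀ = u₀ * (P⁻¹ * P') := by
      rw [Matrix.mul_assoc, ← hP', ← Matrix.mul_assoc, h1, Matrix.mul_assoc]
    obtain ⟨a, ha⟩ := det_commutant78 u₀ hu₀nil hu₀reg _ hXc
    rw [Matrix.det_mul, Matrix.det_nonsing_inv, hd, hd', Ring.inverse_eq_inv'] at ha
    have ha0 : a ≠ 0 := by
      rintro rfl
      rw [zero_pow (by omega)] at ha
      have h3 : ((d : F))⁻¹ * (d' : F) ≠ 0 := mul_ne_zero (inv_ne_zero d.ne_zero) d'.ne_zero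
      exact h3 ha
    rw [QuotientGroup.eq]
    refine ⟨Units.mk0 a ha0, ?_⟩
    apply Units.ext
    simp only [powMonoidHom_apply, Units.val_pow_eq_pow_val, Units.val_mk0, Units.val_mul,
      Units.val_inv_eq_inv_val]
    exact ha.symm
  obtain ⟨Φ, hΦ⟩ : ∃ Φ : Matrix.SpecialLinearGroup (Fin n) F →
      Fˣ ⧸ (powMonoidHom n : Fˣ →* Fˣ).range,
      ∀ (u : Matrix.SpecialLinearGroup (Fin n) F) (d : Fˣ) (P : Matrix (Fin n) (Fin n) F),
        (((u : Matrix (Fin n) (Fin n) F) - 1) ^ n = 0 ∧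
          ((u : Matrix (Fin n) (Fin n) F) - 1).rank = n - 1) →
        P.det = d → (u : Matrix (Fin n) (Fin n) F) * P = P * u₀ → Φ u = QuotientGroup.mk d := by
    refine ⟨fun u => if h : (((u : Matrix (Fin n) (Fin n) F) - 1) ^ n = 0 ∧
          ((u : Matrix (Fin n) (Fin n) F) - 1).rank = n - 1) then
        QuotientGroup.mk (hex u h).choose else 1, ?_⟩
    intro u d P hR hd hP
    simp only [dif_pos hR]
    obtain ⟨P', hd', hP'⟩ := (hex u hR).choose_spec
    exact huniq _ _ _ P' P hd' hP' hd hP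
  have hRconj : ∀ g c : Matrix.SpecialLinearGroup (Fin n) F,
      (((g : Matrix (Fin n) (Fin n) F) - 1) ^ n = 0 ∧
        ((g : Matrix (Fin n) (Fin n) F) - 1).rank = n - 1) →
      (((c * g * c⁻¹ : Matrix.SpecialLinearGroup (Fin n) F) : Matrix (Fin n) (Fin n) F) - 1) ^ n = 0 ∧
        (((c * g * c⁻¹ : Matrix.SpecialLinearGroup (Fin n) F) : Matrix (Fin n) (Fin n) F) - 1).rank
          = n - 1 := by
    rintro g c ⟨h1, h2⟩
    have hc1 : (c : Matrix (Fin n) (Fin n) F) * ((c⁻¹ : Matrix.SpecialLinearGroup (Fin n) F) :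
        Matrix (Fin n) (Fin n) F) = 1 := by
      rw [← Matrix.SpecialLinearGroup.coe_mul, mul_inv_cancel]; rfl
    have hc2 : ((c⁻¹ : Matrix.SpecialLinearGroup (Fin n) F) : Matrix (Fin n) (Fin n) F) *
        (c : Matrix (Fin n) (Fin n) F) = 1 := by
      rw [← Matrix.SpecialLinearGroup.coe_mul, inv_mul_cancel]; rfl
    have heq : ((c * g * c⁻¹ : Matrix.SpecialLinearGroup (Fin n) F) : Matrix (Fin n) (Fin n) F) - 1
        = (c : Matrix (Fin n) (Fin n) F) * ((g : Matrix (Fin n) (Fin n) F) - 1) *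
          ((c⁻¹ : Matrix.SpecialLinearGroup (Fin n) F) : Matrix (Fin n) (Fin n) F) := by
      rw [Matrix.SpecialLinearGroup.coe_mul, Matrix.SpecialLinearGroup.coe_mul, mul_sub, sub_mul,
        mul_one, hc1]
    rw [heq]
    exact R_conj78 _ _ _ hc1 hc2 h1 h2
  apply card_classes_sub78 (fun u : Matrix.SpecialLinearGroup (Fin n) F =>
      ((u : Matrix (Fin n) (Fin n) F) - 1) ^ n = 0 ∧
        ((u : Matrix (Fin n) (Fin n) F) - 1).rank = n - 1) Φ
  · intro g h hRg hgh
    rw [isConj_iff] at hgh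
    obtain ⟨c, rfl⟩ := hgh
    obtain ⟨d, P, hd, hP⟩ := hex g hRg
    rw [hΦ g d P hRg hd hP]
    refine (hΦ (c * g * c⁻¹) d ((c : Matrix (Fin n) (Fin n) F) * P) (hRconj g c hRg) ?_ ?_).symm
    · rw [Matrix.det_mul, c.2, one_mul, hd]
    · rw [Matrix.SpecialLinearGroup.coe_mul, Matrix.SpecialLinearGroup.coe_mul]
      have hc2 : ((c⁻¹ : Matrix.SpecialLinearGroup (Fin n) F) : Matrix (Fin n) (Fin n) F) *
          (c : Matrix (Fin n) (Fin n) F) = 1 := by
        rw [← Matrix.SpecialLinearGroup.coe_mul, inv_mul_cancel]; rfl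
      calc (c : Matrix (Fin n) (Fin n) F) * (g : Matrix (Fin n) (Fin n) F) *
            ((c⁻¹ : Matrix.SpecialLinearGroup (Fin n) F) : Matrix (Fin n) (Fin n) F) *
            ((c : Matrix (Fin n) (Fin n) F) * P)
          = (c : Matrix (Fin n) (Fin n) F) * (g : Matrix (Fin n) (Fin n) F) *
            (((c⁻¹ : Matrix.SpecialLinearGroup (Fin n) F) : Matrix (Fin n) (Fin n) F) *
            (c : Matrix (Fin n) (Fin n) F)) * P := by simp only [Matrix.mul_assoc]
        _ = (c : Matrix (Fin n) (Fin n) F) * ((g : Matrix (Fin n) (Fin n) F) * P) := by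
            rw [hc2, Matrix.mul_one, Matrix.mul_assoc]
        _ = (c : Matrix (Fin n) (Fin n) F) * P * u₀ := by rw [hP, Matrix.mul_assoc]
  · intro g h hRg hRh hgh
    obtain ⟨d, P, hd, hP⟩ := hex g hRg
    obtain ⟨d', P', hd', hP'⟩ := hex h hRh
    rw [hΦ g d P hRg hd hP, hΦ h d' P' hRh hd' hP', QuotientGroup.eq] at hgh
    obtain ⟨c, hc⟩ := hgh
    have hc' : (c : F) ^ n = ((d : F))⁻¹ * (d' : F) := by
      have := congrArg Units.val hc
      simpa using this
    have hP'u : IsUnit P'.det := by rw [hd']; exact d'.isUnit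
    obtain ⟨S, hS⟩ : ∃ S : Matrix (Fin n) (Fin n) F, S = ((c : F) • P) * P'⁻¹ := ⟨_, rfl⟩
    have hSdet : S.det = 1 := by
      rw [hS, Matrix.det_mul, Matrix.det_smul, Fintype.card_fin, Matrix.det_nonsing_inv, hd, hd',
        Ring.inverse_eq_inv', hc']
      field_simp
    have h1 : u₀ * P'⁻¹ = P'⁻¹ * (h : Matrix (Fin n) (Fin n) F) := by
      have h0 : P'⁻¹ * ((h : Matrix (Fin n) (Fin n) F) * P') * P'⁻¹ = P'⁻¹ * (P' * u₀) * P'⁻¹ := by
        rw [hP']
      rw [← Matrix.mul_assoc P'⁻¹ P', Matrix.nonsing_inv_mul _ hP'u, Matrix.one_mul,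
        Matrix.mul_assoc, Matrix.mul_assoc, Matrix.mul_nonsing_inv _ hP'u, Matrix.mul_one] at h0
      exact h0.symm
    have hgS : (g : Matrix (Fin n) (Fin n) F) * S = S * (h : Matrix (Fin n) (Fin n) F) := by
      rw [hS]
      calc (g : Matrix (Fin n) (Fin n) F) * ((c : F) • P * P'⁻¹)
          = (c : F) • (((g : Matrix (Fin n) (Fin n) F) * P) * P'⁻¹) := by
            rw [← Matrix.mul_assoc, Matrix.mul_smul, Matrix.smul_mul]
        _ = (c : F) • (P * (u₀ * P'⁻¹)) := by rw [hP, Matrix.mul_assoc]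
        _ = (c : F) • (P * (P'⁻¹ * (h : Matrix (Fin n) (Fin n) F))) := by rw [h1]
        _ = ((c : F) • P * P'⁻¹) * (h : Matrix (Fin n) (Fin n) F) := by
            rw [← Matrix.mul_assoc, Matrix.smul_mul, Matrix.smul_mul]
    obtain ⟨s, hs⟩ : ∃ s : Matrix.SpecialLinearGroup (Fin n) F,
        (s : Matrix (Fin n) (Fin n) F) = S := ⟨⟨_, hSdet⟩, rfl⟩
    have h2 : g * s = s * h := by
      apply Subtype.ext
      rw [Matrix.SpecialLinearGroup.coe_mul, Matrix.SpecialLinearGroup.coe_mul, hs]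
      exact hgS
    rw [isConj_iff]
    refine ⟨s⁻¹, ?_⟩
    rw [inv_inv, mul_assoc, h2, ← mul_assoc, inv_mul_cancel, one_mul]
  · intro t
    obtain ⟨d, rfl⟩ := QuotientGroup.mk_surjective t
    obtain ⟨i₀, hi₀⟩ : ∃ i : Fin n, i = ⟨0, by omega⟩ := ⟨_, rfl⟩
    obtain ⟨D, hD⟩ : ∃ D : Matrix (Fin n) (Fin n) F,
        D = 1 + Matrix.vecMulVec (((d : F) - 1) • (Pi.single i₀ (1 : F) : Fin n → F))
          (Pi.single i₀ (1 : F) : Fin n → F) := ⟨_, rfl⟩
    have hDdet : D.det = d := by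
      rw [hD, Cfsg.Agent.S2579.det_R79]; simp
    have hDu : IsUnit D.det := by rw [hDdet]; exact d.isUnit
    have hD1 : D * D⁻¹ = 1 := Matrix.mul_nonsing_inv _ hDu
    have hD2 : D⁻¹ * D = 1 := Matrix.nonsing_inv_mul _ hDu
    have hgdet : (D * u₀ * D⁻¹).det = 1 := by
      rw [Matrix.det_mul, Matrix.det_mul, hu₀det, mul_one, ← Matrix.det_mul, hD1, Matrix.det_one]
    obtain ⟨g, hg⟩ : ∃ g : Matrix.SpecialLinearGroup (Fin n) F,
        (g : Matrix (Fin n) (Fin n) F) = D * u₀ * D⁻¹ := ⟨⟨_, hgdet⟩, rfl⟩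
    have hRg : ((g : Matrix (Fin n) (Fin n) F) - 1) ^ n = 0 ∧
        ((g : Matrix (Fin n) (Fin n) F) - 1).rank = n - 1 := by
      have heq : (g : Matrix (Fin n) (Fin n) F) - 1 = D * (u₀ - 1) * D⁻¹ := by
        rw [hg, mul_sub, sub_mul, mul_one, hD1]
      rw [heq]
      exact R_conj78 _ _ _ hD1 hD2 hu₀nil hu₀reg
    refine ⟨g, hRg, ?_⟩
    refine hΦ g d D hRg hDdet ?_
    rw [hg, Matrix.mul_assoc, hD2, Matrix.mul_one]

end Cfsg.Agent.S2578
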