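import Cfsg.Statements.S2368
import Mathlib
import Cfsg.Statements.S2368
import Cfsg.Agent.S2578

set_option autoImplicit false
open Cfsg
open scoped commutatorElement

namespace Cfsg.Agent.S2368

open Module

theorem nil_pow_card68 {F : Type*} [Field F] {m : ℕ} (N : Matrix (Fin m) (Fin m) F) (k : ℕ)
    (h : N ^ k = 0) : N ^ m = 0 := by
  have hpow : ∀ j, Matrix.mulVecLin (N ^ j) = (Matrix.mulVecLin N) ^ j := by
    intro j
    induction j with
    | zero => rw [pow_zero, pow_zero, Matrix.mulVecLin_one]; rfl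
    | succ j ih => rw [pow_succ, Matrix.mulVecLin_mul, ih, pow_succ]; rfl
  have h1 := Module.End.ker_pow_le_ker_pow_finrank (Matrix.mulVecLin N) k
  rw [← hpow, ← hpow, h, Module.finrank_fin_fun] at h1
  have h2 : LinearMap.ker (Matrix.mulVecLin (N ^ m)) = ⊤ := by
    rw [eq_top_iff]
    refine le_trans ?_ h1
    intro x _
    rw [LinearMap.mem_ker]; simp
  apply Matrix.ext_of_mulVec_single
  intro i
  have h3 : (Pi.single i (1 : F) : Fin m → F) ∈ LinearMap.ker (Matrix.mulVecLin (N ^ m)) := by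
    rw [h2]; trivial
  rw [LinearMap.mem_ker, Matrix.mulVecLin_apply] at h3
  rw [h3, Matrix.zero_mulVec]

/-- Let F be a finite field of characteristic p and m ≥ 1. Every element of GL(m, F) of p-power order has order less than p·m, and GL(m, F) has an element of p-power order at least m; so the largest order of a p-element of GL(m, F) is the least power of p that is at least m. -/
theorem result {F : Type*} [Field F] [Fintype F] (p : ℕ) [Fact p.Prime] [CharP F p] (m : ℕ) (hm : 1 ≤ m) :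
    (∀ g : Matrix.GeneralLinearGroup (Fin m) F, (∃ j : ℕ, orderOf g = p ^ j) → orderOf g < p * m) ∧
      ∃ g : Matrix.GeneralLinearGroup (Fin m) F, (∃ j : ℕ, orderOf g = p ^ j) ∧ m ≤ orderOf g := by
  classical
  have hp : p.Prime := Fact.out
  haveI : Nonempty (Fin m) := ⟨⟨0, by omega⟩⟩
  haveI : CharP (Matrix (Fin m) (Fin m) F) p := Matrix.charP p
  have hpowval : ∀ (g : Matrix.GeneralLinearGroup (Fin m) F) (k : ℕ),
      ((g ^ k : Matrix.GeneralLinearGroup (Fin m) F) : Matrix (Fin m) (Fin m) F) =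
        (g : Matrix (Fin m) (Fin m) F) ^ k := fun g k => Units.val_pow_eq_pow_val g k
  constructor
  · rintro g ⟨j, hj⟩
    by_contra hcon
    push Not at hcon
    rw [hj] at hcon
    have hj1 : 1 ≤ j := by
      by_contra h0
      have : j = 0 := by omega
      rw [this, pow_zero] at hcon
      have : 2 ≤ p := hp.two_le
      nlinarith
    have hpj : p ^ j = p * p ^ (j - 1) := by
      rw [← pow_succ', show j - 1 + 1 = j by omega]
    have hmle : m ≤ p ^ (j - 1) := by
      rw [hpj] at hcon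
      exact Nat.le_of_mul_le_mul_left hcon hp.pos
    have hG : (g : Matrix (Fin m) (Fin m) F) ^ (p ^ j) = 1 := by
      rw [← hpowval, ← hj, pow_orderOf_eq_one]; rfl
    have hN : ((g : Matrix (Fin m) (Fin m) F) - 1) ^ (p ^ j) = 0 := by
      rw [sub_pow_char_pow_of_commute p j (Commute.one_right _), hG, one_pow, sub_self]
    have hNm := nil_pow_card68 _ _ hN
    have hN2 : ((g : Matrix (Fin m) (Fin m) F) - 1) ^ (p ^ (j - 1)) = 0 := by
      obtain ⟨c, hc⟩ := Nat.exists_eq_add_of_le hmle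
      rw [hc, pow_add, hNm, zero_mul]
    rw [sub_pow_char_pow_of_commute p (j - 1) (Commute.one_right _), one_pow, sub_eq_zero] at hN2
    have hg2 : g ^ (p ^ (j - 1)) = 1 := by
      apply Units.ext
      rw [hpowval, hN2]; rfl
    have hdvd := orderOf_dvd_of_pow_eq_one hg2
    rw [hj] at hdvd
    have hle := Nat.le_of_dvd (pow_pos hp.pos _) hdvd
    have : p ^ (j - 1) < p ^ j := Nat.pow_lt_pow_right hp.one_lt (by omega)
    omega
  · have hdet : (1 + Cfsg.Agent.S2578.shiftJ78 F m).det ≠ 0 := by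
      rw [Cfsg.Agent.S2578.shiftJ_det78]; exact one_ne_zero
    obtain ⟨g, hg⟩ : ∃ g : Matrix.GeneralLinearGroup (Fin m) F,
        (g : Matrix (Fin m) (Fin m) F) = 1 + Cfsg.Agent.S2578.shiftJ78 F m :=
      ⟨Matrix.GeneralLinearGroup.mkOfDetNeZero _ hdet, rfl⟩
    have hJpow : ∀ k : ℕ, (g : Matrix (Fin m) (Fin m) F) ^ (p ^ k) =
        1 + (Cfsg.Agent.S2578.shiftJ78 F m) ^ (p ^ k) := by
      intro k
      rw [hg, add_pow_char_pow_of_commute p k (Commute.one_left _), one_pow]
    have hgm : g ^ (p ^ m) = 1 := by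
      apply Units.ext
      rw [hpowval, hJpow]
      have hlt : m < p ^ m := Nat.lt_pow_self hp.one_lt
      obtain ⟨c, hc⟩ := Nat.exists_eq_add_of_le hlt.le
      rw [hc, pow_add, Cfsg.Agent.S2578.shiftJ_pow78, zero_mul, add_zero]; rfl
    obtain ⟨j, -, hj⟩ := (Nat.dvd_prime_pow hp).mp (orderOf_dvd_of_pow_eq_one hgm)
    refine ⟨g, ⟨j, hj⟩, ?_⟩
    rw [hj]
    by_contra hlt
    push Not at hlt
    have hgj : g ^ (p ^ j) = 1 := by rw [← hj]; exact pow_orderOf_eq_one g
    have h1 : (Cfsg.Agent.S2578.shiftJ78 F m) ^ (p ^ j) = 0 := by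
      have h2 := congrArg (fun x : Matrix.GeneralLinearGroup (Fin m) F =>
        (x : Matrix (Fin m) (Fin m) F)) hgj
      rw [hpowval, hJpow] at h2
      have h3 : (1 : Matrix (Fin m) (Fin m) F) + (Cfsg.Agent.S2578.shiftJ78 F m) ^ (p ^ j) = 1 + 0 := by
        rw [add_zero]; exact h2
      exact add_left_cancel h3
    obtain ⟨v, hv⟩ := Cfsg.Agent.S2578.exists_cyclic78 hm (1 + Cfsg.Agent.S2578.shiftJ78 F m)
      (by rw [add_sub_cancel_left]; exact Cfsg.Agent.S2578.shiftJ_pow78)
      (by rw [add_sub_cancel_left]; exact Cfsg.Agent.S2578.shiftJ_rank78 hm)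
    rw [add_sub_cancel_left] at hv
    apply hv
    obtain ⟨c, hc⟩ := Nat.exists_eq_add_of_le (show p ^ j ≤ m - 1 by omega)
    rw [hc, pow_add, h1, zero_mul, Matrix.zero_mulVec]

end Cfsg.Agent.S2368
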