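import Cfsg.Statements.S2391
import Mathlib
import Cfsg.Agent.Lib.Helper3.BTFlag

set_option autoImplicit false
open Cfsg

namespace Cfsg.Agent.S2391

/-- The Borel–Tits property of `SL_n(q)` in flag form: for a field `F` of characteristic `p` with finitely many elements and a non-trivial `p`-subgroup `U` of `SL_n(F)`, there is a flag `0 = V₀ < V₁ < ⋯ < V_{k+1} = F^n` with at least one proper non-zero member such that every element of the normaliser of `U` maps each `V_i` onto itself and every element of `U` acts trivially on each quotient `V_{i+1}/V_i` (so the normaliser lies in the parabolic subgroup of the flag and `U` in its unipotent radical). -/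
theorem result {F : Type*} [Field F] [Fintype F] (p : ℕ) [Fact p.Prime] [CharP F p] (n : ℕ)
    (U : Subgroup (Matrix.SpecialLinearGroup (Fin n) F)) (hU : IsPGroup p ↥U) (hne : U ≠ ⊥) :
    ∃ (k : ℕ) (V : Fin (k + 2) → Submodule F (Fin n → F)), 1 ≤ k ∧ StrictMono V ∧ V 0 = ⊥ ∧ V (Fin.last (k + 1)) = ⊤ ∧
      (∀ g ∈ Subgroup.normalizer (U : Set (Matrix.SpecialLinearGroup (Fin n) F)), ∀ i, (V i).map (Matrix.mulVecLin (g : Matrix (Fin n) (Fin n) F)) = V i) ∧
      (∀ u ∈ U, ∀ i : Fin (k + 1), ∀ v ∈ V i.succ, (u : Matrix (Fin n) (Fin n) F).mulVec v - v ∈ V (Fin.castSucc i)) := by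
  classical
  obtain ⟨W, hW0, hWs⟩ : ∃ W : ℕ → Submodule F (Fin n → F), W 0 = ⊥ ∧
      ∀ j, W (j + 1) = Cfsg.Agent.Lib.Helper3.btPhi U (W j) :=
    ⟨fun j => Nat.rec ⊥ (fun _ X => Cfsg.Agent.Lib.Helper3.btPhi U X) j, rfl, fun j => rfl⟩
  have hinvU : ∀ j, ∀ u ∈ U, ∀ v ∈ W j,
      (u : Matrix (Fin n) (Fin n) F).mulVec v ∈ W j := by
    intro j
    induction j with
    | zero =>
      intro u _ v hv
      rw [hW0] at hv ⊢
      rw [(Submodule.mem_bot F).mp hv, Matrix.mulVec_zero]
      exact Submodule.zero_mem _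
    | succ j ih =>
      intro u hu v hv
      rw [hWs] at hv ⊢
      exact Cfsg.Agent.Lib.Helper3.bt_inv U (W j) u hu v hv
  have hinvN : ∀ j, ∀ g ∈ Subgroup.normalizer (U : Set (Matrix.SpecialLinearGroup (Fin n) F)),
      ∀ v ∈ W j, (g : Matrix (Fin n) (Fin n) F).mulVec v ∈ W j := by
    intro j
    induction j with
    | zero =>
      intro g _ v hv
      rw [hW0] at hv ⊢
      rw [(Submodule.mem_bot F).mp hv, Matrix.mulVec_zero]
      exact Submodule.zero_mem _
    | succ j ih =>
      intro g hg v hv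
      rw [hWs] at hv ⊢
      exact Cfsg.Agent.Lib.Helper3.bt_norm U (W j) ih g hg v hv
  have hmono : ∀ j, W j ≤ W (j + 1) := fun j => by
    rw [hWs]
    exact Cfsg.Agent.Lib.Helper3.bt_le U (W j) (hinvU j)
  have hstrict : ∀ j, W j ≠ ⊤ → W j < W (j + 1) := by
    intro j hj
    obtain ⟨v, hv1, hv2⟩ := Cfsg.Agent.Lib.Helper3.bt_strict p U hU (W j) (hinvU j) hj
    refine lt_of_le_of_ne (hmono j) ?_
    intro heq
    apply hv1
    rw [heq, hWs]
    exact hv2
  have hex : ∃ j, W j = ⊤ := by
    by_contra hcon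
    push Not at hcon
    have hfr : ∀ j, j ≤ Module.finrank F (W j) := by
      intro j
      induction j with
      | zero => exact Nat.zero_le _
      | succ j ih =>
        have h5 := Submodule.finrank_lt_finrank_of_lt (hstrict j (hcon j))
        omega
    have h1 := hfr (n + 1)
    have h2 := Submodule.finrank_le (W (n + 1))
    rw [Module.finrank_fin_fun] at h2
    omega
  obtain ⟨N, hN, hmin⟩ : ∃ N, W N = ⊤ ∧ ∀ j < N, W j ≠ ⊤ :=
    ⟨Nat.find hex, Nat.find_spec hex, fun j hj => Nat.find_min hex hj⟩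
  have hW1 : W 1 ≠ ⊤ := by
    intro h1
    apply hne
    rw [eq_bot_iff]
    intro u hu
    rw [Subgroup.mem_bot]
    have hfix : ∀ v : Fin n → F, (u : Matrix (Fin n) (Fin n) F).mulVec v = v := by
      intro v
      have hv : v ∈ W (0 + 1) := by
        rw [zero_add, h1]
        exact Submodule.mem_top
      rw [hWs, hW0] at hv
      have h5 := hv u hu
      rw [Submodule.mem_bot] at h5
      exact sub_eq_zero.mp h5
    apply Subtype.ext
    show (u : Matrix (Fin n) (Fin n) F) =
      ((1 : Matrix.SpecialLinearGroup (Fin n) F) : Matrix (Fin n) (Fin n) F)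
    rw [Matrix.SpecialLinearGroup.coe_one]
    apply Matrix.toLin'.injective
    apply LinearMap.ext
    intro v
    rw [Matrix.toLin'_apply, Matrix.toLin'_one, LinearMap.id_apply]
    exact hfix v
  have hW0ne : W 0 ≠ ⊤ := by
    intro h0
    apply hW1
    have h5 := hmono 0
    rw [h0, zero_add] at h5
    exact eq_top_iff.mpr h5
  have hN2 : 2 ≤ N := by
    by_contra hlt
    have h5 : N = 0 ∨ N = 1 := by omega
    rcases h5 with h | h
    · rw [h] at hN
      exact hW0ne hN
    · rw [h] at hN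
      exact hW1 hN
  refine ⟨N - 1, fun i => W i.val, by omega, ?_, ?_, ?_, ?_, ?_⟩
  · rw [Fin.strictMono_iff_lt_succ]
    intro i
    show W (i.castSucc.val) < W (i.succ.val)
    rw [Fin.val_castSucc, Fin.val_succ]
    exact hstrict i.val (hmin i.val (by have := i.isLt; omega))
  · show W ((0 : Fin (N - 1 + 2)).val) = ⊥
    rw [Fin.val_zero]
    exact hW0
  · show W ((Fin.last (N - 1 + 1)).val) = ⊤
    rw [Fin.val_last]
    have h5 : N - 1 + 1 = N := by omega
    rw [h5]
    exact hN
  · intro g hg i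
    apply le_antisymm
    · rintro _ ⟨v, hv, rfl⟩
      exact hinvN i.val g hg v hv
    · intro v hv
      refine ⟨((g⁻¹ : Matrix.SpecialLinearGroup (Fin n) F) : Matrix (Fin n) (Fin n) F).mulVec v,
        hinvN i.val g⁻¹ (inv_mem hg) v hv, ?_⟩
      rw [Matrix.mulVecLin_apply, ← Cfsg.Agent.Lib.Helper3.bt_mul, mul_inv_cancel,
        Cfsg.Agent.Lib.Helper3.bt_one]
  · intro u hu i v hv
    have hv' : v ∈ W (i.val + 1) := hv
    rw [hWs] at hv'
    exact hv' u hu


end Cfsg.Agent.S2391
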