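import Cfsg.Statements.S2402
import Mathlib
import Cfsg.Agent.Lib.Helper3.SLGen2

set_option autoImplicit false
open Cfsg

namespace Cfsg.Agent.S2402

/-- Explicit two-element generation of `PSL_{n+1}(K)` for a finite field `K` with more than three elements: let `k` generate the multiplicative group of `K`, `h = diag(k, k⁻¹, 1, …, 1)`, `x = 1 + E₁₂` (the elementary transvection) and `w` the monomial matrix with entries `1` in positions `(i, i+1)` and `(−1)^n` in position `(n+1, 1)`. Then `h` and `x·w` generate `SL_{n+1}(K)` modulo its centre: the subgroup they generate together with the centre is everything. -/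
theorem result {K : Type*} [Field K] [Fintype K] (hK : 3 < Fintype.card K) (n : ℕ) (hn : 1 ≤ n)
    (k : Kˣ) (hk : ∀ u : Kˣ, u ∈ Subgroup.zpowers k)
    (h x w : Matrix.SpecialLinearGroup (Fin (n + 1)) K)
    (hh : (h : Matrix (Fin (n + 1)) (Fin (n + 1)) K) =
      Matrix.diagonal (fun i => if i.val = 0 then (k : K) else if i.val = 1 then ((k⁻¹ : Kˣ) : K) else 1))
    (hx : (x : Matrix (Fin (n + 1)) (Fin (n + 1)) K) = Matrix.transvection (0 : Fin (n + 1)) (1 : Fin (n + 1)) 1)
    (hw : (w : Matrix (Fin (n + 1)) (Fin (n + 1)) K) =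
      Matrix.of (fun i j => if j.val = i.val + 1 then 1 else if i.val = n ∧ j.val = 0 then (-1) ^ n else 0)) :
    Subgroup.closure ({h, x * w} : Set (Matrix.SpecialLinearGroup (Fin (n + 1)) K)) ⊔
      Subgroup.center (Matrix.SpecialLinearGroup (Fin (n + 1)) K) = ⊤ := by
  classical
  have hnt : Nontrivial (Fin (n + 1)) := Fin.nontrivial_iff_two_le.mpr (by omega)
  obtain ⟨H, hH⟩ : ∃ H, H = Subgroup.closure
      ({h, x * w} : Set (Matrix.SpecialLinearGroup (Fin (n + 1)) K)) := ⟨_, rfl⟩
  rw [← hH]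
  have hhH : h ∈ H := by
    rw [hH]
    exact Subgroup.subset_closure (Set.mem_insert _ _)
  have hgH : x * w ∈ H := by
    rw [hH]
    exact Subgroup.subset_closure (Set.mem_insert_of_mem _ rfl)
  obtain ⟨s, hs⟩ : ∃ s : Fin (n + 1) → K, s = fun p => if p.val = n then (-1 : K) ^ n else 1 :=
    ⟨_, rfl⟩
  have hs0 : ∀ p, s p ≠ 0 := by
    intro p
    rw [hs]
    show (if p.val = n then (-1 : K) ^ n else 1) ≠ 0
    split_ifs
    · exact pow_ne_zero _ (neg_ne_zero.mpr one_ne_zero)
    · exact one_ne_zero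
  have hW : ∀ p q, (w : Matrix (Fin (n + 1)) (Fin (n + 1)) K) p q =
      if q = p + 1 then s p else 0 := by
    intro p q
    rw [hw, hs]
    exact Cfsg.Agent.Lib.Helper3.slg_w_apply n p q
  have h1v : (1 : Fin (n + 1)).val = 1 := by
    rw [Fin.val_one', Nat.mod_eq_of_lt (by omega)]
  have h01 : (0 : Fin (n + 1)) ≠ 1 := by
    intro h0
    have h1 := congrArg Fin.val h0
    rw [Fin.val_zero, h1v] at h1
    exact absurd h1 (by norm_num)
  have hx' : x = Matrix.SpecialLinearGroup.transvection h01 (1 : K) := by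
    apply Subtype.ext
    rw [hx]
    rfl
  have hk0 : (k : K) ≠ 0 := k.ne_zero
  have hord : orderOf k = Fintype.card K - 1 := by
    rw [orderOf_eq_card_of_forall_mem_zpowers hk, Nat.card_eq_fintype_card, Fintype.card_units]
  have hk1 : (k : K) ≠ 1 := by
    intro h1
    have h2 : k = 1 := Units.ext h1
    rw [h2, orderOf_one] at hord
    omega
  have hk2 : (k : K) * (k : K) ≠ 1 := by
    intro h1
    have h2 : k ^ 2 = 1 := by
      apply Units.ext
      rw [Units.val_pow_eq_pow_val, pow_two, h1]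
      rfl
    have h3 := orderOf_dvd_of_pow_eq_one h2
    rw [hord] at h3
    have h4 := Nat.le_of_dvd (by norm_num) h3
    omega
  obtain ⟨hv, hhv⟩ : ∃ hv : Fin (n + 1) → K, hv = fun i : Fin (n + 1) => if i.val = 0 then (k : K)
      else if i.val = 1 then ((k⁻¹ : Kˣ) : K) else 1 := ⟨_, rfl⟩
  rw [← hhv] at hh
  have hv0 : hv 0 = k := by
    rw [hhv]
    simp
  have hv1 : hv 1 = (k : K)⁻¹ := by
    rw [hhv]
    show (if (1 : Fin (n + 1)).val = 0 then (k : K)
      else if (1 : Fin (n + 1)).val = 1 then ((k⁻¹ : Kˣ) : K) else 1) = (k : K)⁻¹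
    rw [h1v, if_neg (by norm_num), if_pos rfl, Units.val_inv_eq_inv_val]
  obtain ⟨dd, hdd⟩ : ∃ dd, dd = w * h * w⁻¹ := ⟨_, rfl⟩
  obtain ⟨dv, hdv⟩ : ∃ dv : Fin (n + 1) → K, dv = fun p => hv (p + 1) := ⟨_, rfl⟩
  have hddv : (dd : Matrix (Fin (n + 1)) (Fin (n + 1)) K) = Matrix.diagonal dv := by
    have e1 : dd * w = w * h := by rw [hdd, inv_mul_cancel_right]
    have e2 : (dd : Matrix (Fin (n + 1)) (Fin (n + 1)) K) *
        (w : Matrix (Fin (n + 1)) (Fin (n + 1)) K) =
        Matrix.diagonal dv * (w : Matrix (Fin (n + 1)) (Fin (n + 1)) K) := by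
      have h5 := congrArg Subtype.val e1
      rw [hdv, ← Cfsg.Agent.Lib.Helper3.slg_w_diag n _ s hW hv, ← hh]
      exact h5
    have e3 : (w : Matrix (Fin (n + 1)) (Fin (n + 1)) K) *
        ((w⁻¹ : Matrix.SpecialLinearGroup (Fin (n + 1)) K) :
          Matrix (Fin (n + 1)) (Fin (n + 1)) K) = 1 := by
      rw [← Matrix.SpecialLinearGroup.coe_mul, mul_inv_cancel, Matrix.SpecialLinearGroup.coe_one]
    calc (dd : Matrix (Fin (n + 1)) (Fin (n + 1)) K)
        = (dd : Matrix (Fin (n + 1)) (Fin (n + 1)) K) *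
          ((w : Matrix (Fin (n + 1)) (Fin (n + 1)) K) *
            ((w⁻¹ : Matrix.SpecialLinearGroup (Fin (n + 1)) K) :
              Matrix (Fin (n + 1)) (Fin (n + 1)) K)) := by rw [e3, mul_one]
      _ = Matrix.diagonal dv * ((w : Matrix (Fin (n + 1)) (Fin (n + 1)) K) *
            ((w⁻¹ : Matrix.SpecialLinearGroup (Fin (n + 1)) K) :
              Matrix (Fin (n + 1)) (Fin (n + 1)) K)) := by rw [← mul_assoc, e2, mul_assoc]
      _ = Matrix.diagonal dv := by rw [e3, mul_one]
  have hdv0 : dv 0 = (k : K)⁻¹ := by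
    rw [hdv]
    show hv (0 + 1) = _
    rw [zero_add, hv1]
  have hdv1 : dv 1 = k ∨ dv 1 = 1 := by
    rw [hdv]
    show hv (1 + 1) = _ ∨ hv (1 + 1) = _
    rw [hhv]
    by_cases hn1 : n = 1
    · subst hn1
      left
      have h2 : (1 + 1 : Fin (1 + 1)) = 0 := by decide
      rw [h2]
      simp
    · right
      have h2 : ((1 : Fin (n + 1)) + 1).val = 2 := by
        rw [Fin.val_add, h1v, Nat.mod_eq_of_lt (by omega)]
      show (if ((1 : Fin (n + 1)) + 1).val = 0 then (k : K)
        else if ((1 : Fin (n + 1)) + 1).val = 1 then ((k⁻¹ : Kˣ) : K) else 1) = 1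
      rw [h2, if_neg (by norm_num), if_neg (by norm_num)]
  obtain ⟨τ, hτ⟩ : ∃ τ : K, τ = dv 0 / dv 1 := ⟨_, rfl⟩
  have hdv1ne : dv 1 ≠ 0 := by
    rcases hdv1 with e | e
    · rw [e]; exact hk0
    · rw [e]; exact one_ne_zero
  have hτ1 : τ ≠ 1 := by
    rw [hτ, hdv0]
    rcases hdv1 with e | e
    · rw [e]
      intro h1
      apply hk2
      have h2 : (k : K)⁻¹ = k := (div_eq_one_iff_eq hk0).mp h1
      calc (k : K) * k = (k : K)⁻¹ * k := by rw [h2]
        _ = 1 := inv_mul_cancel₀ hk0
    · rw [e, div_one]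
      intro h1
      exact hk1 (inv_eq_one.mp h1)
  have G1 : ∀ c : K, h * Matrix.SpecialLinearGroup.transvection h01 c =
      Matrix.SpecialLinearGroup.transvection h01 (k * k * c) * h := by
    intro c
    exact Cfsg.Agent.Lib.Helper3.slg_diag_trans_sl h hv hh h01 c (k * k * c)
      (by rw [hv0, hv1]; field_simp)
  have G2 : ∀ c : K, dd * Matrix.SpecialLinearGroup.transvection h01 c =
      Matrix.SpecialLinearGroup.transvection h01 (τ * c) * dd := by
    intro c
    exact Cfsg.Agent.Lib.Helper3.slg_diag_trans_sl dd dv hddv h01 c (τ * c)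
      (by rw [hτ]; field_simp)
  have G3 : h * dd = dd * h := by
    apply Subtype.ext
    show (h : Matrix (Fin (n + 1)) (Fin (n + 1)) K) * (dd : Matrix (Fin (n + 1)) (Fin (n + 1)) K)
      = (dd : Matrix (Fin (n + 1)) (Fin (n + 1)) K) * (h : Matrix (Fin (n + 1)) (Fin (n + 1)) K)
    rw [hh, hddv, Matrix.diagonal_mul_diagonal, Matrix.diagonal_mul_diagonal]
    congr 1
    funext i
    exact mul_comm _ _
  have Tadd : ∀ a b : K, Matrix.SpecialLinearGroup.transvection h01 a *
      Matrix.SpecialLinearGroup.transvection h01 b =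
      Matrix.SpecialLinearGroup.transvection h01 (a + b) := by
    intro a b
    apply Subtype.ext
    exact Matrix.transvection_mul_transvection_same 0 1 h01 a b
  have e1 : (x * w) * h * (x * w)⁻¹ =
      Matrix.SpecialLinearGroup.transvection h01 (1 + -τ) * dd := by
    have h5 : (x * w) * h * (x * w)⁻¹ = x * dd * x⁻¹ := by
      rw [hdd]
      group
    rw [h5, hx', Matrix.SpecialLinearGroup.transvection_inv, mul_assoc, G2, ← mul_assoc, Tadd,
      mul_neg, mul_one]
  have hh'H : Matrix.SpecialLinearGroup.transvection h01 (1 + -τ) * dd ∈ H := by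
    rw [← e1]
    exact H.mul_mem (H.mul_mem hgH hhH) (H.inv_mem hgH)
  have e2 : h * (Matrix.SpecialLinearGroup.transvection h01 (1 + -τ) * dd) * h⁻¹ =
      Matrix.SpecialLinearGroup.transvection h01 (k * k * (1 + -τ)) * dd := by
    rw [← mul_assoc, G1, mul_assoc (Matrix.SpecialLinearGroup.transvection h01 _) h dd, G3,
      ← mul_assoc, mul_inv_cancel_right]
  obtain ⟨c₀, hc₀⟩ : ∃ c₀ : K, c₀ = (k * k - 1) * (1 + -τ) := ⟨_, rfl⟩
  have hc0H : Matrix.SpecialLinearGroup.transvection h01 c₀ ∈ H := by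
    have e3 : Matrix.SpecialLinearGroup.transvection h01 c₀ =
        (h * (Matrix.SpecialLinearGroup.transvection h01 (1 + -τ) * dd) * h⁻¹) *
          (Matrix.SpecialLinearGroup.transvection h01 (1 + -τ) * dd)⁻¹ := by
      rw [e2, mul_inv_rev, ← mul_assoc, mul_inv_cancel_right,
        Matrix.SpecialLinearGroup.transvection_inv, Tadd, hc₀]
      congr 1
      ring
    rw [e3]
    exact H.mul_mem (H.mul_mem (H.mul_mem hhH hh'H) (H.inv_mem hhH)) (H.inv_mem hh'H)
  have hc₀ne : c₀ ≠ 0 := by
    rw [hc₀]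
    apply mul_ne_zero
    · exact sub_ne_zero.mpr hk2
    · intro h1
      apply hτ1
      linear_combination -h1
  have hconj : ∀ c : K, Matrix.SpecialLinearGroup.transvection h01 c ∈ H →
      Matrix.SpecialLinearGroup.transvection h01 (k * k * c) ∈ H := by
    intro c hc
    have e : Matrix.SpecialLinearGroup.transvection h01 (k * k * c) =
        h * Matrix.SpecialLinearGroup.transvection h01 c * h⁻¹ := by
      rw [G1, mul_inv_cancel_right]
    rw [e]
    exact H.mul_mem (H.mul_mem hhH hc) (H.inv_mem hhH)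
  have hpow : ∀ m : ℕ, Matrix.SpecialLinearGroup.transvection h01
      ((k : K) ^ m * (k : K) ^ m * c₀) ∈ H := by
    intro m
    induction m with
    | zero =>
      rw [pow_zero, one_mul, one_mul]
      exact hc0H
    | succ m ih =>
      have h5 := hconj _ ih
      have e : (k : K) ^ (m + 1) * (k : K) ^ (m + 1) * c₀ =
          k * k * ((k : K) ^ m * (k : K) ^ m * c₀) := by ring
      rw [e]
      exact h5
  have hsq : ∀ u : K, Matrix.SpecialLinearGroup.transvection h01 (u * u * c₀) ∈ H := by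
    intro u
    by_cases hu : u = 0
    · rw [hu, zero_mul, zero_mul, Matrix.SpecialLinearGroup.transvection_coeff_zero]
      exact H.one_mem
    · have hmem : Units.mk0 u hu ∈ Submonoid.powers k := mem_powers_iff_mem_zpowers.mpr (hk _)
      obtain ⟨m, hm⟩ := hmem
      have hm' : (k : K) ^ m = u := by
        have h5 := congrArg Units.val hm
        rwa [Units.val_pow_eq_pow_val, Units.val_mk0] at h5
      rw [← hm']
      exact hpow m
  have hallc : ∀ c : K, Matrix.SpecialLinearGroup.transvection h01 c ∈ H := by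
    intro c
    obtain ⟨a, b, hab⟩ := Cfsg.Agent.Lib.Helper3.slg_sum_sq (c / c₀)
    have e : c = a * a * c₀ + b * b * c₀ := by
      have h5 : c = (c / c₀) * c₀ := by field_simp
      rw [h5, ← hab]
      ring
    rw [e, ← Tadd]
    exact H.mul_mem (hsq a) (hsq b)
  have hxH : x ∈ H := by
    rw [hx']
    exact hallc 1
  have hwH : w ∈ H := by
    have e : w = x⁻¹ * (x * w) := by rw [inv_mul_cancel_left]
    rw [e]
    exact H.mul_mem (H.inv_mem hxH) hgH
  have hT := Cfsg.Agent.Lib.Helper3.slg_all_trans n hn H w hwH s hs0 hW (fun _ c => hallc c)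
  have htop := Cfsg.Agent.Lib.Helper3.slg_top_gen H hT
  rw [htop]
  exact top_sup_eq _


end Cfsg.Agent.S2402
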