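import Cfsg.Statements.S2403
import Mathlib
import Cfsg.Agent.Lib.Helper3.SLGen

set_option autoImplicit false
open Cfsg

namespace Cfsg.Agent.S2403

/-- Explicit two-element generation of `PSL_{n+1}(K)` over the fields with two or three elements: with `x = 1 + E₁₂` and `w` the monomial matrix with entries `1` in positions `(i, i+1)` and `(−1)^n` in position `(n+1, 1)`, the elements `x` and `w` generate `SL_{n+1}(K)` modulo its centre. -/
theorem result {K : Type*} [Field K] [Fintype K] (hK : Fintype.card K ≤ 3) (n : ℕ) (hn : 1 ≤ n)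
    (x w : Matrix.SpecialLinearGroup (Fin (n + 1)) K)
    (hx : (x : Matrix (Fin (n + 1)) (Fin (n + 1)) K) = Matrix.transvection (0 : Fin (n + 1)) (1 : Fin (n + 1)) 1)
    (hw : (w : Matrix (Fin (n + 1)) (Fin (n + 1)) K) =
      Matrix.of (fun i j => if j.val = i.val + 1 then 1 else if i.val = n ∧ j.val = 0 then (-1) ^ n else 0)) :
    Subgroup.closure ({x, w} : Set (Matrix.SpecialLinearGroup (Fin (n + 1)) K)) ⊔
      Subgroup.center (Matrix.SpecialLinearGroup (Fin (n + 1)) K) = ⊤ := by
  classical
  haveI : Nontrivial (Fin (n + 1)) := Fin.nontrivial_iff_two_le.mpr (by omega)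
  have hK3 := fun c : K => Cfsg.Agent.Lib.Helper3.slg_K3 hK c
  obtain ⟨H, hH⟩ : ∃ H, H = Subgroup.closure
      ({x, w} : Set (Matrix.SpecialLinearGroup (Fin (n + 1)) K)) := ⟨_, rfl⟩
  rw [← hH]
  have hxH : x ∈ H := by
    rw [hH]
    exact Subgroup.subset_closure (Set.mem_insert _ _)
  have hwH : w ∈ H := by
    rw [hH]
    exact Subgroup.subset_closure (Set.mem_insert_of_mem _ rfl)
  obtain ⟨s, hs⟩ : ∃ s : Fin (n + 1) → K, s = fun p => if p.val = n then (-1 : K) ^ n else 1 :=
    ⟨_, rfl⟩
  have hs0 : ∀ p, s p ≠ 0 := by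
    intro p
    rw [hs]
    show (if p.val = n then (-1 : K) ^ n else 1) ≠ 0
    split_ifs
    · exact pow_ne_zero _ (neg_ne_zero.mpr one_ne_zero)
    · exact one_ne_zero
  have hW : ∀ p q, (w : Matrix (Fin (n + 1)) (Fin (n + 1)) K) p q =
      if q = p + 1 then s p else 0 := by
    intro p q
    rw [hw, hs]
    exact Cfsg.Agent.Lib.Helper3.slg_w_apply n p q
  have h01 : (0 : Fin (n + 1)) ≠ 1 := by
    intro h
    have h1 := congrArg Fin.val h
    rw [Fin.val_zero, Fin.val_one', Nat.mod_eq_of_lt (by omega)] at h1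
    exact absurd h1 (by norm_num)
  have hx' : x = Matrix.SpecialLinearGroup.transvection h01 (1 : K) := by
    apply Subtype.ext
    rw [hx]
    rfl
  have P01 : ∀ (h : (0 : Fin (n + 1)) ≠ 1) (c : K),
      Matrix.SpecialLinearGroup.transvection h c ∈ H := by
    intro h c
    exact Cfsg.Agent.Lib.Helper3.slg_all_of_one hK3 H h (hx' ▸ hxH) c
  have shift : ∀ i j : Fin (n + 1),
      (∀ (h : i + 1 ≠ j + 1) (c : K), Matrix.SpecialLinearGroup.transvection h c ∈ H) →
      ∀ (h : i ≠ j) (c : K), Matrix.SpecialLinearGroup.transvection h c ∈ H := by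
    intro i j hP h c
    have h' : i + 1 ≠ j + 1 := fun e => h (add_right_cancel e)
    have e : w * Matrix.SpecialLinearGroup.transvection h' (c * (s i)⁻¹ * s j) =
        Matrix.SpecialLinearGroup.transvection h c * w := by
      apply Subtype.ext
      have h5 := Cfsg.Agent.Lib.Helper3.slg_shift_mat n
        (w : Matrix (Fin (n + 1)) (Fin (n + 1)) K) s hW i j (c * (s i)⁻¹)
      rw [inv_mul_cancel_right₀ (hs0 i)] at h5
      exact h5
    have e' : Matrix.SpecialLinearGroup.transvection h c =
        w * Matrix.SpecialLinearGroup.transvection h' (c * (s i)⁻¹ * s j) * w⁻¹ := by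
      rw [e, mul_inv_cancel_right]
    rw [e']
    exact H.mul_mem (H.mul_mem hwH (hP h' _)) (H.inv_mem hwH)
  have shiftd : ∀ d : Fin (n + 1), ∀ i j : Fin (n + 1),
      (∀ (h : i + d ≠ j + d) (c : K), Matrix.SpecialLinearGroup.transvection h c ∈ H) →
      ∀ (h : i ≠ j) (c : K), Matrix.SpecialLinearGroup.transvection h c ∈ H := by
    intro d
    induction d using Fin.induction with
    | zero =>
      intro i j hP h c
      have h' : i + 0 ≠ j + 0 := by rwa [add_zero, add_zero]
      rw [← Cfsg.Agent.Lib.Helper3.slg_cast (add_zero i) (add_zero j) h' h c]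
      exact hP h' c
    | succ d ih =>
      intro i j hP h c
      apply ih i j ?_ h c
      intro h1 c1
      apply shift (i + d.castSucc) (j + d.castSucc) ?_ h1 c1
      intro h2 c2
      have ei : i + d.castSucc + 1 = i + d.succ := by rw [add_assoc, Fin.coeSucc_eq_succ]
      have ej : j + d.castSucc + 1 = j + d.succ := by rw [add_assoc, Fin.coeSucc_eq_succ]
      have h3 : i + d.succ ≠ j + d.succ := by rw [← ei, ← ej]; exact h2
      rw [Cfsg.Agent.Lib.Helper3.slg_cast ei ej h2 h3 c2]
      exact hP h3 c2
  have hstep : ∀ i : Fin (n + 1), ∀ (h : i ≠ i + 1) (c : K),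
      Matrix.SpecialLinearGroup.transvection h c ∈ H := by
    intro i
    apply shiftd (-i) i (i + 1)
    intro h c
    have e0 : i + -i = 0 := add_neg_cancel i
    have e1 : i + 1 + -i = 1 := by rw [add_right_comm, add_neg_cancel, zero_add]
    rw [Cfsg.Agent.Lib.Helper3.slg_cast e0 e1 h h01 c]
    exact P01 h01 c
  have hall : ∀ e : Fin (n + 1), ∀ i : Fin (n + 1), ∀ (h : i ≠ i + e) (c : K),
      Matrix.SpecialLinearGroup.transvection h c ∈ H := by
    intro e
    induction e using Fin.induction with
    | zero =>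
      intro i h c
      exact absurd (add_zero i).symm h
    | succ e ih =>
      intro i h c
      by_cases he : e.castSucc = 0
      · have e1 : i + e.succ = i + 1 := by rw [← Fin.coeSucc_eq_succ, he, zero_add]
        have h' : i ≠ i + 1 := by rw [← e1]; exact h
        rw [Cfsg.Agent.Lib.Helper3.slg_cast rfl e1 h h' c]
        exact hstep i h' c
      · have hab : i ≠ i + e.castSucc := fun h0 => he (by
          have h4 : i + e.castSucc = i + 0 := by rw [add_zero]; exact h0.symm
          exact add_left_cancel h4)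
        have hbd : i + e.castSucc ≠ i + e.castSucc + 1 := fun h0 => h01 (by
          have h4 : i + e.castSucc + 0 = i + e.castSucc + 1 := by rw [add_zero]; exact h0
          exact add_left_cancel h4)
        have ed : i + e.castSucc + 1 = i + e.succ := by rw [add_assoc, Fin.coeSucc_eq_succ]
        have had : i ≠ i + e.castSucc + 1 := by rw [ed]; exact h
        have h1 := ih i hab 1
        have h2 := hstep (i + e.castSucc) hbd c
        have h3 := Cfsg.Agent.Lib.Helper3.slg_comm H i (i + e.castSucc) (i + e.castSucc + 1)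
          hab hbd had c h1 h2
        rw [Cfsg.Agent.Lib.Helper3.slg_cast rfl ed.symm h had c]
        exact h3
  have hT : ∀ (i j : Fin (n + 1)) (hij : i ≠ j) (c : K),
      Matrix.SpecialLinearGroup.transvection hij c ∈ H := by
    intro i j hij c
    have ej : i + (j - i) = j := add_sub_cancel i j
    have h' : i ≠ i + (j - i) := by rw [ej]; exact hij
    rw [Cfsg.Agent.Lib.Helper3.slg_cast rfl ej.symm hij h' c]
    exact hall (j - i) i h' c
  have htop := Cfsg.Agent.Lib.Helper3.slg_top hK3 H hT
  rw [htop]
  exact top_sup_eq _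


end Cfsg.Agent.S2403
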