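import Cfsg.Statements.S2427
import Mathlib
import Cfsg.Agent.Lib.Helper3.SL23

set_option autoImplicit false
open Cfsg

namespace Cfsg.Agent.S2427

/-- The group SL₂ over the field with 3 elements has order 24 and centre of order 2; its commutator subgroup has order 8, is isomorphic to the quaternion group of order 8 and is complemented by every Sylow 3-subgroup (so the group is a semidirect product of a quaternion group of order 8 by a cyclic group of order 3); and its only normal subgroups besides the trivial subgroup and the whole group are the centre and the commutator subgroup. -/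
theorem result :
    Nat.card (Matrix.SpecialLinearGroup (Fin 2) (ZMod 3)) = 24 ∧
    Nat.card (Subgroup.center (Matrix.SpecialLinearGroup (Fin 2) (ZMod 3))) = 2 ∧
    Nat.card (commutator (Matrix.SpecialLinearGroup (Fin 2) (ZMod 3))) = 8 ∧
    Nonempty (commutator (Matrix.SpecialLinearGroup (Fin 2) (ZMod 3)) ≃* QuaternionGroup 2) ∧
    (∀ P : Sylow 3 (Matrix.SpecialLinearGroup (Fin 2) (ZMod 3)),
      Subgroup.IsComplement' (commutator (Matrix.SpecialLinearGroup (Fin 2) (ZMod 3)))
        (P : Subgroup (Matrix.SpecialLinearGroup (Fin 2) (ZMod 3)))) ∧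
    ∀ N : Subgroup (Matrix.SpecialLinearGroup (Fin 2) (ZMod 3)), N.Normal →
      N = ⊥ ∨ N = ⊤ ∨ N = Subgroup.center (Matrix.SpecialLinearGroup (Fin 2) (ZMod 3)) ∨
        N = commutator (Matrix.SpecialLinearGroup (Fin 2) (ZMod 3)) := by
  refine ⟨Lib.Helper3.SL23.card_G3, Lib.Helper3.SL23.card_center, ?_, ?_, ?_, ?_⟩
  · rw [Lib.Helper3.SL23.commutator_eq]; exact Lib.Helper3.SL23.card_Q8
  · rw [Lib.Helper3.SL23.commutator_eq]; exact Lib.Helper3.SL23.Q8_iso
  · intro P
    rw [Lib.Helper3.SL23.commutator_eq]; exact Lib.Helper3.SL23.sylow_compl P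
  · intro N hN
    rw [Lib.Helper3.SL23.commutator_eq]
    haveI := hN
    exact Lib.Helper3.SL23.normal_cases N

end Cfsg.Agent.S2427
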