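import Cfsg.Statements.S2428
import Mathlib

set_option autoImplicit false
open Cfsg

namespace Cfsg.Agent.S2428

open Matrix

section
variable {F : Type*} [Field F]

def Dg (a : Fˣ) : Matrix (Fin 2) (Fin 2) F := !![(a : F), 0; 0, (a : F)⁻¹]
def Ag (b : Fˣ) : Matrix (Fin 2) (Fin 2) F := !![0, (b : F); -(b : F)⁻¹, 0]

theorem Dg_det (a : Fˣ) : (Dg a).det = 1 := by
  rw [Dg, Matrix.det_fin_two_of, mul_zero, sub_zero]
  exact mul_inv_cancel₀ a.ne_zero

theorem Ag_det (b : Fˣ) : (Ag b).det = 1 := by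
  rw [Ag, Matrix.det_fin_two_of, zero_mul, zero_sub, mul_neg, neg_neg]
  exact mul_inv_cancel₀ b.ne_zero

theorem DD (a a' : Fˣ) : Dg a * Dg a' = Dg (a * a') := by
  ext i j
  fin_cases i <;> fin_cases j <;>
    simp [Dg, Ag, Matrix.mul_apply, Fin.sum_univ_two, div_eq_mul_inv] <;> ring

theorem DA (a b : Fˣ) : Dg a * Ag b = Ag (a * b) := by
  ext i j
  fin_cases i <;> fin_cases j <;>
    simp [Dg, Ag, Matrix.mul_apply, Fin.sum_univ_two, div_eq_mul_inv] <;> ring

theorem AD (a b : Fˣ) : Ag b * Dg a = Ag (b / a) := by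
  ext i j
  fin_cases i <;> fin_cases j <;>
    simp [Dg, Ag, Matrix.mul_apply, Fin.sum_univ_two, div_eq_mul_inv] <;> ring

theorem AA (b b' : Fˣ) : Ag b * Ag b' = Dg (-(b / b')) := by
  ext i j
  fin_cases i <;> fin_cases j <;>
    simp [Dg, Ag, Matrix.mul_apply, Fin.sum_univ_two, div_eq_mul_inv] <;> ring

theorem Dg_inj {a a' : Fˣ} (h : Dg a = Dg a') : a = a' := by
  apply Units.ext
  have := congrFun (congrFun h 0) 0
  simpa [Dg] using this

theorem Ag_inj {b b' : Fˣ} (h : Ag b = Ag b') : b = b' := by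
  apply Units.ext
  have := congrFun (congrFun h 0) 1
  simpa [Ag] using this

theorem DA_ne (a b : Fˣ) : Dg a ≠ Ag b := by
  intro h
  have := congrFun (congrFun h 0) 0
  simp [Dg, Ag] at this

theorem grp1 {G : Type*} [CommGroup G] (a b : G) : a * b = b / a ↔ (1 : G) * 1 = a * a := by
  rw [one_mul, div_eq_mul_inv, mul_comm b a⁻¹, mul_left_inj, eq_comm (a := (1 : G)),
    mul_eq_one_iff_eq_inv]

noncomputable def sM : Fˣ ⊕ Fˣ → Matrix.SpecialLinearGroup (Fin 2) F
  | Sum.inl a => ⟨Dg a, Dg_det a⟩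
  | Sum.inr b => ⟨Ag b, Ag_det b⟩

def R28 : Fˣ ⊕ Fˣ → Fˣ ⊕ Fˣ → Prop
  | Sum.inl _, Sum.inl _ => True
  | Sum.inl a, Sum.inr _ => (1 : Fˣ) * 1 = a * a
  | Sum.inr _, Sum.inl a => (1 : Fˣ) * 1 = a * a
  | Sum.inr b, Sum.inr b' => b * b = b' * b'

theorem sM_inj : Function.Injective (sM : Fˣ ⊕ Fˣ → Matrix.SpecialLinearGroup (Fin 2) F) := by
  intro x y h
  have hm : (sM x).1 = (sM y).1 := congrArg Subtype.val h
  rcases x with a | b <;> rcases y with a' | b'
  · exact congrArg Sum.inl (Dg_inj hm)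
  · exact absurd hm (DA_ne a b')
  · exact absurd hm.symm (DA_ne a' b)
  · exact congrArg Sum.inr (Ag_inj hm)

theorem commM (x y : Fˣ ⊕ Fˣ) :
    (sM x).1 * (sM y).1 = (sM y).1 * (sM x).1 ↔ R28 x y := by
  rcases x with a | b <;> rcases y with a' | b'
  · show Dg a * Dg a' = Dg a' * Dg a ↔ True
    rw [DD, DD, mul_comm a a']
    exact iff_true_intro rfl
  · show Dg a * Ag b' = Ag b' * Dg a ↔ (1 : Fˣ) * 1 = a * a
    rw [DA, AD]
    constructor
    · intro h
      exact (grp1 a b').mp (Ag_inj h)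
    · intro h
      rw [(grp1 a b').mpr h]
  · show Ag b * Dg a' = Dg a' * Ag b ↔ (1 : Fˣ) * 1 = a' * a'
    rw [AD, DA]
    constructor
    · intro h
      exact (grp1 a' b).mp (Ag_inj h).symm
    · intro h
      rw [(grp1 a' b).mpr h]
  · show Ag b * Ag b' = Ag b' * Ag b ↔ b * b = b' * b'
    rw [AA, AA]
    constructor
    · intro h
      exact div_eq_div_iff_mul_eq_mul.mp (neg_inj.mp (Dg_inj h))
    · intro h
      rw [div_eq_div_iff_mul_eq_mul.mpr h]

theorem commN28 (N : Subgroup (Matrix.SpecialLinearGroup (Fin 2) F)) (x y : Fˣ ⊕ Fˣ)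
    (hx : sM x ∈ N) (hy : sM y ∈ N) :
    Commute (⟨sM x, hx⟩ : ↥N) ⟨sM y, hy⟩ ↔ R28 x y := by
  rw [← commM]
  constructor
  · intro h
    have := congrArg (fun z : ↥N => z.1.1) h.eq
    exact this
  · intro h
    show (⟨sM x, hx⟩ : ↥N) * ⟨sM y, hy⟩ = ⟨sM y, hy⟩ * ⟨sM x, hx⟩
    apply Subtype.ext
    apply Subtype.ext
    exact h

theorem conj01 (g h : Matrix.SpecialLinearGroup (Fin 2) F) :
    (↑(g * h * g⁻¹) : Matrix (Fin 2) (Fin 2) F) 0 1
      = g.1 0 0 ^ 2 * h.1 0 1 - g.1 0 1 ^ 2 * h.1 1 0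
        + g.1 0 0 * g.1 0 1 * (h.1 1 1 - h.1 0 0) := by
  rw [Matrix.SpecialLinearGroup.coe_mul, Matrix.SpecialLinearGroup.coe_mul,
    Matrix.SpecialLinearGroup.coe_inv, Matrix.adjugate_fin_two]
  simp [Matrix.mul_apply, Fin.sum_univ_two] <;> ring

theorem conj10 (g h : Matrix.SpecialLinearGroup (Fin 2) F) :
    (↑(g * h * g⁻¹) : Matrix (Fin 2) (Fin 2) F) 1 0
      = g.1 1 1 ^ 2 * h.1 1 0 - g.1 1 0 ^ 2 * h.1 0 1
        + g.1 1 0 * g.1 1 1 * (h.1 0 0 - h.1 1 1) := by
  rw [Matrix.SpecialLinearGroup.coe_mul, Matrix.SpecialLinearGroup.coe_mul,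
    Matrix.SpecialLinearGroup.coe_inv, Matrix.adjugate_fin_two]
  simp [Matrix.mul_apply, Fin.sum_univ_two] <;> ring

theorem dne28 (d : Matrix.SpecialLinearGroup (Fin 2) F)
    (hd01 : (d : Matrix (Fin 2) (Fin 2) F) 0 1 = 0)
    (hda : (d : Matrix (Fin 2) (Fin 2) F) 0 0 ^ 2 ≠ 1) :
    d.1 0 0 - d.1 1 1 ≠ 0 := by
  have hdet := d.2
  rw [Matrix.det_fin_two, hd01, zero_mul, sub_zero] at hdet
  intro h
  apply hda
  have e : d.1 0 0 = d.1 1 1 := sub_eq_zero.mp h
  rw [← e] at hdet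
  rw [pow_two]
  exact hdet

theorem cent28 (d : Matrix.SpecialLinearGroup (Fin 2) F)
    (hd01 : (d : Matrix (Fin 2) (Fin 2) F) 0 1 = 0)
    (hd10 : (d : Matrix (Fin 2) (Fin 2) F) 1 0 = 0)
    (hda : (d : Matrix (Fin 2) (Fin 2) F) 0 0 ^ 2 ≠ 1)
    (g : Matrix.SpecialLinearGroup (Fin 2) F) :
    g ∈ Subgroup.centralizer ({d} : Set (Matrix.SpecialLinearGroup (Fin 2) F))
      ↔ ((g : Matrix (Fin 2) (Fin 2) F) 0 1 = 0 ∧ (g : Matrix (Fin 2) (Fin 2) F) 1 0 = 0) := by
  have hne := dne28 d hd01 hda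
  rw [Subgroup.mem_centralizer_iff]
  constructor
  · intro h
    have hm := h d (Set.mem_singleton d)
    have hm' : d.1 * g.1 = g.1 * d.1 := congrArg Subtype.val hm
    have e01 := congrFun (congrFun hm' 0) 1
    have e10 := congrFun (congrFun hm' 1) 0
    simp only [Matrix.mul_apply, Fin.sum_univ_two, hd01, hd10] at e01 e10
    constructor
    · have h1 : g.1 0 1 * (d.1 0 0 - d.1 1 1) = 0 := by linear_combination e01
      exact (mul_eq_zero.mp h1).resolve_right hne
    · have h1 : g.1 1 0 * (d.1 0 0 - d.1 1 1) = 0 := by linear_combination (-1 : F) * e10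
      exact (mul_eq_zero.mp h1).resolve_right hne
  · rintro ⟨h01, h10⟩ x hx
    rw [Set.mem_singleton_iff] at hx
    rw [hx]
    apply Subtype.ext
    show d.1 * g.1 = g.1 * d.1
    rw [← Matrix.ext_iff]
    simp only [Fin.forall_fin_two, Matrix.mul_apply, Fin.sum_univ_two, hd01, hd10, h01, h10]
    exact ⟨⟨by ring, by ring⟩, by ring, by ring⟩

theorem norm28 (d : Matrix.SpecialLinearGroup (Fin 2) F)
    (hd01 : (d : Matrix (Fin 2) (Fin 2) F) 0 1 = 0)
    (hd10 : (d : Matrix (Fin 2) (Fin 2) F) 1 0 = 0)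
    (hda : (d : Matrix (Fin 2) (Fin 2) F) 0 0 ^ 2 ≠ 1)
    (g : Matrix.SpecialLinearGroup (Fin 2) F) :
    g ∈ Subgroup.normalizer ((Subgroup.centralizer
        ({d} : Set (Matrix.SpecialLinearGroup (Fin 2) F))) :
          Set (Matrix.SpecialLinearGroup (Fin 2) F))
      ↔ (((g : Matrix (Fin 2) (Fin 2) F) 0 1 = 0 ∧ (g : Matrix (Fin 2) (Fin 2) F) 1 0 = 0)
        ∨ ((g : Matrix (Fin 2) (Fin 2) F) 0 0 = 0 ∧ (g : Matrix (Fin 2) (Fin 2) F) 1 1 = 0)) := by
  have hne := dne28 d hd01 hda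
  have hg := g.2
  rw [Matrix.det_fin_two] at hg
  rw [Subgroup.mem_normalizer_iff]
  constructor
  · intro h
    have hd : d ∈ Subgroup.centralizer ({d} : Set (Matrix.SpecialLinearGroup (Fin 2) F)) :=
      (cent28 d hd01 hd10 hda d).mpr ⟨hd01, hd10⟩
    have h1 := (cent28 d hd01 hd10 hda _).mp ((h d).mp hd)
    rw [conj01, conj10, hd01, hd10] at h1
    obtain ⟨e1, e2⟩ := h1
    have p1 : g.1 0 0 * g.1 0 1 = 0 := by
      have h3 : g.1 0 0 * g.1 0 1 * (d.1 1 1 - d.1 0 0) = 0 := by linear_combination e1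
      rcases mul_eq_zero.mp h3 with h | h
      · exact h
      · exact absurd (show d.1 0 0 - d.1 1 1 = 0 by linear_combination (-1 : F) * h) hne
    have p2 : g.1 1 0 * g.1 1 1 = 0 := by
      have h3 : g.1 1 0 * g.1 1 1 * (d.1 0 0 - d.1 1 1) = 0 := by linear_combination e2
      exact (mul_eq_zero.mp h3).resolve_right hne
    rcases mul_eq_zero.mp p1 with h00 | h01
    · right
      refine ⟨h00, ?_⟩
      rcases mul_eq_zero.mp p2 with h10 | h11
      · exfalso
        rw [h00, h10] at hg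
        simp at hg
      · exact h11
    · left
      refine ⟨h01, ?_⟩
      rcases mul_eq_zero.mp p2 with h10 | h11
      · exact h10
      · exfalso
        rw [h01, h11] at hg
        simp at hg
  · rintro (⟨h01, h10⟩ | ⟨h00, h11⟩) x
    · have h00 : g.1 0 0 ≠ 0 := by
        intro h
        rw [h, h01] at hg
        simp at hg
      have h11 : g.1 1 1 ≠ 0 := by
        intro h
        rw [h, h01] at hg
        simp at hg
      rw [cent28 d hd01 hd10 hda, cent28 d hd01 hd10 hda, conj01, conj10, h01, h10]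
      constructor
      · rintro ⟨a, b⟩
        rw [a, b]
        exact ⟨by ring, by ring⟩
      · rintro ⟨a, b⟩
        refine ⟨?_, ?_⟩
        · have h3 : g.1 0 0 ^ 2 * x.1 0 1 = 0 := by linear_combination a
          exact (mul_eq_zero.mp h3).resolve_left (pow_ne_zero 2 h00)
        · have h3 : g.1 1 1 ^ 2 * x.1 1 0 = 0 := by linear_combination b
          exact (mul_eq_zero.mp h3).resolve_left (pow_ne_zero 2 h11)
    · have h01 : g.1 0 1 ≠ 0 := by
        intro h
        rw [h, h00] at hg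
        simp at hg
      have h10 : g.1 1 0 ≠ 0 := by
        intro h
        rw [h, h00] at hg
        simp at hg
      rw [cent28 d hd01 hd10 hda, cent28 d hd01 hd10 hda, conj01, conj10, h00, h11]
      constructor
      · rintro ⟨a, b⟩
        rw [a, b]
        exact ⟨by ring, by ring⟩
      · rintro ⟨a, b⟩
        refine ⟨?_, ?_⟩
        · have h3 : g.1 1 0 ^ 2 * x.1 0 1 = 0 := by linear_combination (-1 : F) * b
          exact (mul_eq_zero.mp h3).resolve_left (pow_ne_zero 2 h10)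
        · have h3 : g.1 0 1 ^ 2 * x.1 1 0 = 0 := by linear_combination (-1 : F) * a
          exact (mul_eq_zero.mp h3).resolve_left (pow_ne_zero 2 h01)

theorem sM_mem (d : Matrix.SpecialLinearGroup (Fin 2) F)
    (hd01 : (d : Matrix (Fin 2) (Fin 2) F) 0 1 = 0)
    (hd10 : (d : Matrix (Fin 2) (Fin 2) F) 1 0 = 0)
    (hda : (d : Matrix (Fin 2) (Fin 2) F) 0 0 ^ 2 ≠ 1) (x : Fˣ ⊕ Fˣ) :
    sM x ∈ Subgroup.normalizer ((Subgroup.centralizer
        ({d} : Set (Matrix.SpecialLinearGroup (Fin 2) F))) :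
          Set (Matrix.SpecialLinearGroup (Fin 2) F)) := by
  rw [norm28 d hd01 hd10 hda]
  rcases x with a | b
  · exact Or.inl ⟨rfl, rfl⟩
  · exact Or.inr ⟨rfl, rfl⟩

theorem sM_surj (d : Matrix.SpecialLinearGroup (Fin 2) F)
    (hd01 : (d : Matrix (Fin 2) (Fin 2) F) 0 1 = 0)
    (hd10 : (d : Matrix (Fin 2) (Fin 2) F) 1 0 = 0)
    (hda : (d : Matrix (Fin 2) (Fin 2) F) 0 0 ^ 2 ≠ 1)
    (g : Matrix.SpecialLinearGroup (Fin 2) F)
    (hg : g ∈ Subgroup.normalizer ((Subgroup.centralizer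
        ({d} : Set (Matrix.SpecialLinearGroup (Fin 2) F))) :
          Set (Matrix.SpecialLinearGroup (Fin 2) F))) :
    ∃ x : Fˣ ⊕ Fˣ, sM x = g := by
  have hdet := g.2
  rw [Matrix.det_fin_two] at hdet
  rcases (norm28 d hd01 hd10 hda g).mp hg with ⟨h01, h10⟩ | ⟨h00, h11⟩
  · rw [h01, zero_mul, sub_zero] at hdet
    have h00 : g.1 0 0 ≠ 0 := left_ne_zero_of_mul_eq_one hdet
    refine ⟨Sum.inl (Units.mk0 _ h00), ?_⟩
    apply Matrix.SpecialLinearGroup.ext
    intro i j
    fin_cases i <;> fin_cases j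
    · rfl
    · exact h01.symm
    · exact h10.symm
    · exact inv_eq_of_mul_eq_one_right hdet
  · rw [h00, zero_mul, zero_sub] at hdet
    have hp : g.1 0 1 * (-(g.1 1 0)) = 1 := by
      rw [mul_neg]
      exact hdet
    have h01 : g.1 0 1 ≠ 0 := left_ne_zero_of_mul_eq_one hp
    refine ⟨Sum.inr (Units.mk0 _ h01), ?_⟩
    apply Matrix.SpecialLinearGroup.ext
    intro i j
    fin_cases i <;> fin_cases j
    · exact h00.symm
    · rfl
    · show -(g.1 0 1)⁻¹ = g.1 1 0
      rw [inv_eq_of_mul_eq_one_right hp, neg_neg]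
    · exact h11.symm

variable [Fintype F]

theorem two_ne28 (hodd : Odd (Fintype.card F)) : (2 : F) ≠ 0 := by
  intro h
  have h1 : ringChar F ∣ 2 := ringChar.dvd (by exact_mod_cast h)
  have h2 : ringChar F = 2 :=
    ((Nat.dvd_prime Nat.prime_two).mp h1).resolve_left CharP.ringChar_ne_one
  have h3 := FiniteField.even_card_of_char_two h2
  rcases hodd with ⟨k, hk⟩
  omega

theorem sq2_28 (hodd : Odd (Fintype.card F)) [Fintype Fˣ] (c : Fˣ)
    [DecidablePred fun b : Fˣ => c * c = b * b] :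
    (∑ b : Fˣ, (if c * c = b * b then 1 else 0 : ℕ)) = 2 := by
  classical
  have h2 := two_ne28 hodd
  have hne : c ≠ -c := by
    intro h
    have h' : (c : F) = -(c : F) := by
      have := congrArg Units.val h
      rwa [Units.val_neg] at this
    have h3 : (2 : F) * (c : F) = 0 := by linear_combination h'
    rcases mul_eq_zero.mp h3 with h | h
    · exact h2 h
    · exact c.ne_zero h
  have hS : (Finset.univ.filter fun b : Fˣ => c * c = b * b) = {c, -c} := by
    ext b
    simp only [Finset.mem_filter, Finset.mem_univ, true_and, Finset.mem_insert,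
      Finset.mem_singleton]
    constructor
    · intro h
      have h' : (c : F) * c = (b : F) * b := by
        have := congrArg Units.val h
        rwa [Units.val_mul, Units.val_mul] at this
      have h1 : ((b : F) - c) * ((b : F) + c) = 0 := by linear_combination (-1 : F) * h'
      rcases mul_eq_zero.mp h1 with h | h
      · left
        apply Units.ext
        linear_combination h
      · right
        apply Units.ext
        rw [Units.val_neg]
        linear_combination h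
    · rintro (h | h)
      · rw [h]
      · rw [h, neg_mul_neg]
  rw [← Finset.card_filter, hS, Finset.card_pair hne]

theorem cnt28 (hodd : Odd (Fintype.card F)) :
    Nat.card {q : (Fˣ ⊕ Fˣ) × (Fˣ ⊕ Fˣ) // R28 q.1 q.2}
      = Nat.card Fˣ * Nat.card Fˣ + 6 * Nat.card Fˣ := by
  classical
  rw [Nat.card_eq_fintype_card, Fintype.card_subtype, Finset.card_filter,
    Fintype.sum_prod_type]
  simp only [Fintype.sum_sum_type]
  show (∑ a : Fˣ, ((∑ a' : Fˣ, (if R28 (Sum.inl a) (Sum.inl a') then 1 else 0 : ℕ))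
        + ∑ b' : Fˣ, (if R28 (Sum.inl a) (Sum.inr b') then 1 else 0 : ℕ)))
      + (∑ b : Fˣ, ((∑ a' : Fˣ, (if R28 (Sum.inr b) (Sum.inl a') then 1 else 0 : ℕ))
        + ∑ b' : Fˣ, (if R28 (Sum.inr b) (Sum.inr b') then 1 else 0 : ℕ)))
      = Nat.card Fˣ * Nat.card Fˣ + 6 * Nat.card Fˣ
  have h1 : ∀ a a' : Fˣ, (if R28 (Sum.inl a) (Sum.inl a') then 1 else 0 : ℕ) = 1 :=
    fun a a' => if_pos trivial
  have h2 : ∀ b : Fˣ, (∑ a' : Fˣ, (if R28 (Sum.inr b) (Sum.inl a') then 1 else 0 : ℕ)) = 2 :=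
    fun b => @sq2_28 F _ _ hodd _ 1 (fun _ => Classical.propDecidable _)
  have h3 : ∀ b : Fˣ, (∑ b' : Fˣ, (if R28 (Sum.inr b) (Sum.inr b') then 1 else 0 : ℕ)) = 2 :=
    fun b => @sq2_28 F _ _ hodd _ b (fun _ => Classical.propDecidable _)
  have h4 : (∑ a : Fˣ, ∑ b' : Fˣ, (if R28 (Sum.inl a) (Sum.inr b') then 1 else 0 : ℕ))
      = Fintype.card Fˣ * 2 := by
    rw [Finset.sum_comm]
    have h5 : ∀ b' : Fˣ,
        (∑ a : Fˣ, (if R28 (Sum.inl a) (Sum.inr b') then 1 else 0 : ℕ)) = 2 :=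
      fun b' => @sq2_28 F _ _ hodd _ 1 (fun _ => Classical.propDecidable _)
    rw [Finset.sum_congr rfl (fun b' _ => h5 b')]
    simp
  rw [Finset.sum_add_distrib, Finset.sum_add_distrib]
  rw [Finset.sum_congr rfl (fun a _ => Finset.sum_congr rfl (fun a' _ => h1 a a')), h4,
    Finset.sum_congr rfl (fun b _ => h2 b), Finset.sum_congr rfl (fun b _ => h3 b)]
  simp only [Finset.sum_const, Finset.card_univ, smul_eq_mul]
  rw [Nat.card_eq_fintype_card]
  ring

end

/-- Let F be a finite field with q elements, q odd, and let d be a diagonal element of SL₂ over F whose diagonal entry a has a² ≠ 1 (such d exist exactly when q > 3). Then the centraliser of d is precisely the diagonal subgroup T; the normaliser of T has order 2(q − 1) and exactly (q + 5)/2 conjugacy classes; and every element of that normaliser outside T has square equal to −1. -/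
theorem result {F : Type*} [Field F] [Fintype F] (hodd : Odd (Fintype.card F))
    (d : Matrix.SpecialLinearGroup (Fin 2) F) (hd01 : (d : Matrix (Fin 2) (Fin 2) F) 0 1 = 0) (hd10 : (d : Matrix (Fin 2) (Fin 2) F) 1 0 = 0) (hda : (d : Matrix (Fin 2) (Fin 2) F) 0 0 ^ 2 ≠ 1) :
    (∀ g : Matrix.SpecialLinearGroup (Fin 2) F, g ∈ Subgroup.centralizer ({d} : Set (Matrix.SpecialLinearGroup (Fin 2) F)) ↔ ((g : Matrix (Fin 2) (Fin 2) F) 0 1 = 0 ∧ (g : Matrix (Fin 2) (Fin 2) F) 1 0 = 0)) ∧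
    Nat.card (Subgroup.normalizer ((Subgroup.centralizer ({d} : Set (Matrix.SpecialLinearGroup (Fin 2) F))) : Set (Matrix.SpecialLinearGroup (Fin 2) F))) = 2 * (Fintype.card F - 1) ∧
    Nat.card (ConjClasses (Subgroup.normalizer ((Subgroup.centralizer ({d} : Set (Matrix.SpecialLinearGroup (Fin 2) F))) : Set (Matrix.SpecialLinearGroup (Fin 2) F)))) = (Fintype.card F + 5) / 2 ∧
    ∀ g : Matrix.SpecialLinearGroup (Fin 2) F, g ∈ Subgroup.normalizer ((Subgroup.centralizer ({d} : Set (Matrix.SpecialLinearGroup (Fin 2) F))) : Set (Matrix.SpecialLinearGroup (Fin 2) F)) →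
      g ∉ Subgroup.centralizer ({d} : Set (Matrix.SpecialLinearGroup (Fin 2) F)) → ((g * g) : Matrix (Fin 2) (Fin 2) F) = -1 := by
  classical
  have hA := cent28 d hd01 hd10 hda
  have hB := norm28 d hd01 hd10 hda
  have hbij : Function.Bijective (fun x : Fˣ ⊕ Fˣ =>
      (⟨sM x, sM_mem d hd01 hd10 hda x⟩ : ↥(Subgroup.normalizer ((Subgroup.centralizer
        ({d} : Set (Matrix.SpecialLinearGroup (Fin 2) F))) :
          Set (Matrix.SpecialLinearGroup (Fin 2) F))))) := by
    constructor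
    · intro x y h
      exact sM_inj (congrArg Subtype.val h)
    · rintro ⟨g, hg⟩
      obtain ⟨x, hx⟩ := sM_surj d hd01 hd10 hda g hg
      exact ⟨x, Subtype.ext hx⟩
  have hN : Nat.card ↥(Subgroup.normalizer ((Subgroup.centralizer
        ({d} : Set (Matrix.SpecialLinearGroup (Fin 2) F))) :
          Set (Matrix.SpecialLinearGroup (Fin 2) F)))
      = Nat.card Fˣ + Nat.card Fˣ := by
    rw [← Nat.card_congr (Equiv.ofBijective _ hbij), Nat.card_sum]
  have hE : Nat.card {p : ↥(Subgroup.normalizer ((Subgroup.centralizer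
        ({d} : Set (Matrix.SpecialLinearGroup (Fin 2) F))) :
          Set (Matrix.SpecialLinearGroup (Fin 2) F)))
        × ↥(Subgroup.normalizer ((Subgroup.centralizer
        ({d} : Set (Matrix.SpecialLinearGroup (Fin 2) F))) :
          Set (Matrix.SpecialLinearGroup (Fin 2) F))) // Commute p.1 p.2}
      = Nat.card {q : (Fˣ ⊕ Fˣ) × (Fˣ ⊕ Fˣ) // R28 q.1 q.2} :=
    (Nat.card_congr (Equiv.subtypeEquiv
      ((Equiv.ofBijective _ hbij).prodCongr (Equiv.ofBijective _ hbij))
      (fun q => (commN28 _ q.1 q.2 (sM_mem d hd01 hd10 hda q.1)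
        (sM_mem d hd01 hd10 hda q.2)).symm))).symm
  have hc := card_comm_eq_card_conjClasses_mul_card
    (↥(Subgroup.normalizer ((Subgroup.centralizer
        ({d} : Set (Matrix.SpecialLinearGroup (Fin 2) F))) :
          Set (Matrix.SpecialLinearGroup (Fin 2) F))))
  rw [hE, cnt28 hodd, hN] at hc
  have hn : Nat.card Fˣ = Nat.card F - 1 := Nat.card_units F
  have hF : Nat.card F = Fintype.card F := Nat.card_eq_fintype_card
  have hpos : 0 < Nat.card Fˣ := Nat.card_pos
  have hFpos := Fintype.card_pos (α := F)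
  refine ⟨hA, ?_, ?_, ?_⟩
  · rw [hN]
    omega
  · have h1 : Nat.card (ConjClasses ↥(Subgroup.normalizer ((Subgroup.centralizer
        ({d} : Set (Matrix.SpecialLinearGroup (Fin 2) F))) :
          Set (Matrix.SpecialLinearGroup (Fin 2) F)))) * 2 * Nat.card Fˣ
        = (Nat.card Fˣ + 6) * Nat.card Fˣ := by
      calc _ = Nat.card (ConjClasses ↥(Subgroup.normalizer ((Subgroup.centralizer
            ({d} : Set (Matrix.SpecialLinearGroup (Fin 2) F))) :
              Set (Matrix.SpecialLinearGroup (Fin 2) F)))) * (Nat.card Fˣ + Nat.card Fˣ) := by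
            ring
        _ = Nat.card Fˣ * Nat.card Fˣ + 6 * Nat.card Fˣ := hc.symm
        _ = (Nat.card Fˣ + 6) * Nat.card Fˣ := by ring
    have h3 := Nat.eq_of_mul_eq_mul_right hpos h1
    omega
  · intro g hg hgT
    rcases (hB g).mp hg with h | ⟨h00, h11⟩
    · exact absurd ((hA g).mpr h) hgT
    · have hdet := g.2
      rw [Matrix.det_fin_two, h00, h11, zero_mul, zero_sub] at hdet
      have hp : g.1 0 1 * g.1 1 0 = -1 := by linear_combination (-1 : F) * hdet
      have hp' : g.1 1 0 * g.1 0 1 = -1 := by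
        rw [mul_comm]
        exact hp
      ext i j
      fin_cases i <;> fin_cases j <;>
        simp [Matrix.mul_apply, Fin.sum_univ_two, h00, h11, hp, hp']

end Cfsg.Agent.S2428
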