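import Cfsg.Statements.S2437
import Mathlib

set_option autoImplicit false
open Cfsg

namespace Cfsg.Agent.S2437

open Matrix

section
variable {F : Type*} [Field F] [Fintype F]

theorem mem_B37 (g : Matrix.SpecialLinearGroup (Fin 2) F) :
    g ∈ (Cfsg.upperTriangularGL 2 F).comap Matrix.SpecialLinearGroup.toGL
      ↔ (g : Matrix (Fin 2) (Fin 2) F) 1 0 = 0 := by
  change (g : Matrix (Fin 2) (Fin 2) F).BlockTriangular id ↔ _
  constructor
  · intro h
    exact h (show id (0 : Fin 2) < id 1 by decide)
  · intro h i j hij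
    fin_cases i <;> fin_cases j
    · exact absurd hij (by decide)
    · exact absurd hij (by decide)
    · exact h
    · exact absurd hij (by decide)

theorem two_ne37 (hodd : Odd (Fintype.card F)) : (2 : F) ≠ 0 := by
  intro h
  have h1 : ringChar F ∣ 2 := ringChar.dvd (by exact_mod_cast h)
  have h2 : ringChar F = 2 :=
    ((Nat.dvd_prime Nat.prime_two).mp h1).resolve_left CharP.ringChar_ne_one
  have h3 := FiniteField.even_card_of_char_two h2
  rcases hodd with ⟨k, hk⟩
  omega

theorem det37 (g : Matrix.SpecialLinearGroup (Fin 2) F)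
    (h : (g : Matrix (Fin 2) (Fin 2) F) 1 0 = 0) :
    (g : Matrix (Fin 2) (Fin 2) F) 0 0 * (g : Matrix (Fin 2) (Fin 2) F) 1 1 = 1 := by
  have hd := g.2
  rw [Matrix.det_fin_two, h, mul_zero, sub_zero] at hd
  exact hd

noncomputable def e37 :
    ↥((Cfsg.upperTriangularGL 2 F).comap Matrix.SpecialLinearGroup.toGL) ≃ Fˣ × F where
  toFun g := (Units.mkOfMulEqOne _ _ (det37 g.1 ((mem_B37 g.1).mp g.2)),
    (g.1 : Matrix (Fin 2) (Fin 2) F) 0 1)
  invFun p := ⟨(⟨!![(p.1 : F), p.2; 0, (p.1 : F)⁻¹], by
      rw [Matrix.det_fin_two_of, mul_zero, sub_zero]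
      exact mul_inv_cancel₀ p.1.ne_zero⟩ : Matrix.SpecialLinearGroup (Fin 2) F),
      (mem_B37 _).mpr rfl⟩
  left_inv g := by
    have h10 := (mem_B37 g.1).mp g.2
    have hd := det37 g.1 h10
    apply Subtype.ext
    apply Matrix.SpecialLinearGroup.ext
    intro i j
    fin_cases i <;> fin_cases j
    · rfl
    · rfl
    · exact h10.symm
    · exact inv_eq_of_mul_eq_one_right hd
  right_inv p := by
    apply Prod.ext
    · apply Units.ext
      rfl
    · rfl

theorem comm37 (g g' : ↥((Cfsg.upperTriangularGL 2 F).comap Matrix.SpecialLinearGroup.toGL)) :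
    Commute g g' ↔
      (e37 g').2 * (((e37 g).1 : F) - ((e37 g).1 : F)⁻¹)
        = (e37 g).2 * (((e37 g').1 : F) - ((e37 g').1 : F)⁻¹) := by
  have h10 := (mem_B37 g.1).mp g.2
  have h10' := (mem_B37 g'.1).mp g'.2
  have hd := det37 g.1 h10
  have hd' := det37 g'.1 h10'
  have hi : (g.1.1 0 0)⁻¹ = g.1.1 1 1 := inv_eq_of_mul_eq_one_right hd
  have hi' : (g'.1.1 0 0)⁻¹ = g'.1.1 1 1 := inv_eq_of_mul_eq_one_right hd'
  change _ ↔ g'.1.1 0 1 * (g.1.1 0 0 - (g.1.1 0 0)⁻¹)
    = g.1.1 0 1 * (g'.1.1 0 0 - (g'.1.1 0 0)⁻¹)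
  rw [hi, hi']
  have hc : Commute g g' ↔ g.1.1 * g'.1.1 = g'.1.1 * g.1.1 := by
    constructor
    · intro h
      have := congrArg (fun x : ↥((Cfsg.upperTriangularGL 2 F).comap
        Matrix.SpecialLinearGroup.toGL) => x.1.1) h.eq
      exact this
    · intro h
      show g * g' = g' * g
      apply Subtype.ext
      apply Subtype.ext
      exact h
  rw [hc, ← Matrix.ext_iff]
  simp only [Fin.forall_fin_two, Matrix.mul_apply, Fin.sum_univ_two, h10, h10']
  constructor
  · rintro ⟨⟨-, h⟩, -⟩
    linear_combination h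
  · intro h
    refine ⟨⟨by ring, by linear_combination h⟩, by ring, by ring⟩

theorem pairs37 (hodd : Odd (Fintype.card F)) :
    Nat.card {q : (Fˣ × F) × (Fˣ × F) //
        q.2.2 * ((q.1.1 : F) - (q.1.1 : F)⁻¹) = q.1.2 * ((q.2.1 : F) - (q.2.1 : F)⁻¹)}
      = Nat.card Fˣ * Nat.card Fˣ * Nat.card F + 4 * (Nat.card F * Nat.card Fˣ) := by
  classical
  have h2 := two_ne37 hodd
  have line : ∀ s s' : F, (∑ b : F, ∑ b' : F, (if b' * s = b * s' then 1 else 0 : ℕ))
      = if s = 0 ∧ s' = 0 then Fintype.card F * Fintype.card F else Fintype.card F := by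
    intro s s'
    by_cases hs : s = 0
    · by_cases hs' : s' = 0
      · subst hs
        subst hs'
        simp
      · subst hs
        rw [if_neg (fun h => hs' h.2)]
        have hb : ∀ b b' : F, (b' * 0 = b * s') ↔ b = 0 := by
          intro b b'
          rw [mul_zero, zero_eq_mul]
          exact ⟨fun h => h.resolve_right hs', Or.inl⟩
        simp only [hb]
        rw [Finset.sum_comm]
        simp
    · rw [if_neg (fun h => hs h.1)]
      have hb : ∀ b b' : F, (b' * s = b * s') ↔ b' = b * s' / s := by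
        intro b b'
        rw [eq_div_iff hs]
      simp only [hb]
      simp
  have two : (∑ a : Fˣ, (if (a : F) - (a : F)⁻¹ = 0 then 1 else 0 : ℕ)) = 2 := by
    have hne : (1 : Fˣ) ≠ -1 := by
      intro h
      have h' : (1 : F) = -1 := by
        have := congrArg Units.val h
        simpa using this
      apply h2
      linear_combination h'
    have hS : (Finset.univ.filter fun a : Fˣ => (a : F) - (a : F)⁻¹ = 0) = {1, -1} := by
      ext a
      simp only [Finset.mem_filter, Finset.mem_univ, true_and, Finset.mem_insert,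
        Finset.mem_singleton]
      constructor
      · intro h
        have ha : (a : F) ≠ 0 := a.ne_zero
        have e := sub_eq_zero.mp h
        have h3 := mul_inv_cancel₀ ha
        rw [← e] at h3
        have h1 : ((a : F) - 1) * ((a : F) + 1) = 0 := by linear_combination h3
        rcases mul_eq_zero.mp h1 with h | h
        · left
          apply Units.ext
          rw [Units.val_one]
          linear_combination h
        · right
          apply Units.ext
          rw [Units.val_neg, Units.val_one]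
          linear_combination h
      · rintro (rfl | rfl) <;> simp
    rw [← Finset.card_filter, hS, Finset.card_pair hne]
  rw [Nat.card_eq_fintype_card, Fintype.card_subtype, Finset.card_filter]
  simp only [Fintype.sum_prod_type]
  have hsw : ∀ a : Fˣ, (∑ b : F, ∑ a' : Fˣ, ∑ b' : F,
        (if b' * ((a : F) - (a : F)⁻¹) = b * ((a' : F) - (a' : F)⁻¹) then 1 else 0 : ℕ))
      = ∑ a' : Fˣ, (if (a : F) - (a : F)⁻¹ = 0 ∧ (a' : F) - (a' : F)⁻¹ = 0
          then Fintype.card F * Fintype.card F else Fintype.card F) := by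
    intro a
    rw [Finset.sum_comm]
    exact Finset.sum_congr rfl (fun a' _ => line _ _)
  rw [Finset.sum_congr rfl (fun a _ => hsw a)]
  have hq : Fintype.card F = Fintype.card Fˣ + 1 := by
    have h1 := Nat.card_units F
    rw [Nat.card_eq_fintype_card, Nat.card_eq_fintype_card] at h1
    have := Fintype.card_pos (α := F)
    omega
  have hA : ∀ a a' : Fˣ, (if (a : F) - (a : F)⁻¹ = 0 ∧ (a' : F) - (a' : F)⁻¹ = 0
        then Fintype.card F * Fintype.card F else Fintype.card F)
      = Fintype.card F + (if (a : F) - (a : F)⁻¹ = 0 then 1 else 0)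
          * ((if (a' : F) - (a' : F)⁻¹ = 0 then 1 else 0)
            * (Fintype.card F * Fintype.card Fˣ)) := by
    intro a a'
    by_cases h1 : (a : F) - (a : F)⁻¹ = 0 <;> by_cases h1' : (a' : F) - (a' : F)⁻¹ = 0
    · rw [if_pos ⟨h1, h1'⟩, if_pos h1, if_pos h1', hq]
      ring
    · rw [if_neg (fun h => h1' h.2), if_neg h1']
      ring
    · rw [if_neg (fun h => h1 h.1), if_neg h1]
      ring
    · rw [if_neg (fun h => h1 h.1), if_neg h1]
      ring
  rw [Finset.sum_congr rfl (fun a _ => Finset.sum_congr rfl (fun a' _ => hA a a'))]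
  simp only [Finset.sum_add_distrib, Finset.sum_const, Finset.card_univ, smul_eq_mul,
    ← Finset.mul_sum, ← Finset.sum_mul, two]
  rw [Nat.card_eq_fintype_card, Nat.card_eq_fintype_card]
  ring

end

/-- Over a finite field F with q elements, q odd, the upper triangular subgroup of SL₂ (a Borel subgroup, of order q(q − 1)) has exactly q + 3 conjugacy classes. -/
theorem result {F : Type*} [Field F] [Fintype F] (hodd : Odd (Fintype.card F)) :
    Nat.card (ConjClasses ((Cfsg.upperTriangularGL 2 F).comap Matrix.SpecialLinearGroup.toGL)) = Fintype.card F + 3 := by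
  classical
  have hP := pairs37 hodd
  have hc := card_comm_eq_card_conjClasses_mul_card
    (↥((Cfsg.upperTriangularGL 2 F).comap Matrix.SpecialLinearGroup.toGL))
  have hB : Nat.card ↥((Cfsg.upperTriangularGL 2 F).comap Matrix.SpecialLinearGroup.toGL)
      = Nat.card Fˣ * Nat.card F := by
    rw [Nat.card_congr e37, Nat.card_prod]
  have hE : Nat.card {p : ↥((Cfsg.upperTriangularGL 2 F).comap Matrix.SpecialLinearGroup.toGL)
        × ↥((Cfsg.upperTriangularGL 2 F).comap Matrix.SpecialLinearGroup.toGL) //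
        Commute p.1 p.2}
      = Nat.card {q : (Fˣ × F) × (Fˣ × F) //
        q.2.2 * ((q.1.1 : F) - (q.1.1 : F)⁻¹) = q.1.2 * ((q.2.1 : F) - (q.2.1 : F)⁻¹)} :=
    Nat.card_congr (Equiv.subtypeEquiv (e37.prodCongr e37) (fun p => comm37 p.1 p.2))
  rw [hE, hP, hB] at hc
  have hn : Nat.card Fˣ = Nat.card F - 1 := Nat.card_units F
  have hF : Nat.card F = Fintype.card F := Nat.card_eq_fintype_card
  have hpos : 0 < Nat.card Fˣ := Nat.card_pos
  have hFpos := Fintype.card_pos (α := F)
  have hq : Nat.card F = Nat.card Fˣ + 1 := by omega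
  rw [← hF]
  have hnq : 0 < Nat.card Fˣ * Nat.card F := Nat.mul_pos hpos (by omega)
  have h1 : Nat.card (ConjClasses ↥((Cfsg.upperTriangularGL 2 F).comap
      Matrix.SpecialLinearGroup.toGL)) * (Nat.card Fˣ * Nat.card F)
      = (Nat.card Fˣ + 4) * (Nat.card Fˣ * Nat.card F) := by
    rw [← hc]
    ring
  have h3 := Nat.eq_of_mul_eq_mul_right hnq h1
  omega

end Cfsg.Agent.S2437
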