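import Cfsg.Statements.S2532
import Mathlib

set_option autoImplicit false
open Cfsg

namespace Cfsg.Agent.S2532

theorem key (m r : ℕ) (H : Subgroup (Equiv.Perm (Fin m)))
    (hm : Nat.card H * (2 ^ Nat.card H * r + 1) ≤ m) :
    ∃ π : Equiv.Perm (Fin r) →* Equiv.Perm (Fin m), Function.Injective π ∧
      ∀ σ, ∀ h ∈ H, h * π σ = π σ * h := by
  classical
  haveI : Fintype H := Fintype.ofFinite H
  obtain ⟨n, hn⟩ : ∃ n, n = Nat.card H := ⟨_, rfl⟩
  rw [← hn] at hm
  have hn1 : 1 ≤ n := by rw [hn]; exact Nat.card_pos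
  have hnc : Fintype.card H = n := by rw [hn, Nat.card_eq_fintype_card]
  let s : Setoid (Fin m) :=
    { r := fun y z => ∃ h ∈ H, h y = z
      iseqv := ⟨fun y => ⟨1, H.one_mem, rfl⟩,
                fun {y z} ⟨h, hh, e⟩ => ⟨h⁻¹, H.inv_mem hh, by rw [← e]; simp⟩,
                fun {y z w} ⟨h, hh, e⟩ ⟨h', hh', e'⟩ =>
                  ⟨h' * h, H.mul_mem hh' hh, by rw [Equiv.Perm.mul_apply, e, e']⟩⟩ }
  haveI : Fintype (Quotient s) := Fintype.ofFinite (Quotient s)
  have hcardQ : m ≤ n * Fintype.card (Quotient s) := by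
    have h1 := Finset.card_le_mul_card_image (f := fun y : Fin m => (Quotient.mk s y : Quotient s))
      (Finset.univ : Finset (Fin m)) n ?_
    · have h2 : ((Finset.univ : Finset (Fin m)).image
          (fun y : Fin m => (Quotient.mk s y : Quotient s))).card ≤ Fintype.card (Quotient s) :=
        Finset.card_le_univ _
      rw [Finset.card_univ, Fintype.card_fin] at h1
      exact h1.trans (Nat.mul_le_mul_left n h2)
    · intro a ha
      obtain ⟨y, -, rfl⟩ := Finset.mem_image.1 ha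
      have hsub : ((Finset.univ : Finset (Fin m)).filter
          (fun z => (Quotient.mk s z : Quotient s) = Quotient.mk s y)) ⊆
          (Finset.univ : Finset H).image (fun h : H => (h : Equiv.Perm (Fin m)) y) := by
        intro z hz
        rw [Finset.mem_filter] at hz
        obtain ⟨h, hh, e⟩ := Quotient.exact hz.2
        rw [Finset.mem_image]
        refine ⟨⟨h⁻¹, H.inv_mem hh⟩, Finset.mem_univ _, ?_⟩
        show h⁻¹ y = z
        rw [← e]; simp
      calc _ ≤ ((Finset.univ : Finset H).image (fun h : H => (h : Equiv.Perm (Fin m)) y)).card :=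
            Finset.card_le_card hsub
        _ ≤ (Finset.univ : Finset H).card := Finset.card_image_le
        _ = n := by rw [Finset.card_univ, hnc]
  let g : Quotient s → Finset H := fun q =>
    Finset.univ.filter (fun h : H => (h : Equiv.Perm (Fin m)) q.out = q.out)
  have hlt : Fintype.card (Finset H) * r < Fintype.card (Quotient s) := by
    rw [Fintype.card_finset, hnc]
    have h1 : n * (2 ^ n * r + 1) ≤ n * Fintype.card (Quotient s) := hm.trans hcardQ
    exact Nat.le_of_mul_le_mul_left h1 hn1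
  obtain ⟨S, hS⟩ := Fintype.exists_lt_card_fiber_of_mul_lt_card g hlt
  obtain ⟨T, hTsub, hTcard⟩ := Finset.exists_subset_card_eq hS.le
  let e : Fin r ≃ T := (T.equivFinOfCardEq hTcard).symm
  let x : Fin r → Fin m := fun i => ((e i : T) : Quotient s).out
  have hgx : ∀ i, g ((e i : T) : Quotient s) = S :=
    fun i => (Finset.mem_filter.1 (hTsub (e i).2)).2
  have hstab : ∀ i j (h : Equiv.Perm (Fin m)), h ∈ H → (h (x i) = x i ↔ h (x j) = x j) := by
    intro i j h hh
    have hi : (⟨h, hh⟩ : H) ∈ g ((e i : T) : Quotient s) ↔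
        (⟨h, hh⟩ : H) ∈ g ((e j : T) : Quotient s) := by rw [hgx i, hgx j]
    simpa [g, x] using hi
  have horb : ∀ i j (h : Equiv.Perm (Fin m)), h ∈ H → h (x i) = x j → i = j := by
    intro i j h hh e1
    have h1 : (Quotient.mk s (x i) : Quotient s) = Quotient.mk s (x j) :=
      Quotient.sound ⟨h, hh, e1⟩
    have a1 : Quotient.mk s (x i) = ((e i : T) : Quotient s) := Quotient.out_eq _
    have a2 : Quotient.mk s (x j) = ((e j : T) : Quotient s) := Quotient.out_eq _
    have h2 : ((e i : T) : Quotient s) = ((e j : T) : Quotient s) := by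
      rw [← a1, ← a2]; exact h1
    exact e.injective (Subtype.ext h2)
  let F : Equiv.Perm (Fin r) → Fin m → Fin m := fun σ y =>
    if hy : ∃ p : Fin r × Equiv.Perm (Fin m), p.2 ∈ H ∧ p.2 (x p.1) = y then
      (Classical.choose hy).2 (x (σ (Classical.choose hy).1))
    else y
  have hF1 : ∀ σ i (h : Equiv.Perm (Fin m)), h ∈ H → F σ (h (x i)) = h (x (σ i)) := by
    intro σ i h hh
    have hy : ∃ p : Fin r × Equiv.Perm (Fin m), p.2 ∈ H ∧ p.2 (x p.1) = h (x i) :=
      ⟨(i, h), hh, rfl⟩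
    have hFy : F σ (h (x i)) = (Classical.choose hy).2 (x (σ (Classical.choose hy).1)) :=
      dif_pos hy
    rw [hFy]
    obtain ⟨hp1, hp2⟩ := Classical.choose_spec hy
    generalize Classical.choose hy = p at hp1 hp2 ⊢
    obtain ⟨i', h'⟩ := p
    dsimp only at hp1 hp2 ⊢
    have hmem : h⁻¹ * h' ∈ H := H.mul_mem (H.inv_mem hh) hp1
    have hfix : (h⁻¹ * h') (x i') = x i := by
      rw [Equiv.Perm.mul_apply, hp2]; simp
    have hii : i' = i := horb i' i (h⁻¹ * h') hmem hfix
    rw [hii] at hfix ⊢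
    have hfix2 : (h⁻¹ * h') (x (σ i)) = x (σ i) := (hstab i (σ i) _ hmem).1 hfix
    rw [Equiv.Perm.mul_apply] at hfix2
    have h5 := congrArg h hfix2
    simpa using h5
  have hF2 : ∀ σ y, (¬ ∃ p : Fin r × Equiv.Perm (Fin m), p.2 ∈ H ∧ p.2 (x p.1) = y) →
      F σ y = y := fun σ y hy => dif_neg hy
  have hFmul : ∀ σ τ y, F (σ * τ) y = F σ (F τ y) := by
    intro σ τ y
    by_cases hy : ∃ p : Fin r × Equiv.Perm (Fin m), p.2 ∈ H ∧ p.2 (x p.1) = y
    · obtain ⟨⟨i, h⟩, hh, rfl⟩ := hy
      dsimp only at hh ⊢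
      rw [hF1 _ _ _ hh, hF1 _ _ _ hh, hF1 _ _ _ hh, Equiv.Perm.mul_apply]
    · rw [hF2 _ _ hy, hF2 _ _ hy, hF2 _ _ hy]
  have hFone : ∀ y, F 1 y = y := by
    intro y
    by_cases hy : ∃ p : Fin r × Equiv.Perm (Fin m), p.2 ∈ H ∧ p.2 (x p.1) = y
    · obtain ⟨⟨i, h⟩, hh, rfl⟩ := hy
      dsimp only at hh ⊢
      rw [hF1 _ _ _ hh, Equiv.Perm.one_apply]
    · rw [hF2 _ _ hy]
  let π : Equiv.Perm (Fin r) →* Equiv.Perm (Fin m) :=
    { toFun := fun σ =>
        { toFun := F σ
          invFun := F σ⁻¹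
          left_inv := fun y => by rw [← hFmul, inv_mul_cancel, hFone]
          right_inv := fun y => by rw [← hFmul, mul_inv_cancel, hFone] }
      map_one' := Equiv.ext (fun y => hFone y)
      map_mul' := fun σ τ => Equiv.ext (fun y => hFmul σ τ y) }
  have hπ : ∀ σ y, π σ y = F σ y := fun σ y => rfl
  refine ⟨π, ?_, ?_⟩
  · intro σ τ hστ
    apply Equiv.ext
    intro i
    have h1 : π σ (x i) = π τ (x i) := by rw [hστ]
    rw [hπ, hπ] at h1
    have h2 := hF1 σ i 1 H.one_mem
    have h3 := hF1 τ i 1 H.one_mem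
    rw [Equiv.Perm.one_apply, Equiv.Perm.one_apply] at h2 h3
    rw [h2, h3] at h1
    exact horb (σ i) (τ i) 1 H.one_mem (by rw [Equiv.Perm.one_apply]; exact h1)
  · intro σ h hh
    apply Equiv.ext
    intro y
    rw [Equiv.Perm.mul_apply, Equiv.Perm.mul_apply, hπ, hπ]
    by_cases hy : ∃ p : Fin r × Equiv.Perm (Fin m), p.2 ∈ H ∧ p.2 (x p.1) = y
    · obtain ⟨⟨i, h₀⟩, hh₀, rfl⟩ := hy
      dsimp only at hh₀ ⊢
      have h1 := hF1 σ i (h * h₀) (H.mul_mem hh hh₀)
      rw [Equiv.Perm.mul_apply, Equiv.Perm.mul_apply] at h1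
      rw [hF1 _ _ _ hh₀, h1]
    · have hy' : ¬ ∃ p : Fin r × Equiv.Perm (Fin m), p.2 ∈ H ∧ p.2 (x p.1) = h y := by
        rintro ⟨⟨i, h₁⟩, hh₁, e1⟩
        apply hy
        refine ⟨(i, h⁻¹ * h₁), H.mul_mem (H.inv_mem hh) hh₁, ?_⟩
        dsimp only at e1 ⊢
        rw [Equiv.Perm.mul_apply, e1]; simp
      rw [hF2 _ _ hy, hF2 _ _ hy']

/-- There is a function `f` of two natural-number arguments such that, whenever `m ≥ f(n, r)`, every subgroup of order `n` of the alternating group of degree `m` centralizes some subgroup of that alternating group isomorphic to the alternating group of degree `r`. -/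
theorem result :
    ∃ f : ℕ → ℕ → ℕ, ∀ (m r : ℕ) (H : Subgroup ↥(alternatingGroup (Fin m))), f (Nat.card H) r ≤ m →
      ∃ K : Subgroup ↥(alternatingGroup (Fin m)), Nonempty (↥K ≃* ↥(alternatingGroup (Fin r))) ∧
        K ≤ Subgroup.centralizer (H : Set ↥(alternatingGroup (Fin m))) := by
  refine ⟨fun n r => n * (2 ^ n * r + 1), ?_⟩
  intro m r H hm
  have hcard : Nat.card (H.map (alternatingGroup (Fin m)).subtype) = Nat.card H :=
    (Nat.card_congr (H.equivMapOfInjective _ (Subgroup.subtype_injective _)).toEquiv).symm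
  obtain ⟨π, hπinj, hπcomm⟩ := key m r (H.map (alternatingGroup (Fin m)).subtype)
    (by rw [hcard]; exact hm)
  have hsign : ∀ σ : ↥(alternatingGroup (Fin r)),
      (π.comp (alternatingGroup (Fin r)).subtype) σ ∈ alternatingGroup (Fin m) := by
    intro σ
    rw [Equiv.Perm.mem_alternatingGroup]
    have hle : alternatingGroup (Fin r) ≤ (Equiv.Perm.sign.comp π).ker := by
      rw [← Equiv.Perm.closure_three_cycles_eq_alternating, Subgroup.closure_le]
      intro c hc
      rw [SetLike.mem_coe, MonoidHom.mem_ker]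
      have hc' : Equiv.Perm.IsThreeCycle c := hc
      have h3 : c ^ 3 = 1 := by rw [← hc'.orderOf]; exact pow_orderOf_eq_one c
      have h3' : (Equiv.Perm.sign.comp π) c ^ 3 = 1 := by rw [← map_pow, h3, map_one]
      have h2' : (Equiv.Perm.sign.comp π) c ^ 2 = 1 := Int.units_sq _
      calc (Equiv.Perm.sign.comp π) c
          = (Equiv.Perm.sign.comp π) c ^ 3 * ((Equiv.Perm.sign.comp π) c ^ 2)⁻¹ := by group
        _ = 1 := by rw [h3', h2']; simp
    have h1 := hle σ.2
    rw [MonoidHom.mem_ker] at h1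
    exact h1
  let ψ : ↥(alternatingGroup (Fin r)) →* ↥(alternatingGroup (Fin m)) :=
    (π.comp (alternatingGroup (Fin r)).subtype).codRestrict (alternatingGroup (Fin m)) hsign
  have hψinj : Function.Injective ψ := by
    intro a b hab
    have h1 : π a.1 = π b.1 := congrArg Subtype.val hab
    exact Subtype.ext (hπinj h1)
  refine ⟨ψ.range, ⟨(MonoidHom.ofInjective hψinj).symm⟩, ?_⟩
  rintro _ ⟨σ, rfl⟩
  rw [Subgroup.mem_centralizer_iff]
  intro h hh
  apply Subtype.ext
  show (h : Equiv.Perm (Fin m)) * π σ.1 = π σ.1 * h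
  exact hπcomm σ.1 h.1 ⟨h, hh, rfl⟩

end Cfsg.Agent.S2532
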