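import Cfsg.Statements.S2540
import Mathlib
import Cfsg.Statements.S2540
import Cfsg.Agent.Lib.Lead.SLGen

set_option autoImplicit false
open Cfsg
open scoped commutatorElement

namespace Cfsg.Agent.S2540

open scoped commutatorElement

theorem sq_eq_one_iff_of_side_condition40 {F : Type*} [Field F] (a : F) (h : a ^ 2 = 1) :
    a = 1 ∨ a = -1 := by
  have h1 : (a - 1) * (a + 1) = 0 := by ring_nf; rw [h]; ring
  rcases mul_eq_zero.mp h1 with h2 | h2
  · left; exact sub_eq_zero.mp h2
  · right; exact eq_neg_of_add_eq_zero_left h2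

theorem exists_sq_ne_one40 {F : Type*} [Field F] [Fintype F] (h : 4 ≤ Fintype.card F) :
    ∃ a : F, a ≠ 0 ∧ a ^ 2 ≠ 1 := by
  classical
  by_contra hcon
  push Not at hcon
  have hsub : (Finset.univ : Finset F) ⊆ {0, 1, -1} := by
    intro a _
    by_cases ha : a = 0
    · simp [ha]
    · have h1 := hcon a ha
      rcases sq_eq_one_iff_of_side_condition40 a h1 with h2 | h2 <;> simp [h2]
  have h2 := Finset.card_le_card hsub
  have h3 : ({0, 1, -1} : Finset F).card ≤ 3 := Finset.card_le_three
  rw [Finset.card_univ] at h2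
  omega

theorem normal_SL_dichotomy40 {F : Type*} [Field F] {n : ℕ}
    (hperf : commutator (Matrix.SpecialLinearGroup (Fin n) F) = ⊤)
    (hsimp : IsSimpleGroup (Matrix.ProjectiveSpecialLinearGroup (Fin n) F))
    (N : Subgroup (Matrix.SpecialLinearGroup (Fin n) F)) [hN' : N.Normal] :
    N ≤ Subgroup.center (Matrix.SpecialLinearGroup (Fin n) F) ∨ N = ⊤ := by
  by_cases hN : N ≤ Subgroup.center (Matrix.SpecialLinearGroup (Fin n) F)
  · left; exact hN
  · right
    have hmap : (N.map (QuotientGroup.mk' (Subgroup.center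
        (Matrix.SpecialLinearGroup (Fin n) F)))).Normal :=
      Subgroup.Normal.map hN' _ (QuotientGroup.mk'_surjective _)
    have hsimp' : IsSimpleGroup (Matrix.SpecialLinearGroup (Fin n) F ⧸
        Subgroup.center (Matrix.SpecialLinearGroup (Fin n) F)) := hsimp
    rcases hmap.eq_bot_or_eq_top with h | h
    · exfalso; apply hN
      rw [Subgroup.map_eq_bot_iff, QuotientGroup.ker_mk'] at h
      exact h
    · have h2 : N ⊔ Subgroup.center (Matrix.SpecialLinearGroup (Fin n) F) = ⊤ := by
        have h3 : N.map (QuotientGroup.mk' (Subgroup.center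
            (Matrix.SpecialLinearGroup (Fin n) F))) =
            (⊤ : Subgroup _).map (QuotientGroup.mk' (Subgroup.center
            (Matrix.SpecialLinearGroup (Fin n) F))) := by
          rw [h]; symm
          rw [← MonoidHom.range_eq_map, MonoidHom.range_eq_top]
          exact QuotientGroup.mk'_surjective _
        rw [Subgroup.map_eq_map_iff, QuotientGroup.ker_mk'] at h3
        simpa using h3
      have h4 := Subgroup.Normal.commutator_le_of_self_sup_commutative_eq_top h2 inferInstance
      rw [hperf] at h4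
      exact top_le_iff.mp h4

/-- Let F be a finite field and n ≥ 1, excluding the case n = 2 with #F ≤ 3. A subgroup of GL_n(F) that is normalized by every element of SL_n(F) either consists of scalar matrices or contains SL_n(F). -/
theorem result {F : Type*} [Field F] [Fintype F] (n : ℕ) (hn : 1 ≤ n) (hex : ¬ (n = 2 ∧ Fintype.card F ≤ 3)) (G : Subgroup (Matrix.GeneralLinearGroup (Fin n) F)) (hG : ∀ s : Matrix.SpecialLinearGroup (Fin n) F, ∀ g ∈ G, (Matrix.SpecialLinearGroup.toGL s) * g * (Matrix.SpecialLinearGroup.toGL s)⁻¹ ∈ G) : (∀ g ∈ G, ∃ c : F, (g : Matrix (Fin n) (Fin n) F) = c • (1 : Matrix (Fin n) (Fin n) F)) ∨ (Matrix.SpecialLinearGroup.toGL : Matrix.SpecialLinearGroup (Fin n) F →* _).range ≤ G := by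
  classical
  rcases Nat.lt_or_ge n 2 with h1 | h2
  · left
    have hn1 : n = 1 := by omega
    subst hn1
    intro g hg
    refine ⟨(g : Matrix (Fin 1) (Fin 1) F) 0 0, ?_⟩
    ext i j
    have hi : i = 0 := Subsingleton.elim _ _
    have hj : j = 0 := Subsingleton.elim _ _
    subst hi hj; simp
  · have hperf : commutator (Matrix.SpecialLinearGroup (Fin n) F) = ⊤ := by
      rcases Nat.lt_or_ge n 3 with h | h
      · have hn2 : n = 2 := by omega
        subst hn2
        have hF4 : 4 ≤ Fintype.card F := by
          by_contra hc; exact hex ⟨rfl, by omega⟩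
        obtain ⟨a, ha, ha2⟩ := exists_sq_ne_one40 hF4
        exact Matrix.SL2.commutator_eq_top ha ha2
      · exact Cfsg.Agent.Lib.Lead.SL_commutator_eq_top (by simpa using h)
    have hsimp : IsSimpleGroup (Matrix.ProjectiveSpecialLinearGroup (Fin n) F) := by
      rcases Nat.lt_or_ge n 3 with h | h
      · have hn2 : n = 2 := by omega
        subst hn2
        have hF4 : 4 ≤ Nat.card F := by
          rw [Nat.card_eq_fintype_card]
          by_contra hc; exact hex ⟨rfl, by omega⟩
        exact Matrix.ProjectiveSpecialLinearGroup.rank_two_simple hF4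
      · exact Cfsg.Agent.Lib.Lead.PSL_isSimpleGroup (by simpa using h)
    obtain ⟨N, hNdef⟩ : ∃ N : Subgroup (Matrix.SpecialLinearGroup (Fin n) F),
        N = G.comap Matrix.SpecialLinearGroup.toGL := ⟨_, rfl⟩
    have hNmem : ∀ x, x ∈ N ↔ Matrix.SpecialLinearGroup.toGL x ∈ G := by
      intro x; rw [hNdef]; exact Subgroup.mem_comap
    have hNn : N.Normal := ⟨fun x hx s => by
      rw [hNmem] at hx ⊢
      rw [map_mul, map_mul, map_inv]; exact hG s _ hx⟩
    rcases normal_SL_dichotomy40 hperf hsimp N with hc | ht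
    · left
      obtain ⟨S, hS⟩ : ∃ S, S = (Matrix.SpecialLinearGroup.toGL :
          Matrix.SpecialLinearGroup (Fin n) F →* _).range := ⟨_, rfl⟩
      have hSn : S.Normal := by
        rw [hS, ← Cfsg.Agent.Lib.Lead.ker_det_eq_range_toGL]; infer_instance
      have h1 : ⁅S, G⁆ ≤ (Subgroup.center (Matrix.SpecialLinearGroup (Fin n) F)).map
          Matrix.SpecialLinearGroup.toGL := by
        rw [Subgroup.commutator_le]
        intro s hs g hg
        have hsG : ⁅s, g⁆ ∈ G := by
          rw [hS] at hs
          obtain ⟨s', rfl⟩ := hs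
          rw [commutatorElement_def]
          exact G.mul_mem (hG s' g hg) (G.inv_mem hg)
        have hsS : ⁅s, g⁆ ∈ S := by
          rw [commutatorElement_def, mul_assoc, mul_assoc]
          refine S.mul_mem hs ?_
          have h0 := hSn.conj_mem s⁻¹ (S.inv_mem hs) g
          simpa [mul_assoc] using h0
        rw [hS] at hsS
        obtain ⟨c, hc'⟩ := hsS
        refine ⟨c, hc ((hNmem c).mpr ?_), hc'⟩
        rw [hc']; exact hsG
      have h2 : ⁅(Subgroup.center (Matrix.SpecialLinearGroup (Fin n) F)).map
          Matrix.SpecialLinearGroup.toGL, S⁆ = ⊥ := by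
        rw [Subgroup.commutator_eq_bot_iff_le_centralizer]
        rintro _ ⟨c, hc, rfl⟩
        rw [Subgroup.mem_centralizer_iff]
        intro x hx
        have hx' : x ∈ S := hx
        rw [hS] at hx'
        obtain ⟨s, rfl⟩ := hx'
        rw [← map_mul, ← map_mul, (Subgroup.mem_center_iff.mp hc s)]
      have h3 : ⁅⁅S, G⁆, S⁆ = ⊥ := le_bot_iff.mp (h2 ▸ Subgroup.commutator_mono h1 le_rfl)
      have h4 : ⁅⁅G, S⁆, S⁆ = ⊥ := by rw [Subgroup.commutator_comm G S]; exact h3
      have h5 : ⁅⁅S, S⁆, G⁆ = ⊥ := Subgroup.commutator_commutator_eq_bot_of_rotate h3 h4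
      have h6 : ⁅S, S⁆ = S := by
        rw [hS, MonoidHom.range_eq_map, ← Subgroup.map_commutator, ← commutator_def, hperf]
      rw [h6, Subgroup.commutator_eq_bot_iff_le_centralizer] at h5
      intro g hg
      have hcomm : ∀ t : Matrix.TransvectionStruct (Fin n) F,
          Commute t.toMatrix (g : Matrix (Fin n) (Fin n) F) := by
        intro t
        have hmem : Matrix.SpecialLinearGroup.toGL
            (⟨t.toMatrix, t.det⟩ : Matrix.SpecialLinearGroup (Fin n) F) ∈ S := by
          rw [hS]; exact ⟨_, rfl⟩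
        have h7 := h5 hmem
        rw [Subgroup.mem_centralizer_iff] at h7
        have h8 := h7 g hg
        have h9 := congrArg (fun x : Matrix.GeneralLinearGroup (Fin n) F =>
          (x : Matrix (Fin n) (Fin n) F)) h8
        simp only [Units.val_mul] at h9
        exact h9.symm
      obtain ⟨c, hc⟩ := Matrix.mem_range_scalar_of_commute_transvectionStruct hcomm
      refine ⟨c, ?_⟩
      rw [← hc]
      simp [Matrix.smul_one_eq_diagonal]
    · right
      rintro _ ⟨s, rfl⟩
      have hs : s ∈ N := by rw [ht]; exact Subgroup.mem_top s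
      exact (hNmem s).mp hs

end Cfsg.Agent.S2540
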