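import Cfsg.Statements.S2541
import Mathlib

set_option autoImplicit false
open Cfsg
open scoped commutatorElement
open scoped MatrixGroups

namespace Cfsg.Agent.S2541

theorem prime_pow_dvd_multiset_lcm (p k : ℕ) (hp : p.Prime) (s : Multiset ℕ) (h : p ^ k ∣ s.lcm) (hk : 0 < k) :
    ∃ c ∈ s, p ^ k ∣ c := by
  induction s using Multiset.induction_on with
  | empty =>
    exfalso
    rw [Multiset.lcm_zero] at h
    have h1 := Nat.le_of_dvd Nat.one_pos h
    have h2 : 1 < p ^ k := Nat.one_lt_pow hk.ne' hp.one_lt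
    omega
  | cons a s ih =>
    rw [Multiset.lcm_cons] at h
    have h' : p ^ k ∣ Nat.lcm a s.lcm := h
    by_cases ha : a = 0
    · exact ⟨a, Multiset.mem_cons_self a s, by rw [ha]; exact dvd_zero _⟩
    by_cases hs : s.lcm = 0
    · rw [Multiset.lcm_eq_zero_iff] at hs
      exact ⟨0, Multiset.mem_cons_of_mem hs, dvd_zero _⟩
    have hl : Nat.lcm a s.lcm ≠ 0 := Nat.lcm_ne_zero ha hs
    rw [hp.pow_dvd_iff_le_factorization hl, Nat.factorization_lcm ha hs] at h'
    simp only [Finsupp.sup_apply] at h'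
    rcases le_sup_iff.mp h' with h1 | h1
    · exact ⟨a, Multiset.mem_cons_self a s, (hp.pow_dvd_iff_le_factorization ha).mpr h1⟩
    · obtain ⟨c, hc, hd⟩ := ih ((hp.pow_dvd_iff_le_factorization hs).mpr h1)
      exact ⟨c, Multiset.mem_cons_of_mem hc, hd⟩

theorem no_order_eight (σ : Equiv.Perm (Fin 6)) : orderOf σ ≠ 8 := by
  intro h
  rw [← Equiv.Perm.lcm_cycleType] at h
  have h1 : 2 ^ 3 ∣ σ.cycleType.lcm := by rw [h]; norm_num
  obtain ⟨c, hc, hd⟩ := prime_pow_dvd_multiset_lcm 2 3 Nat.prime_two _ h1 (by norm_num)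
  have h2 : c ≤ σ.cycleType.sum := Multiset.le_sum_of_mem hc
  have h3 := Equiv.Perm.sum_cycleType_le σ
  have h4 : 0 < c := by
    have := Equiv.Perm.two_le_of_mem_cycleType hc
    omega
  have h5 := Nat.le_of_dvd h4 hd
  simp at h3
  omega


noncomputable def diagHom (F : Type*) [Field F] : F →* Matrix (Fin 2) (Fin 2) F where
  toFun a := Matrix.diagonal ![a, 1]
  map_one' := by
    ext i j
    fin_cases i <;> fin_cases j <;> simp [Matrix.diagonal]
  map_mul' a b := by
    rw [Matrix.diagonal_mul_diagonal]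
    congr 1
    ext i
    fin_cases i <;> simp

theorem exists_order_eight {F : Type*} [Field F] [Fintype F] (hF : Fintype.card F = 9) :
    ∃ y : Matrix.ProjGenLinGroup (Fin 2) F, orderOf y = 8 := by
  classical
  have hcard : Nat.card Fˣ = 8 := by
    rw [Nat.card_eq_fintype_card, Fintype.card_units, hF]
  obtain ⟨ω, hω⟩ := IsCyclic.exists_generator (α := Fˣ)
  have hord : orderOf ω = 8 := by
    rw [orderOf_eq_card_of_forall_mem_zpowers hω, hcard]
  let Φ : Fˣ →* Matrix.ProjGenLinGroup (Fin 2) F :=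
    (Matrix.ProjGenLinGroup.mk).comp (Units.map (diagHom F))
  have hinj : Function.Injective Φ := by
    rw [injective_iff_map_eq_one]
    intro u hu
    have h1 : Matrix.ProjGenLinGroup.mk (Units.map (diagHom F) u) = 1 := hu
    rw [Matrix.ProjGenLinGroup.mk_eq_one, Matrix.GeneralLinearGroup.center_eq_range_scalar] at h1
    obtain ⟨v, hv⟩ := h1
    have h2 := congrArg (fun g : GL (Fin 2) F => (g : Matrix (Fin 2) (Fin 2) F)) hv
    simp only [Units.coe_map] at h2
    have h3 := congrFun (congrFun h2 1) 1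
    have h4 := congrFun (congrFun h2 0) 0
    simp [diagHom, Matrix.GeneralLinearGroup.scalar, Matrix.scalar] at h3 h4
    apply Units.ext
    rw [← h4, h3]
  exact ⟨Φ ω, by rw [orderOf_injective Φ hinj, hord]⟩


/-- Let F be a field with 9 elements. The symmetric group S_6 is not isomorphic to PGL_2(F) (although both have index-2 subgroups isomorphic to A_6). -/
theorem result {F : Type*} [Field F] [Fintype F] (hF : Fintype.card F = 9) : ¬ Nonempty (Equiv.Perm (Fin 6) ≃* Matrix.ProjGenLinGroup (Fin 2) F) := by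
  rintro ⟨e⟩
  obtain ⟨y, hy⟩ := exists_order_eight hF
  have h1 : orderOf (e.symm y) = 8 := by rw [MulEquiv.orderOf_eq, hy]
  exact no_order_eight _ h1

end Cfsg.Agent.S2541
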