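import Cfsg.Statements.S2550
import Mathlib
import Cfsg.Agent.S0243

set_option autoImplicit false
open Cfsg

namespace Cfsg.Agent.S2550

open Matrix

/-- The elementary matrix with a single `1` in position `(0, 2)`. -/
def e3mat (K : Type*) [Field K] : Matrix (Fin 3) (Fin 3) K :=
  Matrix.of (fun (k j : Fin 3) => if k = 0 ∧ j = 2 then (1 : K) else 0)

theorem inv_conj3 {K : Type*} [Field K] [Fintype K] (hK : Fintype.card K = 4)
    (t : Matrix.SpecialLinearGroup (Fin 3) K) (ht1 : t ≠ 1) (ht2 : t * t = 1) :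
    ∃ g : Matrix.SpecialLinearGroup (Fin 3) K,
      (t : Matrix (Fin 3) (Fin 3) K) * (g : Matrix (Fin 3) (Fin 3) K)
        = (g : Matrix (Fin 3) (Fin 3) K) * (1 + e3mat K) := by
  classical
  have h2 : (2 : K) = 0 := by
    have h4 : ((Fintype.card K : ℕ) : K) = 0 := Nat.cast_card_eq_zero K
    rw [hK] at h4
    have h22 : (2 : K) * 2 = 0 := by
      have h5 : ((4 : ℕ) : K) = 2 * 2 := by norm_num
      rw [← h5]; exact h4
    exact mul_self_eq_zero.1 h22
  obtain ⟨M, hM⟩ : ∃ M : Matrix (Fin 3) (Fin 3) K, M = (t : Matrix (Fin 3) (Fin 3) K) := ⟨_, rfl⟩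
  have hMM : M * M = 1 := by
    rw [hM, ← Matrix.SpecialLinearGroup.coe_mul, ht2, Matrix.SpecialLinearGroup.coe_one]
  have hXX : ∀ X : Matrix (Fin 3) (Fin 3) K, X + X = 0 := by
    intro X
    ext i j
    rw [Matrix.add_apply, Matrix.zero_apply, ← two_mul, h2, zero_mul]
  obtain ⟨N, hN⟩ : ∃ N : Matrix (Fin 3) (Fin 3) K, N = M - 1 := ⟨_, rfl⟩
  have hNN : N * N = 0 := by
    have e : (M - 1) * (M - 1) = (M * M + 1) - (M + M) := by
      simp only [sub_mul, mul_sub, Matrix.mul_one, Matrix.one_mul]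
      abel
    rw [hN, e, hMM, hXX, hXX, sub_zero]
  have hN0 : N ≠ 0 := by
    intro h0
    apply ht1
    have hM1 : M = 1 := by rw [hN] at h0; exact sub_eq_zero.1 h0
    exact Subtype.ext (hM.symm.trans hM1)
  obtain ⟨w, hw⟩ : ∃ w : Fin 3 → K, N *ᵥ w ≠ 0 := by
    by_contra hcon
    push_neg at hcon
    apply hN0
    apply Matrix.ext_of_mulVec_single
    intro i
    rw [hcon, Matrix.zero_mulVec]
  obtain ⟨u, hu⟩ : ∃ u : Fin 3 → K, u = N *ᵥ w := ⟨_, rfl⟩
  have hu0 : u ≠ 0 := by rw [hu]; exact hw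
  have hNw : N *ᵥ w = u := hu.symm
  have hNu : N *ᵥ u = 0 := by rw [hu, Matrix.mulVec_mulVec, hNN, Matrix.zero_mulVec]
  have hrk : LinearMap.range (Matrix.mulVecLin N) ≤ LinearMap.ker (Matrix.mulVecLin N) := by
    rintro _ ⟨y, rfl⟩
    rw [LinearMap.mem_ker, Matrix.mulVecLin_apply, Matrix.mulVecLin_apply, Matrix.mulVec_mulVec,
      hNN, Matrix.zero_mulVec]
  have hdim := LinearMap.finrank_range_add_finrank_ker (Matrix.mulVecLin N)
  rw [Module.finrank_fin_fun] at hdim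
  have hmono := Submodule.finrank_mono hrk
  obtain ⟨v, hNv, hvu⟩ : ∃ v : Fin 3 → K, N *ᵥ v = 0 ∧ v ∉ Submodule.span K {u} := by
    by_contra hcon
    push_neg at hcon
    have hle : LinearMap.ker (Matrix.mulVecLin N) ≤ Submodule.span K {u} := by
      intro y hy
      rw [LinearMap.mem_ker, Matrix.mulVecLin_apply] at hy
      exact hcon y hy
    have h3 := Submodule.finrank_mono hle
    rw [finrank_span_singleton hu0] at h3
    omega
  obtain ⟨g0, hg0⟩ : ∃ g0 : Matrix (Fin 3) (Fin 3) K,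
      g0 = Matrix.of (fun i j => (![u, v, w] : Fin 3 → Fin 3 → K) j i) := ⟨_, rfl⟩
  have hg0v : ∀ a : Fin 3 → K, g0 *ᵥ a = a 0 • u + a 1 • v + a 2 • w := by
    intro a
    funext i
    rw [hg0]
    simp [Matrix.mulVec, dotProduct, Fin.sum_univ_three] <;> ring
  have hEv : ∀ a : Fin 3 → K, e3mat K *ᵥ a = ![a 2, 0, 0] := by
    intro a
    funext i
    fin_cases i <;> simp [e3mat, Matrix.mulVec, dotProduct, Fin.sum_univ_three]
  have hlin : ∀ a : Fin 3 → K, N *ᵥ (a 0 • u + a 1 • v + a 2 • w) = a 2 • u := by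
    intro a
    rw [Matrix.mulVec_add, Matrix.mulVec_add, Matrix.mulVec_smul, Matrix.mulVec_smul,
      Matrix.mulVec_smul, hNu, hNv, hNw, smul_zero, smul_zero, zero_add, zero_add]
  have hNg0 : N * g0 = g0 * e3mat K := by
    apply Matrix.ext_of_mulVec_single
    intro j
    have e1 : (N * g0) *ᵥ Pi.single j 1 = (Pi.single j (1 : K) : Fin 3 → K) 2 • u := by
      rw [← Matrix.mulVec_mulVec, hg0v, hlin]
    have e2 : (g0 * e3mat K) *ᵥ Pi.single j 1 = (Pi.single j (1 : K) : Fin 3 → K) 2 • u := by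
      rw [← Matrix.mulVec_mulVec, hEv, hg0v]
      simp
    rw [e1, e2]
  have hdet0 : g0.det ≠ 0 := by
    intro hd
    obtain ⟨a, ha0, ha⟩ := Matrix.exists_mulVec_eq_zero_iff.2 hd
    rw [hg0v] at ha
    have h1 := hlin a
    rw [ha, Matrix.mulVec_zero] at h1
    have ha2 : a 2 = 0 := by
      rcases smul_eq_zero.1 h1.symm with h | h
      · exact h
      · exact absurd h hu0
    rw [ha2, zero_smul, add_zero] at ha
    have ha1 : a 1 = 0 := by
      by_contra h1'
      apply hvu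
      rw [Submodule.mem_span_singleton]
      have h5 : (a 1)⁻¹ • (a 0 • u + a 1 • v) = 0 := by rw [ha, smul_zero]
      rw [smul_add, smul_smul, smul_smul, inv_mul_cancel₀ h1', one_smul] at h5
      refine ⟨-((a 1)⁻¹ * a 0), ?_⟩
      rw [neg_smul]
      exact (eq_neg_of_add_eq_zero_right h5).symm
    rw [ha1, zero_smul, add_zero] at ha
    have ha0' : a 0 = 0 := by
      rcases smul_eq_zero.1 ha with h | h
      · exact h
      · exact absurd h hu0
    apply ha0
    funext i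
    fin_cases i <;> simp [ha0', ha1, ha2]
  obtain ⟨D, hD⟩ : ∃ D : Matrix (Fin 3) (Fin 3) K,
      D = Matrix.diagonal ![1, (g0.det)⁻¹, 1] := ⟨_, rfl⟩
  have hED : e3mat K * D = D * e3mat K := by
    rw [hD]
    ext i j
    rw [Matrix.mul_diagonal, Matrix.diagonal_mul]
    fin_cases i <;> fin_cases j <;> simp [e3mat]
  have hdetg : (g0 * D).det = 1 := by
    rw [Matrix.det_mul, hD, Matrix.det_diagonal, Fin.prod_univ_three]
    simp [mul_inv_cancel₀ hdet0]
  have hNg : N * (g0 * D) = (g0 * D) * e3mat K := by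
    rw [← Matrix.mul_assoc, hNg0, Matrix.mul_assoc, hED, ← Matrix.mul_assoc]
  refine ⟨⟨g0 * D, hdetg⟩, ?_⟩
  show (t : Matrix (Fin 3) (Fin 3) K) * (g0 * D) = (g0 * D) * (1 + e3mat K)
  rw [← hM, mul_add, mul_one, ← hNg, hN, sub_mul, one_mul]
  abel

theorem psl3_inv_conj {K : Type*} [Field K] [Fintype K] (hK : Fintype.card K = 4)
    (s1 s2 : Matrix.ProjectiveSpecialLinearGroup (Fin 3) K) (h1 : s1 ≠ 1) (h1' : s1 ^ 2 = 1)
    (h2 : s2 ≠ 1) (h2' : s2 ^ 2 = 1) :
    ∃ c : Matrix.ProjectiveSpecialLinearGroup (Fin 3) K, s2 = c * s1 * c⁻¹ := by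
  have hZK : ∀ z : Matrix.SpecialLinearGroup (Fin 3) K,
      z ∈ Subgroup.center (Matrix.SpecialLinearGroup (Fin 3) K) → z ^ 3 = 1 := by
    intro z hz
    obtain ⟨r, hr, hrz⟩ := Matrix.SpecialLinearGroup.mem_center_iff.1 hz
    rw [Fintype.card_fin] at hr
    apply Subtype.ext
    rw [Matrix.SpecialLinearGroup.coe_pow, ← hrz, ← map_pow, hr, map_one]
    exact Matrix.SpecialLinearGroup.coe_one.symm
  have key : ∀ s : Matrix.ProjectiveSpecialLinearGroup (Fin 3) K, s ≠ 1 → s ^ 2 = 1 →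
      ∃ t g : Matrix.SpecialLinearGroup (Fin 3) K, QuotientGroup.mk t = s ∧
        (t : Matrix (Fin 3) (Fin 3) K) * (g : Matrix (Fin 3) (Fin 3) K)
          = (g : Matrix (Fin 3) (Fin 3) K) * (1 + e3mat K) := by
    intro s hs hs2
    obtain ⟨t0, rfl⟩ := QuotientGroup.mk_surjective s
    have hc : t0 ^ 2 ∈ Subgroup.center (Matrix.SpecialLinearGroup (Fin 3) K) := by
      apply (QuotientGroup.eq_one_iff _).1
      rw [QuotientGroup.mk_pow]; exact hs2
    have h6 : (t0 ^ 2) ^ 3 = 1 := hZK _ hc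
    have ht : (t0 ^ 3) * (t0 ^ 3) = 1 := by
      have e : t0 ^ 3 * t0 ^ 3 = (t0 ^ 2) ^ 3 := by group
      rw [e, h6]
    have hmk : (QuotientGroup.mk (t0 ^ 3) : Matrix.ProjectiveSpecialLinearGroup (Fin 3) K)
        = QuotientGroup.mk t0 := by
      rw [QuotientGroup.mk_pow, pow_succ, hs2, one_mul]
    have hne : t0 ^ 3 ≠ 1 := by
      intro h
      apply hs
      exact (hmk.symm.trans (congrArg QuotientGroup.mk h)).trans (QuotientGroup.mk_one _)
    obtain ⟨g, hg⟩ := inv_conj3 hK (t0 ^ 3) hne ht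
    exact ⟨t0 ^ 3, g, hmk, hg⟩
  obtain ⟨t1, g1, ht1, hg1⟩ := key s1 h1 h1'
  obtain ⟨t2, g2, ht2, hg2⟩ := key s2 h2 h2'
  have e : ∀ t g : Matrix.SpecialLinearGroup (Fin 3) K,
      (t : Matrix (Fin 3) (Fin 3) K) * (g : Matrix (Fin 3) (Fin 3) K)
        = (g : Matrix (Fin 3) (Fin 3) K) * (1 + e3mat K) →
      ((g⁻¹ * t * g : Matrix.SpecialLinearGroup (Fin 3) K) : Matrix (Fin 3) (Fin 3) K)
        = 1 + e3mat K := by
    intro t g h
    rw [Matrix.SpecialLinearGroup.coe_mul, Matrix.SpecialLinearGroup.coe_mul, Matrix.mul_assoc, h,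
      ← Matrix.mul_assoc, ← Matrix.SpecialLinearGroup.coe_mul, inv_mul_cancel,
      Matrix.SpecialLinearGroup.coe_one, Matrix.one_mul]
  have hh : g1⁻¹ * t1 * g1 = g2⁻¹ * t2 * g2 :=
    Subtype.ext ((e t1 g1 hg1).trans (e t2 g2 hg2).symm)
  have hconj : t2 = g2 * g1⁻¹ * t1 * (g2 * g1⁻¹)⁻¹ := by
    calc t2 = g2 * (g2⁻¹ * t2 * g2) * g2⁻¹ := by group
      _ = g2 * (g1⁻¹ * t1 * g1) * g2⁻¹ := by rw [hh]
      _ = g2 * g1⁻¹ * t1 * (g2 * g1⁻¹)⁻¹ := by group
  refine ⟨QuotientGroup.mk (g2 * g1⁻¹), ?_⟩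
  rw [← ht1, ← ht2, ← QuotientGroup.mk_mul, ← QuotientGroup.mk_inv, ← QuotientGroup.mk_mul,
    ← hconj]

/-- Let F be a field with 2 elements and K a field with 4 elements. PSL_4(F) and PSL_3(K) have the same order (20160) but are not isomorphic. -/
theorem result {F K : Type*} [Field F] [Fintype F] [Field K] [Fintype K] (hF : Fintype.card F = 2) (hK : Fintype.card K = 4) : Nat.card (Matrix.ProjectiveSpecialLinearGroup (Fin 4) F) = Nat.card (Matrix.ProjectiveSpecialLinearGroup (Fin 3) K) ∧ ¬ Nonempty (Matrix.ProjectiveSpecialLinearGroup (Fin 4) F ≃* Matrix.ProjectiveSpecialLinearGroup (Fin 3) K) := by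
  refine ⟨?_, ?_⟩
  · have hc1 := Cfsg.Agent.S0243.result hF 4 (by norm_num)
    have hc2 := Cfsg.Agent.S0243.result hK 3 (by norm_num)
    rw [Fin.prod_univ_four] at hc1
    rw [Fin.prod_univ_three] at hc2
    norm_num at hc1 hc2
    omega
  · rintro ⟨φ⟩
    classical
    have hF1 : ∀ x : F, x ≠ 0 → x = 1 := by
      intro x hx
      have h := FiniteField.pow_card_sub_one_eq_one x hx
      rw [hF] at h
      simpa using h
    have h11 : (1 : F) + 1 = 0 := by
      have h4 : ((Fintype.card F : ℕ) : F) = 0 := Nat.cast_card_eq_zero F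
      rw [hF] at h4
      have h5 : ((2 : ℕ) : F) = 1 + 1 := by norm_num
      rw [← h5]; exact h4
    have hZF : ∀ z : Matrix.SpecialLinearGroup (Fin 4) F,
        z ∈ Subgroup.center (Matrix.SpecialLinearGroup (Fin 4) F) → z = 1 := by
      intro z hz
      obtain ⟨r, hr, hrz⟩ := Matrix.SpecialLinearGroup.mem_center_iff.1 hz
      have hr0 : r ≠ 0 := by
        rintro rfl
        rw [Fintype.card_fin] at hr
        simp at hr
      rw [hF1 r hr0, map_one] at hrz
      exact Subtype.ext hrz.symm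
    obtain ⟨N1, hN1⟩ : ∃ N1 : Matrix (Fin 4) (Fin 4) F,
        N1 = !![0, 1, 0, 0; 0, 0, 0, 0; 0, 0, 0, 0; 0, 0, 0, 0] := ⟨_, rfl⟩
    obtain ⟨N2, hN2⟩ : ∃ N2 : Matrix (Fin 4) (Fin 4) F,
        N2 = !![0, 1, 0, 0; 0, 0, 0, 0; 0, 0, 0, 1; 0, 0, 0, 0] := ⟨_, rfl⟩
    have hXX : ∀ X : Matrix (Fin 4) (Fin 4) F, X + X = 0 := by
      intro X
      ext i j
      have e : X i j + X i j = X i j * (1 + 1) := by ring
      rw [Matrix.add_apply, Matrix.zero_apply, e, h11, mul_zero]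
    have hN1sq : N1 * N1 = 0 := by
      rw [hN1]
      ext i j
      fin_cases i <;> fin_cases j <;> simp [Matrix.mul_apply, Fin.sum_univ_four]
    have hN2sq : N2 * N2 = 0 := by
      rw [hN2]
      ext i j
      fin_cases i <;> fin_cases j <;> simp [Matrix.mul_apply, Fin.sum_univ_four]
    have hA : ∀ N : Matrix (Fin 4) (Fin 4) F, N * N = 0 → (1 + N) * (1 + N) = 1 := by
      intro N hN
      have e : (1 + N) * (1 + N) = 1 + (N + N) + N * N := by
        simp only [add_mul, mul_add, Matrix.mul_one, Matrix.one_mul]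
        abel
      rw [e, hN, hXX, add_zero, add_zero]
    have hdet : ∀ N : Matrix (Fin 4) (Fin 4) F, N * N = 0 → (1 + N).det = 1 := by
      intro N hN
      apply hF1
      intro h0
      have h1 := congrArg Matrix.det (hA N hN)
      rw [Matrix.det_mul, h0, Matrix.det_one, mul_zero] at h1
      exact zero_ne_one h1
    obtain ⟨a1, ha1⟩ : ∃ a1 : Matrix.SpecialLinearGroup (Fin 4) F,
        a1 = ⟨1 + N1, hdet N1 hN1sq⟩ := ⟨_, rfl⟩
    obtain ⟨a2, ha2⟩ : ∃ a2 : Matrix.SpecialLinearGroup (Fin 4) F,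
        a2 = ⟨1 + N2, hdet N2 hN2sq⟩ := ⟨_, rfl⟩
    have ha1v : (a1 : Matrix (Fin 4) (Fin 4) F) = 1 + N1 := by rw [ha1]
    have ha2v : (a2 : Matrix (Fin 4) (Fin 4) F) = 1 + N2 := by rw [ha2]
    have ha1sq : a1 * a1 = 1 := by
      apply Subtype.ext
      rw [Matrix.SpecialLinearGroup.coe_mul, ha1v]
      exact hA N1 hN1sq
    have ha2sq : a2 * a2 = 1 := by
      apply Subtype.ext
      rw [Matrix.SpecialLinearGroup.coe_mul, ha2v]
      exact hA N2 hN2sq
    have ha1ne : a1 ≠ 1 := by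
      intro h
      have h1 : (a1 : Matrix (Fin 4) (Fin 4) F) = 1 := by
        rw [h]; exact Matrix.SpecialLinearGroup.coe_one
      rw [ha1v] at h1
      have h2 : N1 = 0 := by simpa using h1
      have h3 := congrFun (congrFun h2 0) 1
      rw [hN1] at h3
      simp at h3
    have ha2ne : a2 ≠ 1 := by
      intro h
      have h1 : (a2 : Matrix (Fin 4) (Fin 4) F) = 1 := by
        rw [h]; exact Matrix.SpecialLinearGroup.coe_one
      rw [ha2v] at h1
      have h2 : N2 = 0 := by simpa using h1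
      have h3 := congrFun (congrFun h2 0) 1
      rw [hN2] at h3
      simp at h3
    obtain ⟨s1, hs1def⟩ : ∃ s1 : Matrix.ProjectiveSpecialLinearGroup (Fin 4) F,
        s1 = QuotientGroup.mk a1 := ⟨_, rfl⟩
    obtain ⟨s2, hs2def⟩ : ∃ s2 : Matrix.ProjectiveSpecialLinearGroup (Fin 4) F,
        s2 = QuotientGroup.mk a2 := ⟨_, rfl⟩
    have hs1 : s1 ≠ 1 := by
      intro h
      rw [hs1def] at h
      exact ha1ne (hZF a1 ((QuotientGroup.eq_one_iff a1).1 h))
    have hs2 : s2 ≠ 1 := by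
      intro h
      rw [hs2def] at h
      exact ha2ne (hZF a2 ((QuotientGroup.eq_one_iff a2).1 h))
    have hs1sq : s1 ^ 2 = 1 := by
      have h := congrArg (QuotientGroup.mk :
        Matrix.SpecialLinearGroup (Fin 4) F → Matrix.ProjectiveSpecialLinearGroup (Fin 4) F) ha1sq
      rw [QuotientGroup.mk_mul] at h
      rw [hs1def, pow_two]
      exact h
    have hs2sq : s2 ^ 2 = 1 := by
      have h := congrArg (QuotientGroup.mk :
        Matrix.SpecialLinearGroup (Fin 4) F → Matrix.ProjectiveSpecialLinearGroup (Fin 4) F) ha2sq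
      rw [QuotientGroup.mk_mul] at h
      rw [hs2def, pow_two]
      exact h
    have hφ1 : φ s1 ≠ 1 := fun h => hs1 ((MulEquiv.map_eq_one_iff φ).1 h)
    have hφ2 : φ s2 ≠ 1 := fun h => hs2 ((MulEquiv.map_eq_one_iff φ).1 h)
    have hφ1sq : φ s1 ^ 2 = 1 := by rw [← map_pow, hs1sq, map_one]
    have hφ2sq : φ s2 ^ 2 = 1 := by rw [← map_pow, hs2sq, map_one]
    obtain ⟨c, hc⟩ := psl3_inv_conj hK (φ s1) (φ s2) hφ1 hφ1sq hφ2 hφ2sq
    obtain ⟨g, hg⟩ := QuotientGroup.mk_surjective (φ.symm c)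
    have h3 : (QuotientGroup.mk a2 : Matrix.ProjectiveSpecialLinearGroup (Fin 4) F)
        = QuotientGroup.mk (g * a1 * g⁻¹) := by
      rw [QuotientGroup.mk_mul, QuotientGroup.mk_mul, QuotientGroup.mk_inv, hg, ← hs1def, ← hs2def]
      apply φ.injective
      rw [map_mul, map_mul, map_inv, MulEquiv.apply_symm_apply]
      exact hc
    have h4 : (g * a1 * g⁻¹)⁻¹ * a2 ∈ Subgroup.center (Matrix.SpecialLinearGroup (Fin 4) F) :=
      QuotientGroup.eq.1 h3.symm
    have h5 := hZF _ h4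
    have h6 : a2 * g = g * a1 := by
      have h6' : a2 = g * a1 * g⁻¹ := by
        calc a2 = (g * a1 * g⁻¹) * ((g * a1 * g⁻¹)⁻¹ * a2) := by group
          _ = g * a1 * g⁻¹ := by rw [h5, mul_one]
      rw [h6']; group
    obtain ⟨G, hG⟩ : ∃ G : Matrix (Fin 4) (Fin 4) F, G = (g : Matrix (Fin 4) (Fin 4) F) :=
      ⟨_, rfl⟩
    have h7 : N2 * G = G * N1 := by
      have h := congrArg
        (fun z : Matrix.SpecialLinearGroup (Fin 4) F => (z : Matrix (Fin 4) (Fin 4) F)) h6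
      simp only [Matrix.SpecialLinearGroup.coe_mul] at h
      rw [ha1v, ha2v, ← hG, add_mul, mul_add, one_mul, mul_one] at h
      exact add_left_cancel h
    have hGdet : G.det = 1 := by rw [hG]; exact g.2
    have hrow1 : ∀ j, G 1 j = if j = 1 then G 0 0 else 0 := by
      intro j
      have e := congrFun (congrFun h7 0) j
      rw [hN1, hN2] at e
      fin_cases j <;> simpa [Matrix.mul_apply, Fin.sum_univ_four] using e
    have hrow3 : ∀ j, G 3 j = if j = 1 then G 2 0 else 0 := by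
      intro j
      have e := congrFun (congrFun h7 2) j
      rw [hN1, hN2] at e
      fin_cases j <;> simpa [Matrix.mul_apply, Fin.sum_univ_four] using e
    have hdet0 : G.det = 0 := by
      rcases eq_or_ne (G 0 0) 0 with h00 | h00
      · apply Matrix.det_eq_zero_of_row_eq_zero 1
        intro j
        rw [hrow1, h00]
        simp
      · rcases eq_or_ne (G 2 0) 0 with h20 | h20
        · apply Matrix.det_eq_zero_of_row_eq_zero 3
          intro j
          rw [hrow3, h20]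
          simp
        · refine Matrix.det_zero_of_row_eq (show (1 : Fin 4) ≠ 3 by decide) ?_
          funext j
          rw [hrow1, hrow3, hF1 _ h00, hF1 _ h20]
    rw [hGdet] at hdet0
    exact one_ne_zero hdet0

end Cfsg.Agent.S2550
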