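import Cfsg.Statements.S2552
import Mathlib
import Cfsg.Statements.S2552
import Cfsg.Agent.S2579

set_option autoImplicit false
open Cfsg
open scoped commutatorElement

namespace Cfsg.Agent.S2552

open Module

/-- Let F be a finite field and n ≥ 1. For every k, the special linear group SL_n(F) acts transitively on the set of k-dimensional subspaces of F^n: any two subspaces of the same dimension are carried onto each other by some matrix of determinant 1. -/
theorem result {F : Type*} [Field F] [Fintype F] (n : ℕ) (hn : 1 ≤ n) (U₁ U₂ : Submodule F (Fin n → F)) (h : Module.finrank F U₁ = Module.finrank F U₂) : ∃ g : Matrix.SpecialLinearGroup (Fin n) F, U₁.map ((Matrix.SpecialLinearGroup.toLin' g : (Fin n → F) ≃ₗ[F] (Fin n → F)) : (Fin n → F) →ₗ[F] (Fin n → F)) = U₂ := by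
  classical
  by_cases h0 : finrank F U₂ = 0
  · have h2 : U₂ = ⊥ := Submodule.finrank_eq_zero.mp h0
    have h1 : U₁ = ⊥ := Submodule.finrank_eq_zero.mp (h.trans h0)
    refine ⟨1, ?_⟩
    rw [h1, h2, Submodule.map_bot]
  · obtain ⟨g₀, hg₀⟩ := Submodule.exists_linearEquiv_restrict_eq (LinearEquiv.ofFinrankEq U₁ U₂ h)
    have hmap0 : U₁.map (g₀ : (Fin n → F) →ₗ[F] (Fin n → F)) = U₂ := by
      ext y
      constructor
      · rintro ⟨x, hx, rfl⟩
        have := hg₀ ⟨x, hx⟩
        show g₀ x ∈ U₂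
        rw [← this]; exact Subtype.mem _
      · intro hy
        refine ⟨((LinearEquiv.ofFinrankEq U₁ U₂ h).symm ⟨y, hy⟩ : U₁), Subtype.mem _, ?_⟩
        have := hg₀ ((LinearEquiv.ofFinrankEq U₁ U₂ h).symm ⟨y, hy⟩)
        show g₀ _ = y
        rw [← this]; simp
    obtain ⟨G₀, hG₀⟩ : ∃ G₀ : Matrix (Fin n) (Fin n) F,
        G₀ = LinearMap.toMatrix' (g₀ : (Fin n → F) →ₗ[F] (Fin n → F)) := ⟨_, rfl⟩
    have hG₀lin : Matrix.toLin' G₀ = (g₀ : (Fin n → F) →ₗ[F] (Fin n → F)) := by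
      rw [hG₀, Matrix.toLin'_toMatrix']
    have hG₀det : G₀.det ≠ 0 := by
      rw [hG₀, LinearMap.det_toMatrix']
      exact (LinearEquiv.isUnit_det' g₀).ne_zero
    have hU₂ne : U₂ ≠ ⊥ := fun hb => h0 (by rw [hb]; simp)
    obtain ⟨v, hvU, hv0⟩ := Submodule.exists_mem_ne_zero_of_ne_bot hU₂ne
    obtain ⟨i, hi⟩ : ∃ i, v i ≠ 0 := by
      by_contra hcon
      push Not at hcon
      exact hv0 (funext hcon)
    obtain ⟨δ, hδ⟩ : ∃ δ : F, δ = (G₀.det)⁻¹ := ⟨_, rfl⟩
    obtain ⟨H, hH⟩ : ∃ H : Matrix (Fin n) (Fin n) F,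
        H = 1 + Matrix.vecMulVec ((δ - 1) • v) ((v i)⁻¹ • (Pi.single i (1 : F) : Fin n → F)) :=
      ⟨_, rfl⟩
    have hHdet : H.det = δ := by
      rw [hH, Cfsg.Agent.S2579.det_R79]
      simp only [smul_dotProduct, dotProduct_smul, single_dotProduct, one_mul, smul_eq_mul]
      field_simp
      ring
    have hHmap : ∀ x ∈ U₂, H.mulVec x ∈ U₂ := by
      intro x hx
      rw [hH, Cfsg.Agent.S2579.R_mulVec79]
      exact U₂.add_mem hx (U₂.smul_mem _ (U₂.smul_mem _ hvU))
    have hMdet : (H * G₀).det = 1 := by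
      rw [Matrix.det_mul, hHdet, hδ, inv_mul_cancel₀ hG₀det]
    obtain ⟨s, hs⟩ : ∃ s : Matrix.SpecialLinearGroup (Fin n) F,
        (s : Matrix (Fin n) (Fin n) F) = H * G₀ := ⟨⟨_, hMdet⟩, rfl⟩
    refine ⟨s, ?_⟩
    rw [Matrix.SpecialLinearGroup.toLin'_to_linearMap, hs]
    rw [Matrix.toLin'_mul, Submodule.map_comp, hG₀lin, hmap0]
    have hHinj : Function.Injective (Matrix.toLin' H) := by
      have hu : IsUnit H := by
        rw [Matrix.isUnit_iff_isUnit_det, hHdet, hδ]
        exact (inv_ne_zero hG₀det).isUnit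
      have := Matrix.mulVec_injective_iff_isUnit.mpr hu
      intro a b hab
      exact this (by simpa [Matrix.toLin'_apply] using hab)
    apply Submodule.eq_of_le_of_finrank_eq
    · rintro x ⟨y, hy, rfl⟩
      rw [Matrix.toLin'_apply]
      exact hHmap y hy
    · exact (LinearEquiv.finrank_eq (Submodule.equivMapOfInjective _ hHinj U₂)).symm

end Cfsg.Agent.S2552
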