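import Cfsg.Statements.S2564
import Mathlib
import Cfsg.Statements.S2564
import Cfsg.Agent.S0832

set_option autoImplicit false
open Cfsg
open scoped commutatorElement

namespace Cfsg.Agent.S2564

open Cfsg.Agent.S0832

def chi64 (a : ZMod 2) : ℤ := if a = 0 then 1 else -1

theorem chi_add64 : ∀ a b : ZMod 2, chi64 (a + b) = chi64 a * chi64 b := by decide

theorem chi_one64 : ∀ a : ZMod 2, chi64 (a + 1) = - chi64 a := by decide

theorem zmod2_cases64 : ∀ a : ZMod 2, a = 0 ∨ a = 1 := by decide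

theorem zmod2_add_self64 : ∀ a : ZMod 2, a + a = 0 := by decide

theorem zmod2_mul_self64 : ∀ a : ZMod 2, a * a = a := by decide

theorem f_self64 (m : ℕ) (u : Fin m ⊕ Fin m → ZMod 2) :
    QuadraticMap.polar ⇑(qp32 (ZMod 2) m) u u = 0 := by
  rw [QuadraticMap.polar_self, two_nsmul]; exact zmod2_add_self64 _

theorem f_nondeg64 (m : ℕ) (s : Fin m ⊕ Fin m → ZMod 2) (hs : s ≠ 0) :
    ∃ t, QuadraticMap.polar ⇑(qp32 (ZMod 2) m) t s = 1 := by
  by_contra hcon
  push Not at hcon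
  apply hs
  apply (qp_nondeg32 (F := ZMod 2) m).1 s
  intro y
  rw [QuadraticMap.polarBilin_apply_apply, QuadraticMap.polar_comm]
  rcases zmod2_cases64 (QuadraticMap.polar ⇑(qp32 (ZMod 2) m) y s) with h | h
  · exact h
  · exact absurd h (hcon y)

theorem sum_zero64 (m : ℕ) (s : Fin m ⊕ Fin m → ZMod 2) (hs : s ≠ 0) :
    ∑ u : Fin m ⊕ Fin m → ZMod 2, chi64 (QuadraticMap.polar ⇑(qp32 (ZMod 2) m) u s) = 0 := by
  obtain ⟨t, ht⟩ := f_nondeg64 m s hs
  have h1 : ∑ u : Fin m ⊕ Fin m → ZMod 2, chi64 (QuadraticMap.polar ⇑(qp32 (ZMod 2) m) u s)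
      = ∑ u : Fin m ⊕ Fin m → ZMod 2, chi64 (QuadraticMap.polar ⇑(qp32 (ZMod 2) m) (u + t) s) :=
    (Equiv.sum_comp (Equiv.addRight t) (fun u => chi64 (QuadraticMap.polar ⇑(qp32 (ZMod 2) m) u s))).symm
  have h2 : ∑ u : Fin m ⊕ Fin m → ZMod 2, chi64 (QuadraticMap.polar ⇑(qp32 (ZMod 2) m) (u + t) s)
      = - ∑ u : Fin m ⊕ Fin m → ZMod 2, chi64 (QuadraticMap.polar ⇑(qp32 (ZMod 2) m) u s) := by
    rw [← Finset.sum_neg_distrib]
    apply Finset.sum_congr rfl
    intro u _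
    rw [QuadraticMap.polar_add_left, ht, chi_one64]
  omega

theorem q_zero64 (m : ℕ) (q : (Fin m ⊕ Fin m → ZMod 2) → ZMod 2)
    (hq : ∀ u v : (Fin m ⊕ Fin m → ZMod 2), q (u + v) = q u + q v + QuadraticMap.polar ⇑(qp32 (ZMod 2) m) u v) : q 0 = 0 := by
  have h := hq 0 0
  rw [add_zero, f_self64, add_zero] at h
  have h2 := zmod2_add_self64 (q 0)
  rw [← h] at h2; exact h2

theorem sum_sq64 (m : ℕ) (q : (Fin m ⊕ Fin m → ZMod 2) → ZMod 2)
    (hq : ∀ u v : (Fin m ⊕ Fin m → ZMod 2), q (u + v) = q u + q v + QuadraticMap.polar ⇑(qp32 (ZMod 2) m) u v) :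
    (∑ v : Fin m ⊕ Fin m → ZMod 2, chi64 (q v)) * (∑ v : Fin m ⊕ Fin m → ZMod 2, chi64 (q v)) = (Fintype.card (Fin m ⊕ Fin m → ZMod 2) : ℤ) := by
  classical
  rw [Finset.sum_mul_sum]
  have h1 : ∀ u : Fin m ⊕ Fin m → ZMod 2, ∑ v : Fin m ⊕ Fin m → ZMod 2, chi64 (q u) * chi64 (q v)
      = ∑ s : Fin m ⊕ Fin m → ZMod 2, chi64 (q s) * chi64 (QuadraticMap.polar ⇑(qp32 (ZMod 2) m) u s) := by
    intro u
    rw [← Equiv.sum_comp (Equiv.addRight u) (fun v => chi64 (q u) * chi64 (q v))]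
    apply Finset.sum_congr rfl
    intro s _
    simp only [Equiv.coe_addRight]
    have e1 : q (u + (s + u)) = q u + q (s + u) + QuadraticMap.polar ⇑(qp32 (ZMod 2) m) u (s + u) := hq u (s + u)
    have e2 : u + (s + u) = s := by
      funext j
      simp only [Pi.add_apply]
      linear_combination zmod2_add_self64 (u j)
    rw [e2, QuadraticMap.polar_add_right, f_self64, add_zero] at e1
    rw [← chi_add64, ← chi_add64, e1]
    congr 1
    linear_combination (-1 : ZMod 2) * zmod2_add_self64 (QuadraticMap.polar ⇑(qp32 (ZMod 2) m) u s)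
  rw [Finset.sum_congr rfl (fun u _ => h1 u), Finset.sum_comm]
  rw [Finset.sum_eq_single (0 : Fin m ⊕ Fin m → ZMod 2)]
  · rw [← Finset.mul_sum, q_zero64 m q hq]
    simp [chi64]
  · intro s _ hs
    rw [← Finset.mul_sum, sum_zero64 m s hs, mul_zero]
  · intro h; exact absurd (Finset.mem_univ _) h

/-- On the 2m-dimensional space over the field of two elements (m ≥ 1) let f be the alternating form obtained by polarizing the plus-type form Σ xᵢyᵢ, and let q be any quadratic form polarizing to f. For a vector w, the function q + f(·, w) again polarizes to f, and it is equivalent to q under an invertible linear map (that is, has the same type) if and only if q(w) = 0. -/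
theorem result (m : ℕ) (hm : 1 ≤ m) (q : (Fin m ⊕ Fin m → ZMod 2) → ZMod 2) (hq : (∀ u v : (Fin m ⊕ Fin m → ZMod 2), q (u + v) = q u + q v + (Cfsg.quadFormPlus m (ZMod 2) (u + v) - Cfsg.quadFormPlus m (ZMod 2) u - Cfsg.quadFormPlus m (ZMod 2) v))) (w : (Fin m ⊕ Fin m → ZMod 2)) :
    (∀ u v : (Fin m ⊕ Fin m → ZMod 2), (q (u + v) + (Cfsg.quadFormPlus m (ZMod 2) (u + v + w) - Cfsg.quadFormPlus m (ZMod 2) (u + v) - Cfsg.quadFormPlus m (ZMod 2) w)) =
        (q u + (Cfsg.quadFormPlus m (ZMod 2) (u + w) - Cfsg.quadFormPlus m (ZMod 2) u - Cfsg.quadFormPlus m (ZMod 2) w)) + (q v + (Cfsg.quadFormPlus m (ZMod 2) (v + w) - Cfsg.quadFormPlus m (ZMod 2) v - Cfsg.quadFormPlus m (ZMod 2) w)) +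
        (Cfsg.quadFormPlus m (ZMod 2) (u + v) - Cfsg.quadFormPlus m (ZMod 2) u - Cfsg.quadFormPlus m (ZMod 2) v)) ∧
    ((∃ g : (Fin m ⊕ Fin m → ZMod 2) ≃ₗ[ZMod 2] (Fin m ⊕ Fin m → ZMod 2), ∀ v, q v + (Cfsg.quadFormPlus m (ZMod 2) (v + w) - Cfsg.quadFormPlus m (ZMod 2) v - Cfsg.quadFormPlus m (ZMod 2) w) = q (g v)) ↔ q w = 0) := by
  classical
  have hf : ∀ a b : Fin m ⊕ Fin m → ZMod 2, Cfsg.quadFormPlus m (ZMod 2) (a + b) - Cfsg.quadFormPlus m (ZMod 2) a - Cfsg.quadFormPlus m (ZMod 2) b = QuadraticMap.polar ⇑(qp32 (ZMod 2) m) a b := by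
    intro a b
    simp only [QuadraticMap.polar, qp_apply32]
  simp only [hf] at hq ⊢
  refine ⟨?_, ?_, ?_⟩
  · intro u v
    rw [hq u v, QuadraticMap.polar_add_left]
    ring
  · rintro ⟨g, hg⟩
    by_contra hw
    have hw1 : q w = 1 := (zmod2_cases64 (q w)).resolve_left hw
    have hS := sum_sq64 m q hq
    have h1 : ∑ v : Fin m ⊕ Fin m → ZMod 2, chi64 (q v) = ∑ v : Fin m ⊕ Fin m → ZMod 2, chi64 (q (g v)) :=
      (Equiv.sum_comp g.toEquiv (fun v => chi64 (q v))).symm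
    have h2 : ∑ v : Fin m ⊕ Fin m → ZMod 2, chi64 (q (g v)) = - ∑ v : Fin m ⊕ Fin m → ZMod 2, chi64 (q (v + w)) := by
      rw [← Finset.sum_neg_distrib]
      apply Finset.sum_congr rfl
      intro v _
      rw [← hg v, ← chi_one64, hq v w, hw1]
      congr 1
      linear_combination (-1 : ZMod 2) * zmod2_add_self64 1
    have h3 : ∑ v : Fin m ⊕ Fin m → ZMod 2, chi64 (q (v + w)) = ∑ v : Fin m ⊕ Fin m → ZMod 2, chi64 (q v) :=
      Equiv.sum_comp (Equiv.addRight w) (fun v => chi64 (q v))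
    have h4 : ∑ v : Fin m ⊕ Fin m → ZMod 2, chi64 (q v) = 0 := by omega
    rw [h4, mul_zero] at hS
    have hpos : (0 : ℤ) < (Fintype.card (Fin m ⊕ Fin m → ZMod 2) : ℤ) := by
      exact_mod_cast Fintype.card_pos
    omega
  · intro hw
    let T : (Fin m ⊕ Fin m → ZMod 2) →ₗ[ZMod 2] (Fin m ⊕ Fin m → ZMod 2) :=
      LinearMap.id + ((QuadraticMap.polarBilin (qp32 (ZMod 2) m)).flip w).smulRight w
    have hT : ∀ v, T v = v + QuadraticMap.polar ⇑(qp32 (ZMod 2) m) v w • w := by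
      intro v
      simp [T]
    have hinv : Function.Involutive T := by
      intro v
      rw [hT, hT, QuadraticMap.polar_add_left, QuadraticMap.polar_smul_left, f_self64, smul_zero, add_zero, add_assoc, ← add_smul, zmod2_add_self64, zero_smul, add_zero]
    refine ⟨LinearEquiv.ofInvolutive T hinv, fun v => ?_⟩
    show _ = q (T v)
    rw [hT, hq, QuadraticMap.polar_smul_right]
    rcases zmod2_cases64 (QuadraticMap.polar ⇑(qp32 (ZMod 2) m) v w) with h | h
    · rw [h]; simp [q_zero64 m q hq]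
    · rw [h]; simp [hw]

end Cfsg.Agent.S2564
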