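import Cfsg.Statements.S2617
import Mathlib
import Cfsg.Statements.S2617
import Cfsg.Agent.S2562
import Cfsg.Agent.S0832

set_option autoImplicit false
open Cfsg
open scoped commutatorElement

namespace Cfsg.Agent.S2617

open Cfsg.Agent.S2562 Cfsg.Agent.S0832
open Module

/-- The two standard quadratic forms of even dimension 2m over a finite field are not isometric: there is no linear isomorphism carrying the elliptic form Σ_(i<m−1) x_i y_i + z₁² + z₁z₂ + ζ z₂² (t² + t + ζ without roots) to the hyperbolic form Σ_(i<m) x_i y_i (they have different Witt index). -/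
theorem result {F : Type*} [Field F] [Finite F] {m : ℕ} (hm : 1 ≤ m) (ζ : F) (hζ : ∀ t : F, t ^ 2 + t + ζ ≠ 0) (g : (Fin m ⊕ Fin m → F) ≃ₗ[F] ((Fin (m - 1) ⊕ Fin (m - 1)) ⊕ Fin 2 → F)) : ¬ (∀ v : Fin m ⊕ Fin m → F, Cfsg.quadFormMinus (m - 1) F 1 ζ (g v) = Cfsg.quadFormPlus m F v) := by
  intro h
  obtain ⟨L, hL, hLd⟩ := plus_exists62 F m
  have h1 : ∀ u ∈ L.map g.toLinearMap, qm62 F (m - 1) 1 ζ u = 0 := by
    rintro u ⟨v, hv, rfl⟩
    rw [qm_apply62]
    show Cfsg.quadFormMinus (m - 1) F 1 ζ (g v) = 0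
    rw [h v, ← qp_apply32]; exact hL v hv
  have h2 := ell_bound62 (m - 1) ζ hζ _ h1
  have h3 : finrank F (L.map g.toLinearMap) = finrank F L := (Submodule.equivMapOfInjective g.toLinearMap g.injective L).finrank_eq.symm
  omega

end Cfsg.Agent.S2617
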