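import Cfsg.Statements.S2561
import Mathlib
import Cfsg.Statements.S2561
import Cfsg.Agent.S2564
import Cfsg.Agent.S2616
import Cfsg.Agent.S2617
import Cfsg.Agent.S2623
import Cfsg.Agent.S2624
import Cfsg.Agent.S2562
import Cfsg.Agent.S0832
import Cfsg.Agent.S2618

set_option autoImplicit false
open Cfsg
open scoped commutatorElement

namespace Cfsg.Agent.S2561

open Cfsg.Agent.S2564 Cfsg.Agent.S2616 Cfsg.Agent.S2623 Cfsg.Agent.S2624 Cfsg.Agent.S2562 Cfsg.Agent.S0832 Cfsg.Agent.S2618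
open Module

theorem exists_qf61 (m : ℕ) (q : (Fin m ⊕ Fin m → ZMod 2) → ZMod 2)
    (hq : ∀ u v : (Fin m ⊕ Fin m → ZMod 2), q (u + v) = q u + q v + QuadraticMap.polar ⇑(qp32 (ZMod 2) m) u v) :
    ∃ Q : QuadraticForm (ZMod 2) (Fin m ⊕ Fin m → ZMod 2), (∀ v, Q v = q v) ∧
      (∀ u v, QuadraticMap.polar ⇑Q u v = QuadraticMap.polar ⇑(qp32 (ZMod 2) m) u v) ∧
      (QuadraticMap.polarBilin Q).Nondegenerate := by
  have hpol : ∀ u v, QuadraticMap.polar q u v = QuadraticMap.polar ⇑(qp32 (ZMod 2) m) u v := by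
    intro u v; rw [QuadraticMap.polar, hq u v]; ring
  have hq0 := q_zero64 m q hq
  obtain ⟨Q, hQ⟩ : ∃ Q : QuadraticForm (ZMod 2) (Fin m ⊕ Fin m → ZMod 2), ∀ v, Q v = q v := by
    refine ⟨QuadraticMap.ofPolar q ?_ ?_ ?_, fun v => rfl⟩
    · intro a x
      rcases zmod2_cases64 a with rfl | rfl
      · simp [hq0]
      · simp
    · intro x x' y
      rw [hpol, hpol, hpol, QuadraticMap.polar_add_left]
    · intro a x y
      rw [hpol, hpol, QuadraticMap.polar_smul_left]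
  have hQpol : ∀ u v, QuadraticMap.polar ⇑Q u v = QuadraticMap.polar ⇑(qp32 (ZMod 2) m) u v := by
    intro u v
    rw [← hpol]
    simp only [QuadraticMap.polar, hQ]
  refine ⟨Q, hQ, hQpol, ?_⟩
  have key : ∀ x, (∀ y, QuadraticMap.polar ⇑Q x y = 0) → x = 0 := by
    intro x hx
    exact rad18 (qp32 (ZMod 2) m) (qp_nondeg32 m) x (fun y => by rw [← hQpol]; exact hx y)
  constructor
  · intro x hx
    exact key x (fun y => by rw [← QuadraticMap.polarBilin_apply_apply]; exact hx y)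
  · intro y hy
    exact key y (fun x => by
      rw [QuadraticMap.polar_comm, ← QuadraticMap.polarBilin_apply_apply]; exact hy x)

theorem plus_std61 (F : Type*) [Field F] (m : ℕ) :
    (∀ i : Fin m ⊕ Fin m, qp32 F m (Pi.single i 1) = 0) ∧
    (∀ i j : Fin m, QuadraticMap.polar ⇑(qp32 F m) (Pi.single (Sum.inl i) 1) (Pi.single (Sum.inr j) 1) = if i = j then 1 else 0) ∧
    (∀ i j : Fin m, QuadraticMap.polar ⇑(qp32 F m) (Pi.single (Sum.inl i) 1) (Pi.single (Sum.inl j) 1) = 0) ∧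
    (∀ i j : Fin m, QuadraticMap.polar ⇑(qp32 F m) (Pi.single (Sum.inr i) 1) (Pi.single (Sum.inr j) 1) = 0) := by
  classical
  refine ⟨?_, ?_, ?_, ?_⟩
  · intro i
    rw [qp_apply32]; unfold Cfsg.quadFormPlus
    apply Finset.sum_eq_zero
    intro j _
    rcases i with i | i
    · simp
    · simp
  · intro i j
    rw [qp_polar32]
    by_cases h : i = j
    · subst h; simp [Pi.single_apply]
    · simp [Pi.single_apply, h, Ne.symm h]
  · intro i j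
    rw [qp_polar32]
    simp
  · intro i j
    rw [qp_polar32]
    simp

theorem equivFun_single61 {F V ι : Type*} [Field F] [AddCommGroup V] [Module F V] [Fintype ι] [DecidableEq ι]
    (b : Basis ι F V) (i : ι) : b.equivFun (b i) = Pi.single i 1 := by
  funext j
  rw [Basis.equivFun_self, Pi.single_apply]
  by_cases h : i = j
  · subst h; simp
  · simp [h, Ne.symm h]

theorem type61 (m : ℕ) (hm : 1 ≤ m) (q : (Fin m ⊕ Fin m → ZMod 2) → ZMod 2)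
    (hq : ∀ u v : (Fin m ⊕ Fin m → ZMod 2), q (u + v) = q u + q v + QuadraticMap.polar ⇑(qp32 (ZMod 2) m) u v) :
    (∃ g : (Fin m ⊕ Fin m → ZMod 2) ≃ₗ[ZMod 2] (Fin m ⊕ Fin m → ZMod 2), ∀ v, q v = Cfsg.quadFormPlus m (ZMod 2) (g v)) ∨
      (∃ g : (Fin m ⊕ Fin m → ZMod 2) ≃ₗ[ZMod 2] ((Fin (m - 1) ⊕ Fin (m - 1)) ⊕ Fin 2 → ZMod 2), ∀ v, q v = Cfsg.quadFormMinus (m - 1) (ZMod 2) 1 1 (g v)) := by
  classical
  obtain ⟨Q, hQ, hQpol, hnd⟩ := exists_qf61 m q hq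
  have hV : finrank (ZMod 2) (Fin m ⊕ Fin m → ZMod 2) = 2 * m := by
    rw [Module.finrank_fintype_fun_eq_card, Fintype.card_sum, Fintype.card_fin]; ring
  rcases Cfsg.Agent.S2616.result hm hV Q hnd with ⟨b, h1, h2, h3⟩ | ⟨b, ζ, hζ, h1, h2, h3, h4, h5, h6, h7⟩
  · left
    refine ⟨b.equivFun, fun v => ?_⟩
    rw [← hQ, ← qp_apply32]
    obtain ⟨s1, s2, s3, s4⟩ := plus_std61 (ZMod 2) m
    have hcomp : ∀ x y, QuadraticMap.polar ⇑((qp32 (ZMod 2) m).comp (b.equivFun : (Fin m ⊕ Fin m → ZMod 2) →ₗ[ZMod 2] (Fin m ⊕ Fin m → ZMod 2))) x y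
        = QuadraticMap.polar ⇑(qp32 (ZMod 2) m) (b.equivFun x) (b.equivFun y) := by
      intro x y
      simp only [QuadraticMap.polar, QuadraticMap.comp_apply, map_add, LinearEquiv.coe_coe]
    refine quad_ext24 Q ((qp32 (ZMod 2) m).comp (b.equivFun : (Fin m ⊕ Fin m → ZMod 2) →ₗ[ZMod 2] (Fin m ⊕ Fin m → ZMod 2))) b ?_ ?_ v
    · intro i
      rw [QuadraticMap.comp_apply, LinearEquiv.coe_coe, equivFun_single61, s1]
      rcases i with i | i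
      · exact (h1 i).1
      · exact (h1 i).2
    · intro i j
      rw [hcomp, equivFun_single61, equivFun_single61]
      rcases i with i | i <;> rcases j with j | j
      · rw [s3]; exact (h3 i j).1
      · rw [s2]; exact h2 i j
      · rw [QuadraticMap.polar_comm, QuadraticMap.polar_comm _ (Pi.single (Sum.inr i) 1), s2, h2 j i]
      · rw [s4]; exact (h3 i j).2
  · right
    have hζ1 : ζ = 1 := by
      rcases zmod2_cases64 ζ with h | h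
      · exfalso; apply hζ 0; rw [h]; decide
      · exact h
    subst hζ1
    refine ⟨b.equivFun, fun v => ?_⟩
    rw [← hQ, ← qm_apply62]
    have hcomp : ∀ x y, QuadraticMap.polar ⇑((qm62 (ZMod 2) (m - 1) 1 1).comp (b.equivFun : (Fin m ⊕ Fin m → ZMod 2) →ₗ[ZMod 2] ((Fin (m - 1) ⊕ Fin (m - 1)) ⊕ Fin 2 → ZMod 2))) x y
        = QuadraticMap.polar ⇑(qm62 (ZMod 2) (m - 1) 1 1) (b.equivFun x) (b.equivFun y) := by
      intro x y
      simp only [QuadraticMap.polar, QuadraticMap.comp_apply, map_add, LinearEquiv.coe_coe]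
    have hP : PlaneFam23 Q (fun i => b (Sum.inl (Sum.inl i))) (fun i => b (Sum.inl (Sum.inr i))) (b (Sum.inr 0)) (b (Sum.inr 1)) 1 1 1 :=
      ⟨⟨h1, h2, h3⟩, fun i => ⟨(h4 i 0).1, (h4 i 1).1, (h4 i 0).2, (h4 i 1).2⟩, h5, h6, h7⟩
    have hstd := plane_std62 (ZMod 2) (m - 1) 1 1
    have hfam1 : ∀ i, (Sum.elim (Sum.elim (fun i => b (Sum.inl (Sum.inl i))) (fun i => b (Sum.inl (Sum.inr i)))) ![b (Sum.inr 0), b (Sum.inr 1)] : (Fin (m - 1) ⊕ Fin (m - 1)) ⊕ Fin 2 → (Fin m ⊕ Fin m → ZMod 2)) i = b i := by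
      rintro ((i | i) | i)
      · rfl
      · rfl
      · fin_cases i <;> rfl
    have hfam2 : ∀ i, (Sum.elim (Sum.elim (fun i : Fin (m - 1) => (Pi.single (Sum.inl (Sum.inl i)) 1 : (Fin (m - 1) ⊕ Fin (m - 1)) ⊕ Fin 2 → ZMod 2)) (fun i : Fin (m - 1) => Pi.single (Sum.inl (Sum.inr i)) 1)) ![Pi.single (Sum.inr 0) 1, Pi.single (Sum.inr 1) 1] : (Fin (m - 1) ⊕ Fin (m - 1)) ⊕ Fin 2 → ((Fin (m - 1) ⊕ Fin (m - 1)) ⊕ Fin 2 → ZMod 2)) i = Pi.single i 1 := by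
      rintro ((i | i) | i)
      · rfl
      · rfl
      · fin_cases i <;> rfl
    refine quad_ext24 Q ((qm62 (ZMod 2) (m - 1) 1 1).comp (b.equivFun : (Fin m ⊕ Fin m → ZMod 2) →ₗ[ZMod 2] ((Fin (m - 1) ⊕ Fin (m - 1)) ⊕ Fin 2 → ZMod 2))) b ?_ ?_ v
    · intro i
      rw [QuadraticMap.comp_apply, LinearEquiv.coe_coe, equivFun_single61, ← hfam1, ← hfam2,
        qval_plane23 Q _ _ _ _ _ _ _ hP i, qval_plane23 _ _ _ _ _ _ _ _ hstd i]
    · intro i j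
      rw [hcomp, equivFun_single61, equivFun_single61, ← hfam1 i, ← hfam1 j, ← hfam2 i, ← hfam2 j,
        gram_plane23 Q _ _ _ _ _ _ _ hP i j, gram_plane23 _ _ _ _ _ _ _ _ hstd i j]

theorem sumP61 (m : ℕ) : ∑ v : Fin m ⊕ Fin m → ZMod 2, chi64 (Cfsg.quadFormPlus m (ZMod 2) v) = 2 ^ m := by
  classical
  rw [← Equiv.sum_comp (Equiv.sumArrowEquivProdArrow (Fin m) (Fin m) (ZMod 2)).symm (fun v => chi64 (Cfsg.quadFormPlus m (ZMod 2) v)), Fintype.sum_prod_type]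
  have h1 : ∀ x y : Fin m → ZMod 2, Cfsg.quadFormPlus m (ZMod 2) ((Equiv.sumArrowEquivProdArrow (Fin m) (Fin m) (ZMod 2)).symm (x, y)) = ∑ i, x i * y i := by
    intro x y; unfold Cfsg.quadFormPlus; simp
  simp only [h1]
  rw [Finset.sum_eq_single (0 : Fin m → ZMod 2)]
  · simp [chi64]
  · intro x _ hx
    obtain ⟨i, hi⟩ : ∃ i, x i ≠ 0 := by
      by_contra hcon; push Not at hcon; exact hx (funext hcon)
    have hi1 : x i = 1 := (zmod2_cases64 (x i)).resolve_left hi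
    have h2 : ∑ y : Fin m → ZMod 2, chi64 (∑ j, x j * y j) = - ∑ y : Fin m → ZMod 2, chi64 (∑ j, x j * y j) := by
      rw [← Finset.sum_neg_distrib, ← Equiv.sum_comp (Equiv.addRight (Pi.single i 1 : Fin m → ZMod 2)) (fun y => chi64 (∑ j, x j * y j))]
      apply Finset.sum_congr rfl
      intro y _
      rw [← chi_one64]
      congr 1
      simp only [Equiv.coe_addRight, Pi.add_apply, mul_add, Finset.sum_add_distrib]
      congr 1
      simp [Pi.single_apply, hi1]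
    omega
  · intro h; exact absurd (Finset.mem_univ _) h

theorem zeros61 (m : ℕ) (hm : 1 ≤ m) :
    Nat.card {w : Fin m ⊕ Fin m → ZMod 2 // Cfsg.quadFormPlus m (ZMod 2) w = 0} = 2 ^ (2 * m - 1) + 2 ^ (m - 1) := by
  classical
  have hS := sumP61 m
  have h1 : ∑ v : Fin m ⊕ Fin m → ZMod 2, chi64 (Cfsg.quadFormPlus m (ZMod 2) v) = 2 * ((Finset.univ.filter (fun v : Fin m ⊕ Fin m → ZMod 2 => Cfsg.quadFormPlus m (ZMod 2) v = 0)).card : ℤ) - (Fintype.card (Fin m ⊕ Fin m → ZMod 2) : ℤ) := by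
    have h2 : ∀ v : Fin m ⊕ Fin m → ZMod 2, chi64 (Cfsg.quadFormPlus m (ZMod 2) v) = 2 * (if Cfsg.quadFormPlus m (ZMod 2) v = 0 then (1 : ℤ) else 0) - 1 := by
      intro v; unfold chi64; split_ifs <;> norm_num
    simp only [h2]
    rw [Finset.sum_sub_distrib, ← Finset.mul_sum, Finset.sum_boole]
    simp
  have hcard : Fintype.card (Fin m ⊕ Fin m → ZMod 2) = 2 ^ (2 * m) := by
    rw [Fintype.card_fun, ZMod.card, Fintype.card_sum, Fintype.card_fin]; congr 1; ring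
  rw [Nat.card_eq_fintype_card, Fintype.card_subtype]
  obtain ⟨k, rfl⟩ : ∃ k, m = k + 1 := ⟨m - 1, by omega⟩
  have e1 : 2 * (k + 1) - 1 = 2 * k + 1 := by omega
  have e2 : k + 1 - 1 = k := by omega
  rw [e1, e2]
  have key : ((Finset.univ.filter (fun v : Fin (k + 1) ⊕ Fin (k + 1) → ZMod 2 => Cfsg.quadFormPlus (k + 1) (ZMod 2) v = 0)).card : ℤ) = 2 ^ (2 * k + 1) + 2 ^ k := by
    have h3 := h1.symm.trans hS
    rw [hcard] at h3
    push_cast at h3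
    have e3 : (2 : ℤ) ^ (2 * (k + 1)) = 2 * 2 ^ (2 * k + 1) := by ring
    have e4 : (2 : ℤ) ^ (k + 1) = 2 * 2 ^ k := by ring
    linarith
  exact_mod_cast key

theorem hqw61 (m : ℕ) (w : Fin m ⊕ Fin m → ZMod 2) :
    ∀ u v : (Fin m ⊕ Fin m → ZMod 2), (Cfsg.quadFormPlus m (ZMod 2) (u + v) + QuadraticMap.polar ⇑(qp32 (ZMod 2) m) (u + v) w)
      = (Cfsg.quadFormPlus m (ZMod 2) u + QuadraticMap.polar ⇑(qp32 (ZMod 2) m) u w) + (Cfsg.quadFormPlus m (ZMod 2) v + QuadraticMap.polar ⇑(qp32 (ZMod 2) m) v w) + QuadraticMap.polar ⇑(qp32 (ZMod 2) m) u v := by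
  intro u v
  rw [QuadraticMap.polar_add_left]
  have h1 : QuadraticMap.polar ⇑(qp32 (ZMod 2) m) u v = Cfsg.quadFormPlus m (ZMod 2) (u + v) - Cfsg.quadFormPlus m (ZMod 2) u - Cfsg.quadFormPlus m (ZMod 2) v := by
    simp only [QuadraticMap.polar, qp_apply32]
  rw [h1]; ring

theorem param61 (m : ℕ) (q : (Fin m ⊕ Fin m → ZMod 2) → ZMod 2)
    (hq : ∀ u v : (Fin m ⊕ Fin m → ZMod 2), q (u + v) = q u + q v + QuadraticMap.polar ⇑(qp32 (ZMod 2) m) u v) :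
    ∃ w : Fin m ⊕ Fin m → ZMod 2, ∀ v, q v = Cfsg.quadFormPlus m (ZMod 2) v + QuadraticMap.polar ⇑(qp32 (ZMod 2) m) v w := by
  classical
  obtain ⟨w, hw⟩ : ∃ w : Fin m ⊕ Fin m → ZMod 2, w = Sum.elim (fun i => q (Pi.single (Sum.inr i) 1)) (fun i => q (Pi.single (Sum.inl i) 1)) := ⟨_, rfl⟩
  refine ⟨w, ?_⟩
  obtain ⟨Q, hQ, hQpol, -⟩ := exists_qf61 m q hq
  obtain ⟨Q', hQ', hQ'pol, -⟩ := exists_qf61 m (fun v => Cfsg.quadFormPlus m (ZMod 2) v + QuadraticMap.polar ⇑(qp32 (ZMod 2) m) v w) (hqw61 m w)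
  obtain ⟨s1, s2, s3, s4⟩ := plus_std61 (ZMod 2) m
  intro v
  rw [← hQ, ← hQ' v]
  refine quad_ext24 Q Q' (Pi.basisFun (ZMod 2) (Fin m ⊕ Fin m)) ?_ ?_ v
  · intro i
    rw [Pi.basisFun_apply, hQ, hQ', ← qp_apply32, s1, zero_add, qp_polar32, hw]
    rcases i with i | i
    · simp [Pi.single_apply]
    · simp [Pi.single_apply]
  · intro i j
    rw [hQpol, hQ'pol]

theorem param_inj61 (m : ℕ) (w w' : Fin m ⊕ Fin m → ZMod 2)
    (h : ∀ v, Cfsg.quadFormPlus m (ZMod 2) v + QuadraticMap.polar ⇑(qp32 (ZMod 2) m) v w = Cfsg.quadFormPlus m (ZMod 2) v + QuadraticMap.polar ⇑(qp32 (ZMod 2) m) v w') : w = w' := by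
  by_contra hne
  obtain ⟨t, ht⟩ := f_nondeg64 m (w - w') (sub_ne_zero.mpr hne)
  rw [QuadraticMap.polar_sub_right, add_left_cancel (h t), sub_self] at ht
  exact zero_ne_one ht

theorem plus_iff61 (m : ℕ) (hm : 1 ≤ m) (w : Fin m ⊕ Fin m → ZMod 2) :
    (∃ g : (Fin m ⊕ Fin m → ZMod 2) ≃ₗ[ZMod 2] (Fin m ⊕ Fin m → ZMod 2), ∀ v, Cfsg.quadFormPlus m (ZMod 2) v + QuadraticMap.polar ⇑(qp32 (ZMod 2) m) v w = Cfsg.quadFormPlus m (ZMod 2) (g v)) ↔ Cfsg.quadFormPlus m (ZMod 2) w = 0 := by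
  have h := (Cfsg.Agent.S2564.result m hm (Cfsg.quadFormPlus m (ZMod 2)) (by intro u v; ring) w).2
  have hf : ∀ a b : Fin m ⊕ Fin m → ZMod 2, Cfsg.quadFormPlus m (ZMod 2) (a + b) - Cfsg.quadFormPlus m (ZMod 2) a - Cfsg.quadFormPlus m (ZMod 2) b = QuadraticMap.polar ⇑(qp32 (ZMod 2) m) a b := by
    intro a b
    simp only [QuadraticMap.polar, qp_apply32]
  simp only [hf] at h
  exact h

/-- Fix the non-singular alternating form on the 2m-dimensional space over the field of two elements obtained by polarizing the plus-type form Σ xᵢyᵢ (m ≥ 1). The functions q on the space with q(u + v) = q(u) + q(v) + f(u, v) (the quadratic forms polarizing to f) number 2^(2m); each is equivalent under an invertible linear map either to the plus-type form or to the minus-type form Σ xᵢyᵢ + (z₁² + z₁z₂ + z₂²); and those of plus type number 2^(2m−1) + 2^(m−1), those of minus type 2^(2m−1) − 2^(m−1).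 -/
theorem result (m : ℕ) (hm : 1 ≤ m) :
    Nat.card {q : (Fin m ⊕ Fin m → ZMod 2) → ZMod 2 // (∀ u v : (Fin m ⊕ Fin m → ZMod 2), q (u + v) = q u + q v + (Cfsg.quadFormPlus m (ZMod 2) (u + v) - Cfsg.quadFormPlus m (ZMod 2) u - Cfsg.quadFormPlus m (ZMod 2) v))} = 2 ^ (2 * m) ∧
    (∀ q : (Fin m ⊕ Fin m → ZMod 2) → ZMod 2, (∀ u v : (Fin m ⊕ Fin m → ZMod 2), q (u + v) = q u + q v + (Cfsg.quadFormPlus m (ZMod 2) (u + v) - Cfsg.quadFormPlus m (ZMod 2) u - Cfsg.quadFormPlus m (ZMod 2) v)) →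
      (∃ g : (Fin m ⊕ Fin m → ZMod 2) ≃ₗ[ZMod 2] (Fin m ⊕ Fin m → ZMod 2), ∀ v, q v = Cfsg.quadFormPlus m (ZMod 2) (g v)) ∨
      (∃ g : (Fin m ⊕ Fin m → ZMod 2) ≃ₗ[ZMod 2] ((Fin (m - 1) ⊕ Fin (m - 1)) ⊕ Fin 2 → ZMod 2), ∀ v, q v = Cfsg.quadFormMinus (m - 1) (ZMod 2) 1 1 (g v))) ∧
    Nat.card {q : (Fin m ⊕ Fin m → ZMod 2) → ZMod 2 // (∀ u v : (Fin m ⊕ Fin m → ZMod 2), q (u + v) = q u + q v + (Cfsg.quadFormPlus m (ZMod 2) (u + v) - Cfsg.quadFormPlus m (ZMod 2) u - Cfsg.quadFormPlus m (ZMod 2) v)) ∧ ∃ g : (Fin m ⊕ Fin m → ZMod 2) ≃ₗ[ZMod 2] (Fin m ⊕ Fin m → ZMod 2), ∀ v, q v = Cfsg.quadFormPlus m (ZMod 2) (g v)} = 2 ^ (2 * m - 1) + 2 ^ (m - 1) ∧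
    Nat.card {q : (Fin m ⊕ Fin m → ZMod 2) → ZMod 2 // (∀ u v : (Fin m ⊕ Fin m → ZMod 2), q (u + v) = q u + q v + (Cfsg.quadFormPlus m (ZMod 2) (u + v) - Cfsg.quadFormPlus m (ZMod 2) u - Cfsg.quadFormPlus m (ZMod 2) v)) ∧ ∃ g : (Fin m ⊕ Fin m → ZMod 2) ≃ₗ[ZMod 2] ((Fin (m - 1) ⊕ Fin (m - 1)) ⊕ Fin 2 → ZMod 2), ∀ v, q v = Cfsg.quadFormMinus (m - 1) (ZMod 2) 1 1 (g v)} = 2 ^ (2 * m - 1) - 2 ^ (m - 1) := by
  classical
  have hf : ∀ a b : Fin m ⊕ Fin m → ZMod 2, Cfsg.quadFormPlus m (ZMod 2) (a + b) - Cfsg.quadFormPlus m (ZMod 2) a - Cfsg.quadFormPlus m (ZMod 2) b = QuadraticMap.polar ⇑(qp32 (ZMod 2) m) a b := by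
    intro a b
    simp only [QuadraticMap.polar, qp_apply32]
  simp only [hf]
  have hcard : Nat.card (Fin m ⊕ Fin m → ZMod 2) = 2 ^ (2 * m) := by
    rw [Nat.card_eq_fintype_card, Fintype.card_fun, ZMod.card, Fintype.card_sum, Fintype.card_fin]; congr 1; ring
  have hζ : ∀ t : ZMod 2, t ^ 2 + t + 1 ≠ 0 := by decide
  have hminus : ∀ w : Fin m ⊕ Fin m → ZMod 2, (∃ g : (Fin m ⊕ Fin m → ZMod 2) ≃ₗ[ZMod 2] ((Fin (m - 1) ⊕ Fin (m - 1)) ⊕ Fin 2 → ZMod 2), ∀ v, Cfsg.quadFormPlus m (ZMod 2) v + QuadraticMap.polar ⇑(qp32 (ZMod 2) m) v w = Cfsg.quadFormMinus (m - 1) (ZMod 2) 1 1 (g v)) ↔ ¬ Cfsg.quadFormPlus m (ZMod 2) w = 0 := by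
    intro w
    constructor
    · rintro ⟨g', hg'⟩ hw0
      obtain ⟨g, hg⟩ := (plus_iff61 m hm w).mpr hw0
      apply Cfsg.Agent.S2617.result hm 1 hζ (g.symm.trans g')
      intro u
      rw [LinearEquiv.trans_apply, ← hg', hg, LinearEquiv.apply_symm_apply]
    · intro hw
      rcases type61 m hm (fun v => Cfsg.quadFormPlus m (ZMod 2) v + QuadraticMap.polar ⇑(qp32 (ZMod 2) m) v w) (hqw61 m w) with h | h
      · exact absurd ((plus_iff61 m hm w).mp h) hw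
      · exact h
  refine ⟨?_, ?_, ?_, ?_⟩
  · rw [← hcard]
    refine (Nat.card_congr (Equiv.ofBijective (fun w : Fin m ⊕ Fin m → ZMod 2 => (⟨fun v => Cfsg.quadFormPlus m (ZMod 2) v + QuadraticMap.polar ⇑(qp32 (ZMod 2) m) v w, hqw61 m w⟩ : {q : (Fin m ⊕ Fin m → ZMod 2) → ZMod 2 // ∀ u v : (Fin m ⊕ Fin m → ZMod 2), q (u + v) = q u + q v + QuadraticMap.polar ⇑(qp32 (ZMod 2) m) u v})) ⟨?_, ?_⟩)).symm
    · intro w w' hww
      exact param_inj61 m w w' (fun v => congrFun (congrArg Subtype.val hww) v)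
    · rintro ⟨q, hq⟩
      obtain ⟨w, hw⟩ := param61 m q hq
      exact ⟨w, Subtype.ext (funext fun v => (hw v).symm)⟩
  · intro q hq
    exact type61 m hm q hq
  · rw [← zeros61 m hm]
    refine (Nat.card_congr (Equiv.ofBijective (fun w : {w : Fin m ⊕ Fin m → ZMod 2 // Cfsg.quadFormPlus m (ZMod 2) w = 0} => (⟨fun v => Cfsg.quadFormPlus m (ZMod 2) v + QuadraticMap.polar ⇑(qp32 (ZMod 2) m) v w.1, hqw61 m w.1, (plus_iff61 m hm w.1).mpr w.2⟩ : {q : (Fin m ⊕ Fin m → ZMod 2) → ZMod 2 // (∀ u v : (Fin m ⊕ Fin m → ZMod 2), q (u + v) = q u + q v + QuadraticMap.polar ⇑(qp32 (ZMod 2) m) u v) ∧ ∃ g : (Fin m ⊕ Fin m → ZMod 2) ≃ₗ[ZMod 2] (Fin m ⊕ Fin m → ZMod 2), ∀ v, q v = Cfsg.quadFormPlus m (ZMod 2) (g v)})) ⟨?_, ?_⟩)).symm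
    · intro w w' hww
      exact Subtype.ext (param_inj61 m w.1 w'.1 (fun v => congrFun (congrArg Subtype.val hww) v))
    · rintro ⟨q, hq, hplus⟩
      obtain ⟨w, hw⟩ := param61 m q hq
      have hq' : q = fun v => Cfsg.quadFormPlus m (ZMod 2) v + QuadraticMap.polar ⇑(qp32 (ZMod 2) m) v w := funext hw
      subst hq'
      exact ⟨⟨w, (plus_iff61 m hm w).mp hplus⟩, rfl⟩
  · have hz := zeros61 m hm
    have hcompl : Nat.card {w : Fin m ⊕ Fin m → ZMod 2 // ¬ Cfsg.quadFormPlus m (ZMod 2) w = 0} = 2 ^ (2 * m - 1) - 2 ^ (m - 1) := by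
      rw [Nat.card_eq_fintype_card, Fintype.card_subtype_compl, ← Nat.card_eq_fintype_card, ← Nat.card_eq_fintype_card, hz, hcard]
      obtain ⟨k, rfl⟩ : ∃ k, m = k + 1 := ⟨m - 1, by omega⟩
      have e1 : 2 * (k + 1) - 1 = 2 * k + 1 := by omega
      have e2 : k + 1 - 1 = k := by omega
      have e3 : 2 ^ (2 * (k + 1)) = 2 * 2 ^ (2 * k + 1) := by ring
      rw [e1, e2, e3]
      omega
    rw [← hcompl]
    refine (Nat.card_congr (Equiv.ofBijective (fun w : {w : Fin m ⊕ Fin m → ZMod 2 // ¬ Cfsg.quadFormPlus m (ZMod 2) w = 0} => (⟨fun v => Cfsg.quadFormPlus m (ZMod 2) v + QuadraticMap.polar ⇑(qp32 (ZMod 2) m) v w.1, hqw61 m w.1, (hminus w.1).mpr w.2⟩ : {q : (Fin m ⊕ Fin m → ZMod 2) → ZMod 2 // (∀ u v : (Fin m ⊕ Fin m → ZMod 2), q (u + v) = q u + q v + QuadraticMap.polar ⇑(qp32 (ZMod 2) m) u v) ∧ ∃ g : (Fin m ⊕ Fin m → ZMod 2) ≃ₗ[ZMod 2] ((Fin (m - 1) ⊕ Fin (m - 1)) ⊕ Fin 2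 → ZMod 2), ∀ v, q v = Cfsg.quadFormMinus (m - 1) (ZMod 2) 1 1 (g v)})) ⟨?_, ?_⟩)).symm
    · intro w w' hww
      exact Subtype.ext (param_inj61 m w.1 w'.1 (fun v => congrFun (congrArg Subtype.val hww) v))
    · rintro ⟨q, hq, hmin⟩
      obtain ⟨w, hw⟩ := param61 m q hq
      have hq' : q = fun v => Cfsg.quadFormPlus m (ZMod 2) v + QuadraticMap.polar ⇑(qp32 (ZMod 2) m) v w := funext hw
      subst hq'
      exact ⟨⟨w, (hminus w).mp hmin⟩, rfl⟩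

end Cfsg.Agent.S2561
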