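import Cfsg.Statements.S2567
import Mathlib

set_option autoImplicit false
open Cfsg
open scoped commutatorElement

namespace Cfsg.Agent.S2567

theorem lift_unique {G : Type*} [Group G] (m r : ℕ) (hr : r.Prime) (hdiv : ¬ r ∣ m)
    (hZ : ∀ z ∈ Subgroup.center G, z ^ m = 1)
    (x : G ⧸ Subgroup.center G) (hx : orderOf x = r) :
    ∃! g : G, (QuotientGroup.mk g : G ⧸ Subgroup.center G) = x ∧ orderOf g = r := by
  have hcop : IsCoprime (r : ℤ) (m : ℤ) :=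
    Nat.isCoprime_iff_coprime.mpr ((Nat.Prime.coprime_iff_not_dvd hr).mpr hdiv)
  obtain ⟨a, b, hab⟩ := hcop
  have hroot : ∀ z ∈ Subgroup.center G, z = (z ^ a) ^ r := by
    intro z hz
    have h1 : (z ^ a) ^ r = z ^ (a * (r : ℤ)) := by rw [zpow_mul, zpow_natCast]
    have h2 : z ^ (b * (m : ℤ)) = 1 := by
      rw [mul_comm, zpow_mul, zpow_natCast, hZ z hz, one_zpow]
    have h3 : z ^ (a * (r : ℤ) + b * (m : ℤ)) = z := by rw [hab, zpow_one]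
    rw [h1]
    calc z = z ^ (a * (r : ℤ) + b * (m : ℤ)) := h3.symm
      _ = z ^ (a * (r : ℤ)) := by rw [zpow_add, h2, mul_one]
  have hone : ∀ z ∈ Subgroup.center G, z ^ r = 1 → z = 1 := by
    intro z hz hzr
    rw [hroot z hz, ← zpow_natCast, ← zpow_mul, mul_comm, zpow_mul, zpow_natCast, hzr, one_zpow]
  obtain ⟨g₀, rfl⟩ := QuotientGroup.mk_surjective x
  have hz₀ : g₀ ^ r ∈ Subgroup.center G := by
    rw [← QuotientGroup.eq_one_iff, QuotientGroup.mk_pow, ← hx, pow_orderOf_eq_one]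
  have hz₀i : (g₀ ^ r)⁻¹ ∈ Subgroup.center G := Subgroup.inv_mem _ hz₀
  have hz' : ((g₀ ^ r)⁻¹) ^ a ∈ Subgroup.center G := Subgroup.zpow_mem _ hz₀i a
  have hz'r : (((g₀ ^ r)⁻¹) ^ a) ^ r = (g₀ ^ r)⁻¹ := (hroot _ hz₀i).symm
  have hcomm : Commute g₀ (((g₀ ^ r)⁻¹) ^ a) := (Subgroup.mem_center_iff.mp hz' g₀)
  have hgr : (g₀ * ((g₀ ^ r)⁻¹) ^ a) ^ r = 1 := by
    rw [hcomm.mul_pow, hz'r, mul_inv_cancel]
  have hmk : (QuotientGroup.mk (g₀ * ((g₀ ^ r)⁻¹) ^ a) : G ⧸ Subgroup.center G) = QuotientGroup.mk g₀ := by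
    rw [QuotientGroup.eq]
    have : (g₀ * ((g₀ ^ r)⁻¹) ^ a)⁻¹ * g₀ = (((g₀ ^ r)⁻¹) ^ a)⁻¹ := by group
    rw [this]
    exact Subgroup.inv_mem _ hz'
  have hord : orderOf (g₀ * ((g₀ ^ r)⁻¹) ^ a) = r := by
    have h1 := orderOf_dvd_of_pow_eq_one hgr
    rcases (Nat.dvd_prime hr).mp h1 with h2 | h2
    · exfalso
      rw [orderOf_eq_one_iff] at h2
      rw [h2] at hmk
      have h3 : orderOf (QuotientGroup.mk g₀ : G ⧸ Subgroup.center G) = 1 := by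
        rw [← hmk]; simp
      rw [hx] at h3
      exact hr.one_lt.ne' h3
    · exact h2
  refine ⟨g₀ * ((g₀ ^ r)⁻¹) ^ a, ⟨hmk, hord⟩, ?_⟩
  rintro g' ⟨hg'mk, hg'ord⟩
  have hzc : (g₀ * ((g₀ ^ r)⁻¹) ^ a)⁻¹ * g' ∈ Subgroup.center G := by
    rw [← QuotientGroup.eq, hmk, hg'mk]
  have hg'r : g' ^ r = 1 := by rw [← hg'ord, pow_orderOf_eq_one]
  have hcomm2 : Commute (g₀ * ((g₀ ^ r)⁻¹) ^ a) ((g₀ * ((g₀ ^ r)⁻¹) ^ a)⁻¹ * g') :=
    (Subgroup.mem_center_iff.mp hzc _)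
  have h4 : ((g₀ * ((g₀ ^ r)⁻¹) ^ a) * ((g₀ * ((g₀ ^ r)⁻¹) ^ a)⁻¹ * g')) ^ r = 1 := by
    have : (g₀ * ((g₀ ^ r)⁻¹) ^ a) * ((g₀ * ((g₀ ^ r)⁻¹) ^ a)⁻¹ * g') = g' := by group
    rw [this, hg'r]
  rw [hcomm2.mul_pow, hgr, one_mul] at h4
  have h5 := hone _ hzc h4
  have h6 : g' = (g₀ * ((g₀ ^ r)⁻¹) ^ a) * ((g₀ * ((g₀ ^ r)⁻¹) ^ a)⁻¹ * g') := by group
  rw [h6, h5, mul_one]


/-- Lifting elements of prime order from PGL to GL: let F be a finite field with q elements, r a prime not dividing q − 1, and x an element of order r in GL_n(F) modulo its centre (the scalar matrices). Then x has exactly one preimage in GL_n(F) of order r. -/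
theorem result {F : Type*} [Field F] [Fintype F] {q n r : ℕ} (hF : Fintype.card F = q) (hr : r.Prime) (hdiv : ¬ r ∣ q - 1) (x : GL (Fin n) F ⧸ Subgroup.center (GL (Fin n) F)) (hx : orderOf x = r) : ∃! g : GL (Fin n) F, (QuotientGroup.mk g : GL (Fin n) F ⧸ Subgroup.center (GL (Fin n) F)) = x ∧ orderOf g = r := by
  classical
  apply lift_unique (q - 1) r hr hdiv _ x hx
  intro z hz
  rw [Matrix.GeneralLinearGroup.center_eq_range_scalar] at hz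
  obtain ⟨u, rfl⟩ := hz
  rw [← map_pow]
  have : u ^ (q - 1) = 1 := by
    rw [← hF, ← Fintype.card_units, pow_card_eq_one]
  rw [this, map_one]

end Cfsg.Agent.S2567
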