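import Cfsg.Statements.S2574
import Mathlib
import Cfsg.Statements.S2574
import Cfsg.Agent.S2573

set_option autoImplicit false
open Cfsg
open scoped commutatorElement

namespace Cfsg.Agent.S2574

open Module
open Matrix

theorem le_ker_pow_finrank74 {K V : Type*} [Field K] [AddCommGroup V] [Module K V]
    [FiniteDimensional K V] (f : Module.End K V) (n : ℕ) (hfn : f ^ n = 0)
    (W : Submodule K V) (hWf : ∀ v ∈ W, f v ∈ W) :
    W ≤ LinearMap.ker (f ^ finrank K W) := by
  have hres : (f.restrict hWf) ^ (finrank K W) = 0 := by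
    have h1 := Module.End.ker_pow_le_ker_pow_finrank (f.restrict hWf) n
    have h2 : (f.restrict hWf) ^ n = 0 := by
      rw [Module.End.pow_restrict]
      ext x
      simp [hfn]
    rw [h2, LinearMap.ker_zero] at h1
    exact LinearMap.ker_eq_top.mp (top_le_iff.mp h1)
  intro v hv
  rw [LinearMap.mem_ker]
  rw [Module.End.pow_restrict] at hres
  have h3 := congrArg (fun g : W →ₗ[K] W => ((g ⟨v, hv⟩ : W) : V)) hres
  simpa using h3

theorem form_ker_range74 {K V : Type*} [Field K] [AddCommGroup V] [Module K V]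
    (B : V → V → K) (hB1 : ∀ x a b, B x (a - b) = B x a - B x b)
    (hB2 : ∀ a b y, B (a - b) y = B a y - B b y)
    (u : Module.End K V) (hu : ∀ x y, B (u x) (u y) = B x y) (d : ℕ) :
    ∀ v z, ((u - 1) ^ d) v = 0 → B v (((u - 1) ^ d) z) = 0 := by
  have hB0 : ∀ y, B 0 y = 0 := by
    intro y; have := hB2 0 0 y; simpa using this
  have hcomm : ∀ k : ℕ, ∀ z, u (((u - 1) ^ k) z) = ((u - 1) ^ k) (u z) := by
    intro k z
    have h1 : Commute u (u - 1) := (Commute.refl u).sub_right (Commute.one_right u)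
    have h2 : Commute u ((u - 1) ^ k) := h1.pow_right k
    have h3 := congrArg (fun g : Module.End K V => g z) h2.eq
    simpa using h3
  induction d with
  | zero =>
    intro v z hv
    have : v = 0 := by simpa using hv
    rw [this]; exact hB0 _
  | succ d ih =>
    intro v z hv
    have e1 : ((u - 1) ^ (d + 1)) z = u (((u - 1) ^ d) z) - ((u - 1) ^ d) z := by
      rw [pow_succ']; simp
    rw [e1, hB1]
    have e2 : B v (((u - 1) ^ d) z) = B (u v) (u (((u - 1) ^ d) z)) := (hu _ _).symm
    rw [e2, ← hB2, hcomm]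
    have e3 : v - u v = - ((u - 1) v) := by simp
    have hfv : ((u - 1) ^ d) ((u - 1) v) = 0 := by
      rw [pow_succ] at hv; simpa using hv
    have h4 := ih ((u - 1) v) (u z) hfv
    have hneg : ∀ a y, B (-a) y = - B a y := by
      intro a y
      have := hB2 0 a y
      rw [hB0] at this
      simpa using this
    rw [e3, hneg, h4, neg_zero]

/-- A regular unipotent element of the symplectic group has totally isotropic small invariant subspaces: over a finite field, if u ∈ Sp_2m(F) satisfies (u − 1)^(2m) = 0 and rank(u − 1) = 2m − 1, and W is a u-invariant subspace with 2 dim W ≤ 2m, then the alternating form vanishes identically on W. -/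
theorem result {F : Type*} [Field F] [Finite F] {m : ℕ} (u : Matrix.symplecticGroup (Fin m) F) (hnil : ((u : Matrix (Fin m ⊕ Fin m) (Fin m ⊕ Fin m) F) - 1) ^ (2 * m) = 0) (hreg : ((u : Matrix (Fin m ⊕ Fin m) (Fin m ⊕ Fin m) F) - 1).rank = 2 * m - 1) (W : Submodule F (Fin m ⊕ Fin m → F)) (hW : ∀ v ∈ W, (u : Matrix (Fin m ⊕ Fin m) (Fin m ⊕ Fin m) F).mulVec v ∈ W) (hdim : 2 * Module.finrank F W ≤ 2 * m) : ∀ v ∈ W, ∀ w ∈ W, Cfsg.sympForm m F v w = 0 := by
  classical
  obtain ⟨A, hA⟩ : ∃ A : Matrix (Fin m ⊕ Fin m) (Fin m ⊕ Fin m) F, A = u := ⟨_, rfl⟩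
  have hAmem : A ∈ Matrix.symplecticGroup (Fin m) F := by rw [hA]; exact u.2
  rw [← hA] at hnil hreg hW
  obtain ⟨uL, huL⟩ : ∃ uL : Module.End F (Fin m ⊕ Fin m → F), uL = Matrix.mulVecLin A := ⟨_, rfl⟩
  have hf : Matrix.mulVecLin (A - 1) = uL - 1 := by
    rw [huL]; apply LinearMap.ext; intro v; simp [Matrix.sub_mulVec]
  have hpow : ∀ k, Matrix.mulVecLin ((A - 1) ^ k) = (uL - 1) ^ k := by
    intro k
    induction k with
    | zero => rw [pow_zero, pow_zero, Matrix.mulVecLin_one]; rfl
    | succ k ih => rw [pow_succ, Matrix.mulVecLin_mul, ih, pow_succ, hf]; rfl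
  have hfn : (uL - 1) ^ (2 * m) = 0 := by rw [← hpow, hnil]; simp
  have hWf : ∀ v ∈ W, (uL - 1) v ∈ W := by
    intro v hv
    have : (uL - 1) v = A.mulVec v - v := by rw [huL]; simp
    rw [this]; exact W.sub_mem (hW v hv) hv
  have hfin : finrank F (Fin m ⊕ Fin m → F) = 2 * m := by
    rw [Module.finrank_fintype_fun_eq_card, Fintype.card_sum, Fintype.card_fin]; ring
  have hk1 : finrank F (LinearMap.ker (uL - 1)) ≤ 1 := by
    have h4 := LinearMap.finrank_range_add_finrank_ker (uL - 1)
    have hr : finrank F (LinearMap.range (uL - 1)) = 2 * m - 1 := by rw [← hf]; exact hreg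
    rw [hfin] at h4
    omega
  obtain ⟨d, hd⟩ : ∃ d, d = finrank F W := ⟨_, rfl⟩
  have hdm : d ≤ m := by omega
  have hWle : W ≤ LinearMap.ker ((uL - 1) ^ d) := by
    rw [hd]; exact le_ker_pow_finrank74 (uL - 1) (2 * m) hfn W hWf
  have hrange : LinearMap.range ((uL - 1) ^ d) = LinearMap.ker ((uL - 1) ^ (2 * m - d)) := by
    apply Submodule.eq_of_le_of_finrank_le
    · rintro x ⟨z, rfl⟩
      rw [LinearMap.mem_ker]
      have : (uL - 1) ^ (2 * m - d) * (uL - 1) ^ d = 0 := by
        rw [← pow_add]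
        have : 2 * m - d + d = 2 * m := by omega
        rw [this, hfn]
      have h5 := congrArg (fun g : Module.End F (Fin m ⊕ Fin m → F) => g z) this
      simpa using h5
    · have h6 := Cfsg.Agent.S2573.ker_pow_finrank_le73 (uL - 1) hk1 (2 * m - d)
      have h7 := Cfsg.Agent.S2573.ker_pow_finrank_le73 (uL - 1) hk1 d
      have h8 := LinearMap.finrank_range_add_finrank_ker ((uL - 1) ^ d)
      rw [hfin] at h8
      omega
  intro v hv w hw
  have hv0 : ((uL - 1) ^ d) v = 0 := LinearMap.mem_ker.mp (hWle hv)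
  have hw0 : ((uL - 1) ^ d) w = 0 := LinearMap.mem_ker.mp (hWle hw)
  have hw1 : w ∈ LinearMap.ker ((uL - 1) ^ (2 * m - d)) := by
    rw [LinearMap.mem_ker]
    have : 2 * m - d = (2 * m - 2 * d) + d := by omega
    rw [this, pow_add, Module.End.mul_apply, hw0, map_zero]
  rw [← hrange] at hw1
  obtain ⟨z, rfl⟩ := hw1
  refine form_ker_range74 (fun x y => Cfsg.sympForm m F x y) ?_ ?_ uL ?_ d v z hv0
  · intro x a b
    simp only [Cfsg.sympForm]
    rw [Matrix.mulVec_sub, dotProduct_sub]
  · intro a b y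
    simp only [Cfsg.sympForm]
    rw [sub_dotProduct]
  · intro x y
    simp only [Cfsg.sympForm]
    rw [huL]
    simp only [Matrix.mulVecLin_apply]
    have hJ : Aᵀ * Matrix.J (Fin m) F * A = Matrix.J (Fin m) F :=
      SymplecticGroup.mem_iff'.mp hAmem
    rw [← Matrix.vecMul_transpose A x, ← Matrix.dotProduct_mulVec, Matrix.mulVec_mulVec,
      Matrix.mulVec_mulVec, hJ]

end Cfsg.Agent.S2574
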