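import Cfsg.Statements.S2575
import Mathlib

set_option autoImplicit false
open Cfsg
open scoped commutatorElement

namespace Cfsg.Agent.S2575

theorem two_pow_odd_decomp (n : ℕ) (hn : n ≠ 0) :
    ∃ m : ℕ, Odd m ∧ n = 2 ^ padicValNat 2 n * m := by
  obtain ⟨k, m, hm, rfl⟩ := Nat.exists_eq_two_pow_mul_odd hn
  refine ⟨m, hm, ?_⟩
  have hm0 : m ≠ 0 := by rintro rfl; simp at hm
  have h2 : ¬ 2 ∣ m := by
    rw [Nat.two_dvd_ne_zero]; exact Nat.odd_iff.mp hm
  have : Fact (Nat.Prime 2) := ⟨Nat.prime_two⟩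
  rw [padicValNat.mul (pow_ne_zero k (by norm_num)) hm0, padicValNat.prime_pow,
    padicValNat.eq_zero_of_not_dvd h2, add_zero]

theorem neg_one_ne_one_of_odd_card {F : Type*} [Field F] [Fintype F] (hq : Odd (Fintype.card F)) :
    (-1 : F) ≠ 1 := by
  apply Ring.neg_one_ne_one_of_char_ne_two
  intro h
  have := FiniteField.even_card_of_char_two h
  rw [Nat.odd_iff] at hq
  omega

theorem exists_pow_eq_neg_one_iff {F : Type*} [Field F] [Fintype F] {q : ℕ} (hF : Fintype.card F = q)
    (hq : Odd q) {n : ℕ} (hn : 1 ≤ n) :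
    (∃ c : F, c ≠ 0 ∧ c ^ n = -1) ↔ padicValNat 2 n < padicValNat 2 (q - 1) := by
  classical
  have hne : (-1 : F) ≠ 1 := neg_one_ne_one_of_odd_card (hF ▸ hq)
  have hq2 : 2 ≤ q := by rw [← hF]; exact Fintype.one_lt_card
  have hq3 : q - 1 ≠ 0 := by omega
  obtain ⟨m', hm', hqm⟩ := two_pow_odd_decomp (q - 1) hq3
  obtain ⟨n', hn', hnn⟩ := two_pow_odd_decomp n (by omega)
  set a := padicValNat 2 (q - 1) with ha
  set b := padicValNat 2 n with hb
  have hcard : ∀ c : F, c ≠ 0 → c ^ (q - 1) = 1 := by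
    intro c hc
    rw [← hF]
    exact FiniteField.pow_card_sub_one_eq_one c hc
  constructor
  · rintro ⟨c, hc0, hcn⟩
    by_contra hlt
    have hab : a ≤ b := not_lt.mp hlt
    have h1 : (c ^ n) ^ m' = 1 := by
      have : n * m' = (q - 1) * (2 ^ (b - a) * n') := by
        rw [hqm, hnn]
        have : 2 ^ b = 2 ^ a * 2 ^ (b - a) := by rw [← pow_add]; congr 1; omega
        rw [this]; ring
      rw [← pow_mul, this, pow_mul, hcard c hc0, one_pow]
    rw [hcn, hm'.neg_one_pow] at h1
    exact hne h1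
  · intro hlt
    obtain ⟨g, hg⟩ := IsCyclic.exists_generator (α := Fˣ)
    have hord : orderOf g = q - 1 := by
      rw [orderOf_eq_card_of_forall_mem_zpowers hg, Nat.card_eq_fintype_card, Fintype.card_units, hF]
    have hx2 : ((g ^ (2 ^ (a - 1) * m') : Fˣ) : F) * ((g ^ (2 ^ (a - 1) * m') : Fˣ) : F) = 1 := by
      rw [← Units.val_mul, ← pow_add]
      have : 2 ^ (a - 1) * m' + 2 ^ (a - 1) * m' = q - 1 := by
        rw [hqm]
        have : 2 ^ a = 2 ^ (a - 1) * 2 := by rw [← pow_succ]; congr 1; omega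
        rw [this]; ring
      rw [this, ← hord, pow_orderOf_eq_one]; rfl
    have hx1 : ((g ^ (2 ^ (a - 1) * m') : Fˣ) : F) ≠ 1 := by
      intro h
      have h' : g ^ (2 ^ (a - 1) * m') = 1 := Units.ext h
      have hd := orderOf_dvd_of_pow_eq_one h'
      rw [hord, hqm] at hd
      have hpos : 0 < 2 ^ (a - 1) * m' := by
        have : 0 < m' := hm'.pos
        positivity
      have hle := Nat.le_of_dvd hpos hd
      have : 2 ^ a = 2 ^ (a - 1) * 2 := by rw [← pow_succ]; congr 1; omega
      rw [this] at hle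
      nlinarith
    have hx : ((g ^ (2 ^ (a - 1) * m') : Fˣ) : F) = -1 := by
      rcases mul_self_eq_one_iff.mp hx2 with h | h
      · exact absurd h hx1
      · exact h
    refine ⟨((g ^ (2 ^ (a - b - 1) * m') : Fˣ) : F), Units.ne_zero _, ?_⟩
    have e1 : (2 ^ (a - b - 1) * m') * n = (2 ^ (a - 1) * m') * n' := by
      rw [hnn]
      have : 2 ^ (a - 1) = 2 ^ (a - b - 1) * 2 ^ b := by rw [← pow_add]; congr 1; omega
      rw [this]; ring
    rw [← Units.val_pow_eq_pow_val, ← pow_mul, e1, pow_mul, Units.val_pow_eq_pow_val, hx, hn'.neg_one_pow]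


/-- Which diagonal involutions of PGL_n(q) lie in PSL_n(q), q odd: for the diagonal matrix t with i entries −1 and n − i entries 1, some non-zero scalar multiple of t has determinant one if and only if i is even or the 2-part of q − 1 exceeds the 2-part of n (that is, −1 is an n-th power in the field exactly in the latter case). -/
theorem result {F : Type*} [Field F] [Fintype F] {q : ℕ} (hF : Fintype.card F = q) (hq : Odd q) {n : ℕ} (hn : 1 ≤ n) (i : ℕ) (hi : i ≤ n) : (∃ c : F, c ≠ 0 ∧ (c • Matrix.diagonal (fun j : Fin n => if (j : ℕ) < i then (-1 : F) else 1)).det = 1) ↔ (Even i ∨ padicValNat 2 n < padicValNat 2 (q - 1)) := by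
  have hdet : ∀ c : F, (c • Matrix.diagonal (fun j : Fin n => if (j : ℕ) < i then (-1 : F) else 1)).det = c ^ n * (-1) ^ i := by
    intro c
    rw [Matrix.det_smul, Matrix.det_diagonal, Fintype.card_fin]
    congr 1
    rw [Fin.prod_univ_eq_prod_range (fun j => if j < i then (-1 : F) else 1) n]
    obtain ⟨k, rfl⟩ := Nat.exists_eq_add_of_le hi
    rw [Finset.prod_range_add]
    have h1 : ∏ x ∈ Finset.range i, (if x < i then (-1 : F) else 1) = (-1) ^ i := by
      rw [Finset.prod_congr rfl (fun x hx => if_pos (Finset.mem_range.mp hx)), Finset.prod_const, Finset.card_range]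
    have h2 : ∏ x ∈ Finset.range k, (if i + x < i then (-1 : F) else 1) = 1 := by
      apply Finset.prod_eq_one
      intro x _
      rw [if_neg (by omega)]
    rw [h1, h2, mul_one]
  simp only [hdet]
  constructor
  · rintro ⟨c, hc0, hc⟩
    by_cases hi' : Even i
    · exact Or.inl hi'
    · right
      rw [Nat.not_even_iff_odd] at hi'
      rw [hi'.neg_one_pow] at hc
      apply (exists_pow_eq_neg_one_iff hF hq hn).mp
      exact ⟨c, hc0, by linear_combination -hc⟩
  · intro h
    by_cases hi' : Even i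
    · exact ⟨1, one_ne_zero, by rw [hi'.neg_one_pow]; simp⟩
    · rw [Nat.not_even_iff_odd] at hi'
      rcases h with h | h
      · exact absurd h (Nat.not_even_iff_odd.mpr hi')
      · obtain ⟨c, hc0, hc⟩ := (exists_pow_eq_neg_one_iff hF hq hn).mpr h
        exact ⟨c, hc0, by rw [hc, hi'.neg_one_pow]; ring⟩

end Cfsg.Agent.S2575
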