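import Cfsg.Statements.S2576
import Mathlib

set_option autoImplicit false
open Cfsg
open scoped commutatorElement

namespace Cfsg.Agent.S2576

theorem two_pow_odd_decomp (n : ℕ) (hn : n ≠ 0) :
    ∃ m : ℕ, Odd m ∧ n = 2 ^ padicValNat 2 n * m := by
  obtain ⟨k, m, hm, rfl⟩ := Nat.exists_eq_two_pow_mul_odd hn
  refine ⟨m, hm, ?_⟩
  have hm0 : m ≠ 0 := by rintro rfl; simp at hm
  have h2 : ¬ 2 ∣ m := by
    rw [Nat.two_dvd_ne_zero]; exact Nat.odd_iff.mp hm
  have : Fact (Nat.Prime 2) := ⟨Nat.prime_two⟩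
  rw [padicValNat.mul (pow_ne_zero k (by norm_num)) hm0, padicValNat.prime_pow,
    padicValNat.eq_zero_of_not_dvd h2, add_zero]

theorem neg_one_ne_one_of_odd_card {F : Type*} [Field F] [Fintype F] (hq : Odd (Fintype.card F)) :
    (-1 : F) ≠ 1 := by
  apply Ring.neg_one_ne_one_of_char_ne_two
  intro h
  have := FiniteField.even_card_of_char_two h
  rw [Nat.odd_iff] at hq
  omega


/-- Which involutions of PGL_2m(q) coming from a scalar of the quadratic extension field lie in PSL_2m(q), q odd: let μ generate the Sylow 2-subgroup of the multiplicative group of the field with q elements (μ has order the 2-part of q − 1) and let t be the block-diagonal matrix with m diagonal blocks [[0, 1], [μ, 0]] (so t² is the scalar μ and t is an involution modulo scalars). Then some non-zero scalar multiple of t has determinant one if and only if q ≡ 3 (mod 4) or the 2-part of q − 1 is less than the 2-part of 2m. -/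
theorem result {F : Type*} [Field F] [Fintype F] {q : ℕ} (hF : Fintype.card F = q) (hq : Odd q) {m : ℕ} (hm : 1 ≤ m) (μ : F) (hμ : orderOf μ = 2 ^ padicValNat 2 (q - 1)) : (∃ c : F, c ≠ 0 ∧ (c • Matrix.blockDiagonal (fun _ : Fin m => !![(0 : F), 1; μ, 0])).det = 1) ↔ (q % 4 = 3 ∨ padicValNat 2 (q - 1) < padicValNat 2 (2 * m)) := by
  classical
  have hdet : ∀ c : F, (c • Matrix.blockDiagonal (fun _ : Fin m => !![(0 : F), 1; μ, 0])).det = c ^ (2 * m) * (-μ) ^ m := by
    intro c
    rw [Matrix.det_smul, Matrix.det_blockDiagonal]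
    simp only [Matrix.det_fin_two_of, Finset.prod_const, Finset.card_univ, Fintype.card_fin,
      Fintype.card_prod]
    congr 1
    ring
  simp only [hdet]
  have hne : (-1 : F) ≠ 1 := neg_one_ne_one_of_odd_card (hF ▸ hq)
  have hq2 : 2 ≤ q := by rw [← hF]; exact Fintype.one_lt_card
  have hq3 : q - 1 ≠ 0 := by omega
  obtain ⟨m', hm', hqm⟩ := two_pow_odd_decomp (q - 1) hq3
  obtain ⟨m₁, hm₁, hmm⟩ := two_pow_odd_decomp m (by omega)
  have hv2m : padicValNat 2 (2 * m) = padicValNat 2 m + 1 := by
    have : Fact (Nat.Prime 2) := ⟨Nat.prime_two⟩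
    rw [padicValNat.mul (by norm_num) (by omega), padicValNat_self, add_comm]
  rw [hv2m]
  set a := padicValNat 2 (q - 1) with ha
  set b := padicValNat 2 m with hb
  have hcard : ∀ c : F, c ≠ 0 → c ^ (q - 1) = 1 := by
    intro c hc
    rw [← hF]
    exact FiniteField.pow_card_sub_one_eq_one c hc
  have ha1 : 1 ≤ a := by
    by_contra h
    have h0 : a = 0 := by omega
    rw [h0, pow_zero, one_mul] at hqm
    rw [Nat.odd_iff] at hq hm'
    omega
  have hμpow : μ ^ (2 ^ a) = 1 := by rw [← hμ, pow_orderOf_eq_one]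
  have hμhalf : μ ^ (2 ^ (a - 1)) = -1 := by
    have h2 : μ ^ (2 ^ (a - 1)) * μ ^ (2 ^ (a - 1)) = 1 := by
      rw [← pow_add]
      have : 2 ^ (a - 1) + 2 ^ (a - 1) = 2 ^ a := by
        have : 2 ^ a = 2 ^ (a - 1) * 2 := by rw [← pow_succ]; congr 1; omega
        omega
      rw [this, hμpow]
    rcases mul_self_eq_one_iff.mp h2 with h | h
    · exfalso
      have hd := orderOf_dvd_of_pow_eq_one h
      rw [hμ] at hd
      have hle := Nat.le_of_dvd (by positivity) hd
      have : 2 ^ a = 2 ^ (a - 1) * 2 := by rw [← pow_succ]; congr 1; omega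
      have hpos : 0 < 2 ^ (a - 1) := by positivity
      omega
    · exact h
  constructor
  · rintro ⟨c, hc0, hc⟩
    by_contra hcon
    rw [not_or, not_lt] at hcon
    obtain ⟨hq4, hba⟩ := hcon
    have ha2 : 2 ≤ a := by
      by_contra h
      have h1 : a = 1 := by omega
      rw [h1, pow_one] at hqm
      rw [Nat.odd_iff] at hq hm'
      omega
    have hnegμ : (-μ) ^ (2 ^ (a - 1)) = -1 := by
      rw [neg_pow, hμhalf]
      have : Even (2 ^ (a - 1)) := by
        rw [Nat.even_pow]; exact ⟨even_two, by omega⟩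
      rw [this.neg_one_pow, one_mul]
    have h1 : (c ^ (2 * m) * (-μ) ^ m) ^ (2 ^ (a - 1 - b) * m') = -1 := by
      rw [mul_pow]
      have e1 : (2 * m) * (2 ^ (a - 1 - b) * m') = (q - 1) * m₁ := by
        rw [hqm, hmm]
        have : 2 ^ a = 2 * 2 ^ b * 2 ^ (a - 1 - b) := by
          rw [← pow_succ', ← pow_add]; congr 1; omega
        rw [this]; ring
      have e2 : m * (2 ^ (a - 1 - b) * m') = 2 ^ (a - 1) * (m₁ * m') := by
        rw [hmm]
        have : 2 ^ (a - 1) = 2 ^ b * 2 ^ (a - 1 - b) := by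
          rw [← pow_add]; congr 1; omega
        rw [this]; ring
      rw [← pow_mul, ← pow_mul, e1, e2, pow_mul, hcard c hc0, one_pow, one_mul, pow_mul, hnegμ,
        (hm₁.mul hm').neg_one_pow]
    rw [hc, one_pow] at h1
    exact hne h1.symm
  · rintro (h | h)
    · have ha' : a = 1 := by
        by_contra hne1
        have h2 : 2 ≤ a := by omega
        have : 2 ^ a = 4 * 2 ^ (a - 2) := by
          rw [show (4 : ℕ) = 2 ^ 2 by norm_num, ← pow_add]; congr 1; omega
        have h4 : 4 ∣ q - 1 := by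
          rw [hqm, this]
          exact ⟨2 ^ (a - 2) * m', by ring⟩
        omega
      rw [ha'] at hμhalf
      simp only [Nat.sub_self, pow_zero, pow_one] at hμhalf
      refine ⟨1, one_ne_zero, ?_⟩
      rw [hμhalf]; simp
    · have hab : a ≤ b := by omega
      refine ⟨1, one_ne_zero, ?_⟩
      have h1 : (-μ) ^ (2 ^ a) = 1 := by
        rw [neg_pow, hμpow]
        have : Even (2 ^ a) := by
          rw [Nat.even_pow]; exact ⟨even_two, by omega⟩
        rw [this.neg_one_pow, one_mul]
      have h2 : m = 2 ^ a * (2 ^ (b - a) * m₁) := by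
        rw [hmm]
        have : 2 ^ b = 2 ^ a * 2 ^ (b - a) := by rw [← pow_add]; congr 1; omega
        rw [this]; ring
      rw [one_pow, one_mul, h2, pow_mul, h1, one_pow]

end Cfsg.Agent.S2576
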