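import Cfsg.Statements.S2585
import Mathlib
import Cfsg.Statements.S2585
import Cfsg.Agent.S0832
import Cfsg.Agent.Lib.Helper1.Symp

set_option autoImplicit false
open Cfsg
open scoped commutatorElement

namespace Cfsg.Agent.S2585

open Cfsg.Agent.S0832 Cfsg.Agent.Lib.Helper1 Matrix

/-- Over a finite field of characteristic two every element of the symplectic group is orthogonal for a suitable quadratic form: for each A in Sp_2m(F) there is a quadratic form Q on F^(2m) whose polar form is the alternating form defining Sp_2m(F) (so Q is non-degenerate) and which A preserves. Equivalently, for m ≥ 1, Sp_2m(F) is the union of the conjugates of its two orthogonal subgroups O⁺_2m(F) and O⁻_2m(F). -/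
theorem result {F : Type*} [Field F] [Fintype F] [CharP F 2] {m : ℕ} (A : Matrix.symplecticGroup (Fin m) F) : ∃ Q : QuadraticForm F (Fin m ⊕ Fin m → F), (∀ u v : Fin m ⊕ Fin m → F, QuadraticMap.polar ⇑Q u v = Cfsg.sympForm m F u v) ∧ ∀ v : Fin m ⊕ Fin m → F, Q ((A : Matrix (Fin m ⊕ Fin m) (Fin m ⊕ Fin m) F).mulVec v) = Q v := by
  classical
  haveI : Fact (Nat.Prime 2) := ⟨Nat.prime_two⟩
  have h2 : (2 : F) = 0 := by
    have := CharP.cast_eq_zero F 2
    exact_mod_cast this
  have hneg : ∀ x : F, -x = x := fun x => by linear_combination (-x) * h2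
  have hpol₀ : ∀ u v : Fin m ⊕ Fin m → F, QuadraticMap.polar ⇑(qp32 F m) u v = Cfsg.sympForm m F u v := by
    intro u v
    rw [qp_polar32]
    unfold Cfsg.sympForm
    have hv : Matrix.J (Fin m) F *ᵥ v = Sum.elim (fun i => - v (Sum.inr i)) (fun i => v (Sum.inl i)) := by
      have hv' : v = Sum.elim (v ∘ Sum.inl) (v ∘ Sum.inr) := by ext (i | i) <;> rfl
      rw [hv', Matrix.J, Matrix.fromBlocks_mulVec]
      ext (i | i) <;> simp [Matrix.neg_mulVec, Matrix.one_mulVec]
    rw [hv]
    simp only [dotProduct, Fintype.sum_sum_type, Sum.elim_inl, Sum.elim_inr]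
    rw [← Finset.sum_add_distrib]
    apply Finset.sum_congr rfl
    intro i _
    rw [hneg]
  obtain ⟨g, hg⟩ : ∃ g : (Fin m ⊕ Fin m → F) →ₗ[F] (Fin m ⊕ Fin m → F), ∀ v, g v = (A : Matrix (Fin m ⊕ Fin m) (Fin m ⊕ Fin m) F).mulVec v :=
    ⟨Matrix.mulVecLin (A : Matrix (Fin m ⊕ Fin m) (Fin m ⊕ Fin m) F), fun v => rfl⟩
  have hgf : ∀ u v, sympForm m F (g u) (g v) = sympForm m F u v := by
    intro u v
    rw [hg, hg]; exact sympForm_map m A.2 u v
  have hδadd : ∀ u v, qp32 F m (g (u + v)) + qp32 F m (u + v) = (qp32 F m (g u) + qp32 F m u) + (qp32 F m (g v) + qp32 F m v) := by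
    intro u v
    have e1 : qp32 F m (g u + g v) = qp32 F m (g u) + qp32 F m (g v) + QuadraticMap.polar ⇑(qp32 F m) (g u) (g v) := by
      rw [QuadraticMap.polar]; ring
    have e2 : qp32 F m (u + v) = qp32 F m u + qp32 F m v + QuadraticMap.polar ⇑(qp32 F m) u v := by
      rw [QuadraticMap.polar]; ring
    rw [map_add, e1, e2, hpol₀, hpol₀, hgf]
    linear_combination (sympForm m F u v) * h2
  obtain ⟨s, hs, hs2⟩ : ∃ s : F ≃+* F, (∀ x : F, s (x ^ 2) = x) ∧ (∀ x : F, (s x) ^ 2 = x) :=
    ⟨(frobeniusEquiv F 2).symm, fun x => frobeniusEquiv_symm_pow F 2 x, fun x => frobeniusEquiv_symm_pow_p F 2 x⟩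
  obtain ⟨lam, hlam⟩ : ∃ lam : (Fin m ⊕ Fin m → F) →ₗ[F] F, ∀ v, lam v = s (qp32 F m (g v) + qp32 F m v) := by
    refine ⟨{ toFun := fun v => s (qp32 F m (g v) + qp32 F m v)
              map_add' := fun u v => by rw [hδadd, map_add]
              map_smul' := fun c v => ?_ }, fun v => rfl⟩
    simp only [map_smul, QuadraticMap.map_smul, RingHom.id_apply, smul_eq_mul]
    rw [← mul_add, ← pow_two, map_mul, hs]
  have hker : lam ∈ (LinearMap.ker (g - LinearMap.id)).dualAnnihilator := by
    rw [Submodule.mem_dualAnnihilator]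
    intro v hv
    have hgv : g v = v := by
      have h3 := LinearMap.mem_ker.mp hv
      rw [LinearMap.sub_apply, LinearMap.id_apply, sub_eq_zero] at h3; exact h3
    rw [hlam, hgv, ← two_mul, h2, zero_mul, map_zero]
  rw [← LinearMap.range_dualMap_eq_dualAnnihilator_ker] at hker
  obtain ⟨mu, hmu⟩ := hker
  have hmu' : ∀ v, mu (g v) + mu v = lam v := by
    intro v
    have h3 := congrArg (fun φ : Module.Dual F (Fin m ⊕ Fin m → F) => φ v) hmu
    simp only [LinearMap.dualMap_apply, LinearMap.sub_apply, LinearMap.id_apply, map_sub] at h3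
    rw [← h3, sub_eq_add_neg, hneg]
  refine ⟨qp32 F m + QuadraticMap.sq.comp mu, ?_, ?_⟩
  · intro u v
    rw [← hpol₀]
    simp only [QuadraticMap.polar, _root_.add_apply, QuadraticMap.comp_apply, QuadraticMap.sq_apply, map_add]
    linear_combination (mu u * mu v) * h2
  · intro v
    rw [← hg]
    simp only [_root_.add_apply, QuadraticMap.comp_apply, QuadraticMap.sq_apply]
    have h3 := hs2 (qp32 F m (g v) + qp32 F m v)
    rw [← hlam, ← hmu' v] at h3
    linear_combination (-1 : F) * h3 + (mu (g v) ^ 2 + mu (g v) * mu v - qp32 F m v) * h2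

end Cfsg.Agent.S2585
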