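import Cfsg.Statements.S2594
import Mathlib
import Cfsg.Statements.S2594
import Cfsg.Agent.S0245

set_option autoImplicit false
open Cfsg
open scoped commutatorElement

namespace Cfsg.Agent.S2594

open Cfsg.Agent.Lib.Helper1 Cfsg.Agent.S0828 Matrix

instance act94 {F : Type*} [Field F] (m : ℕ) : MulAction (Matrix.symplecticGroup (Fin m) F) (Fin m ⊕ Fin m → F) where
  smul g x := g.1 *ᵥ x
  one_smul x := Matrix.one_mulVec x
  mul_smul g h x := (Matrix.mulVec_mulVec x g.1 h.1).symm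

theorem step94 {F : Type*} [Field F] (m : ℕ) (u v : Fin m ⊕ Fin m → F) (h : sympForm m F u v ≠ 0) :
    ∃ g : Matrix.symplecticGroup (Fin m) F, g.1 *ᵥ u = v := by
  refine ⟨⟨sympTransvection m (u - v) (sympForm m F u v)⁻¹, sympTransvection_mem m _ _⟩, ?_⟩
  show sympTransvection m (u - v) (sympForm m F u v)⁻¹ *ᵥ u = v
  rw [sympTransvection_mulVec, sympForm_sub_right, sympForm_self, zero_sub, mul_neg, inv_mul_cancel₀ h]
  simp

theorem trans94 {F : Type*} [Field F] (m : ℕ) (u v : Fin m ⊕ Fin m → F) (hu : u ≠ 0) (hv : v ≠ 0) :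
    ∃ g : Matrix.symplecticGroup (Fin m) F, g.1 *ᵥ u = v := by
  by_cases h : sympForm m F u v ≠ 0
  · exact step94 m u v h
  · obtain ⟨w₁, hw₁⟩ := nondeg28 m u hu
    obtain ⟨w₂, hw₂⟩ := nondeg28 m v hv
    have key : ∃ w, sympForm m F u w ≠ 0 ∧ sympForm m F v w ≠ 0 := by
      by_cases h1 : sympForm m F v w₁ ≠ 0
      · exact ⟨w₁, hw₁, h1⟩
      · by_cases h2 : sympForm m F u w₂ ≠ 0
        · exact ⟨w₂, h2, hw₂⟩
        · push_neg at h1 h2
          refine ⟨w₁ + w₂, ?_, ?_⟩
          · rw [sympForm_add_right, h2, add_zero]; exact hw₁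
          · rw [sympForm_add_right, h1, zero_add]; exact hw₂
    obtain ⟨w, h1, h2⟩ := key
    obtain ⟨g₁, hg₁⟩ := step94 m u w h1
    have h2' : sympForm m F w v ≠ 0 := by
      rw [sympForm_swap]; exact neg_ne_zero.mpr h2
    obtain ⟨g₂, hg₂⟩ := step94 m w v h2'
    refine ⟨g₂ * g₁, ?_⟩
    show (g₂.1 * g₁.1) *ᵥ u = v
    rw [← Matrix.mulVec_mulVec, hg₁, hg₂]

theorem form94 {F : Type*} [Field F] [Fintype F] [CharP F 2] {m : ℕ} (t : Matrix.symplecticGroup (Fin m) F)
    (ht : ((t : Matrix (Fin m ⊕ Fin m) (Fin m ⊕ Fin m) F) - 1).rank = 1) :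
    ∃ v : Fin m ⊕ Fin m → F, v ≠ 0 ∧ ∀ x, t.1 *ᵥ x = x + sympForm m F x v • v := by
  classical
  have hr : Module.finrank F (LinearMap.range ((t : Matrix (Fin m ⊕ Fin m) (Fin m ⊕ Fin m) F) - 1).mulVecLin) = 1 := ht
  obtain ⟨u', hu'0, hu'⟩ := finrank_eq_one_iff'.mp hr
  have hu0 : (u' : Fin m ⊕ Fin m → F) ≠ 0 := fun h => hu'0 (Subtype.ext h)
  set u : Fin m ⊕ Fin m → F := u'.1 with hu_def
  have hc : ∀ x : Fin m ⊕ Fin m → F, ∃ c : F, c • u = t.1 *ᵥ x - x := by
    intro x
    obtain ⟨c, hc⟩ := hu' ⟨(t.1 - 1) *ᵥ x, ⟨x, rfl⟩⟩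
    refine ⟨c, ?_⟩
    have := congrArg Subtype.val hc
    simp only [Submodule.coe_smul] at this
    rw [this, Matrix.sub_mulVec, Matrix.one_mulVec]
  choose c hc using hc
  have htx : ∀ x, t.1 *ᵥ x = x + c x • u := by
    intro x; rw [hc x]; abel
  obtain ⟨x₁, hx₁⟩ : ∃ x₁, t.1 *ᵥ x₁ - x₁ = u := by
    obtain ⟨x₁, hx₁⟩ := u'.2
    refine ⟨x₁, ?_⟩
    have hx2 : (t.1 - 1) *ᵥ x₁ = u := hx₁
    rw [Matrix.sub_mulVec, Matrix.one_mulVec] at hx2
    exact hx2
  have hc1 : c x₁ = 1 := by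
    have h1 : (c x₁ - 1) • u = 0 := by rw [sub_smul, one_smul, hc x₁, hx₁, sub_self]
    rcases smul_eq_zero.mp h1 with h | h
    · exact sub_eq_zero.mp h
    · exact absurd h hu0
  have hpres : ∀ x y, c y * sympForm m F x u = c x * sympForm m F y u := by
    intro x y
    have h1 := sympForm_map m t.2 x y
    rw [htx x, htx y, sympForm_add_left, sympForm_add_right, sympForm_add_right, sympForm_smul_left,
      sympForm_smul_left, sympForm_smul_right, sympForm_smul_right, sympForm_self, sympForm_swap m u y] at h1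
    linear_combination h1
  have hβ : sympForm m F x₁ u ≠ 0 := by
    intro h0
    obtain ⟨w, hw⟩ := nondeg28 m u hu0
    apply hw
    have := hpres w x₁
    rw [hc1, one_mul, h0, mul_zero] at this
    rw [sympForm_swap, this, neg_zero]
  have hcx : ∀ x, c x = sympForm m F x u * (sympForm m F x₁ u)⁻¹ := by
    intro x
    have := hpres x x₁
    rw [hc1, one_mul] at this
    field_simp
    rw [this]
  have hch : ringChar F = 2 := ringChar.eq F 2
  obtain ⟨s, hs⟩ := FiniteField.isSquare_of_char_two hch (sympForm m F x₁ u)⁻¹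
  have hs0 : s ≠ 0 := by
    intro h; rw [h, mul_zero] at hs; exact inv_ne_zero hβ hs
  refine ⟨s • u, smul_ne_zero hs0 hu0, ?_⟩
  intro x
  rw [htx x, hcx x, hs, sympForm_smul_right, smul_smul]
  congr 2
  ring

/-- Over a finite field with q elements, q even, an element t of Sp_2m(F) with rank(t − 1) = 1 (a symplectic transvection) has centraliser in Sp_2m(F) of order q^(2m−1) · |Sp_(2m−2)(q)| = q^(2m−1) · q^((m−1)²) · Π_(i=1)^(m−1) (q^(2i) − 1). -/
theorem result {F : Type*} [Field F] [Fintype F] [CharP F 2] {q : ℕ} (hF : Fintype.card F = q) {m : ℕ} (hm : 1 ≤ m) (t : Matrix.symplecticGroup (Fin m) F) (ht : ((t : Matrix (Fin m ⊕ Fin m) (Fin m ⊕ Fin m) F) - 1).rank = 1) : Nat.card ↥(Subgroup.centralizer ({t} : Set ↥(Matrix.symplecticGroup (Fin m) F))) = q ^ (2 * m - 1) * (q ^ ((m - 1) ^ 2) * ∏ i : Fin (m - 1), (q ^ (2 * ((i : ℕ) + 1)) - 1)) := by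
  classical
  obtain ⟨v, hv0, htv⟩ := form94 t ht
  have hsmul : ∀ (g : Matrix.symplecticGroup (Fin m) F) (x : Fin m ⊕ Fin m → F), g • x = g.1 *ᵥ x := fun g x => rfl
  have hext : ∀ A B : Matrix (Fin m ⊕ Fin m) (Fin m ⊕ Fin m) F, (∀ w, A *ᵥ w = B *ᵥ w) → A = B := by
    intro A B h
    apply Matrix.toLin'.injective
    apply LinearMap.ext
    intro w
    rw [Matrix.toLin'_apply, Matrix.toLin'_apply, h]
  have hcent : Subgroup.centralizer ({t} : Set ↥(Matrix.symplecticGroup (Fin m) F)) =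
      MulAction.stabilizer (Matrix.symplecticGroup (Fin m) F) v := by
    ext g
    rw [Subgroup.mem_centralizer_singleton_iff, MulAction.mem_stabilizer_iff]
    show g * t = t * g ↔ g.1 *ᵥ v = v
    constructor
    · intro hg
      have hmat : ∀ x, t.1 *ᵥ (g.1 *ᵥ x) = g.1 *ᵥ (t.1 *ᵥ x) := by
        intro x
        have := congrArg (fun A : ↥(Matrix.symplecticGroup (Fin m) F) => A.1 *ᵥ x) hg
        show t.1 *ᵥ (g.1 *ᵥ x) = g.1 *ᵥ (t.1 *ᵥ x)
        rw [Matrix.mulVec_mulVec, Matrix.mulVec_mulVec]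
        exact this.symm
      have h1 : ∀ x, sympForm m F (g.1 *ᵥ x) v • v = sympForm m F x v • (g.1 *ᵥ v) := by
        intro x
        have := hmat x
        rw [htv, htv, Matrix.mulVec_add, Matrix.mulVec_smul] at this
        exact add_left_cancel this
      obtain ⟨w, hw⟩ := nondeg28 m v hv0
      have hw' : sympForm m F w v ≠ 0 := by rw [sympForm_swap]; exact neg_ne_zero.mpr hw
      set l : F := sympForm m F (g.1 *ᵥ w) v * (sympForm m F w v)⁻¹ with hl
      have hgv : g.1 *ᵥ v = l • v := by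
        have := h1 w
        rw [hl, mul_comm, ← smul_smul, this, smul_smul, inv_mul_cancel₀ hw', one_smul]
      have h2 : sympForm m F (g.1 *ᵥ w) v = l * sympForm m F w v := by
        rw [hl]; field_simp
      have h3 : l * sympForm m F (g.1 *ᵥ w) v = sympForm m F w v := by
        have := sympForm_map m g.2 w v
        rw [hgv, sympForm_smul_right] at this
        exact this
      have h4 : l * l = 1 := by
        rw [h2, ← mul_assoc] at h3
        exact mul_right_cancel₀ hw' (by rw [h3, one_mul])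
      have h5 : (l - 1) * (l - 1) = 0 := by
        have h2F : (2 : F) = 0 := CharTwo.two_eq_zero
        linear_combination h4 - l * h2F + h2F
      have h6 : l = 1 := sub_eq_zero.mp (mul_self_eq_zero.mp h5)
      rw [hgv, h6, one_smul]
    · intro hg
      apply Subtype.ext
      apply hext
      intro x
      show (g.1 * t.1) *ᵥ x = (t.1 * g.1) *ᵥ x
      rw [← Matrix.mulVec_mulVec, ← Matrix.mulVec_mulVec, htv, htv, Matrix.mulVec_add, Matrix.mulVec_smul, hg]
      congr 2
      have := sympForm_map m g.2 x v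
      rw [hg] at this
      exact this.symm
  rw [hcent]
  have horb : MulAction.orbit (Matrix.symplecticGroup (Fin m) F) v = ({0} : Set (Fin m ⊕ Fin m → F))ᶜ := by
    ext x
    rw [MulAction.mem_orbit_iff, Set.mem_compl_iff, Set.mem_singleton_iff]
    constructor
    · rintro ⟨g, rfl⟩
      rw [hsmul]
      intro h0
      apply hv0
      have h1 : (g⁻¹ * g).1 *ᵥ v = v := by rw [inv_mul_cancel]; exact Matrix.one_mulVec v
      have h2 : (g⁻¹).1 *ᵥ (g.1 *ᵥ v) = v := by
        rw [Matrix.mulVec_mulVec]; exact h1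
      rw [h0, Matrix.mulVec_zero] at h2
      exact h2.symm
    · intro hx
      obtain ⟨g, hg⟩ := trans94 m v x hv0 hx
      exact ⟨g, hg⟩
  have hcount : Nat.card (MulAction.stabilizer (Matrix.symplecticGroup (Fin m) F) v) * (q ^ (2 * m) - 1) =
      q ^ (m ^ 2) * ∏ i ∈ Finset.range m, (q ^ (2 * (i + 1)) - 1) := by
    rw [← Cfsg.Agent.S0245.result hF m, ← Subgroup.card_mul_index (MulAction.stabilizer (Matrix.symplecticGroup (Fin m) F) v),
      MulAction.index_stabilizer, horb, Set.ncard_compl, Set.ncard_singleton, Nat.card_eq_fintype_card (α := Fin m ⊕ Fin m → F),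
      Fintype.card_fun, hF, Fintype.card_sum, Fintype.card_fin]
    congr 2
    ring
  obtain ⟨m', rfl⟩ : ∃ m', m = m' + 1 := ⟨m - 1, by omega⟩
  rw [Finset.prod_range_succ, ← mul_assoc] at hcount
  have hq : 2 ≤ q := by rw [← hF]; exact Fintype.one_lt_card
  have hpos : 0 < q ^ (2 * (m' + 1)) - 1 := by
    have : 2 ≤ q ^ (2 * (m' + 1)) := le_trans hq (Nat.le_self_pow (by omega) q)
    omega
  have hfin := Nat.eq_of_mul_eq_mul_right hpos hcount
  rw [hfin]
  simp only [Nat.add_sub_cancel]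
  rw [Finset.prod_range (fun i => q ^ (2 * (i + 1)) - 1), ← mul_assoc, ← pow_add]
  congr 2
  ring_nf
  omega

end Cfsg.Agent.S2594
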