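import Cfsg.Statements.S2599
import Mathlib
import Cfsg.Statements.S2599

set_option autoImplicit false
open Cfsg
open scoped commutatorElement

namespace Cfsg.Agent.S2599

open Cfsg Matrix

/-- An irreducible invariant subspace of a semisimple isometry is non-degenerate or totally singular: let Q be a quadratic form on F^n (F finite of characteristic p) with non-degenerate polar form f, x an isometry of Q of order prime to p, and U a non-zero x-invariant subspace containing no x-invariant subspace other than 0 and U. Then U meets its f-orthogonal trivially, or Q vanishes on U, or p = 2, U is a line spanned by a non-singular vector and x fixes U pointwise. -/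
theorem result {F : Type*} [Field F] [Fintype F] {p : ℕ} [Fact p.Prime] [CharP F p] {n : ℕ} (Q : QuadraticForm F (Fin n → F)) (hQ : (QuadraticMap.polarBilin Q).Nondegenerate) (x : ↥(Cfsg.isometryGroup F ⇑Q)) (hx : (orderOf x).Coprime p) (U : Submodule F (Fin n → F)) (hU0 : U ≠ ⊥) (hUx : ∀ u ∈ U, ((x : Matrix.GeneralLinearGroup (Fin n) F) : Matrix (Fin n) (Fin n) F).mulVec u ∈ U) (hirr : ∀ W : Submodule F (Fin n → F), W ≤ U → (∀ w ∈ W, ((x : Matrix.GeneralLinearGroup (Fin n) F) : Matrix (Fin n) (Fin n) F).mulVec w ∈ W) → W = ⊥ ∨ W = U) : U ⊓ LinearMap.BilinForm.orthogonal (QuadraticMap.polarBilin Q) U = ⊥ ∨ (∀ u ∈ U, Q u = 0) ∨ (p = 2 ∧ Module.finrank F U = 1 ∧ (∃ u ∈ U, Q u ≠ 0) ∧ ∀ u ∈ U, ((x : Matrix.GeneralLinearGroup (Fin n) F) : Matrix (Fin n) (Fin n) F).mulVec u = u) := by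
  classical
  set M := ((x : Matrix.GeneralLinearGroup (Fin n) F) : Matrix (Fin n) (Fin n) F) with hM
  have hiso : ∀ u : Fin n → F, Q (M *ᵥ u) = Q u := fun u => x.2 u u
  have hpol : ∀ u v : Fin n → F, QuadraticMap.polar ⇑Q (M *ᵥ u) (M *ᵥ v) = QuadraticMap.polar ⇑Q u v := by
    intro u v
    simp only [QuadraticMap.polar, ← Matrix.mulVec_add, hiso]
  have hMinj : ∀ u : Fin n → F, M *ᵥ u = 0 → u = 0 := by
    intro u hu
    have h1 := congrArg (fun w => (((x : Matrix.GeneralLinearGroup (Fin n) F)⁻¹ : Matrix.GeneralLinearGroup (Fin n) F) : Matrix (Fin n) (Fin n) F) *ᵥ w) hu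
    simp only [Matrix.mulVec_mulVec, Matrix.mulVec_zero] at h1
    rw [hM, ← Units.val_mul, inv_mul_cancel] at h1
    simpa using h1
  -- surjectivity on U
  have hsurj : ∀ a ∈ U, ∃ a' ∈ U, M *ᵥ a' = a := by
    intro a ha
    have hT : ∀ u ∈ U, Matrix.mulVecLin M u ∈ U := fun u hu => hUx u hu
    have hinj : Function.Injective ((Matrix.mulVecLin M).restrict hT) := by
      rw [← LinearMap.ker_eq_bot, LinearMap.ker_eq_bot']
      intro u hu
      have h1 : M *ᵥ (u : Fin n → F) = 0 := congrArg Subtype.val hu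
      exact Subtype.ext (hMinj _ h1)
    obtain ⟨a', ha'⟩ := (LinearMap.injective_iff_surjective.mp hinj) ⟨a, ha⟩
    exact ⟨a'.1, a'.2, congrArg Subtype.val ha'⟩
  -- radical
  have hR := hirr (U ⊓ LinearMap.BilinForm.orthogonal (QuadraticMap.polarBilin Q) U) inf_le_left (by
    rintro w ⟨hw1, hw2⟩
    refine ⟨hUx w hw1, ?_⟩
    have hw2' : w ∈ LinearMap.BilinForm.orthogonal (QuadraticMap.polarBilin Q) U := hw2
    show M *ᵥ w ∈ LinearMap.BilinForm.orthogonal (QuadraticMap.polarBilin Q) U
    rw [LinearMap.BilinForm.mem_orthogonal_iff]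
    intro a ha
    obtain ⟨a', ha', rfl⟩ := hsurj a ha
    rw [QuadraticMap.polarBilin_apply_apply]
    show QuadraticMap.polar ⇑Q (M *ᵥ a') (M *ᵥ w) = 0
    rw [hpol]
    have h1 := (LinearMap.BilinForm.mem_orthogonal_iff.mp hw2') a' ha'
    rwa [QuadraticMap.polarBilin_apply_apply] at h1)
  rcases hR with hR | hR
  · left; exact hR
  · right
    have hUU : ∀ a ∈ U, ∀ b ∈ U, QuadraticMap.polar ⇑Q a b = 0 := by
      intro a ha b hb
      have hb' : b ∈ U ⊓ LinearMap.BilinForm.orthogonal (QuadraticMap.polarBilin Q) U := by rw [hR]; exact hb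
      have h1 := (LinearMap.BilinForm.mem_orthogonal_iff.mp hb'.2) a ha
      rwa [QuadraticMap.polarBilin_apply_apply] at h1
    have hadd : ∀ a ∈ U, ∀ b ∈ U, Q (a + b) = Q a + Q b := by
      intro a ha b hb
      have h1 := hUU a ha b hb
      rw [QuadraticMap.polar] at h1
      linear_combination h1
    let U₀ : Submodule F (Fin n → F) :=
      { carrier := {u | u ∈ U ∧ Q u = 0}
        add_mem' := by
          rintro a b ⟨ha, ha0⟩ ⟨hb, hb0⟩
          exact ⟨U.add_mem ha hb, by rw [hadd a ha b hb, ha0, hb0, add_zero]⟩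
        zero_mem' := ⟨U.zero_mem, map_zero Q⟩
        smul_mem' := by
          rintro c a ⟨ha, ha0⟩
          exact ⟨U.smul_mem c ha, by rw [QuadraticMap.map_smul, ha0, smul_zero]⟩ }
    have hU₀ := hirr U₀ (fun u hu => hu.1) (by
      rintro w ⟨hw1, hw2⟩
      exact ⟨hUx w hw1, by rw [hiso]; exact hw2⟩)
    rcases hU₀ with hU₀ | hU₀
    · right
      have haniso : ∀ u ∈ U, Q u = 0 → u = 0 := by
        intro u hu hu0
        have h1 : u ∈ U₀ := ⟨hu, hu0⟩
        rw [hU₀] at h1
        exact (Submodule.mem_bot F).mp h1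
      obtain ⟨u₀, hu₀U, hu₀⟩ := Submodule.exists_mem_ne_zero_of_ne_bot hU0
      have hQu₀ : Q u₀ ≠ 0 := fun h => hu₀ (haniso u₀ hu₀U h)
      have hp2 : p = 2 := by
        by_contra hp
        have h2 : (2 : F) ≠ 0 := by
          intro h
          have h3 : ((2 : ℕ) : F) = 0 := by exact_mod_cast h
          rw [CharP.cast_eq_zero_iff F p 2] at h3
          exact hp ((Nat.prime_dvd_prime_iff_eq (Fact.out : p.Prime) Nat.prime_two).mp h3)
        have h4 := hUU u₀ hu₀U u₀ hu₀U
        rw [QuadraticMap.polar_self, two_nsmul, ← two_mul] at h4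
        exact hQu₀ ((mul_eq_zero.mp h4).resolve_left h2)
      subst hp2
      have hchar : ∀ a : F, a + a = 0 := fun a => CharTwo.add_self_eq_zero a
      have hinj : ∀ a ∈ U, ∀ b ∈ U, Q a = Q b → a = b := by
        intro a ha b hb hab
        have h1 : Q (a + b) = 0 := by rw [hadd a ha b hb, hab]; exact hchar _
        have h2 := haniso _ (U.add_mem ha hb) h1
        have h3 : a = -b := eq_neg_of_add_eq_zero_left h2
        rw [h3]
        funext i
        simp only [Pi.neg_apply]
        exact CharTwo.neg_eq (b i)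
      refine ⟨rfl, ?_, ⟨u₀, hu₀U, hQu₀⟩, ?_⟩
      · have hspan : U = Submodule.span F {u₀} := by
          apply le_antisymm
          · intro v hv
            obtain ⟨c, hc⟩ := isSquare_of_charTwo' (Q v / Q u₀)
            have h1 : Q (v + c • u₀) = 0 := by
              rw [hadd v hv _ (U.smul_mem c hu₀U), QuadraticMap.map_smul, smul_eq_mul, ← hc, div_mul_cancel₀ _ hQu₀]
              exact hchar _
            have h2 := haniso _ (U.add_mem hv (U.smul_mem c hu₀U)) h1
            have h3 : v = -(c • u₀) := eq_neg_of_add_eq_zero_left h2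
            rw [h3]
            exact Submodule.neg_mem _ (Submodule.smul_mem _ _ (Submodule.mem_span_singleton_self u₀))
          · exact (Submodule.span_singleton_le_iff_mem u₀ U).mpr hu₀U
        rw [hspan]
        exact finrank_span_singleton hu₀
      · intro u hu
        exact hinj _ (hUx u hu) u hu (hiso u)
    · left
      intro u hu
      have h1 : u ∈ U₀ := by rw [hU₀]; exact hu
      exact h1.2

end Cfsg.Agent.S2599
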