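import Cfsg.Statements.S2630
import Mathlib
import Cfsg.Statements.S2630
import Cfsg.Agent.S2629

set_option autoImplicit false
open Cfsg
open scoped commutatorElement

namespace Cfsg.Agent.S2630

open Cfsg.Agent.S0750 Cfsg.Agent.S0794 Cfsg.Agent.S0792 Cfsg.Agent.S0786 Cfsg.Agent.S2635 Cfsg.Agent.S0789 Cfsg.Agent.S0832 Cfsg.Agent.S0831 Cfsg.Agent.S2629 Matrix
open scoped commutatorElement

/-- For the hyperbolic form Σ x_i y_i on F^(2m) over a finite field of characteristic two (m ≥ 1, excluding m = 2 over the field of two elements), an isometry g preserves the class of the maximal totally singular subspace U₀ = {y = 0} (m − dim(U₀ ∩ gU₀) even) if and only if g lies in Ω (the commutator subgroup of the orthogonal group): the stabiliser of each class is Ω. -/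
theorem result {F : Type*} [Field F] [Fintype F] [CharP F 2] {m : ℕ} (hm : 1 ≤ m) (h : Fintype.card F ≠ 2 ∨ m ≠ 2) (g : ↥(Cfsg.isometryGroup F (Cfsg.quadFormPlus m F))) : Even (m - Module.finrank F ↥(LinearMap.ker (LinearMap.funLeft F F (Sum.inr : Fin m → Fin m ⊕ Fin m)) ⊓ (LinearMap.ker (LinearMap.funLeft F F (Sum.inr : Fin m → Fin m ⊕ Fin m))).map (Matrix.mulVecLin ((g : Matrix.GeneralLinearGroup (Fin m ⊕ Fin m) F) : Matrix (Fin m ⊕ Fin m) (Fin m ⊕ Fin m) F)))) ↔ g ∈ Cfsg.Omega F (Cfsg.quadFormPlus m F) := by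
  have h' : Fintype.card F ≠ 2 ∨ m + m ≠ 4 := by
    rcases h with h | h
    · exact Or.inl h
    · right
      omega
  rw [main_sum29 hm h _ (w0_ts29 F m) (w0_dim29 F m) g]
  have hΩ : Cfsg.Omega F ⇑(qf29 F m) = Subgroup.closure (Tset92 (qf29 F m)) :=
    Cfsg.Agent.S2635.result (by omega) h' (qf29 F m) (qf_nondeg29 F m)
  rw [← hΩ]
  exact (comm_equiv29 (Psi29 F m) g).symm

end Cfsg.Agent.S2630
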