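import Cfsg.Statements.S2612
import Mathlib
import Cfsg.Statements.S2612
import Cfsg.Agent.S2630

set_option autoImplicit false
open Cfsg
open scoped commutatorElement

namespace Cfsg.Agent.S2612

open Cfsg.Agent.S0750 Cfsg.Agent.S0794 Cfsg.Agent.S0792 Cfsg.Agent.S0786 Cfsg.Agent.S2635 Cfsg.Agent.S0789 Cfsg.Agent.S0832 Cfsg.Agent.S0831 Cfsg.Agent.S2629 Matrix
open scoped commutatorElement

theorem mat_ext12 {ι : Type} [Fintype ι] [DecidableEq ι] {F : Type*} [Field F] (M N : Matrix ι ι F)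
    (h : ∀ x, M *ᵥ x = N *ᵥ x) : M = N := by
  apply Matrix.toLin'.injective
  apply LinearMap.ext
  intro x
  rw [Matrix.toLin'_apply, Matrix.toLin'_apply]
  exact h x

def pm12 {ι : Type} [Fintype ι] [DecidableEq ι] (F : Type*) [Field F] (a : ι → ι) : Matrix ι ι F :=
  Matrix.of (fun x y => if a x = y then (1 : F) else 0)

theorem pm_mulVec12 {ι : Type} [Fintype ι] [DecidableEq ι] {F : Type*} [Field F] (a : ι → ι) (v : ι → F) :
    pm12 F a *ᵥ v = v ∘ a := by
  funext x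
  simp [pm12, Matrix.mulVec, dotProduct]

theorem pm_sq12 {ι : Type} [Fintype ι] [DecidableEq ι] {F : Type*} [Field F] (a : ι → ι)
    (ha : ∀ x, a (a x) = x) : pm12 F a * pm12 F a = 1 := by
  apply mat_ext12
  intro v
  rw [← Matrix.mulVec_mulVec, pm_mulVec12, pm_mulVec12, Matrix.one_mulVec]
  funext x
  simp [ha]

def pmEl12 {ι : Type} [Fintype ι] [DecidableEq ι] {F : Type*} [Field F] (Q₀ : (ι → F) → F) (a : ι → ι)
    (ha : ∀ x, a (a x) = x) (hQ : ∀ v, Q₀ (v ∘ a) = Q₀ v) : ↥(Cfsg.isometryGroup F Q₀) :=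
  ⟨⟨pm12 F a, pm12 F a, pm_sq12 a ha, pm_sq12 a ha⟩, fun u _ => by
    show Q₀ (pm12 F a *ᵥ u) = Q₀ u
    rw [pm_mulVec12, hQ]⟩

theorem pmEl_inv12 {ι : Type} [Fintype ι] [DecidableEq ι] {F : Type*} [Field F] (Q₀ : (ι → F) → F) (a : ι → ι)
    (ha : ∀ x, a (a x) = x) (hQ : ∀ v, Q₀ (v ∘ a) = Q₀ v) :
    (pmEl12 Q₀ a ha hQ)⁻¹ = pmEl12 Q₀ a ha hQ :=
  inv_eq_of_mul_eq_one_right (Subtype.ext (Units.ext (pm_sq12 a ha)))

theorem swap_exists12 (F : Type*) [Field F] (k : ℕ) :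
    ∃ g : ↥(Cfsg.isometryGroup F (Cfsg.quadFormPlus (k + k) F)),
      g ∈ commutator ↥(Cfsg.isometryGroup F (Cfsg.quadFormPlus (k + k) F)) ∧
      ∀ v : Fin (k + k) ⊕ Fin (k + k) → F,
        ((g : Matrix.GeneralLinearGroup (Fin (k + k) ⊕ Fin (k + k)) F) :
          Matrix (Fin (k + k) ⊕ Fin (k + k)) (Fin (k + k) ⊕ Fin (k + k)) F) *ᵥ v = v ∘ Sum.swap := by
  classical
  let fs : Fin k ⊕ Fin k ≃ Fin (k + k) := finSumFinEquiv
  let τ : Fin (k + k) ≃ Fin (k + k) := (fs.symm.trans (Equiv.sumComm (Fin k) (Fin k))).trans fs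
  let ρ : Fin (k + k) ⊕ Fin (k + k) → Fin (k + k) ⊕ Fin (k + k) := Sum.map τ τ
  let a : Fin (k + k) ⊕ Fin (k + k) → Fin (k + k) ⊕ Fin (k + k) :=
    Sum.elim (fun i => if (fs.symm i).isLeft then Sum.inr i else Sum.inl i)
      (fun i => if (fs.symm i).isLeft then Sum.inl i else Sum.inr i)
  have hττ : ∀ i, τ (τ i) = i := by
    intro i
    simp [τ]
  have ha : ∀ x, a (a x) = x := by
    intro x
    rcases x with i | i
    · by_cases hi : (fs.symm i).isLeft <;> simp [a, hi]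
    · by_cases hi : (fs.symm i).isLeft <;> simp [a, hi]
  have hρ : ∀ x, ρ (ρ x) = x := by
    intro x
    rcases x with i | i
    · simp [ρ, hττ]
    · simp [ρ, hττ]
  have hQa : ∀ v : Fin (k + k) ⊕ Fin (k + k) → F,
      Cfsg.quadFormPlus (k + k) F (v ∘ a) = Cfsg.quadFormPlus (k + k) F v := by
    intro v
    unfold Cfsg.quadFormPlus
    apply Finset.sum_congr rfl
    intro i _
    by_cases hi : (fs.symm i).isLeft
    · simp [a, hi, mul_comm]
    · simp [a, hi]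
  have hQρ : ∀ v : Fin (k + k) ⊕ Fin (k + k) → F,
      Cfsg.quadFormPlus (k + k) F (v ∘ ρ) = Cfsg.quadFormPlus (k + k) F v := by
    intro v
    unfold Cfsg.quadFormPlus
    exact Equiv.sum_comp τ (fun i => v (Sum.inl i) * v (Sum.inr i))
  refine ⟨⁅pmEl12 _ a ha hQa, pmEl12 _ ρ hρ hQρ⁆, ?_, ?_⟩
  · rw [commutator_def]
    exact Subgroup.commutator_mem_commutator (Subgroup.mem_top _) (Subgroup.mem_top _)
  · intro v
    rw [commutatorElement_def, pmEl_inv12, pmEl_inv12]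
    show (pm12 F a * pm12 F ρ * pm12 F a * pm12 F ρ) *ᵥ v = v ∘ Sum.swap
    rw [← Matrix.mulVec_mulVec, ← Matrix.mulVec_mulVec, ← Matrix.mulVec_mulVec, pm_mulVec12, pm_mulVec12,
      pm_mulVec12, pm_mulVec12]
    funext x
    show v (ρ (a (ρ (a x)))) = v (Sum.swap x)
    congr 1
    rcases x with i | i
    · obtain ⟨j | j, rfl⟩ := fs.surjective i
      · simp [a, ρ, τ]
      · simp [a, ρ, τ]
    · obtain ⟨j | j, rfl⟩ := fs.surjective i
      · simp [a, ρ, τ]
      · simp [a, ρ, τ]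

/-- For the hyperbolic quadratic form Σ x_i y_i on F^(2m) (F finite, m ≥ 1, excluding m = 2 over the field of two elements), Ω⁺_2m(F) (the commutator subgroup of the orthogonal group) contains an element interchanging the two complementary maximal totally singular subspaces {y = 0} and {x = 0} if and only if m is even (dimension divisible by 4). -/
theorem result {F : Type*} [Field F] [Fintype F] {m : ℕ} (hm : 1 ≤ m) (h : Fintype.card F ≠ 2 ∨ m ≠ 2) : (∃ g : ↥(Cfsg.isometryGroup F (Cfsg.quadFormPlus m F)), g ∈ Cfsg.Omega F (Cfsg.quadFormPlus m F) ∧ (∀ v : Fin m ⊕ Fin m → F, (∀ i, v (Sum.inr i) = 0) → ∀ i, (((g : Matrix.GeneralLinearGroup (Fin m ⊕ Fin m) F) : Matrix (Fin m ⊕ Fin m) (Fin m ⊕ Fin m) F).mulVec v) (Sum.inl i) = 0) ∧ (∀ v : Fin m ⊕ Fin m → F, (∀ i, v (Sum.inl i) = 0) → ∀ i, (((g : Matrix.GeneralLinearGroup (Fin m ⊕ Fin m) F) : Matrix (Fin m ⊕ Fin m) (Fin m ⊕ Fin m) F).mulVec v) (Sum.inr i) = 0)) ↔ Even m :=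 by
  constructor
  · rintro ⟨g, hgΩ, hg1, -⟩
    have hbot : LinearMap.ker (LinearMap.funLeft F F (Sum.inr : Fin m → Fin m ⊕ Fin m)) ⊓
        (LinearMap.ker (LinearMap.funLeft F F (Sum.inr : Fin m → Fin m ⊕ Fin m))).map
          (Matrix.mulVecLin ((g : Matrix.GeneralLinearGroup (Fin m ⊕ Fin m) F) :
            Matrix (Fin m ⊕ Fin m) (Fin m ⊕ Fin m) F)) = ⊥ := by
      rw [eq_bot_iff]
      rintro x ⟨hx1, w, hw, rfl⟩
      rw [Submodule.mem_bot]
      have hw' : ∀ i, w (Sum.inr i) = 0 := fun i => congrFun (LinearMap.mem_ker.mp hw) i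
      have hx1' : ∀ i, (Matrix.mulVecLin ((g : Matrix.GeneralLinearGroup (Fin m ⊕ Fin m) F) :
            Matrix (Fin m ⊕ Fin m) (Fin m ⊕ Fin m) F) w) (Sum.inr i) = 0 :=
        fun i => congrFun (LinearMap.mem_ker.mp hx1) i
      funext j
      rcases j with i | i
      · exact hg1 w hw' i
      · exact hx1' i
    by_cases h2 : (2 : F) = 0
    · haveI : CharP F 2 := CharTwo.of_one_ne_zero_of_two_eq_zero one_ne_zero h2
      have h3 := (Cfsg.Agent.S2630.result hm h g).mpr hgΩ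
      rw [hbot, finrank_bot, Nat.sub_zero] at h3
      exact h3
    · have hdet : ((g : Matrix.GeneralLinearGroup (Fin m ⊕ Fin m) F) :
          Matrix (Fin m ⊕ Fin m) (Fin m ⊕ Fin m) F).det = 1 := by
        have hker := Abelianization.commutator_subset_ker (Matrix.GeneralLinearGroup.det.comp
          (Cfsg.isometryGroup F (Cfsg.quadFormPlus m F)).subtype) hgΩ
        rw [MonoidHom.mem_ker] at hker
        have h4 := congrArg Units.val hker
        exact h4
      have h3 := (Cfsg.Agent.S2629.result h2 hm g).mpr hdet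
      rw [hbot, finrank_bot, Nat.sub_zero] at h3
      exact h3
  · rintro ⟨k, rfl⟩
    obtain ⟨g, hg, hgv⟩ := swap_exists12 F k
    refine ⟨g, hg, ?_, ?_⟩
    · intro v hv i
      show (((g : Matrix.GeneralLinearGroup (Fin (k + k) ⊕ Fin (k + k)) F) :
          Matrix (Fin (k + k) ⊕ Fin (k + k)) (Fin (k + k) ⊕ Fin (k + k)) F) *ᵥ v) (Sum.inl i) = 0
      rw [hgv]
      exact hv i
    · intro v hv i
      show (((g : Matrix.GeneralLinearGroup (Fin (k + k) ⊕ Fin (k + k)) F) :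
          Matrix (Fin (k + k) ⊕ Fin (k + k)) (Fin (k + k) ⊕ Fin (k + k)) F) *ᵥ v) (Sum.inr i) = 0
      rw [hgv]
      exact hv i

end Cfsg.Agent.S2612
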