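import Cfsg.Statements.S2619
import Mathlib

set_option autoImplicit false
open Cfsg
open scoped commutatorElement

namespace Cfsg.Agent.S2619

/-- Over a finite field of characteristic two, given an alternating bilinear form B on a finite-dimensional space, a basis (v_i) and scalars (λ_i), there is exactly one quadratic form whose polar form is B and whose value at each v_i is λ_i. -/
theorem result {F V ι : Type*} [Field F] [Finite F] [CharP F 2] [AddCommGroup V] [Module F V] [Fintype ι] (b : Module.Basis ι F V) (B : LinearMap.BilinForm F V) (hB : B.IsAlt) (c : ι → F) : ∃! Q : QuadraticForm F V, QuadraticMap.polarBilin Q = B ∧ ∀ i, Q (b i) = c i := by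
  classical
  let e := Fintype.equivFin ι
  let M : Matrix ι ι F := fun i j => if i = j then c i else if e i < e j then B (b i) (b j) else 0
  let B' : LinearMap.BilinForm F V := Matrix.toBilin b M
  have hB' : ∀ i j, B' (b i) (b j) = M i j := by
    intro i j
    have h1 : LinearMap.BilinForm.toMatrix b B' = M := LinearMap.BilinForm.toMatrix_toBilin b M
    rw [← h1, LinearMap.BilinForm.toMatrix_apply]
  refine ⟨LinearMap.BilinMap.toQuadraticMap B', ⟨?_, ?_⟩, ?_⟩
  · rw [LinearMap.BilinMap.polarBilin_toQuadraticMap]
    apply LinearMap.ext_basis b b
    intro i j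
    simp only [LinearMap.add_apply, LinearMap.flip_apply]
    rw [hB', hB']
    by_cases hij : i = j
    · subst hij
      simp only [M, if_true]
      rw [CharTwo.add_self_eq_zero, hB.self_eq_zero]
    · have hji : ¬ j = i := fun h => hij h.symm
      simp only [M, if_neg hij, if_neg hji]
      rcases lt_trichotomy (e i) (e j) with h | h | h
      · rw [if_pos h, if_neg (not_lt.mpr h.le), add_zero]
      · exact absurd (e.injective h) hij
      · rw [if_neg (not_lt.mpr h.le), if_pos h, zero_add]
        rw [← hB.neg_eq, CharTwo.neg_eq]
  · intro i
    rw [LinearMap.BilinMap.toQuadraticMap_apply, hB']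
    simp [M]
  · rintro Q ⟨hQ1, hQ2⟩
    ext v
    have hv : v ∈ Submodule.span F (Set.range b) := by
      rw [b.span_eq]; exact Submodule.mem_top
    have hpol : ∀ x y, QuadraticMap.polar Q x y = B x y := by
      intro x y
      rw [← QuadraticMap.polarBilin_apply_apply, hQ1]
    have hpol' : ∀ x y, QuadraticMap.polar (LinearMap.BilinMap.toQuadraticMap B') x y = B x y := by
      intro x y
      rw [← QuadraticMap.polarBilin_apply_apply, LinearMap.BilinMap.polarBilin_toQuadraticMap]
      have h0 : B' + LinearMap.flip B' = B := by
        apply LinearMap.ext_basis b b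
        intro i j
        simp only [LinearMap.add_apply, LinearMap.flip_apply]
        rw [hB', hB']
        by_cases hij : i = j
        · subst hij
          simp only [M, if_true]
          rw [CharTwo.add_self_eq_zero, hB.self_eq_zero]
        · have hji : ¬ j = i := fun h => hij h.symm
          simp only [M, if_neg hij, if_neg hji]
          rcases lt_trichotomy (e i) (e j) with h | h | h
          · rw [if_pos h, if_neg (not_lt.mpr h.le), add_zero]
          · exact absurd (e.injective h) hij
          · rw [if_neg (not_lt.mpr h.le), if_pos h, zero_add]
            rw [← hB.neg_eq, CharTwo.neg_eq]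
      rw [h0]
    induction hv using Submodule.span_induction with
    | mem x hx =>
      obtain ⟨i, rfl⟩ := hx
      rw [hQ2, LinearMap.BilinMap.toQuadraticMap_apply, hB']
      simp [M]
    | zero => simp
    | add x y _ _ hx hy =>
      rw [QuadraticMap.map_add Q, QuadraticMap.map_add (LinearMap.BilinMap.toQuadraticMap B'), hx, hy, hpol, hpol']
    | smul a x _ hx =>
      rw [QuadraticMap.map_smul, QuadraticMap.map_smul, hx]

end Cfsg.Agent.S2619
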