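import Cfsg.Statements.S2621
import Mathlib
import Cfsg.Statements.S2621
import Cfsg.Agent.S2623
import Cfsg.Agent.S2620
import Cfsg.Agent.S0756

set_option autoImplicit false
open Cfsg
open scoped commutatorElement

namespace Cfsg.Agent.S2621

open Module
open Cfsg.Agent.S2623
open Cfsg.Agent.S2620

theorem two_ne_zero21 {F : Type*} [Field F] [Fintype F] (hq : Odd (Fintype.card F)) :
    (2 : F) ≠ 0 := by
  intro h
  haveI : CharP F 2 := CharTwo.of_one_ne_zero_of_two_eq_zero one_ne_zero h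
  have h1 := FiniteField.even_card_of_char_two (ringChar.eq F 2)
  obtain ⟨j, hj⟩ := hq
  omega

/-- Discriminant of an elliptic quadratic form Σ_(i<m−1) x_i y_i + z₁² + a z₁z₂ + c z₂² (binary part anisotropic) in dimension 2m over a field with q elements, q odd, m ≥ 1: the determinant of the Gram matrix of its polar form in any basis is a square if and only if m(q − 1)/2 is odd (equivalently q^m ≡ 3 (mod 4)). -/
theorem result {F : Type*} [Field F] [Fintype F] {q : ℕ} (hF : Fintype.card F = q) (hq : Odd q) {m : ℕ} (hm : 1 ≤ m) (a c : F) (hac : ∀ z₁ z₂ : F, z₁ ^ 2 + a * z₁ * z₂ + c * z₂ ^ 2 = 0 → z₁ = 0 ∧ z₂ = 0) {ι : Type*} [Fintype ι] [DecidableEq ι] (b : Module.Basis ι F ((Fin (m - 1) ⊕ Fin (m - 1)) ⊕ Fin 2 → F)) : IsSquare (Matrix.of (fun i j : ι => QuadraticMap.polar (Cfsg.quadFormMinus (m - 1) F a c) (b i) (b j))).det ↔ ¬ Even (m * (q - 1) / 2) := by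
  have h2 : (2 : F) ≠ 0 := two_ne_zero21 (by rw [hF]; exact hq)
  obtain ⟨p, hp0, hp⟩ := disc_change20 b
  have hB : ∀ x y : (Fin (m - 1) ⊕ Fin (m - 1)) ⊕ Fin 2 → F,
      QuadraticMap.polar (Cfsg.quadFormMinus (m - 1) F a c) x y =
      Matrix.toBilin' (gp23 (m - 1) 1 a c) x y := by
    intro x y
    rw [Matrix.toBilin'_apply']
    simp only [QuadraticMap.polar, Cfsg.quadFormMinus, dotProduct, Matrix.mulVec, gp23, mh23,
      Fintype.sum_sum_type, Fin.sum_univ_two, Matrix.fromBlocks_apply₁₁,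
      Matrix.fromBlocks_apply₁₂, Matrix.fromBlocks_apply₂₁, Matrix.fromBlocks_apply₂₂,
      Matrix.zero_apply, Matrix.one_apply, Pi.add_apply, zero_mul, Finset.sum_const_zero,
      zero_add, add_zero, ite_mul, one_mul, Finset.sum_ite_eq, Finset.mem_univ, if_true,
      Matrix.of_apply, Matrix.cons_val_zero, Matrix.cons_val_one, Matrix.cons_val', 
      Matrix.cons_val_fin_one, mul_one]
    have e1 : ∀ (u v w : Fin (m - 1) → F) (A B C : F),
        (∑ i, u i + A) - (∑ i, v i + B) - (∑ i, w i + C) =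
          ∑ i, (u i - v i - w i) + (A - B - C) := by
      intro u v w A B C
      rw [Finset.sum_sub_distrib, Finset.sum_sub_distrib]; ring
    rw [e1, ← Finset.sum_add_distrib]
    have e2 : ∀ (S T A B : F), S = T → A = B → S + A = T + B := by
      intro S T A B h h'; rw [h, h']
    rw [add_assoc]
    apply e2
    · apply Finset.sum_congr rfl
      intro i _
      ring
    · ring
  have h1 : Matrix.of (fun i j : ι =>
      QuadraticMap.polar (Cfsg.quadFormMinus (m - 1) F a c) (b i) (b j)) =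
      LinearMap.BilinForm.toMatrix b (Matrix.toBilin' (gp23 (m - 1) 1 a c)) := by
    ext i j
    rw [LinearMap.BilinForm.toMatrix_apply, Matrix.of_apply, hB]
  have hδ : ¬ IsSquare (a ^ 2 - 4 * c) := by
    rintro ⟨r, hr⟩
    have h3 := (hac ((r - a) / 2) 1 (by field_simp; linear_combination -hr)).2
    exact one_ne_zero h3
  have hdet : (-1 : F) ^ (m - 1) * (4 * 1 * c - a ^ 2) = (-1) ^ m * (a ^ 2 - 4 * c) := by
    obtain ⟨k, rfl⟩ : ∃ k, m = k + 1 := ⟨m - 1, by omega⟩
    rw [Nat.add_sub_cancel, pow_succ]; ring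
  rw [h1, hp, LinearMap.BilinForm.toMatrix_basisFun, LinearMap.BilinForm.toMatrix'_toBilin',
    det_gp23, det_mh20, hdet, sq_mul_iff20 _ _ hp0, ← neg_one_pow_sq20 hF hq m]
  constructor
  · rintro h ⟨r, hr⟩
    have hr0 : r ≠ 0 := by
      rintro rfl
      have : ((-1 : F) ^ m) ≠ 0 := pow_ne_zero m (neg_ne_zero.mpr one_ne_zero)
      apply this
      rw [hr]; ring
    rw [hr] at h
    have e3 : r * r * (a ^ 2 - 4 * c) = r ^ 2 * (a ^ 2 - 4 * c) := by ring
    rw [e3, sq_mul_iff20 _ _ hr0] at h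
    exact hδ h
  · intro h
    exact Cfsg.Agent.S0756.nonsq_mul56 _ _ h hδ

end Cfsg.Agent.S2621
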