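import Cfsg.Statements.S2622
import Mathlib
import Cfsg.Statements.S2622

set_option autoImplicit false
open Cfsg
open scoped commutatorElement

namespace Cfsg.Agent.S2622

open Module

universe u

theorem li_of_on22 {F V : Type*} [Field F] [AddCommGroup V] [Module F V] {n : ℕ}
    (B : LinearMap.BilinForm F V) (b : Fin n → V)
    (hb : ∀ i j, B (b i) (b j) = if i = j then 1 else 0) : LinearIndependent F b := by
  rw [Fintype.linearIndependent_iff]
  intro g hg i
  have := congrArg (fun x => B x (b i)) hg
  simp only [map_sum, LinearMap.sum_apply, map_smul, LinearMap.smul_apply, hb, map_zero,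
    LinearMap.zero_apply] at this
  simpa using this

theorem good_vec22 {F V : Type*} [Field F] [Finite F] [CharP F 2] [AddCommGroup V] [Module F V]
    [FiniteDimensional F V]
    (B : LinearMap.BilinForm F V) (hS : B.IsSymm) (hB : B.Nondegenerate)
    (hna : ∃ v : V, B v v ≠ 0) :
    ∃ v : V, B v v = 1 ∧ (finrank F V = 1 ∨ ∃ w : V, B v w = 0 ∧ B w w ≠ 0) := by
  obtain ⟨v₀, hv₀⟩ := hna
  obtain ⟨c, hc⟩ := isSquare_of_charTwo' (B v₀ v₀)⁻¹
  have hv : B (c • v₀) (c • v₀) = 1 := by
    simp only [map_smul, LinearMap.smul_apply, smul_eq_mul]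
    rw [← mul_assoc, ← hc]
    exact inv_mul_cancel₀ hv₀
  generalize c • v₀ = v at hv
  have hv0 : v ≠ 0 := by
    rintro rfl
    simp at hv
  have h2 : (2 : F) = 0 := CharP.cast_eq_zero F 2
  by_cases hW : ∃ w, B v w = 0 ∧ B w w ≠ 0
  · exact ⟨v, hv, Or.inr hW⟩
  · push Not at hW
    by_cases h1 : finrank F V = 1
    · exact ⟨v, hv, Or.inl h1⟩
    · obtain ⟨e, he0, hve⟩ : ∃ e : V, e ≠ 0 ∧ B v e = 0 := by
        have hfr := LinearMap.BilinForm.finrank_orthogonal hB (F ∙ v)
        rw [finrank_span_singleton hv0] at hfr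
        have hpos : 0 < finrank F V := by
          rw [Module.finrank_pos_iff_exists_ne_zero]; exact ⟨v, hv0⟩
        have hne : B.orthogonal (F ∙ v) ≠ ⊥ := by
          intro hbot
          rw [hbot, finrank_bot] at hfr
          omega
        obtain ⟨e, heW, he0⟩ := Submodule.exists_mem_ne_zero_of_ne_bot hne
        refine ⟨e, he0, ?_⟩
        rw [LinearMap.BilinForm.mem_orthogonal_iff] at heW
        exact heW v (Submodule.mem_span_singleton_self v)
      have hev : B e v = 0 := by rw [hS.eq e v]; exact hve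
      obtain ⟨f₀, hf₀⟩ : ∃ f₀, B e f₀ ≠ 0 := by
        by_contra hcon
        push Not at hcon
        exact he0 (hB.1 e hcon)
      obtain ⟨f₁, hvf₁, hef₁⟩ : ∃ f₁, B v f₁ = 0 ∧ B e f₁ ≠ 0 := by
        refine ⟨f₀ - B v f₀ • v, ?_, ?_⟩
        · simp [hv]
        · simp [hev]; exact hf₀
      obtain ⟨f, hvf, hef⟩ : ∃ f, B v f = 0 ∧ B e f = 1 := by
        refine ⟨(B e f₁)⁻¹ • f₁, ?_, ?_⟩
        · simp [hvf₁]
        · simp [inv_mul_cancel₀ hef₁]
      have hfv : B f v = 0 := by rw [hS.eq f v]; exact hvf
      have hee : B e e = 0 := hW e hve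
      have hff : B f f = 0 := hW f hvf
      refine ⟨v + e, ?_, Or.inr ⟨v + f, ?_, ?_⟩⟩
      · simp [hv, hve, hev, hee]
      · simp only [map_add, LinearMap.add_apply, hv, hvf, hev, hef]
        linear_combination h2
      · simp [hv, hvf, hfv, hff]

theorem main22 {F : Type*} [Field F] [Finite F] [CharP F 2] (n : ℕ) :
    ∀ (V : Type u) [AddCommGroup V] [Module F V] [FiniteDimensional F V]
      (B : LinearMap.BilinForm F V), finrank F V = n → B.IsSymm → B.Nondegenerate →
      (∃ v : V, B v v ≠ 0) →
      ∃ b : Fin n → V, ∀ i j, B (b i) (b j) = if i = j then 1 else 0 := by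
  induction n with
  | zero =>
    intro V _ _ _ B _ _ _ _
    exact ⟨Fin.elim0, fun i => i.elim0⟩
  | succ n ih =>
    intro V _ _ _ B hV hS hB hna
    obtain ⟨v, hv, hcase⟩ := good_vec22 B hS hB hna
    have hv0 : v ≠ 0 := by
      rintro rfl
      simp at hv
    have hvv : B v v ≠ 0 := by rw [hv]; exact one_ne_zero
    rcases hcase with h1 | ⟨w, hvw, hww⟩
    · have hn : n = 0 := by omega
      subst hn
      refine ⟨fun _ => v, fun i j => ?_⟩
      rw [if_pos (Fin.ext (by omega))]
      exact hv
    · have hfr := LinearMap.BilinForm.finrank_orthogonal hB (F ∙ v)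
      rw [finrank_span_singleton hv0, hV] at hfr
      have hnd := LinearMap.BilinForm.restrict_nondegenerate_orthogonal_spanSingleton B hB
        hS.isRefl hvv
      have hmemW : ∀ x : V, B v x = 0 → x ∈ B.orthogonal (F ∙ v) := by
        intro x hx
        rw [LinearMap.BilinForm.mem_orthogonal_iff]
        intro y hy
        obtain ⟨a, rfl⟩ := Submodule.mem_span_singleton.mp hy
        simp [hx]
      have hWv : ∀ x : B.orthogonal (F ∙ v), B v (x : V) = 0 := by
        intro x
        have := x.2
        rw [LinearMap.BilinForm.mem_orthogonal_iff] at this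
        exact this v (Submodule.mem_span_singleton_self v)
      obtain ⟨b', hb'⟩ := ih (B.orthogonal (F ∙ v)) (B.restrict (B.orthogonal (F ∙ v)))
        (by rw [hfr]; omega) (hS.restrict _) hnd ⟨⟨w, hmemW w hvw⟩, hww⟩
      refine ⟨Fin.cons v (fun i => ((b' i : B.orthogonal (F ∙ v)) : V)), ?_⟩
      intro i j
      refine Fin.cases ?_ (fun i' => ?_) i <;> refine Fin.cases ?_ (fun j' => ?_) j
      · simp [hv]
      · simp only [Fin.cons_zero, Fin.cons_succ]
        rw [hWv, if_neg (Fin.succ_ne_zero j').symm]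
      · simp only [Fin.cons_zero, Fin.cons_succ]
        rw [hS.eq, hWv, if_neg (Fin.succ_ne_zero i')]
      · simp only [Fin.cons_succ]
        have h3 : B ((b' i' : B.orthogonal (F ∙ v)) : V) ((b' j' : B.orthogonal (F ∙ v)) : V) =
            if i' = j' then 1 else 0 := hb' i' j'
        rw [h3]
        simp [Fin.succ_inj]

/-- Over a finite field of characteristic two, a non-degenerate symmetric bilinear form that is not alternating (some vector v has B(v, v) ≠ 0) admits an orthonormal basis. -/
theorem result {F V : Type*} [Field F] [Finite F] [CharP F 2] [AddCommGroup V] [Module F V] [FiniteDimensional F V] {n : ℕ} (hV : Module.finrank F V = n) (B : LinearMap.BilinForm F V) (hS : B.IsSymm) (hB : B.Nondegenerate) (hna : ∃ v : V, B v v ≠ 0) : ∃ b : Module.Basis (Fin n) F V, ∀ i j, B (b i) (b j) = if i = j then 1 else 0 := by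
  obtain ⟨b, hb⟩ := main22 n V B hV hS hB hna
  have hli := li_of_on22 B b hb
  have hsp := hli.span_eq_top_of_card_eq_finrank' (by simp [hV])
  refine ⟨Basis.mk hli (by rw [hsp]), ?_⟩
  intro i j
  simp only [Basis.coe_mk]
  exact hb i j

end Cfsg.Agent.S2622
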