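import Cfsg.Statements.S2625
import Mathlib

set_option autoImplicit false
open Cfsg
open scoped commutatorElement

namespace Cfsg.Agent.S2625

/-- For a quadratic form Q on F^n with non-degenerate polar form, F finite and n odd (so |F| is odd), the multiplier of any similarity is a square: if g is an invertible linear map with Q(g v) = c·Q(v) for all v then c is a square. -/
theorem result {F : Type*} [Field F] [Fintype F] {n : ℕ} (hn : Odd n) (Q : QuadraticForm F (Fin n → F)) (hQ : (QuadraticMap.polarBilin Q).Nondegenerate) (g : (Fin n → F) ≃ₗ[F] (Fin n → F)) (c : F) (hg : ∀ v, Q (g v) = c * Q v) : IsSquare c := by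
  classical
  have hdet : (LinearMap.BilinForm.toMatrix' (QuadraticMap.polarBilin Q)).det ≠ 0 := by
    rw [← Matrix.nondegenerate_iff_det_ne_zero]
    exact LinearMap.BilinForm.Nondegenerate.toMatrix' hQ
  have hcomp : LinearMap.BilinForm.comp (QuadraticMap.polarBilin Q) g.toLinearMap g.toLinearMap = c • QuadraticMap.polarBilin Q := by
    apply LinearMap.ext₂
    intro u v
    simp only [LinearMap.BilinForm.comp_apply, LinearEquiv.coe_coe, QuadraticMap.polarBilin_apply_apply,
      QuadraticMap.polar, LinearMap.smul_apply, smul_eq_mul]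
    rw [← map_add, hg, hg, hg]
    ring
  have hmat : Matrix.transpose (LinearMap.toMatrix' g.toLinearMap) * LinearMap.BilinForm.toMatrix' (QuadraticMap.polarBilin Q) *
      LinearMap.toMatrix' g.toLinearMap = c • LinearMap.BilinForm.toMatrix' (QuadraticMap.polarBilin Q) := by
    rw [← LinearMap.BilinForm.toMatrix'_comp, hcomp, map_smul]
  have hd := congrArg Matrix.det hmat
  rw [Matrix.det_mul, Matrix.det_mul, Matrix.det_transpose, Matrix.det_smul, Fintype.card_fin] at hd
  have h2 : (LinearMap.toMatrix' g.toLinearMap).det ^ 2 = c ^ n := by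
    apply mul_right_cancel₀ hdet
    rw [← hd]; ring
  have hG : (LinearMap.toMatrix' g.toLinearMap).det ≠ 0 := by
    rw [LinearMap.det_toMatrix']
    exact (LinearEquiv.isUnit_det' g).ne_zero
  obtain ⟨k, rfl⟩ := hn
  have hc : c ≠ 0 := by
    intro hc0
    rw [hc0, zero_pow (by omega)] at h2
    exact hG (pow_eq_zero_iff (by norm_num) |>.mp h2)
  refine ⟨(LinearMap.toMatrix' g.toLinearMap).det / c ^ k, ?_⟩
  have hck : c ^ k ≠ 0 := pow_ne_zero k hc
  field_simp
  rw [h2]
  ring

end Cfsg.Agent.S2625
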