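import Cfsg.Statements.S2626
import Mathlib
import Cfsg.Statements.S2626

set_option autoImplicit false
open Cfsg
open scoped commutatorElement

namespace Cfsg.Agent.S2626

open Cfsg Matrix

/-- `M ↦ diag(M, 1)` as a monoid hom -/
def blkL26 (F : Type*) [Field F] (k l : ℕ) : Matrix (Fin k) (Fin k) F →* Matrix (Fin k ⊕ Fin l) (Fin k ⊕ Fin l) F where
  toFun M := Matrix.fromBlocks M 0 0 1
  map_one' := Matrix.fromBlocks_one
  map_mul' M N := by rw [Matrix.fromBlocks_multiply]; simp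

/-- `M ↦ diag(1, M)` as a monoid hom -/
def blkR26 (F : Type*) [Field F] (k l : ℕ) : Matrix (Fin l) (Fin l) F →* Matrix (Fin k ⊕ Fin l) (Fin k ⊕ Fin l) F where
  toFun M := Matrix.fromBlocks 1 0 0 M
  map_one' := Matrix.fromBlocks_one
  map_mul' M N := by rw [Matrix.fromBlocks_multiply]; simp

theorem comm_map26 {G H : Type*} [Group G] [Group H] (φ : G →* H) (g : G) (hg : g ∈ commutator G) :
    φ g ∈ commutator H := by
  have h1 : φ g ∈ Subgroup.map φ (commutator G) := Subgroup.mem_map_of_mem _ hg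
  rw [commutator_def, Subgroup.map_commutator] at h1
  rw [commutator_def]
  exact Subgroup.commutator_mono le_top le_top h1

/-- Ω of an orthogonal direct sum contains the product of the Ω's: for quadratic forms Q₁ on F^k and Q₂ on F^l with non-degenerate polar forms (F finite) and Q = Q₁ ⊕ Q₂ on F^(k+l), if g₁ lies in Ω(Q₁) and g₂ in Ω(Q₂) (commutator subgroups of the orthogonal groups) then the block-diagonal isometry diag(g₁, g₂) lies in Ω(Q). -/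
theorem result {F : Type*} [Field F] [Fintype F] {k l : ℕ} (Q₁ : QuadraticForm F (Fin k → F)) (Q₂ : QuadraticForm F (Fin l → F)) (h₁ : (QuadraticMap.polarBilin Q₁).Nondegenerate) (h₂ : (QuadraticMap.polarBilin Q₂).Nondegenerate) (g₁ : ↥(Cfsg.isometryGroup F ⇑Q₁)) (g₂ : ↥(Cfsg.isometryGroup F ⇑Q₂)) (hg₁ : g₁ ∈ Cfsg.Omega F ⇑Q₁) (hg₂ : g₂ ∈ Cfsg.Omega F ⇑Q₂) : ∃ g : ↥(Cfsg.isometryGroup F (fun v : Fin k ⊕ Fin l → F => Q₁ (v ∘ Sum.inl) + Q₂ (v ∘ Sum.inr))), g ∈ Cfsg.Omega F (fun v : Fin k ⊕ Fin l → F => Q₁ (v ∘ Sum.inl) + Q₂ (v ∘ Sum.inr)) ∧ ((g : Matrix.GeneralLinearGroup (Fin k ⊕ Fin l) F) : Matrix (Fin k ⊕ Fin l) (Fin k ⊕ Fin l) F) = Matrix.fromBlocks ((g₁ : Matrix.GeneralLinearGroup (Fin k) F) : Matrix (Fin k) (Fin k) F) 0 0 ((g₂ : Matrix.GeneralLinearGroup (Fin l) F) : Matrix (Fin l) (Fin l) F) := by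
  classical
  have hL : ∀ x : ↥(Cfsg.isometryGroup F ⇑Q₁), (Units.map (blkL26 F k l)).comp (Cfsg.isometryGroup F ⇑Q₁).subtype x ∈ Cfsg.isometryGroup F (fun v : Fin k ⊕ Fin l → F => Q₁ (v ∘ Sum.inl) + Q₂ (v ∘ Sum.inr)) := by
    intro x u v
    have hx : ∀ a : Fin k → F, Q₁ (((x : Matrix.GeneralLinearGroup (Fin k) F) : Matrix (Fin k) (Fin k) F) *ᵥ a) = Q₁ a := fun a => x.2 a a
    show Q₁ ((Matrix.fromBlocks ((x : Matrix.GeneralLinearGroup (Fin k) F) : Matrix (Fin k) (Fin k) F) 0 0 1 *ᵥ u) ∘ Sum.inl) + Q₂ ((Matrix.fromBlocks ((x : Matrix.GeneralLinearGroup (Fin k) F) : Matrix (Fin k) (Fin k) F) 0 0 1 *ᵥ u) ∘ Sum.inr) = Q₁ (u ∘ Sum.inl) + Q₂ (u ∘ Sum.inr)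
    rw [Matrix.fromBlocks_mulVec]
    simp only [Sum.elim_comp_inl, Sum.elim_comp_inr, Matrix.zero_mulVec, add_zero, zero_add, Matrix.one_mulVec, hx]
  have hR : ∀ x : ↥(Cfsg.isometryGroup F ⇑Q₂), (Units.map (blkR26 F k l)).comp (Cfsg.isometryGroup F ⇑Q₂).subtype x ∈ Cfsg.isometryGroup F (fun v : Fin k ⊕ Fin l → F => Q₁ (v ∘ Sum.inl) + Q₂ (v ∘ Sum.inr)) := by
    intro x u v
    have hx : ∀ a : Fin l → F, Q₂ (((x : Matrix.GeneralLinearGroup (Fin l) F) : Matrix (Fin l) (Fin l) F) *ᵥ a) = Q₂ a := fun a => x.2 a a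
    show Q₁ ((Matrix.fromBlocks 1 0 0 ((x : Matrix.GeneralLinearGroup (Fin l) F) : Matrix (Fin l) (Fin l) F) *ᵥ u) ∘ Sum.inl) + Q₂ ((Matrix.fromBlocks 1 0 0 ((x : Matrix.GeneralLinearGroup (Fin l) F) : Matrix (Fin l) (Fin l) F) *ᵥ u) ∘ Sum.inr) = Q₁ (u ∘ Sum.inl) + Q₂ (u ∘ Sum.inr)
    rw [Matrix.fromBlocks_mulVec]
    simp only [Sum.elim_comp_inl, Sum.elim_comp_inr, Matrix.zero_mulVec, add_zero, zero_add, Matrix.one_mulVec, hx]
  let φ₁ := ((Units.map (blkL26 F k l)).comp (Cfsg.isometryGroup F ⇑Q₁).subtype).codRestrict _ hL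
  let φ₂ := ((Units.map (blkR26 F k l)).comp (Cfsg.isometryGroup F ⇑Q₂).subtype).codRestrict _ hR
  refine ⟨φ₁ g₁ * φ₂ g₂, ?_, ?_⟩
  · exact Subgroup.mul_mem _ (comm_map26 φ₁ g₁ hg₁) (comm_map26 φ₂ g₂ hg₂)
  · show Matrix.fromBlocks ((g₁ : Matrix.GeneralLinearGroup (Fin k) F) : Matrix (Fin k) (Fin k) F) 0 0 1 * Matrix.fromBlocks 1 0 0 ((g₂ : Matrix.GeneralLinearGroup (Fin l) F) : Matrix (Fin l) (Fin l) F) = _
    rw [Matrix.fromBlocks_multiply]; simp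

end Cfsg.Agent.S2626
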