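import Cfsg.Statements.S2633
import Mathlib
import Cfsg.Statements.S2633
import Cfsg.Agent.S2635

set_option autoImplicit false
open Cfsg
open scoped commutatorElement

namespace Cfsg.Agent.S2633

open Cfsg.Agent.S0750 Cfsg.Agent.S0794 Cfsg.Agent.S0792 Cfsg.Agent.S0786 Cfsg.Agent.S2635 Matrix
open scoped commutatorElement

theorem conj_mem33 {F : Type*} [Field F] [Fintype F] {n : ℕ} (h : Fintype.card F ≠ 2 ∨ n ≠ 4)
    (Q : QuadraticForm F (Fin n → F)) (hQ : (QuadraticMap.polarBilin Q).Nondegenerate)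
    (K : Subgroup ↥(Cfsg.isometryGroup F ⇑Q)) (hK : commutator ↥(Cfsg.isometryGroup F ⇑Q) ≤ K)
    (u v : Fin n → F) (hu : Q u ≠ 0) (hv : Q v ≠ 0) (huv : Q v = Q u)
    (hmem : reflEl92 Q v hv ∈ K) : reflEl92 Q u hu ∈ K := by
  have hv0 : v ≠ 0 := by
    rintro rfl
    exact hv (map_zero Q)
  have hu0 : u ≠ 0 := by
    rintro rfl
    exact hu (map_zero Q)
  obtain ⟨g0, hg0R, hg0⟩ := gen_fam86 Q hQ (hF_of35 h) 1 (fun _ => v) (fun _ => u)
    ((linearIndependent_unique_iff (v := fun _ : Fin 1 => v)).mpr hv0)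
    ((linearIndependent_unique_iff (v := fun _ : Fin 1 => u)).mpr hu0)
    (fun _ => huv)
    (fun _ _ => by
      show QuadraticMap.polarBilin Q v v = QuadraticMap.polarBilin Q u u
      rw [Bself92, Bself92, huv])
  obtain ⟨ρ, -, hρ⟩ := hg0R
  have h1 : ρ * reflEl92 Q v hv * ρ⁻¹ = reflEl92 Q u hu := by
    rw [mul_inv_eq_iff_eq_mul]
    apply Subtype.ext
    apply Units.ext
    show ((ρ : Matrix.GeneralLinearGroup (Fin n) F) : Matrix (Fin n) (Fin n) F) * reflectionMatrix (⇑Q) v =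
      reflectionMatrix (⇑Q) u * ((ρ : Matrix.GeneralLinearGroup (Fin n) F) : Matrix (Fin n) (Fin n) F)
    rw [refl_conj35, hρ, hg0 0]
  have h2 : reflEl92 Q u hu = ⁅ρ, reflEl92 Q v hv⁆ * reflEl92 Q v hv := by
    rw [← h1, commutatorElement_def]
    group
  rw [h2]
  refine K.mul_mem (hK ?_) hmem
  rw [commutator_def]
  exact Subgroup.commutator_mem_commutator (Subgroup.mem_top _) (Subgroup.mem_top _)

theorem top_of_refl33 {F : Type*} [Field F] [Fintype F] {n : ℕ} (h : Fintype.card F ≠ 2 ∨ n ≠ 4)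
    (Q : QuadraticForm F (Fin n → F)) (hQ : (QuadraticMap.polarBilin Q).Nondegenerate)
    (K : Subgroup ↥(Cfsg.isometryGroup F ⇑Q)) (hK : commutator ↥(Cfsg.isometryGroup F ⇑Q) ≤ K)
    (hH : ∀ u : Fin n → F, Q u ≠ 0 → ∃ v : Fin n → F, ∃ hv : Q v ≠ 0, Q v = Q u ∧ reflEl92 Q v hv ∈ K) :
    K = ⊤ := by
  have hgen : Subgroup.closure (Sset92 Q) = ⊤ := Cfsg.Agent.S0786.result Q hQ h
  rw [eq_top_iff, ← hgen, Subgroup.closure_le]
  rintro r ⟨u, hu, hr⟩
  show r ∈ K
  obtain ⟨v, hv, hvu, hmem⟩ := hH u hu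
  have h1 := conj_mem33 h Q hQ K hK u v hu hv hvu hmem
  have h2 : r = reflEl92 Q u hu := by
    apply Subtype.ext
    apply Units.ext
    exact hr
  rw [h2]
  exact h1

theorem inv_mul33 {F : Type*} [Field F] {n : ℕ} (Q : QuadraticForm F (Fin n → F))
    (a : ↥(Cfsg.isometryGroup F ⇑Q)) :
    (((a⁻¹ : ↥(Cfsg.isometryGroup F ⇑Q)) : Matrix.GeneralLinearGroup (Fin n) F) : Matrix (Fin n) (Fin n) F) *
        ((a : Matrix.GeneralLinearGroup (Fin n) F) : Matrix (Fin n) (Fin n) F) = 1 := by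
  have h2 := inv_mul_cancel a
  exact congrArg (fun z : ↥(Cfsg.isometryGroup F ⇑Q) =>
    ((z : Matrix.GeneralLinearGroup (Fin n) F) : Matrix (Fin n) (Fin n) F)) h2

def stab33 {F : Type*} [Field F] {n : ℕ} (Q : QuadraticForm F (Fin n → F)) (W : Submodule F (Fin n → F)) :
    Subgroup ↥(Cfsg.isometryGroup F ⇑Q) where
  carrier := {g | W.map (Matrix.mulVecLin
    ((g : Matrix.GeneralLinearGroup (Fin n) F) : Matrix (Fin n) (Fin n) F)) = W}
  one_mem' := by
    show W.map (Matrix.mulVecLin (1 : Matrix (Fin n) (Fin n) F)) = W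
    rw [Matrix.mulVecLin_one, Submodule.map_id]
  mul_mem' := by
    intro a b ha hb
    have ha' : W.map (Matrix.mulVecLin
      ((a : Matrix.GeneralLinearGroup (Fin n) F) : Matrix (Fin n) (Fin n) F)) = W := ha
    have hb' : W.map (Matrix.mulVecLin
      ((b : Matrix.GeneralLinearGroup (Fin n) F) : Matrix (Fin n) (Fin n) F)) = W := hb
    show W.map (Matrix.mulVecLin (((a : Matrix.GeneralLinearGroup (Fin n) F) : Matrix (Fin n) (Fin n) F) *
      ((b : Matrix.GeneralLinearGroup (Fin n) F) : Matrix (Fin n) (Fin n) F))) = W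
    rw [Matrix.mulVecLin_mul, Submodule.map_comp, hb', ha']
  inv_mem' := by
    intro a ha
    have ha' : W.map (Matrix.mulVecLin
      ((a : Matrix.GeneralLinearGroup (Fin n) F) : Matrix (Fin n) (Fin n) F)) = W := ha
    show W.map (Matrix.mulVecLin (((a⁻¹ : ↥(Cfsg.isometryGroup F ⇑Q)) : Matrix.GeneralLinearGroup (Fin n) F) :
      Matrix (Fin n) (Fin n) F)) = W
    have h3 := congrArg (Submodule.map (Matrix.mulVecLin
      (((a⁻¹ : ↥(Cfsg.isometryGroup F ⇑Q)) : Matrix.GeneralLinearGroup (Fin n) F) :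
      Matrix (Fin n) (Fin n) F))) ha'
    rw [← h3, ← Submodule.map_comp, ← Matrix.mulVecLin_mul, inv_mul33, Matrix.mulVecLin_one, Submodule.map_id]

theorem mem_stab33 {F : Type*} [Field F] {n : ℕ} (Q : QuadraticForm F (Fin n → F)) (W : Submodule F (Fin n → F))
    (g : ↥(Cfsg.isometryGroup F ⇑Q)) : g ∈ stab33 Q W ↔ W.map (Matrix.mulVecLin
    ((g : Matrix.GeneralLinearGroup (Fin n) F) : Matrix (Fin n) (Fin n) F)) = W := Iff.rfl

theorem stab_of_le33 {F : Type*} [Field F] {n : ℕ} (Q : QuadraticForm F (Fin n → F)) (W : Submodule F (Fin n → F))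
    (g : ↥(Cfsg.isometryGroup F ⇑Q))
    (hg : ∀ w ∈ W, ((g : Matrix.GeneralLinearGroup (Fin n) F) : Matrix (Fin n) (Fin n) F) *ᵥ w ∈ W) :
    g ∈ stab33 Q W := by
  rw [mem_stab33]
  have hinj : Function.Injective (Matrix.mulVecLin
      ((g : Matrix.GeneralLinearGroup (Fin n) F) : Matrix (Fin n) (Fin n) F)) := by
    intro x y hxy
    rw [Matrix.mulVecLin_apply, Matrix.mulVecLin_apply] at hxy
    have h3 := congrArg (fun z => (((g⁻¹ : ↥(Cfsg.isometryGroup F ⇑Q)) : Matrix.GeneralLinearGroup (Fin n) F) :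
      Matrix (Fin n) (Fin n) F) *ᵥ z) hxy
    simp only [Matrix.mulVec_mulVec, inv_mul33, Matrix.one_mulVec] at h3
    exact h3
  apply Submodule.eq_of_le_of_finrank_eq
  · rintro _ ⟨w, hw, rfl⟩
    exact hg w hw
  · exact (Submodule.equivMapOfInjective _ hinj W).finrank_eq.symm

theorem exists_hyp33 {F : Type*} [Field F] {n : ℕ} (Q : QuadraticForm F (Fin n → F))
    (hQ : (QuadraticMap.polarBilin Q).Nondegenerate) (p : Fin n → F) (hp0 : p ≠ 0) (hp : Q p = 0) :
    ∃ q, Q q = 0 ∧ QuadraticMap.polarBilin Q p q = 1 := by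
  obtain ⟨y, hy⟩ : ∃ y, QuadraticMap.polarBilin Q p y ≠ 0 := by
    by_contra hcon
    push Not at hcon
    exact hp0 (hQ.1 p hcon)
  have hpp : QuadraticMap.polarBilin Q p p = 0 := by rw [Bself92, hp, mul_zero]
  obtain ⟨y', hy'⟩ : ∃ y', QuadraticMap.polarBilin Q p y' = 1 := by
    refine ⟨(QuadraticMap.polarBilin Q p y)⁻¹ • y, ?_⟩
    rw [map_smul, smul_eq_mul, inv_mul_cancel₀ hy]
  have hyp : QuadraticMap.polarBilin Q y' p = 1 := by rw [Bsymm50, hy']
  refine ⟨y' + (-(Q y')) • p, ?_, ?_⟩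
  · rw [Q2_92, hp, hyp]
    ring
  · rw [map_add, map_smul, hpp, hy', smul_eq_mul]
    ring

theorem exists_perp_aniso33 {F : Type*} [Field F] {n : ℕ} (Q : QuadraticForm F (Fin n → F))
    (hQ : (QuadraticMap.polarBilin Q).Nondegenerate) (W : Submodule F (Fin n → F))
    (hk : 2 * Module.finrank F W < n) :
    ∃ v, Q v ≠ 0 ∧ ∀ w ∈ W, QuadraticMap.polarBilin Q v w = 0 := by
  by_contra hcon
  push Not at hcon
  have hrefl : (QuadraticMap.polarBilin Q).IsRefl := fun x y hxy => by rw [Bsymm50]; exact hxy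
  have hall : ∀ v ∈ LinearMap.BilinForm.orthogonal (QuadraticMap.polarBilin Q) W, Q v = 0 := by
    intro v hv
    by_contra hv0
    obtain ⟨w, hw, hne⟩ := hcon v hv0
    apply hne
    rw [Bsymm50]
    exact (LinearMap.BilinForm.mem_orthogonal_iff.mp hv) w hw
  have hle : LinearMap.BilinForm.orthogonal (QuadraticMap.polarBilin Q) W ≤
      LinearMap.BilinForm.orthogonal (QuadraticMap.polarBilin Q)
        (LinearMap.BilinForm.orthogonal (QuadraticMap.polarBilin Q) W) := by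
    intro x hx
    rw [LinearMap.BilinForm.mem_orthogonal_iff]
    intro y hy
    show QuadraticMap.polarBilin Q y x = 0
    have h1 := Qadd50 Q y x
    rw [hall _ (Submodule.add_mem _ hy hx), hall y hy, hall x hx] at h1
    linear_combination -h1
  have h1 := Submodule.finrank_mono hle
  have h2 := LinearMap.BilinForm.finrank_orthogonal hQ W
  have h3 := LinearMap.BilinForm.finrank_orthogonal hQ
    (LinearMap.BilinForm.orthogonal (QuadraticMap.polarBilin Q) W)
  have h4 : Module.finrank F (Fin n → F) = n := by simp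
  have h5 := Submodule.finrank_le W
  omega

theorem basis33 {F V : Type*} [Field F] [AddCommGroup V] [Module F V] [FiniteDimensional F V]
    (U : Submodule F V) (k : ℕ) (hU : Module.finrank F U = k) :
    ∃ x : Fin k → V, LinearIndependent F x ∧ Submodule.span F (Set.range x) = U := by
  let b := Module.finBasisOfFinrankEq F U hU
  refine ⟨fun i => (b i : V), ?_, ?_⟩
  · exact b.linearIndependent.map' U.subtype (Submodule.ker_subtype U)
  · have h1 := congrArg (Submodule.map U.subtype) b.span_eq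
    rw [Submodule.map_span, Submodule.map_subtype_top, ← Set.range_comp] at h1
    exact h1

/-- Ω is transitive on totally singular subspaces of each dimension less than half the dimension: for a quadratic form Q on F^n with non-degenerate polar form (F finite; excluding dimension 4 over the field of two elements), if U and W are subspaces of the same dimension k with 2k < n on which Q vanishes, then some element of Ω (the commutator subgroup of the orthogonal group) carries U to W. -/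
theorem result {F : Type*} [Field F] [Fintype F] {n : ℕ} (h : Fintype.card F ≠ 2 ∨ n ≠ 4) (Q : QuadraticForm F (Fin n → F)) (hQ : (QuadraticMap.polarBilin Q).Nondegenerate) (U W : Submodule F (Fin n → F)) {k : ℕ} (hk : 2 * k < n) (hU : Module.finrank F U = k) (hW : Module.finrank F W = k) (hU0 : ∀ u ∈ U, Q u = 0) (hW0 : ∀ w ∈ W, Q w = 0) : ∃ g : ↥(Cfsg.isometryGroup F ⇑Q), g ∈ Cfsg.Omega F ⇑Q ∧ U.map (Matrix.mulVecLin ((g : Matrix.GeneralLinearGroup (Fin n) F) : Matrix (Fin n) (Fin n) F)) = W := by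
  classical
  by_cases hk0 : k = 0
  · subst hk0
    rw [Submodule.finrank_eq_zero] at hU hW
    subst hU hW
    refine ⟨1, Subgroup.one_mem _, ?_⟩
    rw [Submodule.map_bot]
  -- Witt
  obtain ⟨x, hxli, hxU⟩ := basis33 U k hU
  obtain ⟨y, hyli, hyW⟩ := basis33 W k hW
  have hB0 : ∀ (S : Submodule F (Fin n → F)), (∀ s ∈ S, Q s = 0) → ∀ a ∈ S, ∀ b ∈ S,
      QuadraticMap.polarBilin Q a b = 0 := by
    intro S hS a ha b hb
    have h1 := Qadd50 Q a b
    rw [hS _ (S.add_mem ha hb), hS a ha, hS b hb] at h1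
    linear_combination -h1
  have hxmem : ∀ i, x i ∈ U := fun i => by rw [← hxU]; exact Submodule.subset_span ⟨i, rfl⟩
  have hymem : ∀ i, y i ∈ W := fun i => by rw [← hyW]; exact Submodule.subset_span ⟨i, rfl⟩
  obtain ⟨g0, hg0R, hg0⟩ := gen_fam86 Q hQ (hF_of35 h) k x y hxli hyli
    (fun i => by rw [hU0 _ (hxmem i), hW0 _ (hymem i)])
    (fun i j => by rw [hB0 U hU0 _ (hxmem i) _ (hxmem j), hB0 W hW0 _ (hymem i) _ (hymem j)])
  obtain ⟨ρ, -, hρ⟩ := hg0R
  have hρU : U.map (Matrix.mulVecLin ((ρ : Matrix.GeneralLinearGroup (Fin n) F) : Matrix (Fin n) (Fin n) F)) = W := by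
    rw [← hxU, Submodule.map_span, ← Set.range_comp, ← hyW]
    congr 2
    funext i
    show ((ρ : Matrix.GeneralLinearGroup (Fin n) F) : Matrix (Fin n) (Fin n) F) *ᵥ x i = y i
    rw [hρ, hg0 i]
  -- the stabiliser of W together with Omega is everything
  have hOn : (commutator ↥(Cfsg.isometryGroup F ⇑Q)).Normal := by
    rw [commutator_def]
    infer_instance
  have hWne : W ≠ ⊥ := by
    intro hbot
    rw [hbot, finrank_bot] at hW
    exact hk0 hW.symm
  obtain ⟨p, hpW, hp0⟩ := Submodule.exists_mem_ne_zero_of_ne_bot hWne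
  have hp : Q p = 0 := hW0 p hpW
  obtain ⟨q, hq, hpq⟩ := exists_hyp33 Q hQ p hp0 hp
  obtain ⟨v₀, hv₀, hv₀W⟩ := exists_perp_aniso33 Q hQ W (by rw [hW]; exact hk)
  have hQ1 : Q (p + q) = 1 := by rw [Qadd50, hp, hq, hpq]; ring
  have hQc : ∀ c : F, Q (p + c • q) = c := fun c => by rw [Q2_92, hp, hq, hpq]; ring
  have hQ1' : Q (p + q) ≠ 0 := by rw [hQ1]; exact one_ne_zero
  have hQc' : ∀ c : F, c ≠ 0 → Q (p + c • q) ≠ 0 := fun c hc => by rw [hQc]; exact hc
  -- the rotations stabilise W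
  have hrot : ∀ (c : F) (hc : c ≠ 0),
      reflEl92 Q (p + q) hQ1' * reflEl92 Q (p + c • q) (hQc' c hc) ∈ stab33 Q W := by
    intro c hc
    apply stab_of_le33
    intro w hw
    have h1 : ((reflEl92 Q (p + q) hQ1' * reflEl92 Q (p + c • q) (hQc' c hc) : ↥(Cfsg.isometryGroup F ⇑Q)) :
        Matrix.GeneralLinearGroup (Fin n) F).1 *ᵥ w = hL86 Q p q c w := by
      rw [rot_refl86 Q p q c hp hq hpq hc, LinearMap.comp_apply, rL_apply86 Q _ w, rL_apply86]
      show (reflectionMatrix (⇑Q) (p + q) * reflectionMatrix (⇑Q) (p + c • q)) *ᵥ w = _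
      rw [← Matrix.mulVec_mulVec, refl_mulVec92, refl_mulVec92]
    rw [h1, hL_apply86, hB0 W hW0 p hpW w hw, mul_zero, zero_smul, add_zero]
    exact W.add_mem hw (W.smul_mem _ hpW)
  have hrv : reflEl92 Q v₀ hv₀ ∈ stab33 Q W := by
    apply stab_of_le33
    intro w hw
    show reflectionMatrix (⇑Q) v₀ *ᵥ w ∈ W
    rw [refl_fix92 Q v₀ w (hv₀W w hw)]
    exact hw
  have hKO : commutator ↥(Cfsg.isometryGroup F ⇑Q) ≤ stab33 Q W ⊔ commutator ↥(Cfsg.isometryGroup F ⇑Q) :=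
    le_sup_right
  have hc₀ : reflEl92 Q (p + Q v₀ • q) (hQc' _ hv₀) ∈ stab33 Q W ⊔ commutator ↥(Cfsg.isometryGroup F ⇑Q) :=
    conj_mem33 h Q hQ _ hKO _ v₀ _ hv₀ (hQc _).symm (Subgroup.mem_sup_left hrv)
  have h1mem : reflEl92 Q (p + q) hQ1' ∈ stab33 Q W ⊔ commutator ↥(Cfsg.isometryGroup F ⇑Q) := by
    have h2 : reflEl92 Q (p + q) hQ1' = (reflEl92 Q (p + q) hQ1' * reflEl92 Q (p + Q v₀ • q) (hQc' _ hv₀)) *
        (reflEl92 Q (p + Q v₀ • q) (hQc' _ hv₀))⁻¹ := by group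
    rw [h2]
    exact Subgroup.mul_mem _ (Subgroup.mem_sup_left (hrot _ hv₀)) (Subgroup.inv_mem _ hc₀)
  have htop : stab33 Q W ⊔ commutator ↥(Cfsg.isometryGroup F ⇑Q) = ⊤ := by
    apply top_of_refl33 h Q hQ _ hKO
    intro u hu
    refine ⟨p + Q u • q, hQc' _ hu, hQc _, ?_⟩
    have h2 : reflEl92 Q (p + Q u • q) (hQc' _ hu) = (reflEl92 Q (p + q) hQ1')⁻¹ *
        (reflEl92 Q (p + q) hQ1' * reflEl92 Q (p + Q u • q) (hQc' _ hu)) := by group
    rw [h2]
    exact Subgroup.mul_mem _ (Subgroup.inv_mem _ h1mem) (Subgroup.mem_sup_left (hrot _ hu))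
  have hρmem : ρ ∈ stab33 Q W ⊔ commutator ↥(Cfsg.isometryGroup F ⇑Q) := by
    rw [htop]
    exact Subgroup.mem_top _
  obtain ⟨s, hs, ω, hω, hsω⟩ := Subgroup.mem_sup_of_normal_right.mp hρmem
  refine ⟨ω, hω, ?_⟩
  have hs' := (mem_stab33 Q W s⁻¹).mp (Subgroup.inv_mem _ hs)
  have hω' : ω = s⁻¹ * ρ := by rw [← hsω]; group
  rw [hω']
  show U.map (Matrix.mulVecLin ((((s⁻¹ : ↥(Cfsg.isometryGroup F ⇑Q)) : Matrix.GeneralLinearGroup (Fin n) F) :
      Matrix (Fin n) (Fin n) F) * ((ρ : Matrix.GeneralLinearGroup (Fin n) F) : Matrix (Fin n) (Fin n) F))) = W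
  rw [Matrix.mulVecLin_mul, Submodule.map_comp, hρU, hs']

end Cfsg.Agent.S2633
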