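import Cfsg.Statements.S2631
import Mathlib
import Cfsg.Statements.S2631
import Cfsg.Agent.S2629
import Cfsg.Agent.S2633

set_option autoImplicit false
open Cfsg
open scoped commutatorElement

namespace Cfsg.Agent.S2631

open Cfsg.Agent.S0750 Cfsg.Agent.S0794 Cfsg.Agent.S0792 Cfsg.Agent.S0786 Cfsg.Agent.S2635 Cfsg.Agent.S0789 Cfsg.Agent.S0832 Cfsg.Agent.S0831 Cfsg.Agent.S2629 Cfsg.Agent.S2633 Matrix
open scoped commutatorElement

theorem refl_comm31 {F : Type*} [Field F] [Fintype F] {n : ℕ} (h : Fintype.card F ≠ 2 ∨ n ≠ 4)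
    (Q : QuadraticForm F (Fin n → F)) (hQ : (QuadraticMap.polarBilin Q).Nondegenerate)
    (u v : Fin n → F) (hu : Q u ≠ 0) (hv : Q v ≠ 0) (huv : Q v = Q u) :
    ∃ c ∈ commutator ↥(Cfsg.isometryGroup F ⇑Q), reflEl92 Q u hu = c * reflEl92 Q v hv := by
  have hv0 : v ≠ 0 := by
    rintro rfl
    exact hv (map_zero Q)
  have hu0 : u ≠ 0 := by
    rintro rfl
    exact hu (map_zero Q)
  obtain ⟨g0, hg0R, hg0⟩ := gen_fam86 Q hQ (hF_of35 h) 1 (fun _ => v) (fun _ => u)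
    ((linearIndependent_unique_iff (v := fun _ : Fin 1 => v)).mpr hv0)
    ((linearIndependent_unique_iff (v := fun _ : Fin 1 => u)).mpr hu0)
    (fun _ => huv)
    (fun _ _ => by
      show QuadraticMap.polarBilin Q v v = QuadraticMap.polarBilin Q u u
      rw [Bself92, Bself92, huv])
  obtain ⟨ρ, -, hρ⟩ := hg0R
  have h1 : ρ * reflEl92 Q v hv * ρ⁻¹ = reflEl92 Q u hu := by
    rw [mul_inv_eq_iff_eq_mul]
    apply Subtype.ext
    apply Units.ext
    show ((ρ : Matrix.GeneralLinearGroup (Fin n) F) : Matrix (Fin n) (Fin n) F) * reflectionMatrix (⇑Q) v =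
      reflectionMatrix (⇑Q) u * ((ρ : Matrix.GeneralLinearGroup (Fin n) F) : Matrix (Fin n) (Fin n) F)
    rw [refl_conj35, hρ, hg0 0]
  refine ⟨⁅ρ, reflEl92 Q v hv⁆, ?_, ?_⟩
  · rw [commutator_def]
    exact Subgroup.commutator_mem_commutator (Subgroup.mem_top _) (Subgroup.mem_top _)
  · rw [← h1, commutatorElement_def]
    group

theorem T_le_stab31 {F : Type*} [Field F] [Fintype F] {n : ℕ} (h : Fintype.card F ≠ 2 ∨ n ≠ 4)
    (Q : QuadraticForm F (Fin n → F)) (hQ : (QuadraticMap.polarBilin Q).Nondegenerate)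
    (W : Submodule F (Fin n → F)) (hW0 : ∀ w ∈ W, Q w = 0)
    (p : Fin n → F) (hpW : p ∈ W) (hp0 : p ≠ 0) :
    Subgroup.closure (Tset92 Q) ≤ stab33 Q W ⊔ commutator ↥(Cfsg.isometryGroup F ⇑Q) := by
  have hp : Q p = 0 := hW0 p hpW
  obtain ⟨q, hq, hpq⟩ := exists_hyp33 Q hQ p hp0 hp
  have hB0 : ∀ a ∈ W, ∀ b ∈ W, QuadraticMap.polarBilin Q a b = 0 := by
    intro a ha b hb
    have h1 := Qadd50 Q a b
    rw [hW0 _ (W.add_mem ha hb), hW0 a ha, hW0 b hb] at h1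
    linear_combination -h1
  have hQ1 : Q (p + q) = 1 := by rw [Qadd50, hp, hq, hpq]; ring
  have hQc : ∀ c : F, Q (p + c • q) = c := fun c => by rw [Q2_92, hp, hq, hpq]; ring
  have hQ1' : Q (p + q) ≠ 0 := by rw [hQ1]; exact one_ne_zero
  have hQc' : ∀ c : F, c ≠ 0 → Q (p + c • q) ≠ 0 := fun c hc => by rw [hQc]; exact hc
  have hrot : ∀ (c : F) (hc : c ≠ 0),
      reflEl92 Q (p + q) hQ1' * reflEl92 Q (p + c • q) (hQc' c hc) ∈ stab33 Q W := by
    intro c hc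
    apply stab_of_le33
    intro w hw
    have h1 : ((reflEl92 Q (p + q) hQ1' * reflEl92 Q (p + c • q) (hQc' c hc) : ↥(Cfsg.isometryGroup F ⇑Q)) :
        Matrix.GeneralLinearGroup (Fin n) F).1 *ᵥ w = hL86 Q p q c w := by
      rw [rot_refl86 Q p q c hp hq hpq hc, LinearMap.comp_apply, rL_apply86 Q _ w, rL_apply86]
      show (reflectionMatrix (⇑Q) (p + q) * reflectionMatrix (⇑Q) (p + c • q)) *ᵥ w = _
      rw [← Matrix.mulVec_mulVec, refl_mulVec92, refl_mulVec92]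
    rw [h1, hL_apply86, hB0 p hpW w hw, mul_zero, zero_smul, add_zero]
    exact W.add_mem hw (W.smul_mem _ hpW)
  have hOn : (commutator ↥(Cfsg.isometryGroup F ⇑Q)).Normal := by
    rw [commutator_def]
    infer_instance
  rw [Subgroup.closure_le]
  rintro t ⟨u, v, hu, hv, ht⟩
  show t ∈ stab33 Q W ⊔ commutator ↥(Cfsg.isometryGroup F ⇑Q)
  obtain ⟨c₁, hc₁, e₁⟩ := refl_comm31 h Q hQ u (p + Q u • q) hu (hQc' _ hu) (hQc _)
  obtain ⟨c₂, hc₂, e₂⟩ := refl_comm31 h Q hQ v (p + Q v • q) hv (hQc' _ hv) (hQc _)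
  have et : t = reflEl92 Q u hu * reflEl92 Q v hv := Subtype.ext (Units.ext ht)
  have hinv : (reflEl92 Q (p + Q u • q) (hQc' _ hu))⁻¹ = reflEl92 Q (p + Q u • q) (hQc' _ hu) :=
    inv_eq_of_mul_eq_one_right (Subtype.ext (Units.ext (refl_sq92 Q _ (hQc' _ hu))))
  have e3 : t = c₁ * (reflEl92 Q (p + Q u • q) (hQc' _ hu) * c₂ * (reflEl92 Q (p + Q u • q) (hQc' _ hu))⁻¹) *
      (reflEl92 Q (p + Q u • q) (hQc' _ hu) * reflEl92 Q (p + Q v • q) (hQc' _ hv)) := by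
    rw [et, e₁, e₂]
    group
  have e4 : reflEl92 Q (p + Q u • q) (hQc' _ hu) * reflEl92 Q (p + Q v • q) (hQc' _ hv) =
      (reflEl92 Q (p + q) hQ1' * reflEl92 Q (p + Q u • q) (hQc' _ hu))⁻¹ *
      (reflEl92 Q (p + q) hQ1' * reflEl92 Q (p + Q v • q) (hQc' _ hv)) := by
    have h5 : (reflEl92 Q (p + q) hQ1' * reflEl92 Q (p + Q u • q) (hQc' _ hu))⁻¹ *
      (reflEl92 Q (p + q) hQ1' * reflEl92 Q (p + Q v • q) (hQc' _ hv)) =
      (reflEl92 Q (p + Q u • q) (hQc' _ hu))⁻¹ * reflEl92 Q (p + Q v • q) (hQc' _ hv) := by group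
    rw [h5, hinv]
  rw [e3, e4]
  exact Subgroup.mul_mem _ (Subgroup.mul_mem _ (Subgroup.mem_sup_right hc₁)
    (Subgroup.mem_sup_right (hOn.conj_mem c₂ hc₂ _)))
    (Subgroup.mem_sup_left (Subgroup.mul_mem _ (Subgroup.inv_mem _ (hrot _ hu)) (hrot _ hv)))

theorem el_of_equiv31 {ι : Type} [Fintype ι] [DecidableEq ι] {F : Type*} [Field F] (q : (ι → F) → F)
    (g : (ι → F) ≃ₗ[F] (ι → F)) (hg : ∀ v, q (g v) = q v) :
    ∃ ρ : ↥(Cfsg.isometryGroup F q), ∀ v, ((ρ : Matrix.GeneralLinearGroup ι F) : Matrix ι ι F) *ᵥ v = g v := by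
  have h1 : LinearMap.toMatrix' g.toLinearMap * LinearMap.toMatrix' g.symm.toLinearMap = 1 := by
    rw [← LinearMap.toMatrix'_comp]
    have : g.toLinearMap ∘ₗ g.symm.toLinearMap = LinearMap.id := by
      ext x
      simp
    rw [this, LinearMap.toMatrix'_id]
  have h2 : LinearMap.toMatrix' g.symm.toLinearMap * LinearMap.toMatrix' g.toLinearMap = 1 := by
    rw [← LinearMap.toMatrix'_comp]
    have : g.symm.toLinearMap ∘ₗ g.toLinearMap = LinearMap.id := by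
      ext x
      simp
    rw [this, LinearMap.toMatrix'_id]
  refine ⟨⟨⟨LinearMap.toMatrix' g.toLinearMap, LinearMap.toMatrix' g.symm.toLinearMap, h1, h2⟩, ?_⟩, ?_⟩
  · intro u _
    show q (LinearMap.toMatrix' g.toLinearMap *ᵥ u) = q u
    rw [LinearMap.toMatrix'_mulVec]
    exact hg u
  · intro v
    show LinearMap.toMatrix' g.toLinearMap *ᵥ v = g v
    rw [LinearMap.toMatrix'_mulVec]
    rfl

/-- For the hyperbolic form Σ x_i y_i on F^(2m) over a finite field (m ≥ 1, excluding m = 2 over the field of two elements), Ω (the commutator subgroup of the orthogonal group) acts transitively on each of the two classes of maximal totally singular subspaces: if U and W are m-dimensional totally singular subspaces with m − dim(U ∩ W) even, some element of Ω carries U to W. -/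
theorem result {F : Type*} [Field F] [Fintype F] {m : ℕ} (hm : 1 ≤ m) (h : Fintype.card F ≠ 2 ∨ m ≠ 2) (U W : Submodule F (Fin m ⊕ Fin m → F)) (hU : Module.finrank F U = m) (hW : Module.finrank F W = m) (hU0 : ∀ u ∈ U, Cfsg.quadFormPlus m F u = 0) (hW0 : ∀ w ∈ W, Cfsg.quadFormPlus m F w = 0) (he : Even (m - Module.finrank F ↥(U ⊓ W))) : ∃ g : ↥(Cfsg.isometryGroup F (Cfsg.quadFormPlus m F)), g ∈ Cfsg.Omega F (Cfsg.quadFormPlus m F) ∧ U.map (Matrix.mulVecLin ((g : Matrix.GeneralLinearGroup (Fin m ⊕ Fin m) F) : Matrix (Fin m ⊕ Fin m) (Fin m ⊕ Fin m) F)) = W := by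
  classical
  have hUq : ∀ u ∈ U, qp32 F m u = 0 := fun u hu => by rw [qp_apply32]; exact hU0 u hu
  have hWq : ∀ w ∈ W, qp32 F m w = 0 := fun w hw => by rw [qp_apply32]; exact hW0 w hw
  obtain ⟨g, hg, hgφ⟩ := Cfsg.Agent.S0750.result (qp32 F m) (qp_nondeg32 m) U W
    (LinearEquiv.ofFinrankEq U W (by rw [hU, hW]))
    (fun x => by rw [hWq _ (Subtype.property _), hUq _ x.2])
  obtain ⟨ρ, hρ⟩ := el_of_equiv31 (Cfsg.quadFormPlus m F) g (fun v => by
    rw [← qp_apply32, ← qp_apply32]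
    exact hg v)
  have hρU : U.map (Matrix.mulVecLin ((ρ : Matrix.GeneralLinearGroup (Fin m ⊕ Fin m) F) :
      Matrix (Fin m ⊕ Fin m) (Fin m ⊕ Fin m) F)) = W := by
    apply le_antisymm
    · rintro _ ⟨u, hu, rfl⟩
      rw [Matrix.mulVecLin_apply, hρ]
      have h1 := hgφ ⟨u, hu⟩
      rw [h1]
      exact Subtype.property _
    · intro w hw
      refine ⟨((LinearEquiv.ofFinrankEq U W (by rw [hU, hW])).symm ⟨w, hw⟩ : Fin m ⊕ Fin m → F),
        Subtype.property _, ?_⟩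
      rw [Matrix.mulVecLin_apply, hρ, hgφ, LinearEquiv.apply_symm_apply]
  have hinj := gl_inj29 (ρ : Matrix.GeneralLinearGroup (Fin m ⊕ Fin m) F)
  have hP : Even (m - Module.finrank F ↥(W ⊓ W.map (Matrix.mulVecLin
      ((ρ : Matrix.GeneralLinearGroup (Fin m ⊕ Fin m) F) : Matrix (Fin m ⊕ Fin m) (Fin m ⊕ Fin m) F)))) := by
    have h1 : W ⊓ W.map (Matrix.mulVecLin
        ((ρ : Matrix.GeneralLinearGroup (Fin m ⊕ Fin m) F) : Matrix (Fin m ⊕ Fin m) (Fin m ⊕ Fin m) F)) =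
        (U ⊓ W).map (Matrix.mulVecLin
        ((ρ : Matrix.GeneralLinearGroup (Fin m ⊕ Fin m) F) : Matrix (Fin m ⊕ Fin m) (Fin m ⊕ Fin m) F)) := by
      rw [Submodule.map_inf _ hinj, hρU]
    rw [h1, ← (Submodule.equivMapOfInjective _ hinj (U ⊓ W)).finrank_eq]
    exact he
  have hT := (main_sum29 hm h W hW0 hW ρ).mp hP
  have hW' : ∀ w' ∈ W.map (LinearMap.funLeft F F (sg29 m).symm), qf29 F m w' = 0 := by
    rintro _ ⟨w, hw, rfl⟩
    rw [qf_apply29]
    have e : (LinearMap.funLeft F F (sg29 m).symm w) ∘ (sg29 m) = w := by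
      funext i
      simp [LinearMap.funLeft_apply]
    rw [e]
    exact hWq w hw
  have hWne : W ≠ ⊥ := by
    intro hb
    rw [hb, finrank_bot] at hW
    omega
  obtain ⟨w₀, hw₀W, hw₀⟩ := Submodule.exists_mem_ne_zero_of_ne_bot hWne
  have hp0 : LinearMap.funLeft F F (sg29 m).symm w₀ ≠ 0 := by
    intro h0
    apply hw₀
    funext i
    have h1 := congrFun h0 (sg29 m i)
    simpa [LinearMap.funLeft_apply] using h1
  have h' : Fintype.card F ≠ 2 ∨ m + m ≠ 4 := by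
    rcases h with h | h
    · exact Or.inl h
    · right
      omega
  have hle := T_le_stab31 h' (qf29 F m) (qf_nondeg29 F m) (W.map (LinearMap.funLeft F F (sg29 m).symm)) hW' _
    ⟨w₀, hw₀W, rfl⟩ hp0
  have hOn : (commutator ↥(Cfsg.isometryGroup F ⇑(qf29 F m))).Normal := by
    rw [commutator_def]
    infer_instance
  obtain ⟨s', hs', ω', hω', hsω⟩ := Subgroup.mem_sup_of_normal_right.mp (hle hT)
  refine ⟨(Psi29 F m).symm ω', ?_, ?_⟩
  · show (Psi29 F m).symm ω' ∈ commutator ↥(Cfsg.isometryGroup F (Cfsg.quadFormPlus m F))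
    rw [comm_equiv29 (Psi29 F m), MulEquiv.apply_symm_apply]
    exact hω'
  · have hω'' : ω' = s'⁻¹ * Psi29 F m ρ := by
      rw [← hsω]
      group
    rw [hω'', map_mul, MulEquiv.symm_apply_apply]
    show U.map (Matrix.mulVecLin
      (((((Psi29 F m).symm s'⁻¹ : ↥(Cfsg.isometryGroup F (Cfsg.quadFormPlus m F))) :
        Matrix.GeneralLinearGroup (Fin m ⊕ Fin m) F) : Matrix (Fin m ⊕ Fin m) (Fin m ⊕ Fin m) F) *
        ((ρ : Matrix.GeneralLinearGroup (Fin m ⊕ Fin m) F) : Matrix (Fin m ⊕ Fin m) (Fin m ⊕ Fin m) F))) = W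
    rw [Matrix.mulVecLin_mul, Submodule.map_comp, hρU]
    have hst := (mem_stab33 (qf29 F m) (W.map (LinearMap.funLeft F F (sg29 m).symm)) s'⁻¹).mp
      (Subgroup.inv_mem _ hs')
    apply Submodule.eq_of_le_of_finrank_eq
    · rintro _ ⟨w, hw, rfl⟩
      rw [Matrix.mulVecLin_apply]
      unfold Psi29
      rw [psi_symm_mulVec29]
      have h1 : ((s'⁻¹ : ↥(Cfsg.isometryGroup F ⇑(qf29 F m))) : Matrix.GeneralLinearGroup (Fin (m + m)) F).1 *ᵥ
          (w ∘ (sg29 m).symm) ∈ (W.map (LinearMap.funLeft F F (sg29 m).symm)).map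
            (Matrix.mulVecLin ((s'⁻¹ : ↥(Cfsg.isometryGroup F ⇑(qf29 F m))) :
              Matrix.GeneralLinearGroup (Fin (m + m)) F).1) :=
        ⟨w ∘ (sg29 m).symm, ⟨w, hw, rfl⟩, rfl⟩
      rw [hst] at h1
      obtain ⟨w₂, hw₂, e₂⟩ := h1
      have e₃ : ((s'⁻¹ : ↥(Cfsg.isometryGroup F ⇑(qf29 F m))) : Matrix.GeneralLinearGroup (Fin (m + m)) F).1 *ᵥ
          (w ∘ (sg29 m).symm) = LinearMap.funLeft F F (sg29 m).symm w₂ := e₂.symm
      show (((s'⁻¹ : ↥(Cfsg.isometryGroup F ⇑(qf29 F m))) : Matrix.GeneralLinearGroup (Fin (m + m)) F).1 *ᵥ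
          (w ∘ (sg29 m).symm)) ∘ (sg29 m) ∈ W
      rw [e₃]
      have e : (LinearMap.funLeft F F (sg29 m).symm w₂) ∘ (sg29 m) = w₂ := by
        funext i
        simp [LinearMap.funLeft_apply]
      rw [e]
      exact hw₂
    · exact (Submodule.equivMapOfInjective _ (gl_inj29 _) W).finrank_eq.symm

end Cfsg.Agent.S2631
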