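import Cfsg.Statements.S2632
import Mathlib
import Cfsg.Statements.S2632
import Cfsg.Agent.S2633

set_option autoImplicit false
open Cfsg
open scoped commutatorElement

namespace Cfsg.Agent.S2632

open Cfsg.Agent.S0750 Cfsg.Agent.S0794 Cfsg.Agent.S0792 Cfsg.Agent.S0786 Cfsg.Agent.S2635 Cfsg.Agent.S2633 Matrix
open scoped commutatorElement

theorem exists_aniso_sub32 {F : Type*} [Field F] {n : ℕ} (Q : QuadraticForm F (Fin n → F))
    (S : Submodule F (Fin n → F))
    (hS : S ⊓ LinearMap.BilinForm.orthogonal (QuadraticMap.polarBilin Q) S = ⊥) (hne : S ≠ ⊥) :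
    ∃ a ∈ S, Q a ≠ 0 := by
  by_contra hcon
  push Not at hcon
  obtain ⟨t, htS, ht0⟩ := Submodule.exists_mem_ne_zero_of_ne_bot hne
  apply ht0
  have hmem : t ∈ S ⊓ LinearMap.BilinForm.orthogonal (QuadraticMap.polarBilin Q) S := by
    refine ⟨htS, ?_⟩
    show t ∈ LinearMap.BilinForm.orthogonal (QuadraticMap.polarBilin Q) S
    rw [LinearMap.BilinForm.mem_orthogonal_iff]
    intro s hs
    show QuadraticMap.polarBilin Q s t = 0
    have h1 := Qadd50 Q s t
    rw [hcon _ (S.add_mem hs htS), hcon s hs, hcon t htS] at h1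
    linear_combination -h1
  rw [hS] at hmem
  exact (Submodule.mem_bot F).mp hmem

theorem universal32 {F : Type*} [Field F] [Fintype F] (h2 : (2 : F) ≠ 0) {n : ℕ} (Q : QuadraticForm F (Fin n → F))
    (S : Submodule F (Fin n → F)) (hS : S ⊓ LinearMap.BilinForm.orthogonal (QuadraticMap.polarBilin Q) S = ⊥)
    (hdim : 2 ≤ Module.finrank F S) (c : F) : ∃ v ∈ S, Q v = c := by
  classical
  have hne : S ≠ ⊥ := by
    rintro rfl
    simp at hdim
  obtain ⟨a, haS, ha⟩ := exists_aniso_sub32 Q S hS hne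
  have haa : QuadraticMap.polarBilin Q a a ≠ 0 := by
    rw [Bself92]
    exact mul_ne_zero h2 ha
  obtain ⟨s, hsS, hsa⟩ : ∃ s ∈ S, s ∉ Submodule.span F {a} := by
    by_contra hcon
    push Not at hcon
    have hle : S ≤ Submodule.span F {a} := hcon
    have h1 := Submodule.finrank_mono hle
    have h3 : Module.finrank F (Submodule.span F {a}) ≤ 1 := by
      have := finrank_span_le_card (R := F) ({a} : Set (Fin n → F))
      simpa using this
    omega
  obtain ⟨t, htS, hat, ht0⟩ : ∃ t ∈ S, QuadraticMap.polarBilin Q a t = 0 ∧ t ≠ 0 := by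
    refine ⟨s + (-(QuadraticMap.polarBilin Q a s / QuadraticMap.polarBilin Q a a)) • a,
      S.add_mem hsS (S.smul_mem _ haS), ?_, ?_⟩
    · rw [map_add, map_smul, smul_eq_mul]
      field_simp
      ring
    · intro h0
      apply hsa
      have h5 : s = (QuadraticMap.polarBilin Q a s / QuadraticMap.polarBilin Q a a) • a := by
        have h6 : s = (s + (-(QuadraticMap.polarBilin Q a s / QuadraticMap.polarBilin Q a a)) • a) +
            (QuadraticMap.polarBilin Q a s / QuadraticMap.polarBilin Q a a) • a := by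
          rw [neg_smul]
          abel
        rw [h0, zero_add] at h6
        exact h6
      rw [h5]
      exact Submodule.smul_mem _ _ (Submodule.mem_span_singleton_self a)
  obtain ⟨b, hbS, hab, hb⟩ : ∃ b ∈ S, QuadraticMap.polarBilin Q a b = 0 ∧ Q b ≠ 0 := by
    by_contra hcon
    push Not at hcon
    apply ht0
    have hmem : t ∈ S ⊓ LinearMap.BilinForm.orthogonal (QuadraticMap.polarBilin Q) S := by
      refine ⟨htS, ?_⟩
      show t ∈ LinearMap.BilinForm.orthogonal (QuadraticMap.polarBilin Q) S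
      rw [LinearMap.BilinForm.mem_orthogonal_iff]
      intro s' hs'
      show QuadraticMap.polarBilin Q s' t = 0
      obtain ⟨s'', hs''S, has'', d, h7⟩ : ∃ s'' ∈ S, QuadraticMap.polarBilin Q a s'' = 0 ∧
          ∃ d : F, s' = s'' + d • a := by
        refine ⟨s' + (-(QuadraticMap.polarBilin Q a s' / QuadraticMap.polarBilin Q a a)) • a,
          S.add_mem hs' (S.smul_mem _ haS), ?_, QuadraticMap.polarBilin Q a s' / QuadraticMap.polarBilin Q a a, ?_⟩
        · rw [map_add, map_smul, smul_eq_mul]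
          field_simp
          ring
        · rw [neg_smul]
          abel
      have h1 := Qadd50 Q s'' t
      have hadd : QuadraticMap.polarBilin Q a (s'' + t) = 0 := by rw [map_add, has'', hat, add_zero]
      rw [hcon _ (S.add_mem hs''S htS) hadd, hcon _ hs''S has'', hcon _ htS hat] at h1
      have h6 : QuadraticMap.polarBilin Q s'' t = 0 := by linear_combination -h1
      rw [h7, map_add, LinearMap.add_apply, map_smul, LinearMap.smul_apply, h6, hat, smul_zero, add_zero]
    rw [hS] at hmem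
    exact (Submodule.mem_bot F).mp hmem
  have hodd : Fintype.card F % 2 = 1 := by
    apply FiniteField.odd_card_of_char_ne_two
    intro h
    apply h2
    have := ringChar.Nat.cast_ringChar (R := F)
    rw [h] at this
    exact_mod_cast this
  obtain ⟨x, y, hxy⟩ := FiniteField.exists_root_sum_quadratic
    (f := Polynomial.C (Q a) * Polynomial.X ^ 2) (g := Polynomial.C (Q b) * Polynomial.X ^ 2 + Polynomial.C (-c))
    (Polynomial.degree_C_mul_X_pow 2 ha)
    (by rw [Polynomial.degree_add_C (by rw [Polynomial.degree_C_mul_X_pow 2 hb]; norm_num),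
        Polynomial.degree_C_mul_X_pow 2 hb]; rfl) hodd
  simp only [Polynomial.eval_mul, Polynomial.eval_C, Polynomial.eval_pow, Polynomial.eval_X,
    Polynomial.eval_add] at hxy
  refine ⟨x • a + y • b, S.add_mem (S.smul_mem _ haS) (S.smul_mem _ hbS), ?_⟩
  have hB : QuadraticMap.polarBilin Q (x • a) (y • b) = 0 := by
    simp only [map_smul, LinearMap.smul_apply, hab, smul_zero]
  rw [Qadd50, Qsmul50, Qsmul50, hB]
  linear_combination hxy

/-- Ω is transitive on non-degenerate subspaces of each isometry type: for a quadratic form Q on F^n, n ≥ 3, with non-degenerate polar form (F finite; excluding dimension 4 over the field of two elements), if U and W are subspaces on which the polar form is non-degenerate and there is a Q-preserving linear isomorphism U → W, then some element of Ω (the commutator subgroup of the orthogonal group) carries U to W. (In dimension 2 this fails: Ω can be {±1}, which fixes every line.) -/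
theorem result {F : Type*} [Field F] [Fintype F] {n : ℕ} (hn : 3 ≤ n) (h : Fintype.card F ≠ 2 ∨ n ≠ 4) (Q : QuadraticForm F (Fin n → F)) (hQ : (QuadraticMap.polarBilin Q).Nondegenerate) (U W : Submodule F (Fin n → F)) (hU : U ⊓ LinearMap.BilinForm.orthogonal (QuadraticMap.polarBilin Q) U = ⊥) (hW : W ⊓ LinearMap.BilinForm.orthogonal (QuadraticMap.polarBilin Q) W = ⊥) (e : U ≃ₗ[F] W) (he : ∀ u : U, Q (e u : Fin n → F) = Q (u : Fin n → F)) : ∃ g : ↥(Cfsg.isometryGroup F ⇑Q), g ∈ Cfsg.Omega F ⇑Q ∧ U.map (Matrix.mulVecLin ((g : Matrix.GeneralLinearGroup (Fin n) F) : Matrix (Fin n) (Fin n) F)) = W := by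
  classical
  have hn1 : 1 ≤ n := by omega
  have hrefl : (QuadraticMap.polarBilin Q).IsRefl := fun x y hxy => by rw [Bsymm50]; exact hxy
  -- Witt
  obtain ⟨x, hxli, hxU⟩ := basis33 U (Module.finrank F U) rfl
  have hxmem : ∀ i, x i ∈ U := fun i => by rw [← hxU]; exact Submodule.subset_span ⟨i, rfl⟩
  have heB : ∀ a b : U, QuadraticMap.polarBilin Q (e a : Fin n → F) (e b : Fin n → F) =
      QuadraticMap.polarBilin Q (a : Fin n → F) (b : Fin n → F) := by
    intro a b
    have h1 := Qadd50 Q (e a : Fin n → F) (e b : Fin n → F)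
    have h2 := Qadd50 Q (a : Fin n → F) (b : Fin n → F)
    have h3 := he (a + b)
    rw [map_add, Submodule.coe_add, Submodule.coe_add, h1, h2, he a, he b] at h3
    linear_combination h3
  have hyli : LinearIndependent F (fun i => (e ⟨x i, hxmem i⟩ : Fin n → F)) := by
    have h1 : LinearIndependent F (fun i => (⟨x i, hxmem i⟩ : U)) := by
      apply LinearIndependent.of_comp U.subtype
      exact hxli
    have h2 := h1.map' (e : U →ₗ[F] W) (LinearEquiv.ker e)
    exact h2.map' W.subtype (Submodule.ker_subtype W)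
  have hyW : Submodule.span F (Set.range (fun i => (e ⟨x i, hxmem i⟩ : Fin n → F))) = W := by
    apply Submodule.eq_of_le_of_finrank_eq
    · rw [Submodule.span_le]
      rintro _ ⟨i, rfl⟩
      exact (e ⟨x i, hxmem i⟩).2
    · rw [finrank_span_eq_card hyli, Fintype.card_fin]
      exact e.finrank_eq
  obtain ⟨g0, hg0R, hg0⟩ := gen_fam86 Q hQ (hF_of35 h) _ x (fun i => (e ⟨x i, hxmem i⟩ : Fin n → F)) hxli hyli
    (fun i => (he ⟨x i, hxmem i⟩).symm)
    (fun i j => (heB ⟨x i, hxmem i⟩ ⟨x j, hxmem j⟩).symm)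
  obtain ⟨ρ, -, hρ⟩ := hg0R
  have hρU : U.map (Matrix.mulVecLin ((ρ : Matrix.GeneralLinearGroup (Fin n) F) : Matrix (Fin n) (Fin n) F)) = W := by
    rw [← hxU, Submodule.map_span, ← Set.range_comp, ← hyW]
    congr 2
    funext i
    show ((ρ : Matrix.GeneralLinearGroup (Fin n) F) : Matrix (Fin n) (Fin n) F) *ᵥ x i = _
    rw [hρ, hg0 i]
  have hOn : (commutator ↥(Cfsg.isometryGroup F ⇑Q)).Normal := by
    rw [commutator_def]
    infer_instance
  have hrvW : ∀ (v : Fin n → F) (hv : Q v ≠ 0), v ∈ W → reflEl92 Q v hv ∈ stab33 Q W := by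
    intro v hv hvW
    apply stab_of_le33
    intro w hw
    show reflectionMatrix (⇑Q) v *ᵥ w ∈ W
    rw [refl_mulVec92]
    exact W.add_mem hw (W.smul_mem _ hvW)
  have hrvP : ∀ (v : Fin n → F) (hv : Q v ≠ 0),
      v ∈ LinearMap.BilinForm.orthogonal (QuadraticMap.polarBilin Q) W → reflEl92 Q v hv ∈ stab33 Q W := by
    intro v hv hvW
    apply stab_of_le33
    intro w hw
    show reflectionMatrix (⇑Q) v *ᵥ w ∈ W
    rw [refl_fix92 Q v w (by rw [Bsymm50]; exact (LinearMap.BilinForm.mem_orthogonal_iff.mp hvW) w hw)]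
    exact hw
  have hkey : ∀ u, Q u ≠ 0 → ∃ v, Q v = Q u ∧
      (v ∈ W ∨ v ∈ LinearMap.BilinForm.orthogonal (QuadraticMap.polarBilin Q) W) := by
    by_cases h2 : (2 : F) = 0
    · haveI : CharP F 2 := CharTwo.of_one_ne_zero_of_two_eq_zero one_ne_zero h2
      obtain ⟨v₀, hv₀, hv₀W⟩ : ∃ v₀, Q v₀ ≠ 0 ∧
          (v₀ ∈ W ∨ v₀ ∈ LinearMap.BilinForm.orthogonal (QuadraticMap.polarBilin Q) W) := by
        by_cases hWb : W = ⊥
        · obtain ⟨v₀, hv₀⟩ := exists_aniso35 hn1 Q hQ
          refine ⟨v₀, hv₀, Or.inr ?_⟩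
          rw [hWb, LinearMap.BilinForm.mem_orthogonal_iff]
          intro w hw
          rw [Submodule.mem_bot] at hw
          rw [hw]
          show QuadraticMap.polarBilin Q 0 v₀ = 0
          rw [map_zero, LinearMap.zero_apply]
        · obtain ⟨a, haW, ha⟩ := exists_aniso_sub32 Q W hW hWb
          exact ⟨a, ha, Or.inl haW⟩
      intro u hu
      obtain ⟨s, hs⟩ := isSquare_of_charTwo' (Q u / Q v₀)
      refine ⟨s • v₀, ?_, ?_⟩
      · rw [Qsmul50, ← hs]
        field_simp
      · rcases hv₀W with h' | h'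
        · exact Or.inl (W.smul_mem _ h')
        · exact Or.inr (Submodule.smul_mem _ _ h')
    · have hdim : 2 ≤ Module.finrank F W ∨
          2 ≤ Module.finrank F (LinearMap.BilinForm.orthogonal (QuadraticMap.polarBilin Q) W) := by
        have h3 := LinearMap.BilinForm.finrank_orthogonal hQ W
        have h4 : Module.finrank F (Fin n → F) = n := by simp
        have h5 := Submodule.finrank_le W
        omega
      intro u hu
      rcases hdim with hd | hd
      · obtain ⟨v, hvW, hv⟩ := universal32 h2 Q W hW hd (Q u)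
        exact ⟨v, hv, Or.inl hvW⟩
      · have hW' : LinearMap.BilinForm.orthogonal (QuadraticMap.polarBilin Q) W ⊓
            LinearMap.BilinForm.orthogonal (QuadraticMap.polarBilin Q)
              (LinearMap.BilinForm.orthogonal (QuadraticMap.polarBilin Q) W) = ⊥ := by
          rw [LinearMap.BilinForm.orthogonal_orthogonal hQ hrefl, inf_comm]
          exact hW
        obtain ⟨v, hvW, hv⟩ := universal32 h2 Q _ hW' hd (Q u)
        exact ⟨v, hv, Or.inr hvW⟩
  have htop : stab33 Q W ⊔ commutator ↥(Cfsg.isometryGroup F ⇑Q) = ⊤ := by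
    apply top_of_refl33 h Q hQ _ le_sup_right
    intro u hu
    obtain ⟨v, hvu, hvW⟩ := hkey u hu
    have hv : Q v ≠ 0 := by rw [hvu]; exact hu
    refine ⟨v, hv, hvu, Subgroup.mem_sup_left ?_⟩
    rcases hvW with h' | h'
    · exact hrvW v hv h'
    · exact hrvP v hv h'
  have hρmem : ρ ∈ stab33 Q W ⊔ commutator ↥(Cfsg.isometryGroup F ⇑Q) := by
    rw [htop]
    exact Subgroup.mem_top _
  obtain ⟨s, hs, ω, hω, hsω⟩ := Subgroup.mem_sup_of_normal_right.mp hρmem
  refine ⟨ω, hω, ?_⟩
  have hs' := (mem_stab33 Q W s⁻¹).mp (Subgroup.inv_mem _ hs)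
  have hω' : ω = s⁻¹ * ρ := by rw [← hsω]; group
  rw [hω']
  show U.map (Matrix.mulVecLin ((((s⁻¹ : ↥(Cfsg.isometryGroup F ⇑Q)) : Matrix.GeneralLinearGroup (Fin n) F) :
      Matrix (Fin n) (Fin n) F) * ((ρ : Matrix.GeneralLinearGroup (Fin n) F) : Matrix (Fin n) (Fin n) F))) = W
  rw [Matrix.mulVecLin_mul, Submodule.map_comp, hρU, hs']

end Cfsg.Agent.S2632
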