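import Cfsg.Statements.S2634
import Mathlib
import Cfsg.Statements.S2634
import Cfsg.Agent.S2635

set_option autoImplicit false
open Cfsg
open scoped commutatorElement

namespace Cfsg.Agent.S2634

open Cfsg.Agent.S0750 Cfsg.Agent.S0794 Cfsg.Agent.S0792 Cfsg.Agent.S0786 Cfsg.Agent.S2635 Matrix
open scoped commutatorElement

/-- Over a finite field of characteristic two, Ω (the commutator subgroup of the orthogonal group of a quadratic form Q on F^n with non-degenerate polar form; excluding dimension 4 over the field of two elements) acts transitively on the non-singular 1-spaces: for u, v with Q(u) ≠ 0 and Q(v) ≠ 0 some element of Ω carries the line through u to the line through v. -/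
theorem result {F : Type*} [Field F] [Fintype F] [CharP F 2] {n : ℕ} (h : Fintype.card F ≠ 2 ∨ n ≠ 4) (Q : QuadraticForm F (Fin n → F)) (hQ : (QuadraticMap.polarBilin Q).Nondegenerate) (u v : Fin n → F) (hu : Q u ≠ 0) (hv : Q v ≠ 0) : ∃ g : ↥(Cfsg.isometryGroup F ⇑Q), g ∈ Cfsg.Omega F ⇑Q ∧ (F ∙ ((g : Matrix.GeneralLinearGroup (Fin n) F) : Matrix (Fin n) (Fin n) F).mulVec u) = F ∙ v := by
  obtain ⟨ρ, -, c, hc0, hρu⟩ := refl_conj_all35 (hF_of35 h) Q hQ u v hu hv
  have hgen : Subgroup.closure (Sset92 Q) = ⊤ := Cfsg.Agent.S0786.result Q hQ h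
  have hle := T_le_comm35 (hF_of35 h) Q hQ
  have hρu' : ((ρ : Matrix.GeneralLinearGroup (Fin n) F) : Matrix (Fin n) (Fin n) F) *ᵥ u = c⁻¹ • v := by
    rw [Matrix.mulVec_smul] at hρu
    rw [← hρu, inv_smul_smul₀ hc0]
  rcases claim92 Q v hv ρ (by rw [hgen]; exact Subgroup.mem_top _) with h1 | h1
  · refine ⟨ρ, hle h1, ?_⟩
    show (F ∙ (((ρ : Matrix.GeneralLinearGroup (Fin n) F) : Matrix (Fin n) (Fin n) F) *ᵥ u)) = F ∙ v
    rw [hρu']
    exact Submodule.span_singleton_smul_eq (IsUnit.mk0 _ (inv_ne_zero hc0)) v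
  · refine ⟨reflEl92 Q v hv * ρ, hle h1, ?_⟩
    show (F ∙ ((reflectionMatrix (⇑Q) v * ((ρ : Matrix.GeneralLinearGroup (Fin n) F) : Matrix (Fin n) (Fin n) F)) *ᵥ u)) =
      F ∙ v
    have h2 : reflectionMatrix (⇑Q) v *ᵥ v = -v := by
      have h3 := refl_neg92 Q v hv
      rw [Matrix.mulVec_neg] at h3
      exact neg_eq_iff_eq_neg.mp h3
    rw [← Matrix.mulVec_mulVec, hρu', Matrix.mulVec_smul, h2, smul_neg, ← neg_smul]
    exact Submodule.span_singleton_smul_eq (IsUnit.mk0 _ (neg_ne_zero.mpr (inv_ne_zero hc0))) v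

end Cfsg.Agent.S2634
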