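import Cfsg.Statements.S2636
import Mathlib
import Cfsg.Statements.S2636

set_option autoImplicit false
open Cfsg
open scoped commutatorElement

namespace Cfsg.Agent.S2636

open Matrix

theorem fixed36 {F : Type*} [Field F] [Fintype F] {q₀ r : ℕ} (hr : r.Prime) (hF : Fintype.card F = q₀ ^ r)
    (σ : F ≃+* F) (hσ : orderOf σ = r) :
    ∃ (F₀ : Subfield F), Nat.card F₀ = q₀ ∧ ∀ x : F, x ∈ F₀ ↔ σ x = x := by
  classical
  haveI : Finite (F ≃+* F) := Finite.of_injective (fun e : F ≃+* F => (e : F → F)) DFunLike.coe_injective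
  let G := Subgroup.zpowers σ
  haveI : Fintype G := Fintype.ofFinite G
  refine ⟨FixedPoints.subfield G F, ?_, ?_⟩
  · have h1 : Module.finrank (FixedPoints.subfield G F) F = Fintype.card G := FixedPoints.finrank_eq_card G F
    have h2 : Fintype.card G = r := by rw [← hσ, ← Nat.card_eq_fintype_card, Nat.card_zpowers]
    have h3 : Nat.card F = Nat.card (FixedPoints.subfield G F) ^ Module.finrank (FixedPoints.subfield G F) F :=
      Module.natCard_eq_pow_finrank (K := FixedPoints.subfield G F) (V := F)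
    rw [h1, h2, Nat.card_eq_fintype_card, hF] at h3
    exact (Nat.pow_left_injective hr.ne_zero h3).symm
  · intro x
    constructor
    · intro hx
      exact hx ⟨σ, Subgroup.mem_zpowers σ⟩
    · intro hx g
      have hle : Subgroup.zpowers σ ≤ MulAction.stabilizer (F ≃+* F) x := by
        rw [Subgroup.zpowers_le]
        exact hx
      exact hle g.2

/-- Centraliser of a field automorphism in PGL_n: let F be the field with q = q₀^r elements, σ a field automorphism of F of prime order r (so its fixed field has q₀ elements) and n ≥ 1. The invertible matrices g whose entrywise image under σ is a scalar multiple of g — those whose coset modulo scalars is fixed by σ — number (q − 1)/(q₀ − 1) · |GL_n(q₀)|; equivalently the centraliser in PGL_n(q) of the induced automorphism has the order of PGL_n(q₀). -/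
theorem result {F : Type*} [Field F] [Fintype F] {q₀ r n : ℕ} (hr : r.Prime) (hn : 1 ≤ n) (hF : Fintype.card F = q₀ ^ r) (σ : F ≃+* F) (hσ : orderOf σ = r) : Nat.card {g : GL (Fin n) F // ∃ c : F, c ≠ 0 ∧ (g : Matrix (Fin n) (Fin n) F).map σ = c • (g : Matrix (Fin n) (Fin n) F)} = (q₀ ^ r - 1) / (q₀ - 1) * ∏ i : Fin n, (q₀ ^ n - q₀ ^ (i : ℕ)) := by
  classical
  obtain ⟨F₀, hcard, hfix⟩ := fixed36 hr hF σ hσ
  haveI : Fintype F₀ := Fintype.ofFinite F₀
  haveI : Nonempty (Fin n) := ⟨⟨0, hn⟩⟩
  let i0 : Fin n := ⟨0, hn⟩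
  let ι : F₀ →+* F := F₀.subtype
  have hι : Function.Injective ι := Subtype.val_injective
  have hσι : ∀ x : F₀, σ (ι x) = ι x := fun x => (hfix _).1 x.2
  let sc : Fˣ →* GL (Fin n) F := Units.map (Matrix.scalar (Fin n) : F →+* Matrix (Fin n) (Fin n) F).toMonoidHom
  let mp : GL (Fin n) F₀ →* GL (Fin n) F := Matrix.GeneralLinearGroup.map ι
  have hsc : ∀ μ : Fˣ, ((sc μ : GL (Fin n) F) : Matrix (Fin n) (Fin n) F) = (μ : F) • (1 : Matrix (Fin n) (Fin n) F) := by
    intro μ
    show Matrix.scalar (Fin n) (μ : F) = _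
    rw [Matrix.scalar_apply, Matrix.smul_one_eq_diagonal]
  have hmp : ∀ h : GL (Fin n) F₀, ((mp h : GL (Fin n) F) : Matrix (Fin n) (Fin n) F) = h.1.map ι := fun h => rfl
  have comm : ∀ (μ : Fˣ) (h : GL (Fin n) F₀), Commute (sc μ) (mp h) := by
    intro μ h
    apply Units.ext
    exact (Matrix.scalar_commute (μ : F) (fun r' => Commute.all _ _) _).eq
  let Ψ : Fˣ × GL (Fin n) F₀ →* GL (Fin n) F := MonoidHom.noncommCoprod sc mp comm
  have hΨ : ∀ (μ : Fˣ) (h : GL (Fin n) F₀), ((Ψ (μ, h) : GL (Fin n) F) : Matrix (Fin n) (Fin n) F) = (μ : F) • h.1.map ι := by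
    intro μ h
    show ((sc μ * mp h : GL (Fin n) F) : Matrix (Fin n) (Fin n) F) = _
    rw [Units.val_mul, hsc, hmp, Matrix.smul_mul, Matrix.one_mul]
  -- range characterization
  have hrange : ∀ g : GL (Fin n) F,
      (∃ c : F, c ≠ 0 ∧ (g : Matrix (Fin n) (Fin n) F).map σ = c • (g : Matrix (Fin n) (Fin n) F)) ↔ g ∈ Ψ.range := by
    intro g
    constructor
    · rintro ⟨c, hc, hg⟩
      have hg0 : (g : Matrix (Fin n) (Fin n) F) ≠ 0 := g.isUnit.ne_zero
      have hex : ∃ i j, (g : Matrix (Fin n) (Fin n) F) i j ≠ 0 := by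
        by_contra hcon
        push_neg at hcon
        apply hg0
        ext i j
        exact hcon i j
      obtain ⟨i, j, he⟩ := hex
      set e : F := (g : Matrix (Fin n) (Fin n) F) i j with he_def
      have hσe : σ e = c * e := by
        have := congrFun (congrFun hg i) j
        simpa [Matrix.map_apply, Matrix.smul_apply] using this
      have hentry : ∀ a b, σ (e⁻¹ * (g : Matrix (Fin n) (Fin n) F) a b) = e⁻¹ * (g : Matrix (Fin n) (Fin n) F) a b := by
        intro a b
        have hab : σ ((g : Matrix (Fin n) (Fin n) F) a b) = c * (g : Matrix (Fin n) (Fin n) F) a b := by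
          have := congrFun (congrFun hg a) b
          simpa [Matrix.map_apply, Matrix.smul_apply] using this
        rw [map_mul, map_inv₀, hσe, hab]
        field_simp
      let h₀ : Matrix (Fin n) (Fin n) F₀ := fun a b => ⟨e⁻¹ * (g : Matrix (Fin n) (Fin n) F) a b, (hfix _).2 (hentry a b)⟩
      have hh₀ : h₀.map ι = e⁻¹ • (g : Matrix (Fin n) (Fin n) F) := by
        ext a b
        rfl
      have hdet : h₀.det ≠ 0 := by
        intro h0
        have h1 : (h₀.map ι).det = 0 := by
          have := congrArg ι h0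
          rw [RingHom.map_det, map_zero] at this
          exact this
        rw [hh₀, Matrix.det_smul] at h1
        have hgdet : (g : Matrix (Fin n) (Fin n) F).det ≠ 0 :=
          ((Matrix.isUnit_iff_isUnit_det _).mp g.isUnit).ne_zero
        rcases mul_eq_zero.mp h1 with h2 | h2
        · exact inv_ne_zero he ((pow_eq_zero_iff (by rw [Fintype.card_fin]; omega)).mp h2)
        · exact hgdet h2
      refine ⟨(Units.mk0 e he, Matrix.GeneralLinearGroup.mkOfDetNeZero h₀ hdet), ?_⟩
      apply Units.ext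
      rw [hΨ]
      show e • h₀.map ι = _
      rw [hh₀, smul_smul, mul_inv_cancel₀ he, one_smul]
    · rintro ⟨⟨μ, h⟩, rfl⟩
      refine ⟨σ (μ : F) * (μ : F)⁻¹, mul_ne_zero (by simp) (by simp), ?_⟩
      rw [hΨ]
      ext a b
      simp only [Matrix.map_apply, Matrix.smul_apply, smul_eq_mul, map_mul, hσι]
      have hμ : (μ : F) ≠ 0 := μ.ne_zero
      field_simp
  -- kernel
  let scF₀ : F₀ˣ →* GL (Fin n) F₀ := Units.map (Matrix.scalar (Fin n) : F₀ →+* Matrix (Fin n) (Fin n) F₀).toMonoidHom
  have hscF₀ : ∀ c : F₀ˣ, ((scF₀ c : GL (Fin n) F₀) : Matrix (Fin n) (Fin n) F₀) = (c : F₀) • (1 : Matrix (Fin n) (Fin n) F₀) := by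
    intro c
    show Matrix.scalar (Fin n) (c : F₀) = _
    rw [Matrix.scalar_apply, Matrix.smul_one_eq_diagonal]
  have hker_mem : ∀ c : F₀ˣ, ((Units.map ι.toMonoidHom c)⁻¹, scF₀ c) ∈ Ψ.ker := by
    intro c
    rw [MonoidHom.mem_ker]
    apply Units.ext
    rw [hΨ, hscF₀]
    ext a b
    by_cases hab : a = b
    · subst hab
      simp [Matrix.map_apply, Matrix.smul_apply, Matrix.one_apply]
    · simp [Matrix.map_apply, Matrix.smul_apply, Matrix.one_apply, hab]
  have hker_card : Nat.card Ψ.ker = q₀ - 1 := by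
    have hbij : Function.Bijective (fun c : F₀ˣ => (⟨((Units.map ι.toMonoidHom c)⁻¹, scF₀ c), hker_mem c⟩ : Ψ.ker)) := by
      constructor
      · intro c c' hcc
        have h1 := congrArg (fun x : Ψ.ker => (x.1.1 : Fˣ)) hcc
        simp only [_root_.inv_inj] at h1
        have h2 := congrArg (fun u : Fˣ => (u : F)) h1
        simp only [Units.coe_map, MonoidHom.coe_coe, RingHom.toMonoidHom_eq_coe] at h2
        exact Units.ext (hι h2)
      · rintro ⟨⟨μ, h⟩, hmem⟩
        rw [MonoidHom.mem_ker] at hmem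
        have hmat : (μ : F) • h.1.map ι = 1 := by
          rw [← hΨ, hmem]; rfl
        have hμ : (μ : F) ≠ 0 := μ.ne_zero
        have hent : ∀ a b, ι (h.1 a b) = if a = b then (μ : F)⁻¹ else 0 := by
          intro a b
          have := congrFun (congrFun hmat a) b
          simp only [Matrix.smul_apply, Matrix.map_apply, smul_eq_mul, Matrix.one_apply] at this
          split_ifs with hab
          · rw [if_pos hab] at this
            field_simp
            rw [mul_comm]; exact this
          · rw [if_neg hab] at this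
            exact (mul_eq_zero.mp this).resolve_left hμ
        have hc0 : h.1 i0 i0 ≠ 0 := by
          intro h0
          have := hent i0 i0
          rw [h0, map_zero, if_pos rfl] at this
          exact inv_ne_zero hμ this.symm
        refine ⟨Units.mk0 (h.1 i0 i0) hc0, ?_⟩
        apply Subtype.ext
        apply Prod.ext
        · apply Units.ext
          show ((Units.map ι.toMonoidHom (Units.mk0 (h.1 i0 i0) hc0))⁻¹ : Fˣ).1 = (μ : F)
          rw [Units.val_inv_eq_inv_val]
          show (ι (h.1 i0 i0))⁻¹ = (μ : F)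
          rw [hent i0 i0, if_pos rfl, inv_inv]
        · apply Units.ext
          show ((scF₀ (Units.mk0 (h.1 i0 i0) hc0) : GL (Fin n) F₀) : Matrix (Fin n) (Fin n) F₀) = h.1
          rw [hscF₀]
          ext a b
          show ι ((((Units.mk0 (h.1 i0 i0) hc0 : F₀ˣ) : F₀) • (1 : Matrix (Fin n) (Fin n) F₀)) a b) = ι (h.1 a b)
          rw [hent a b]
          by_cases hab : a = b
          · subst hab
            simp [Matrix.smul_apply, Matrix.one_apply, hent i0 i0]
          · simp [Matrix.smul_apply, Matrix.one_apply, hab]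
    rw [← Nat.card_congr (Equiv.ofBijective _ hbij), Nat.card_units, hcard]
  -- counting
  have hS : Nat.card {g : GL (Fin n) F // ∃ c : F, c ≠ 0 ∧ (g : Matrix (Fin n) (Fin n) F).map σ = c • (g : Matrix (Fin n) (Fin n) F)} = Nat.card Ψ.range :=
    Nat.card_congr (Equiv.subtypeEquivRight hrange)
  have hprod : Nat.card Ψ.ker * Nat.card Ψ.range = (q₀ ^ r - 1) * ∏ i : Fin n, (q₀ ^ n - q₀ ^ (i : ℕ)) := by
    rw [← Subgroup.index_ker, Subgroup.card_mul_index, Nat.card_prod, Nat.card_units, Nat.card_eq_fintype_card, hF,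
      Matrix.card_GL_field, ← Nat.card_eq_fintype_card, hcard]
  rw [hS]
  rw [hker_card] at hprod
  have hq0 : 2 ≤ q₀ := by
    by_contra hlt
    have hq01 : q₀ = 0 ∨ q₀ = 1 := by omega
    have h2 : 2 ≤ Fintype.card F := Fintype.one_lt_card
    rcases hq01 with h | h
    · rw [hF, h, zero_pow hr.ne_zero] at h2; omega
    · rw [hF, h, one_pow] at h2; omega
  have hdvd : q₀ - 1 ∣ q₀ ^ r - 1 := by
    have h1 : 1 ≤ q₀ := by omega
    have h2 : 1 ≤ q₀ ^ r := Nat.one_le_pow _ _ (by omega)
    have := sub_one_dvd_pow_sub_one (q₀ : ℤ) r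
    rw [← Int.natCast_dvd_natCast, Nat.cast_sub h1, Nat.cast_sub h2]
    simpa using this
  obtain ⟨d, hd⟩ := hdvd
  rw [hd, Nat.mul_div_cancel_left d (by omega)]
  rw [hd, mul_assoc] at hprod
  exact Nat.eq_of_mul_eq_mul_left (by omega) hprod

end Cfsg.Agent.S2636
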