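import Cfsg.Statements.S2666
import Mathlib

set_option autoImplicit false
open Cfsg

namespace Cfsg.Agent.S2666

theorem pow_fix {X : Type*} [Group X] (σ : MulAut X) (y : X) (h : σ y = y) (e : ℕ) : (σ ^ e) y = y := by
  induction e with
  | zero => simp
  | succ n ih => rw [pow_succ, MulAut.mul_apply, h, ih]

theorem prod_tele {X : Type*} [Group X] (σ : MulAut X) (a : X) (d : ℕ) :
    ((List.range d).map (fun i => (σ ^ i) (a * (σ a)⁻¹))).prod = a * ((σ ^ d) a)⁻¹ := by
  induction d with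
  | zero => simp
  | succ n ih =>
    rw [List.range_succ, List.map_append, List.prod_append, ih]
    simp only [List.map_cons, List.map_nil, List.prod_cons, List.prod_nil, mul_one, map_mul, map_inv]
    have : (σ ^ n) (σ a) = (σ ^ (n+1)) a := by rw [pow_succ, MulAut.mul_apply]
    rw [this]; group

theorem comm_apply {X : Type*} [Group X] (σ : MulAut X) (m n : ℕ) (y : X) :
    (σ ^ m) ((σ ^ n) y) = (σ ^ n) ((σ ^ m) y) := by
  rw [← MulAut.mul_apply, ← MulAut.mul_apply, pow_mul_comm]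

theorem comm_apply1 {X : Type*} [Group X] (σ : MulAut X) (m : ℕ) (y : X) :
    (σ ^ m) (σ y) = σ ((σ ^ m) y) := by
  have := comm_apply σ m 1 y
  simpa using this

theorem x_fixed {X : Type*} [Group X] (σ : MulAut X) (e : ℕ) (a : X)
    (h1 : (σ ^ e) (a * (σ a)⁻¹) = a * (σ a)⁻¹) :
    σ (((σ ^ e) a)⁻¹ * a) = ((σ ^ e) a)⁻¹ * a := by
  rw [map_mul, map_inv] at h1
  rw [comm_apply1] at h1
  rw [map_mul, map_inv]
  generalize (σ ^ e) a = A at *
  generalize σ A = sA at *
  generalize σ a = sa at *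
  have : sA = sa * a⁻¹ * A := by
    have h5 : sA⁻¹ = A⁻¹ * (a * sa⁻¹) := eq_inv_mul_of_mul_eq h1
    have h6 : sA = (sA⁻¹)⁻¹ := by group
    rw [h6, h5]; group
  subst this
  group

/-- Shintani descent, in an abstract form. Let `σ` be an automorphism of a group `X` such that the maps `a ↦ a·σ(a)⁻¹` and `a ↦ a·σᵉ(a)⁻¹` are surjective on `X` (the Lang–Steinberg property, which holds when `X` is a connected algebraic group and `σ` a Steinberg endomorphism), where `e ≥ 1`. Write `G` for the subgroup of fixed points of `σᵉ` and `H` for the subgroup of fixed points of `σ`. The `G`-conjugacy classes in the coset `G σ` of the semidirect product of `G` by `σ` correspond to the orbits of `G` on itself under twisted conjugation `g ↦ k g σ(k)⁻¹`, and the `e`-th power of `g σ` has `G`-part the norm `g σ(g) ⋯ σ^(e-1)(g)`. For `g` in `G` and any `a` with `g = a σ(a)⁻¹`, put `x = σᵉ(a)⁻¹ a`. Then: (1) `x` lies in `H`, and `a⁻¹ · (g σ(g) ⋯ σ^(e-1)(g)) · a = x`; (2)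 for `g, g'` in `G` with such elements `a, b` and `x, x'`, the elements `g, g'` are twisted-conjugate under `G` if and only if `x, x'` are conjugate in `H`; (3) every element of `H` arises as such an `x`. So `g ↦ x` induces a well-defined bijection from the twisted `G`-classes of `G` onto the conjugacy classes of `H` (the Shintani map). -/
theorem result {X : Type*} [Group X] (σ : MulAut X) (e : ℕ) (he : 1 ≤ e)
    (hL : ∀ g : X, ∃ a : X, g = a * (σ a)⁻¹) (hLe : ∀ g : X, ∃ a : X, g = a * ((σ ^ e) a)⁻¹) :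
    (∀ g ∈ (MulEquiv.toMonoidHom (σ ^ e)).eqLocus (MonoidHom.id X), ∀ a : X, g = a * (σ a)⁻¹ →
        ((σ ^ e) a)⁻¹ * a ∈ (MulEquiv.toMonoidHom σ).eqLocus (MonoidHom.id X) ∧
          a⁻¹ * ((List.range e).map (fun i => (σ ^ i) g)).prod * a = ((σ ^ e) a)⁻¹ * a) ∧
    (∀ g ∈ (MulEquiv.toMonoidHom (σ ^ e)).eqLocus (MonoidHom.id X), ∀ g' ∈ (MulEquiv.toMonoidHom (σ ^ e)).eqLocus (MonoidHom.id X), ∀ a b : X,
        g = a * (σ a)⁻¹ → g' = b * (σ b)⁻¹ →
          ((∃ k ∈ (MulEquiv.toMonoidHom (σ ^ e)).eqLocus (MonoidHom.id X), g' = k * g * (σ k)⁻¹) ↔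
            (∃ h ∈ (MulEquiv.toMonoidHom σ).eqLocus (MonoidHom.id X), ((σ ^ e) b)⁻¹ * b = h * (((σ ^ e) a)⁻¹ * a) * h⁻¹))) ∧
    (∀ x ∈ (MulEquiv.toMonoidHom σ).eqLocus (MonoidHom.id X), ∃ g ∈ (MulEquiv.toMonoidHom (σ ^ e)).eqLocus (MonoidHom.id X), ∃ a : X,
        g = a * (σ a)⁻¹ ∧ ((σ ^ e) a)⁻¹ * a = x) := by
  have key : ∀ x : X, x ∈ (MulEquiv.toMonoidHom (σ ^ e)).eqLocus (MonoidHom.id X) ↔ (σ ^ e) x = x := by
    intro x; rfl
  have key1 : ∀ x : X, x ∈ (MulEquiv.toMonoidHom σ).eqLocus (MonoidHom.id X) ↔ σ x = x := by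
    intro x; rfl
  simp only [key, key1]
  refine ⟨?_, ?_, ?_⟩
  · intro g hg a ha
    subst ha
    refine ⟨x_fixed σ e a hg, ?_⟩
    rw [prod_tele]; group
  · intro g hg g' hg' a b ha hb
    subst ha hb
    constructor
    · rintro ⟨k, hk, hkg⟩
      have hh : σ (b⁻¹ * k * a) = b⁻¹ * k * a := by
        simp only [map_mul, map_inv]
        generalize σ k = sk at *
        generalize σ a = sa at *
        generalize σ b = sb at *
        have h1 : sb = sk * sa * a⁻¹ * k⁻¹ * b := by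
          have h2 : sb⁻¹ = b⁻¹ * (k * (a * sa⁻¹) * sk⁻¹) := eq_inv_mul_of_mul_eq hkg
          have h3 : sb = (sb⁻¹)⁻¹ := by group
          rw [h3, h2]; group
        subst h1
        group
      refine ⟨b⁻¹ * k * a, hh, ?_⟩
      have hτ := pow_fix σ _ hh e
      simp only [map_mul, map_inv] at hτ
      rw [hk] at hτ
      generalize (σ ^ e) a = A at *
      generalize (σ ^ e) b = B at *
      have h1 : B = k * A * a⁻¹ * k⁻¹ * b := by
        have h2 : B⁻¹ = b⁻¹ * k * a * (k * A)⁻¹ := by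
          rw [← hτ]; group
        have h3 : B = (B⁻¹)⁻¹ := by group
        rw [h3, h2]; group
      rw [h1]; group
    · rintro ⟨h, hh, hx⟩
      have hτ := pow_fix σ _ hh e
      refine ⟨b * h * a⁻¹, ?_, ?_⟩
      · simp only [map_mul, map_inv]
        rw [hτ]
        generalize (σ ^ e) a = A at *
        generalize (σ ^ e) b = B at *
        have h1 : B = b * h * a⁻¹ * A * h⁻¹ := by
          have h2 : B⁻¹ = h * (A⁻¹ * a) * h⁻¹ * b⁻¹ := eq_mul_inv_of_mul_eq hx
          have h3 : B = (B⁻¹)⁻¹ := by group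
          rw [h3, h2]; group
        rw [h1]; group
      · simp only [map_mul, map_inv]
        rw [hh]; group
  · intro x hx
    obtain ⟨c, hc⟩ := hLe x⁻¹
    have hτx := pow_fix σ _ hx e
    have hA : (σ ^ e) c = x * c := by
      have h2 : ((σ ^ e) c)⁻¹ = c⁻¹ * x⁻¹ := eq_inv_mul_of_mul_eq hc.symm
      have h3 : (σ ^ e) c = (((σ ^ e) c)⁻¹)⁻¹ := by group
      rw [h3, h2]; group
    refine ⟨c⁻¹ * (σ c⁻¹)⁻¹, ?_, c⁻¹, rfl, ?_⟩
    · simp only [map_mul, map_inv]
      rw [comm_apply1, hA, map_mul, hx]; group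
    · simp only [map_inv]
      rw [hA]; group

end Cfsg.Agent.S2666
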