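import Cfsg.Statements.S2667
import Mathlib

set_option autoImplicit false
open Cfsg

namespace Cfsg.Agent.S2667

theorem pow_fix {X : Type*} [Group X] (σ : MulAut X) (y : X) (h : σ y = y) (e : ℕ) : (σ ^ e) y = y := by
  induction e with
  | zero => simp
  | succ n ih => rw [pow_succ, MulAut.mul_apply, h, ih]

/-- Shintani descent, in an abstract form. Let `σ` be an automorphism of a group `X` and `e ≥ 1` (no surjectivity of the Lang maps is needed for this part; in the classical setting `X` is a connected algebraic group and `σ` a Steinberg endomorphism). Write `G` for the subgroup of fixed points of `σᵉ` and `H` for the subgroup of fixed points of `σ`. The `G`-conjugacy classes in the coset `G σ` of the semidirect product of `G` by `σ` correspond to the orbits of `G` on itself under twisted conjugation `g ↦ k g σ(k)⁻¹`, and the `e`-th power of `g σ` has `G`-part the norm `g σ(g) ⋯ σ^(e-1)(g)`. For `g` in `G` and any `a` with `g = a σ(a)⁻¹`, put `x = σᵉ(a)⁻¹ a`. Then conjugation by `a⁻¹`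 carries the twisted centralizer `{k ∈ G : k g σ(k)⁻¹ = g}` (the centralizer of `g σ` in `G`) exactly onto the centralizer of `x` in `H`: an element `k` of `X` lies in `G` and satisfies `k g σ(k)⁻¹ = g` if and only if `a⁻¹ k a` lies in `H` and commutes with `x`. In particular the two centralizers are conjugate in `X` and have the same order. -/
theorem result {X : Type*} [Group X] (σ : MulAut X) (e : ℕ) (he : 1 ≤ e)
    (g : X) (hg : g ∈ (MulEquiv.toMonoidHom (σ ^ e)).eqLocus (MonoidHom.id X)) (a : X) (ha : g = a * (σ a)⁻¹) (k : X) :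
    (k ∈ (MulEquiv.toMonoidHom (σ ^ e)).eqLocus (MonoidHom.id X) ∧ k * g * (σ k)⁻¹ = g) ↔
      (a⁻¹ * k * a ∈ (MulEquiv.toMonoidHom σ).eqLocus (MonoidHom.id X) ∧
        (a⁻¹ * k * a) * (((σ ^ e) a)⁻¹ * a) = (((σ ^ e) a)⁻¹ * a) * (a⁻¹ * k * a)) := by
  have key : ∀ x : X, x ∈ (MulEquiv.toMonoidHom (σ ^ e)).eqLocus (MonoidHom.id X) ↔ (σ ^ e) x = x := by
    intro x; rfl
  have key1 : ∀ x : X, x ∈ (MulEquiv.toMonoidHom σ).eqLocus (MonoidHom.id X) ↔ σ x = x := by
    intro x; rfl
  rw [key, key1]
  subst ha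
  constructor
  · rintro ⟨hk, hkg⟩
    have hy : σ (a⁻¹ * k * a) = a⁻¹ * k * a := by
      simp only [map_mul, map_inv]
      generalize σ k = sk at *
      generalize σ a = sa at *
      have h1 : sk = sa * a⁻¹ * k * a * sa⁻¹ := by
        have h2 : sk⁻¹ = (k * (a * sa⁻¹))⁻¹ * (a * sa⁻¹) := eq_inv_mul_of_mul_eq hkg
        have h3 : sk = (sk⁻¹)⁻¹ := by group
        rw [h3, h2]; group
      subst h1
      group
    refine ⟨hy, ?_⟩
    have hτy := pow_fix σ _ hy e
    simp only [map_mul, map_inv] at hτy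
    rw [hk] at hτy
    generalize (σ ^ e) a = A at *
    have h1 : a⁻¹ * k * a * (A⁻¹ * a) = (A⁻¹ * k * A) * (A⁻¹ * a) := by rw [hτy]
    rw [h1]; group
  · rintro ⟨hy, hc⟩
    have hτy := pow_fix σ _ hy e
    simp only [map_mul, map_inv] at hτy hy
    generalize (σ ^ e) a = A at *
    generalize (σ ^ e) k = K at *
    generalize σ k = sk at *
    generalize σ a = sa at *
    have hK : K = A * (a⁻¹ * k * a) * A⁻¹ := by rw [← hτy]; group
    have hsk : sk = sa * (a⁻¹ * k * a) * sa⁻¹ := by rw [← hy]; group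
    refine ⟨?_, ?_⟩
    · rw [hK]
      have h2 : a⁻¹ * k * a * A⁻¹ = A⁻¹ * k := by
        have h3 : a⁻¹ * k * a * A⁻¹ = (a⁻¹ * k * a * (A⁻¹ * a)) * a⁻¹ := by group
        rw [h3, hc]; group
      calc A * (a⁻¹ * k * a) * A⁻¹ = A * (a⁻¹ * k * a * A⁻¹) := by group
        _ = A * (A⁻¹ * k) := by rw [h2]
        _ = k := by group
    · rw [hsk]; group

end Cfsg.Agent.S2667
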