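import Cfsg.Statements.S2668
import Mathlib

set_option autoImplicit false
open Cfsg

namespace Cfsg.Agent.S2668

theorem pow_fix {X : Type*} [Group X] (σ : MulAut X) (y : X) (h : σ y = y) (e : ℕ) : (σ ^ e) y = y := by
  induction e with
  | zero => simp
  | succ n ih => rw [pow_succ, MulAut.mul_apply, h, ih]

theorem prod_tele {X : Type*} [Group X] (σ : MulAut X) (a : X) (d : ℕ) :
    ((List.range d).map (fun i => (σ ^ i) (a * (σ a)⁻¹))).prod = a * ((σ ^ d) a)⁻¹ := by
  induction d with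
  | zero => simp
  | succ n ih =>
    rw [List.range_succ, List.map_append, List.prod_append, ih]
    simp only [List.map_cons, List.map_nil, List.prod_cons, List.prod_nil, mul_one, map_mul, map_inv]
    have : (σ ^ n) (σ a) = (σ ^ (n+1)) a := by rw [pow_succ, MulAut.mul_apply]
    rw [this]; group

theorem comm_apply {X : Type*} [Group X] (σ : MulAut X) (m n : ℕ) (y : X) :
    (σ ^ m) ((σ ^ n) y) = (σ ^ n) ((σ ^ m) y) := by
  rw [← MulAut.mul_apply, ← MulAut.mul_apply, pow_mul_comm]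

theorem third {X : Type*} [Group X] (τ : MulAut X) (a : X) (hx : τ ((τ a)⁻¹ * a) = (τ a)⁻¹ * a) (d : ℕ) :
    ((τ ^ d) a)⁻¹ * a = ((τ a)⁻¹ * a) ^ d := by
  induction d with
  | zero => simp
  | succ n ih =>
    have h1 : (τ ^ (n+1)) a = (τ ^ n) (τ a) := by rw [pow_succ, MulAut.mul_apply]
    have h2 : τ a = a * ((τ a)⁻¹ * a)⁻¹ := by group
    have h3 : (τ ^ n) ((τ a)⁻¹ * a) = (τ a)⁻¹ * a := pow_fix τ _ hx n
    rw [h1]
    have h4 : (τ ^ n) (τ a) = (τ ^ n) a * ((τ a)⁻¹ * a)⁻¹ := by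
      conv_lhs => rw [h2]
      rw [map_mul, map_inv, h3]
    rw [h4, pow_succ', ← ih]
    group

/-- Shintani descent and powers (abstract form). Let `σ` be an automorphism of a group `X`, `e ≥ 1` and `d ≥ 1`, let `g` be fixed by `σᵉ` and let `a` satisfy `g = a σ(a)⁻¹`, so that the Shintani map of `(X, σ, e)` sends the class of `g σ` to the class of `x = σᵉ(a)⁻¹ a`. Put `h = g σ(g) ⋯ σ^(d-1)(g)`, the part in `X` of the `d`-th power `(g σ)^d = h σ^d`. Then `h = a σ^d(a)⁻¹` (so `a` also serves for `h` with respect to `σ^d`), `h` is fixed by `(σ^d)ᵉ`, and `(σ^d)ᵉ(a)⁻¹ a = x^d`: the Shintani map of `(X, σ^d, e)` sends the class of `(g σ)^d` to the class of `x^d`. (When `d` divides `e`, the Shintani map of `(X, σ^d, e/d)` sends it to the class of `x` itself, since `(σ^d)^(e/d) = σᵉ`.) -/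
theorem result {X : Type*} [Group X] (σ : MulAut X) (e d : ℕ) (he : 1 ≤ e) (hd : 1 ≤ d)
    (g : X) (hg : g ∈ (MulEquiv.toMonoidHom (σ ^ e)).eqLocus (MonoidHom.id X)) (a : X) (ha : g = a * (σ a)⁻¹) :
    ((List.range d).map (fun i => (σ ^ i) g)).prod = a * ((σ ^ d) a)⁻¹ ∧
      ((List.range d).map (fun i => (σ ^ i) g)).prod ∈ (MulEquiv.toMonoidHom ((σ ^ d) ^ e)).eqLocus (MonoidHom.id X) ∧
      (((σ ^ d) ^ e) a)⁻¹ * a = (((σ ^ e) a)⁻¹ * a) ^ d := by
  have hg' : (σ ^ e) g = g := hg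
  have hde : (σ ^ d) ^ e = (σ ^ e) ^ d := by rw [← pow_mul, ← pow_mul, mul_comm]
  refine ⟨?_, ?_, ?_⟩
  · rw [ha]; exact prod_tele σ a d
  · apply Subgroup.list_prod_mem
    intro x hx
    rw [List.mem_map] at hx
    obtain ⟨i, -, rfl⟩ := hx
    show ((σ ^ d) ^ e) ((σ ^ i) g) = (σ ^ i) g
    rw [← pow_mul, comm_apply, pow_mul', pow_fix (σ ^ e) g hg' d]
  · rw [hde]
    apply third
    have h1 : (σ ^ e) (a * (σ a)⁻¹) = a * (σ a)⁻¹ := by rw [← ha]; exact hg'
    rw [map_mul, map_inv] at h1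
    have h2 : (σ ^ e) (σ a) = σ ((σ ^ e) a) := by
      have := comm_apply σ e 1 a
      simpa using this
    rw [h2] at h1
    have h3 : σ (((σ ^ e) a)⁻¹ * a) = ((σ ^ e) a)⁻¹ * a := by
      rw [map_mul, map_inv]
      generalize (σ ^ e) a = A at *
      generalize σ A = sA at *
      generalize σ a = sa at *
      have : sA = sa * a⁻¹ * A := by
        have h5 : sA⁻¹ = A⁻¹ * (a * sa⁻¹) := eq_inv_mul_of_mul_eq h1
        have h6 : sA = (sA⁻¹)⁻¹ := by group
        rw [h6, h5]; group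
      subst this
      group
    exact pow_fix σ _ h3 e

end Cfsg.Agent.S2668
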