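import Cfsg.Statements.S2677
import Mathlib
import Cfsg.Statements.S2677
import Cfsg.Agent.S2636
import Cfsg.Agent.S0277

set_option autoImplicit false
open Cfsg
open scoped commutatorElement

namespace Cfsg.Agent.S2677

open Cfsg.Agent.S2636 Cfsg.Agent.S0277 Matrix

theorem two_le77 {L : Type*} [Field L] [Fintype L] {s : ℕ} (hL : Fintype.card L = s ^ 2) : 1 < s := by
  by_contra h
  have h2 : 2 ≤ Fintype.card L := Fintype.one_lt_card
  have h3 : s = 0 ∨ s = 1 := by omega
  rcases h3 with h' | h'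
  · rw [hL, h'] at h2; norm_num at h2
  · rw [hL, h'] at h2; norm_num at h2

theorem norm77 {L : Type*} [Field L] [Fintype L] {s : ℕ} (hL : Fintype.card L = s ^ 2) (y : L) (hy0 : y ≠ 0)
    (hy : y ^ s = y) : ∃ ν : L, ν ^ (s + 1) = y := by
  classical
  have hs1 : 1 < s := two_le77 hL
  have hfac : (s + 1) * (s - 1) + 1 = s ^ 2 := by
    obtain ⟨s', rfl⟩ : ∃ s', s = s' + 1 := ⟨s - 1, by omega⟩
    simp only [Nat.add_sub_cancel]
    ring
  obtain ⟨g, hg⟩ := IsCyclic.exists_monoid_generator (α := Lˣ)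
  have hord : orderOf g = (s + 1) * (s - 1) := by
    have h1 : orderOf g = Nat.card Lˣ := by
      apply orderOf_eq_card_of_forall_mem_zpowers
      intro x
      obtain ⟨n, hn⟩ := (Submonoid.mem_powers_iff _ _).mp (hg x)
      exact ⟨n, by simpa using hn⟩
    rw [h1, Nat.card_eq_fintype_card, Fintype.card_units, hL]
    omega
  obtain ⟨n, hn⟩ := (Submonoid.mem_powers_iff _ _).mp (hg (Units.mk0 y hy0))
  have hm1 : (Units.mk0 y hy0) ^ (s - 1) = 1 := by
    apply Units.ext
    rw [Units.val_pow_eq_pow_val, Units.val_mk0, Units.val_one]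
    have h1 : y ^ (s - 1) * y = y := by rw [pow_sub_one_mul (by omega)]; exact hy
    exact mul_right_cancel₀ hy0 (by rw [h1, one_mul])
  have hdvd : (s + 1) * (s - 1) ∣ n * (s - 1) := by
    rw [← hord]
    apply orderOf_dvd_of_pow_eq_one
    rw [pow_mul, hn, hm1]
  have hdvd' : (s + 1) ∣ n := Nat.dvd_of_mul_dvd_mul_right (by omega) hdvd
  obtain ⟨n', rfl⟩ := hdvd'
  refine ⟨((g ^ n' : Lˣ) : L), ?_⟩
  have := congrArg (fun x : Lˣ => (x : L)) hn
  simp only [Units.val_pow_eq_pow_val, Units.val_mk0] at this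
  rw [← this, Units.val_pow_eq_pow_val, ← pow_mul, mul_comm]

theorem tors77 {L : Type*} [Field L] [Fintype L] {s : ℕ} (hL : Fintype.card L = s ^ 2) :
    Nat.card (powMonoidHom (s + 1) : Lˣ →* Lˣ).ker = s + 1 := by
  classical
  have hs1 : 1 < s := two_le77 hL
  have hfac : (s + 1) * (s - 1) + 1 = s ^ 2 := by
    obtain ⟨s', rfl⟩ : ∃ s', s = s' + 1 := ⟨s - 1, by omega⟩
    simp only [Nat.add_sub_cancel]
    ring
  have hcardU : Nat.card Lˣ = (s + 1) * (s - 1) := by
    rw [Nat.card_eq_fintype_card, Fintype.card_units, hL]; omega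
  have hle1 : ∀ m : ℕ, 0 < m → Nat.card (powMonoidHom m : Lˣ →* Lˣ).ker ≤ m := by
    intro m hm
    have h := IsCyclic.card_pow_eq_one_le (α := Lˣ) hm
    rw [Nat.card_eq_fintype_card, Fintype.card_subtype]
    refine le_trans (le_of_eq ?_) h
    congr 1
    ext x
    simp [MonoidHom.mem_ker]
  have hrange : (powMonoidHom (s + 1) : Lˣ →* Lˣ).range ≤ (powMonoidHom (s - 1) : Lˣ →* Lˣ).ker := by
    rintro _ ⟨x, rfl⟩
    rw [MonoidHom.mem_ker]
    show (x ^ (s + 1)) ^ (s - 1) = 1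
    rw [← pow_mul, ← hcardU]
    exact pow_card_eq_one'
  have h1 := hle1 (s + 1) (by omega)
  have h2 : Nat.card (powMonoidHom (s + 1) : Lˣ →* Lˣ).range ≤ s - 1 :=
    (Subgroup.card_le_of_le hrange).trans (hle1 (s - 1) (by omega))
  have h3 : Nat.card (powMonoidHom (s + 1) : Lˣ →* Lˣ).ker *
      Nat.card (powMonoidHom (s + 1) : Lˣ →* Lˣ).range = (s + 1) * (s - 1) := by
    rw [← Subgroup.index_ker, Subgroup.card_mul_index, hcardU]
  by_contra hne
  have hlt : Nat.card (powMonoidHom (s + 1) : Lˣ →* Lˣ).ker < s + 1 := lt_of_le_of_ne h1 hne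
  have h4 : Nat.card (powMonoidHom (s + 1) : Lˣ →* Lˣ).ker *
      Nat.card (powMonoidHom (s + 1) : Lˣ →* Lˣ).range < (s + 1) * (s - 1) :=
    lt_of_le_of_lt (Nat.mul_le_mul_left _ h2) (Nat.mul_lt_mul_of_pos_right hlt (by omega))
  omega

/-- Centraliser of a field automorphism of odd prime order in PGU_n(q): let q = q₀^r with r an odd prime, K the field with q² elements and σ a field automorphism of K of order r (fixed field of order q₀²). The elements g of GU_n(q) whose entrywise image under σ is a scalar multiple of g — those whose coset modulo the q + 1 unitary scalars is fixed by σ — number (q + 1)/(q₀ + 1) · |GU_n(q₀)|; equivalently the centraliser in PGU_n(q) of the induced automorphism has the order of PGU_n(q₀). -/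
theorem result {K : Type*} [Field K] [Fintype K] {q₀ q r n : ℕ} (hr : r.Prime) (hr2 : r ≠ 2) (hn : 1 ≤ n) (hq : q = q₀ ^ r) (hK : Fintype.card K = q ^ 2) (σ : K ≃+* K) (hσ : orderOf σ = r) : (Nat.card {g : ↥(Cfsg.GU n K q) // ∃ c : K, c ≠ 0 ∧ ((g : GL (Fin n) K) : Matrix (Fin n) (Fin n) K).map σ = c • ((g : GL (Fin n) K) : Matrix (Fin n) (Fin n) K)} : ℤ) = ((q + 1) / (q₀ + 1) : ℕ) * ((q₀ : ℤ) ^ (n * (n - 1) / 2) * ∏ i : Fin n, ((q₀ : ℤ) ^ ((i : ℕ) + 1) - (-1) ^ ((i : ℕ) + 1))) := by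
  classical
  have hK' : Fintype.card K = (q₀ ^ 2) ^ r := by rw [hK, hq]; ring
  obtain ⟨K₀, hcard, hfix⟩ := fixed36 hr hK' σ hσ
  haveI : Fintype K₀ := Fintype.ofFinite K₀
  have hK0 : Fintype.card K₀ = q₀ ^ 2 := by rw [← Nat.card_eq_fintype_card, hcard]
  haveI : Nonempty (Fin n) := ⟨⟨0, hn⟩⟩
  let i0 : Fin n := ⟨0, hn⟩
  let ι : K₀ →+* K := K₀.subtype
  have hι : Function.Injective ι := Subtype.val_injective
  have hσι : ∀ x : K₀, σ (ι x) = ι x := fun x => (hfix _).1 x.2
  have hodd : Odd r := hr.odd_of_ne_two hr2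
  have hx0 : ∀ x : K₀, x ^ (q₀ ^ 2) = x := by
    intro x; rw [← hK0]; exact FiniteField.pow_card x
  have hpow' : ∀ j : ℕ, ∀ x : K₀, x ^ (q₀ ^ (2 * j + 1)) = x ^ q₀ := by
    intro j
    induction j with
    | zero => intro x; simp
    | succ j ih =>
      intro x
      rw [show 2 * (j + 1) + 1 = 2 + (2 * j + 1) by ring, pow_add, pow_mul, hx0]
      exact ih x
  have hpow : ∀ x : K₀, x ^ q = x ^ q₀ := by
    intro x
    obtain ⟨j, hj⟩ := hodd
    rw [hq, hj]
    exact hpow' j x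
  have hKpow : ∀ x : K, x ^ (q ^ 2) = x := by
    intro x; rw [← hK]; exact FiniteField.pow_card x
  have hq1 : 1 < q := two_le77 hK
  have hq01 : 1 < q₀ := two_le77 hK0
  have hGU : ∀ g : GL (Fin n) K, g ∈ Cfsg.GU n K q ↔
      ∀ i j, ∑ a, (g : Matrix (Fin n) (Fin n) K) a i * (g : Matrix (Fin n) (Fin n) K) a j ^ q = if i = j then 1 else 0 :=
    fun g => gu_mem77 hK n g
  have hGU0 : ∀ g : GL (Fin n) K₀, g ∈ Cfsg.GU n K₀ q₀ ↔
      ∀ i j, ∑ a, (g : Matrix (Fin n) (Fin n) K₀) a i * (g : Matrix (Fin n) (Fin n) K₀) a j ^ q₀ = if i = j then 1 else 0 :=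
    fun g => gu_mem77 hK0 n g
  let sc : Kˣ →* GL (Fin n) K := Units.map (Matrix.scalar (Fin n) : K →+* Matrix (Fin n) (Fin n) K).toMonoidHom
  let mp : GL (Fin n) K₀ →* GL (Fin n) K := Matrix.GeneralLinearGroup.map ι
  have hsc : ∀ μ : Kˣ, ((sc μ : GL (Fin n) K) : Matrix (Fin n) (Fin n) K) = (μ : K) • (1 : Matrix (Fin n) (Fin n) K) := by
    intro μ
    show Matrix.scalar (Fin n) (μ : K) = _
    rw [Matrix.scalar_apply, Matrix.smul_one_eq_diagonal]
  have hmp : ∀ h : GL (Fin n) K₀, ((mp h : GL (Fin n) K) : Matrix (Fin n) (Fin n) K) = h.1.map ι := fun h => rfl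
  have comm : ∀ (μ : Kˣ) (h : GL (Fin n) K₀), Commute (sc μ) (mp h) := by
    intro μ h
    apply Units.ext
    exact (Matrix.scalar_commute (μ : K) (fun r' => Commute.all _ _) _).eq
  let T : Subgroup Kˣ := (powMonoidHom (q + 1) : Kˣ →* Kˣ).ker
  let T₀ : Subgroup K₀ˣ := (powMonoidHom (q₀ + 1) : K₀ˣ →* K₀ˣ).ker
  have hT : ∀ μ : Kˣ, μ ∈ T ↔ (μ : K) ^ (q + 1) = 1 := by
    intro μ
    show μ ^ (q + 1) = 1 ↔ _
    rw [← Units.val_pow_eq_pow_val, Units.ext_iff, Units.val_one]
  have hT₀ : ∀ μ : K₀ˣ, μ ∈ T₀ ↔ (μ : K₀) ^ (q₀ + 1) = 1 := by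
    intro μ
    show μ ^ (q₀ + 1) = 1 ↔ _
    rw [← Units.val_pow_eq_pow_val, Units.ext_iff, Units.val_one]
  let Ψ : T × ↥(Cfsg.GU n K₀ q₀) →* GL (Fin n) K :=
    (MonoidHom.noncommCoprod sc mp comm).comp (MonoidHom.prodMap T.subtype (Cfsg.GU n K₀ q₀).subtype)
  have hΨ : ∀ (μ : T) (h : ↥(Cfsg.GU n K₀ q₀)),
      ((Ψ (μ, h) : GL (Fin n) K) : Matrix (Fin n) (Fin n) K) = ((μ : Kˣ) : K) • (h.1 : Matrix (Fin n) (Fin n) K₀).map ι := by
    intro μ h
    show ((sc μ.1 * mp h.1 : GL (Fin n) K) : Matrix (Fin n) (Fin n) K) = _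
    rw [Units.val_mul, hsc, hmp, Matrix.smul_mul, Matrix.one_mul]
  have hpowι : ∀ x : K₀, ι x ^ q = ι (x ^ q₀) := by
    intro x; rw [← hpow, map_pow]
  have hrange : ∀ g : GL (Fin n) K,
      (g ∈ Cfsg.GU n K q ∧ ∃ c : K, c ≠ 0 ∧ (g : Matrix (Fin n) (Fin n) K).map σ = c • (g : Matrix (Fin n) (Fin n) K)) ↔ g ∈ Ψ.range := by
    intro g
    constructor
    · rintro ⟨hgU, c, hc, hg⟩
      have hON := (hGU g).1 hgU
      have hg0 : (g : Matrix (Fin n) (Fin n) K) ≠ 0 := g.isUnit.ne_zero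
      have hex : ∃ i j, (g : Matrix (Fin n) (Fin n) K) i j ≠ 0 := by
        by_contra hcon
        push_neg at hcon
        apply hg0
        ext i j
        exact hcon i j
      obtain ⟨i, j, he⟩ := hex
      set e : K := (g : Matrix (Fin n) (Fin n) K) i j with he_def
      have hσe : σ e = c * e := by
        have := congrFun (congrFun hg i) j
        simpa [Matrix.map_apply, Matrix.smul_apply] using this
      have hentry : ∀ a b, σ (e⁻¹ * (g : Matrix (Fin n) (Fin n) K) a b) = e⁻¹ * (g : Matrix (Fin n) (Fin n) K) a b := by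
        intro a b
        have hab : σ ((g : Matrix (Fin n) (Fin n) K) a b) = c * (g : Matrix (Fin n) (Fin n) K) a b := by
          have := congrFun (congrFun hg a) b
          simpa [Matrix.map_apply, Matrix.smul_apply] using this
        rw [map_mul, map_inv₀, hσe, hab]
        field_simp
      let h₀ : Matrix (Fin n) (Fin n) K₀ := fun a b => ⟨e⁻¹ * (g : Matrix (Fin n) (Fin n) K) a b, (hfix _).2 (hentry a b)⟩
      have hh₀ : ∀ a b, ι (h₀ a b) = e⁻¹ * (g : Matrix (Fin n) (Fin n) K) a b := fun a b => rfl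
      have key1 : ∀ i j, ι (∑ a, h₀ a i * h₀ a j ^ q₀) = if i = j then (e ^ (q + 1))⁻¹ else 0 := by
        intro i j
        have h1 : ∀ a, ι (h₀ a i * h₀ a j ^ q₀) =
            (e ^ (q + 1))⁻¹ * ((g : Matrix (Fin n) (Fin n) K) a i * (g : Matrix (Fin n) (Fin n) K) a j ^ q) := by
          intro a
          rw [map_mul, ← hpowι, hh₀, hh₀, mul_pow, inv_pow]
          field_simp
          ring
        rw [map_sum]
        simp only [h1]
        rw [← Finset.mul_sum, hON i j]
        split_ifs <;> simp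
      set y : K₀ := ∑ a, h₀ a i0 * h₀ a i0 ^ q₀ with hy_def
      have hyι : ι y = (e ^ (q + 1))⁻¹ := by
        have := key1 i0 i0
        rwa [if_pos rfl] at this
      have hy0 : y ≠ 0 := by
        intro h
        rw [h, map_zero] at hyι
        exact (inv_ne_zero (pow_ne_zero _ he)) hyι.symm
      have hyq : y ^ q₀ = y := by
        apply hι
        rw [← hpowι, hyι, inv_pow, ← pow_mul]
        congr 1
        rw [show (q + 1) * q = q ^ 2 + q by ring, pow_add, hKpow e, pow_succ, mul_comm]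
      obtain ⟨ν, hν⟩ := norm77 hK0 y hy0 hyq
      have hν0 : ν ≠ 0 := by
        intro h
        rw [h, zero_pow (by omega)] at hν
        exact hy0 hν.symm
      have key2 : ∀ i j, ∑ a, h₀ a i * h₀ a j ^ q₀ = if i = j then y else 0 := by
        intro i j
        apply hι
        rw [key1 i j]
        split_ifs
        · exact hyι.symm
        · exact (map_zero ι).symm
      let h₁ : Matrix (Fin n) (Fin n) K₀ := ν⁻¹ • h₀
      have hh₁ : ∀ a b, h₁ a b = ν⁻¹ * h₀ a b := fun a b => rfl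
      have hdet : h₁.det ≠ 0 := by
        intro h0
        have h1 : (h₁.map ι).det = 0 := by
          have := congrArg ι h0
          rw [RingHom.map_det, map_zero] at this
          exact this
        have h2 : h₁.map ι = ((ι ν)⁻¹ * e⁻¹) • (g : Matrix (Fin n) (Fin n) K) := by
          ext a b
          simp only [Matrix.map_apply, Matrix.smul_apply, smul_eq_mul, hh₁, map_mul, map_inv₀, hh₀]
          ring
        rw [h2, Matrix.det_smul] at h1
        have hgdet : (g : Matrix (Fin n) (Fin n) K).det ≠ 0 :=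
          ((Matrix.isUnit_iff_isUnit_det _).mp g.isUnit).ne_zero
        have hιν : ι ν ≠ 0 := by
          intro h; apply hν0; apply hι; rw [h, map_zero]
        rcases mul_eq_zero.mp h1 with h3 | h3
        · exact (mul_ne_zero (inv_ne_zero hιν) (inv_ne_zero he)) ((pow_eq_zero_iff (by rw [Fintype.card_fin]; omega)).mp h3)
        · exact hgdet h3
      have hιν : ι ν ≠ 0 := by
        intro h; apply hν0; apply hι; rw [h, map_zero]
      let hh : GL (Fin n) K₀ := Matrix.GeneralLinearGroup.mkOfDetNeZero h₁ hdet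
      have hhU : hh ∈ Cfsg.GU n K₀ q₀ := by
        rw [hGU0]
        intro i j
        show ∑ a, h₁ a i * h₁ a j ^ q₀ = _
        have h1 : ∀ a, h₁ a i * h₁ a j ^ q₀ = (ν ^ (q₀ + 1))⁻¹ * (h₀ a i * h₀ a j ^ q₀) := by
          intro a
          rw [hh₁, hh₁, mul_pow, inv_pow]
          field_simp
          ring
        simp only [h1]
        rw [← Finset.mul_sum, key2 i j, hν]
        split_ifs
        · exact inv_mul_cancel₀ hy0
        · exact mul_zero _
      have hμT : Units.mk0 (e * ι ν) (mul_ne_zero he hιν) ∈ T := by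
        rw [hT]
        show (e * ι ν) ^ (q + 1) = 1
        rw [mul_pow, pow_succ (ι ν), hpowι, ← map_mul, ← pow_succ, hν, hyι]
        exact mul_inv_cancel₀ (pow_ne_zero _ he)
      refine ⟨(⟨Units.mk0 (e * ι ν) (mul_ne_zero he hιν), hμT⟩, ⟨hh, hhU⟩), ?_⟩
      apply Units.ext
      rw [hΨ]
      ext a b
      show (e * ι ν) * ι (h₁ a b) = _
      rw [hh₁, map_mul, map_inv₀, hh₀]
      field_simp
    · rintro ⟨⟨μ, h⟩, rfl⟩
      have hμ1 : ((μ : Kˣ) : K) ^ (q + 1) = 1 := (hT _).1 μ.2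
      have hON0 := (hGU0 h.1).1 h.2
      constructor
      · rw [hGU]
        intro i j
        rw [hΨ]
        have h1 : ∀ a, (((μ : Kˣ) : K) • (h.1 : Matrix (Fin n) (Fin n) K₀).map ι) a i *
            (((μ : Kˣ) : K) • (h.1 : Matrix (Fin n) (Fin n) K₀).map ι) a j ^ q =
            ι ((h.1 : Matrix (Fin n) (Fin n) K₀) a i * (h.1 : Matrix (Fin n) (Fin n) K₀) a j ^ q₀) := by
          intro a
          simp only [Matrix.smul_apply, Matrix.map_apply, smul_eq_mul]
          rw [mul_pow, hpowι, map_mul]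
          linear_combination (ι ((h.1 : Matrix (Fin n) (Fin n) K₀) a i) * ι ((h.1 : Matrix (Fin n) (Fin n) K₀) a j ^ q₀)) * hμ1
        simp only [h1]
        rw [← map_sum, hON0 i j]
        split_ifs <;> simp
      · refine ⟨σ ((μ : Kˣ) : K) * ((μ : Kˣ) : K)⁻¹, mul_ne_zero (by simp) (by simp), ?_⟩
        rw [hΨ]
        ext a b
        simp only [Matrix.map_apply, Matrix.smul_apply, smul_eq_mul, map_mul, hσι]
        have hμ : ((μ : Kˣ) : K) ≠ 0 := (μ : Kˣ).ne_zero
        field_simp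
  -- kernel
  let scK₀ : K₀ˣ →* GL (Fin n) K₀ := Units.map (Matrix.scalar (Fin n) : K₀ →+* Matrix (Fin n) (Fin n) K₀).toMonoidHom
  have hscK₀ : ∀ c : K₀ˣ, ((scK₀ c : GL (Fin n) K₀) : Matrix (Fin n) (Fin n) K₀) = (c : K₀) • (1 : Matrix (Fin n) (Fin n) K₀) := by
    intro c
    show Matrix.scalar (Fin n) (c : K₀) = _
    rw [Matrix.scalar_apply, Matrix.smul_one_eq_diagonal]
  have hcq : ∀ c : K₀, c ^ (q + 1) = c ^ (q₀ + 1) := by
    intro c; rw [pow_succ, hpow, ← pow_succ]
  have hmemT : ∀ c : T₀, (Units.map ι.toMonoidHom c.1)⁻¹ ∈ T := by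
    intro c
    rw [hT]
    have hc := (hT₀ _).1 c.2
    show ((Units.map ι.toMonoidHom c.1)⁻¹ : Kˣ).1 ^ (q + 1) = 1
    rw [Units.val_inv_eq_inv_val]
    show (ι (c.1 : K₀))⁻¹ ^ (q + 1) = 1
    rw [inv_pow, ← map_pow, hcq, hc, map_one, inv_one]
  have hmemGU : ∀ c : T₀, scK₀ c.1 ∈ Cfsg.GU n K₀ q₀ := by
    intro c
    have hc := (hT₀ _).1 c.2
    rw [hGU0]
    intro i j
    rw [hscK₀]
    by_cases hij : i = j
    · subst hij
      rw [if_pos rfl, Finset.sum_eq_single i]
      · simp only [Matrix.smul_apply, Matrix.one_apply_eq, smul_eq_mul, mul_one]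
        rw [← pow_succ', hc]
      · intro b _ hb
        simp [Matrix.smul_apply, Matrix.one_apply_ne hb]
      · intro h; exact absurd (Finset.mem_univ i) h
    · rw [if_neg hij]
      apply Finset.sum_eq_zero
      intro a _
      by_cases hai : a = i
      · subst hai
        simp only [Matrix.smul_apply, Matrix.one_apply_ne hij, smul_eq_mul, mul_zero]
        rw [zero_pow (by omega), mul_zero]
      · simp [Matrix.smul_apply, Matrix.one_apply_ne hai]
  have hker_mem : ∀ c : T₀, ((⟨(Units.map ι.toMonoidHom c.1)⁻¹, hmemT c⟩ : T), (⟨scK₀ c.1, hmemGU c⟩ : ↥(Cfsg.GU n K₀ q₀))) ∈ Ψ.ker := by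
    intro c
    rw [MonoidHom.mem_ker]
    apply Units.ext
    rw [hΨ]
    show ((Units.map ι.toMonoidHom c.1)⁻¹ : Kˣ).1 • ((scK₀ c.1 : GL (Fin n) K₀) : Matrix (Fin n) (Fin n) K₀).map ι = 1
    rw [hscK₀]
    ext a b
    by_cases hab : a = b
    · subst hab
      simp [Matrix.map_apply, Matrix.smul_apply]
    · simp [Matrix.map_apply, Matrix.smul_apply, hab]
  have hker_card : Nat.card Ψ.ker = q₀ + 1 := by
    have hbij : Function.Bijective (fun c : T₀ => (⟨(⟨(Units.map ι.toMonoidHom c.1)⁻¹, hmemT c⟩, ⟨scK₀ c.1, hmemGU c⟩), hker_mem c⟩ : Ψ.ker)) := by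
      constructor
      · intro c c' hcc
        have h1 := congrArg (fun x : Ψ.ker => ((x.1.1 : T) : Kˣ)) hcc
        simp only [_root_.inv_inj] at h1
        have h2 := congrArg (fun u : Kˣ => (u : K)) h1
        simp only [Units.coe_map, MonoidHom.coe_coe, RingHom.toMonoidHom_eq_coe] at h2
        exact Subtype.ext (Units.ext (hι h2))
      · rintro ⟨⟨μ, h⟩, hmem⟩
        rw [MonoidHom.mem_ker] at hmem
        have hmat : ((μ : Kˣ) : K) • (h.1 : Matrix (Fin n) (Fin n) K₀).map ι = 1 := by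
          rw [← hΨ, hmem]; rfl
        have hμ : ((μ : Kˣ) : K) ≠ 0 := (μ : Kˣ).ne_zero
        have hent : ∀ a b, ι ((h.1 : Matrix (Fin n) (Fin n) K₀) a b) = if a = b then ((μ : Kˣ) : K)⁻¹ else 0 := by
          intro a b
          have := congrFun (congrFun hmat a) b
          simp only [Matrix.smul_apply, Matrix.map_apply, smul_eq_mul, Matrix.one_apply] at this
          split_ifs with hab
          · rw [if_pos hab] at this
            field_simp
            rw [mul_comm]; exact this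
          · rw [if_neg hab] at this
            exact (mul_eq_zero.mp this).resolve_left hμ
        have hc0 : (h.1 : Matrix (Fin n) (Fin n) K₀) i0 i0 ≠ 0 := by
          intro h0
          have := hent i0 i0
          rw [h0, map_zero, if_pos rfl] at this
          exact inv_ne_zero hμ this.symm
        have hcT : Units.mk0 ((h.1 : Matrix (Fin n) (Fin n) K₀) i0 i0) hc0 ∈ T₀ := by
          rw [hT₀]
          show (h.1 : Matrix (Fin n) (Fin n) K₀) i0 i0 ^ (q₀ + 1) = 1
          apply hι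
          rw [← hcq, map_pow, hent i0 i0, if_pos rfl, inv_pow, (hT _).1 μ.2, inv_one, map_one]
        refine ⟨⟨Units.mk0 ((h.1 : Matrix (Fin n) (Fin n) K₀) i0 i0) hc0, hcT⟩, ?_⟩
        apply Subtype.ext
        apply Prod.ext
        · apply Subtype.ext
          apply Units.ext
          show ((Units.map ι.toMonoidHom (Units.mk0 ((h.1 : Matrix (Fin n) (Fin n) K₀) i0 i0) hc0))⁻¹ : Kˣ).1 = ((μ : Kˣ) : K)
          rw [Units.val_inv_eq_inv_val]
          show (ι ((h.1 : Matrix (Fin n) (Fin n) K₀) i0 i0))⁻¹ = ((μ : Kˣ) : K)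
          rw [hent i0 i0, if_pos rfl, inv_inv]
        · apply Subtype.ext
          apply Units.ext
          show ((scK₀ (Units.mk0 ((h.1 : Matrix (Fin n) (Fin n) K₀) i0 i0) hc0) : GL (Fin n) K₀) : Matrix (Fin n) (Fin n) K₀) = (h.1 : Matrix (Fin n) (Fin n) K₀)
          rw [hscK₀]
          ext a b
          show ι ((((Units.mk0 ((h.1 : Matrix (Fin n) (Fin n) K₀) i0 i0) hc0 : K₀ˣ) : K₀) • (1 : Matrix (Fin n) (Fin n) K₀)) a b) = ι ((h.1 : Matrix (Fin n) (Fin n) K₀) a b)
          rw [hent a b]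
          by_cases hab : a = b
          · subst hab
            simp [Matrix.smul_apply, Matrix.one_apply, hent i0 i0]
          · simp [Matrix.smul_apply, Matrix.one_apply, hab]
    rw [← Nat.card_congr (Equiv.ofBijective _ hbij)]
    exact tors77 hK0
  have hS : Nat.card {g : ↥(Cfsg.GU n K q) // ∃ c : K, c ≠ 0 ∧ ((g : GL (Fin n) K) : Matrix (Fin n) (Fin n) K).map σ = c • ((g : GL (Fin n) K) : Matrix (Fin n) (Fin n) K)} = Nat.card Ψ.range :=
    Nat.card_congr ((Equiv.subtypeSubtypeEquivSubtypeInter (fun g : GL (Fin n) K => g ∈ Cfsg.GU n K q)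
      (fun g : GL (Fin n) K => ∃ c : K, c ≠ 0 ∧ (g : Matrix (Fin n) (Fin n) K).map σ = c • (g : Matrix (Fin n) (Fin n) K))).trans
      (Equiv.subtypeEquivRight hrange))
  have hprod : Nat.card Ψ.ker * Nat.card Ψ.range = (q + 1) * Nat.card (Cfsg.GU n K₀ q₀) := by
    rw [← Subgroup.index_ker, Subgroup.card_mul_index, Nat.card_prod]
    congr 1
    exact tors77 hK
  rw [hS]
  rw [hker_card, gu_card_main77 hK0 n] at hprod
  have hdvd : q₀ + 1 ∣ q + 1 := by
    have := Odd.nat_add_dvd_pow_add_pow q₀ 1 hodd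
    rwa [one_pow, ← hq] at this
  obtain ⟨d, hd⟩ := hdvd
  rw [hd, Nat.mul_div_cancel_left d (by omega)]
  rw [hd, mul_assoc] at hprod
  have hfin := Nat.eq_of_mul_eq_mul_left (by omega : 0 < q₀ + 1) hprod
  rw [hfin]
  push_cast
  congr 1
  congr 1
  rw [Finset.prod_range]
  apply Finset.prod_congr rfl
  intro i _
  split_ifs with hi
  · rw [pow_succ (-1 : ℤ), hi.neg_one_pow]
    push_cast
    ring
  · have hi' : Even ((i : ℕ) + 1) := by
      rcases Nat.even_or_odd (i : ℕ) with h | h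
      · exact absurd h hi
      · exact h.add_one
    rw [hi'.neg_one_pow, Nat.cast_sub (Nat.one_le_pow _ _ (by omega))]
    push_cast
    ring

end Cfsg.Agent.S2677
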