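import Cfsg.Statements.S2738
import Mathlib

set_option autoImplicit false
open Cfsg
open scoped commutatorElement

namespace Cfsg.Agent.S2738

theorem central_comm_aux {G : Type*} [Group G] (a b k l : G) (ha : ∀ g, g * a = a * g) (hb : ∀ g, g * b = b * g) :
    a * k * (b * l) * (a * k)⁻¹ * (b * l)⁻¹ = k * l * k⁻¹ * l⁻¹ := by
  have ha' : ∀ g, Commute a g := fun g => (ha g).symm
  have hb' : ∀ g, Commute b g := fun g => (hb g).symm
  have hab : ∀ g, Commute (a * b) g := fun g => (ha' g).mul_left (hb' g)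
  have e1 : a * k * (b * l) = a * b * (k * l) := (hb' k).symm.mul_mul_mul_comm a l
  have e2 : b * l * (a * k) = a * b * (l * k) := by
    rw [(ha' l).symm.mul_mul_mul_comm b k, (ha' b).eq]
  calc a * k * (b * l) * (a * k)⁻¹ * (b * l)⁻¹
      = a * k * (b * l) * ((b * l) * (a * k))⁻¹ := by rw [mul_inv_rev (b * l) (a * k), mul_assoc]
    _ = k * l * k⁻¹ * l⁻¹ := by
      rw [e1, e2, (hab (k * l)).eq, (hab (l * k)).eq]; group

/-- The special linear group SL(3, 4) has centre of order 3 and does not split over it: no subgroup is a complement to the centre (so SL(3, 4) is a non-split central extension of PSL(3, 4) by a group of order 3). -/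
theorem result (F : Type*) [Field F] [Fintype F] (hF : Fintype.card F = 4) : Nat.card ↥(Subgroup.center (Matrix.SpecialLinearGroup (Fin 3) F)) = 3 ∧ ¬ ∃ K : Subgroup (Matrix.SpecialLinearGroup (Fin 3) F), Subgroup.IsComplement' (Subgroup.center (Matrix.SpecialLinearGroup (Fin 3) F)) K := by
  classical
  have hcardU : Nat.card Fˣ = 3 := by
    rw [Nat.card_eq_fintype_card, Fintype.card_units, hF]
  have hpow3 : ∀ u : Fˣ, u ^ 3 = 1 := by
    intro u
    rw [← hcardU]
    exact pow_card_eq_one'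
  constructor
  · have e := Matrix.SpecialLinearGroup.center_equiv_rootsOfUnity' (n := Fin 3) (R := F) 0
    rw [Nat.card_congr e.toEquiv]
    have htop : rootsOfUnity (Fintype.card (Fin 3)) F = ⊤ := by
      rw [eq_top_iff]
      intro u _
      rw [mem_rootsOfUnity, Fintype.card_fin]
      exact hpow3 u
    rw [htop, Subgroup.card_top, hcardU]
  · rintro ⟨K, hK⟩
    obtain ⟨u, hu⟩ := IsCyclic.exists_generator (α := Fˣ)
    have hord : orderOf u = 3 := by
      rw [orderOf_eq_card_of_forall_mem_zpowers hu, hcardU]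
    have hu1 : (u : F) ≠ 1 := by
      intro h
      have : u = 1 := Units.ext h
      rw [this, orderOf_one] at hord
      norm_num at hord
    have hu3 : (u : F) ^ 3 = 1 := by
      rw [← Units.val_pow_eq_pow_val, hpow3 u]; rfl
    set ω : F := (u : F) with hω
    have hm : (!![1, 0, 0; 0, ω, 0; 0, 0, ω ^ 2] : Matrix (Fin 3) (Fin 3) F) * !![0, 0, 1; 1, 0, 0; 0, 1, 0]
        = !![ω, 0, 0; 0, ω, 0; 0, 0, ω] * (!![0, 0, 1; 1, 0, 0; 0, 1, 0] * !![1, 0, 0; 0, ω, 0; 0, 0, ω ^ 2]) := by
      ext i j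
      fin_cases i <;> fin_cases j <;> simp [Matrix.mul_apply, Fin.sum_univ_three] <;>
        first | ring1 | linear_combination hu3 | linear_combination (-1 : F) * hu3
    let x : Matrix.SpecialLinearGroup (Fin 3) F :=
      ⟨!![1, 0, 0; 0, ω, 0; 0, 0, ω ^ 2], by rw [Matrix.det_fin_three]; simp; linear_combination hu3⟩
    let y : Matrix.SpecialLinearGroup (Fin 3) F :=
      ⟨!![0, 0, 1; 1, 0, 0; 0, 1, 0], by rw [Matrix.det_fin_three]; simp⟩
    let c : Matrix.SpecialLinearGroup (Fin 3) F :=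
      ⟨!![ω, 0, 0; 0, ω, 0; 0, 0, ω], by rw [Matrix.det_fin_three]; simp; linear_combination hu3⟩
    have hxy : x * y = c * (y * x) := Subtype.ext hm
    have hcZ : c ∈ Subgroup.center (Matrix.SpecialLinearGroup (Fin 3) F) := by
      rw [Matrix.SpecialLinearGroup.mem_center_iff]
      refine ⟨ω, by rw [Fintype.card_fin]; exact hu3, ?_⟩
      ext i j
      fin_cases i <;> fin_cases j <;> simp [c, Matrix.scalar_apply]
    have hc1 : c ≠ 1 := by
      intro h
      have := congrArg (fun M : Matrix.SpecialLinearGroup (Fin 3) F => (M : Matrix (Fin 3) (Fin 3) F) 0 0) h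
      simp [c] at this
      exact hu1 this
    have hcomm : c = x * y * x⁻¹ * y⁻¹ := by
      rw [hxy]; group
    obtain ⟨⟨z₁, k₁⟩, h1, -⟩ := (Subgroup.isComplement'_def.mp hK).existsUnique x
    obtain ⟨⟨z₂, k₂⟩, h2, -⟩ := (Subgroup.isComplement'_def.mp hK).existsUnique y
    simp only at h1 h2
    have hz1 : ∀ g, g * (z₁ : Matrix.SpecialLinearGroup (Fin 3) F) = z₁ * g :=
      fun g => Subgroup.mem_center_iff.mp z₁.2 g
    have hz2 : ∀ g, g * (z₂ : Matrix.SpecialLinearGroup (Fin 3) F) = z₂ * g :=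
      fun g => Subgroup.mem_center_iff.mp z₂.2 g
    have hcK : c ∈ K := by
      have : c = (k₁ : Matrix.SpecialLinearGroup (Fin 3) F) * k₂ * (k₁ : Matrix.SpecialLinearGroup (Fin 3) F)⁻¹ * (k₂ : Matrix.SpecialLinearGroup (Fin 3) F)⁻¹ := by
        rw [hcomm, ← h1, ← h2]
        exact central_comm_aux _ _ _ _ hz1 hz2
      rw [this]
      exact K.mul_mem (K.mul_mem (K.mul_mem k₁.2 k₂.2) (K.inv_mem k₁.2)) (K.inv_mem k₂.2)
    have := Subgroup.disjoint_def.mp hK.disjoint hcZ hcK
    exact hc1 this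

end Cfsg.Agent.S2738
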