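import Cfsg.Statements.S2781
import Mathlib
import Cfsg.Statements.S2781
import Cfsg.Agent.Lib.Helper4.Avg
import Cfsg.Agent.Lib.Helper4.Subn
import Cfsg.Agent.Lib.Helper2.Comp7
import Cfsg.Agent.Lib.Lead.PQ

set_option autoImplicit false
open Cfsg
open scoped commutatorElement

namespace Cfsg.Agent.S2781

open Cfsg Cfsg.Agent.Lib
open scoped commutatorElement

/-- Let H act faithfully by conjugation on the elementary abelian p-subgroup V of a finite group, let O^p(H) be the subgroup of H generated by its elements of order prime to p, and T a Sylow p-subgroup of O^p(H). If V is generated by the H-conjugates of C_V(T) (V is the smallest H-invariant subgroup containing C_V(T)), then V = [V, O^p(H)]·C_V(O^p(H)). -/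
theorem result {G : Type*} [Group G] [Finite G] {p : ℕ} [Fact p.Prime] (V H : Subgroup G) (hV : Cfsg.IsElementaryAbelian p V) (hHV : H ≤ Subgroup.normalizer (V : Set G)) (hf : H ⊓ Subgroup.centralizer (V : Set G) = ⊥) (R : Subgroup G) (hR : R = (Cfsg.pResidual p ↥H).map H.subtype) (S : Sylow p ↥R) (T : Subgroup G) (hT : T = ((S : Subgroup ↥R).map R.subtype)) (hgen : ∀ W : Subgroup G, H ≤ Subgroup.normalizer (W : Set G) → (V ⊓ Subgroup.centralizer ((T : Subgroup G) : Set G)) ≤ W → V ≤ W) : ⁅V, R⁆ ⊔ (V ⊓ Subgroup.centralizer ((R : Subgroup G) : Set G)) = V := by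
  have hp : p.Prime := Fact.out
  have hRH : R ≤ H := by
    rw [hR]; exact Subgroup.map_subtype_le _
  have hHR : H ≤ Subgroup.normalizer (R : Set G) := by
    have h1 : R = Helper4.pGen p H := by
      rw [hR]; exact Helper4.pResidualOf_eq_pGen p H
    rw [h1]
    exact Subgroup.le_normalizer.trans (Helper4.normalizer_le_normalizer_pGen p H)
  have hRV : R ≤ Subgroup.normalizer (V : Set G) := hRH.trans hHV
  have hcomm : ∀ a ∈ V, ∀ b ∈ V, a * b = b * a := by
    intro a ha b hb
    exact congrArg Subtype.val (hV.1.is_comm.comm ⟨a, ha⟩ ⟨b, hb⟩)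
  have hVRle : ⁅V, R⁆ ≤ V := by
    rw [Subgroup.commutator_le]
    intro v hv r hr
    have h1 : r * v⁻¹ * r⁻¹ ∈ V := (Subgroup.mem_normalizer_iff.mp (hRV hr) _).mp (V.inv_mem hv)
    have e : ⁅v, r⁆ = v * (r * v⁻¹ * r⁻¹) := by rw [commutatorElement_def]; group
    rw [e]
    exact V.mul_mem hv h1
  apply le_antisymm
  · exact sup_le hVRle inf_le_left
  · apply hgen
    · apply Helper2.Comp.le_normalizer_sup
      · intro h hh
        exact Lead.mem_normalizer_commutator (hHV hh) (hHR hh)
      · exact Helper2.Comp.le_normalizer_inf hHV (Helper2.Comp.le_normalizer_centralizer hHR)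
    · rintro z ⟨hzV, hzT⟩
      have hzT' : ∀ t ∈ T, t * z * t⁻¹ = z := by
        intro t ht
        have := Subgroup.mem_centralizer_iff.mp hzT t ht
        rw [this]; group
      obtain ⟨u, huV, huR, huW⟩ := Helper4.averaging R T V hRV hcomm z hzV hzT'
      have h1 := huW ⁅V, R⁆ (by
        intro l hl
        have h2 : ⁅l, z⁆ ∈ ⁅R, V⁆ := Subgroup.commutator_mem_commutator hl hzV
        rw [Subgroup.commutator_comm] at h2
        rw [commutatorElement_def] at h2
        exact h2)
      have huC : u ∈ V ⊓ Subgroup.centralizer ((R : Subgroup G) : Set G) := by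
        refine ⟨huV, Subgroup.mem_centralizer_iff.mpr ?_⟩
        intro r hr
        have := huR r hr
        calc r * u = r * u * r⁻¹ * r := by group
          _ = u * r := by rw [this]
      have hzm : z ^ (T.relIndex R) ∈ ⁅V, R⁆ ⊔ (V ⊓ Subgroup.centralizer ((R : Subgroup G) : Set G)) := by
        have e : z ^ (T.relIndex R) = (u * (z ^ (T.relIndex R))⁻¹)⁻¹ * u := by group
        rw [e]
        exact Subgroup.mul_mem _ (Subgroup.mem_sup_left (Subgroup.inv_mem _ h1)) (Subgroup.mem_sup_right huC)
      have hcop : (T.relIndex R).Coprime p := by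
        have h2 : T.subgroupOf R = (S : Subgroup ↥R) := by
          rw [hT]
          exact Subgroup.comap_map_eq_self_of_injective (Subgroup.subtype_injective R) _
        rw [Subgroup.relIndex, h2]
        exact ((Nat.Prime.coprime_iff_not_dvd hp).mpr S.not_dvd_index).symm
      exact Helper4.mem_of_pow_coprime hp (hV.2 z hzV) hcop hzm

end Cfsg.Agent.S2781
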