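import Cfsg.Statements.S2791
import Mathlib
import Cfsg.Statements.S2791
import Cfsg.Agent.Lib.Helper8.Syl
import Cfsg.Agent.Lib.Helper3.ConjFam
import Cfsg.Agent.Lib.Lead.Coprime
import Cfsg.Agent.Lib.Helper4.WC

set_option autoImplicit false
open Cfsg
open scoped commutatorElement

namespace Cfsg.Agent.S2791

open scoped commutatorElement
open Cfsg.Agent.Lib.Helper8

theorem exists_fn_conj {G : Type*} [Group G] [Finite G] {p : ℕ} [Fact p.Prime] (S : Sylow p G)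
    (U : Subgroup G) (hU : U ≤ (S : Subgroup G)) :
    ∃ h : G, cj h U ≤ (S : Subgroup G) ∧
      SylIn p ((S : Subgroup G) ⊓ Subgroup.normalizer ((cj h U : Subgroup G) : Set G))
        (Subgroup.normalizer ((cj h U : Subgroup G) : Set G)) := by
  haveI : Nonempty {h : G // cj h U ≤ (S : Subgroup G)} := ⟨⟨1, by rw [cj_one]; exact hU⟩⟩
  obtain ⟨⟨h, hh⟩, hmax⟩ := Finite.exists_max (fun h : {h : G // cj h U ≤ (S : Subgroup G)} =>
    Nat.card ↥((S : Subgroup G) ⊓ Subgroup.normalizer ((cj h.1 U : Subgroup G) : Set G)))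
  refine ⟨h, hh, ?_⟩
  have hpg : IsPGroup p ↥((S : Subgroup G) ⊓ Subgroup.normalizer ((cj h U : Subgroup G) : Set G)) :=
    S.isPGroup'.to_inf_left
  obtain ⟨R, hR, hle⟩ := exists_sylIn_ge hpg (inf_le_right)
  obtain ⟨c, -, hc⟩ := (sylIn_top S).exists_conj_le hR.2.1 le_top
  have hVR : cj h U ≤ R := le_trans (le_inf hh Subgroup.le_normalizer) hle
  have h1 : cj (c * h) U ≤ (S : Subgroup G) := by
    rw [← cj_cj]
    exact le_trans (cj_mono hVR) hc
  have h2 : cj c R ≤ (S : Subgroup G) ⊓ Subgroup.normalizer ((cj (c * h) U : Subgroup G) : Set G) := by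
    refine le_inf hc ?_
    rw [← cj_cj, ← cj_normalizer]
    exact cj_mono hR.1
  have h3 := hmax ⟨c * h, h1⟩
  have h4 : Nat.card ↥R ≤ Nat.card ↥((S : Subgroup G) ⊓ Subgroup.normalizer ((cj h U : Subgroup G) : Set G)) := by
    rw [← card_cj c R]
    exact le_trans (Subgroup.card_le_of_le h2) h3
  have h5 := Subgroup.eq_of_le_of_card_ge hle h4
  rw [h5]
  exact hR

theorem stab_pow {G : Type*} [Group G] (V W : Subgroup G) (h : G)
    (h1 : ∀ v ∈ V, h * v * h⁻¹ * v⁻¹ ∈ W) (h2 : ∀ w ∈ W, h * w = w * h) (j : ℕ) :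
    ∀ v ∈ V, h ^ j * v * (h ^ j)⁻¹ = (h * v * h⁻¹ * v⁻¹) ^ j * v := by
  induction j with
  | zero => intro v _; simp
  | succ j ih =>
    intro v hv
    have e : h ^ (j + 1) * v * (h ^ (j + 1))⁻¹ = h * (h ^ j * v * (h ^ j)⁻¹) * h⁻¹ := by
      rw [pow_succ']; group
    rw [e, ih v hv]
    have hw := h1 v hv
    have hc : h * (h * v * h⁻¹ * v⁻¹) ^ j = (h * v * h⁻¹ * v⁻¹) ^ j * h := h2 _ (W.pow_mem hw j)
    calc h * ((h * v * h⁻¹ * v⁻¹) ^ j * v) * h⁻¹ = (h * (h * v * h⁻¹ * v⁻¹) ^ j) * v * h⁻¹ := by group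
    _ = (h * v * h⁻¹ * v⁻¹) ^ j * h * v * h⁻¹ := by rw [hc]
    _ = (h * v * h⁻¹ * v⁻¹) ^ j * (h * v * h⁻¹ * v⁻¹) * v := by group
    _ = (h * v * h⁻¹ * v⁻¹) ^ (j + 1) * v := by rw [pow_succ]

def stabK {G : Type*} [Group G] (V W : Subgroup G) : Subgroup G where
  carrier := {h | h ∈ Subgroup.normalizer (V : Set G) ∧ (∀ v ∈ V, h * v * h⁻¹ * v⁻¹ ∈ W) ∧ ∀ w ∈ W, h * w = w * h}
  one_mem' := ⟨Subgroup.one_mem _, fun v _ => by simp, fun w _ => by simp⟩
  mul_mem' := by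
    rintro a b ⟨ha0, ha1, ha2⟩ ⟨hb0, hb1, hb2⟩
    refine ⟨Subgroup.mul_mem _ ha0 hb0, fun v hv => ?_, fun w hw => ?_⟩
    · have hbv : b * v * b⁻¹ ∈ V := (Subgroup.mem_normalizer_iff.mp hb0 v).mp hv
      have e : a * b * v * (a * b)⁻¹ * v⁻¹ = (a * (b * v * b⁻¹) * a⁻¹ * (b * v * b⁻¹)⁻¹) * (b * v * b⁻¹ * v⁻¹) := by group
      rw [e]
      exact W.mul_mem (ha1 _ hbv) (hb1 v hv)
    · rw [mul_assoc, hb2 w hw, ← mul_assoc, ha2 w hw, mul_assoc]
  inv_mem' := by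
    rintro a ⟨ha0, ha1, ha2⟩
    refine ⟨Subgroup.inv_mem _ ha0, fun v hv => ?_, fun w hw => ?_⟩
    · have hav : a⁻¹ * v * a ∈ V := by
        have := (Subgroup.mem_normalizer_iff.mp (Subgroup.inv_mem _ ha0) v).mp hv
        simpa using this
      have hw := ha1 _ hav
      have e : a * (a⁻¹ * v * a) * a⁻¹ * (a⁻¹ * v * a)⁻¹ = v * a⁻¹ * v⁻¹ * a := by group
      rw [e] at hw
      have e2 : a⁻¹ * v * a⁻¹⁻¹ * v⁻¹ = (v * a⁻¹ * v⁻¹ * a)⁻¹ := by group
      rw [e2]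
      exact W.inv_mem hw
    · have := ha2 w hw
      calc a⁻¹ * w = a⁻¹ * (w * a) * a⁻¹ := by group
      _ = a⁻¹ * (a * w) * a⁻¹ := by rw [this]
      _ = w * a⁻¹ := by group

theorem le_sup_of_pow_mem {G : Type*} [Group G] [Finite G] {p : ℕ} [Fact p.Prime] {C K P : Subgroup G}
    (hCK : C ≤ K) (hKC : K ≤ Subgroup.normalizer (C : Set G)) (hP : SylIn p P K)
    (hpow : ∀ k ∈ K, ∃ e : ℕ, k ^ (p ^ e) ∈ C) : K ≤ C ⊔ P := by
  have hn : (C.subgroupOf K).Normal := (Subgroup.normal_subgroupOf_iff_le_normalizer hCK).mpr hKC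
  have hq : IsPGroup p (↥K ⧸ C.subgroupOf K) := by
    intro g
    obtain ⟨k, rfl⟩ := QuotientGroup.mk'_surjective _ g
    obtain ⟨e, he⟩ := hpow k.1 k.2
    refine ⟨e, ?_⟩
    rw [← map_pow]
    exact (QuotientGroup.eq_one_iff _).mpr (Subgroup.mem_subgroupOf.mpr he)
  obtain ⟨R, hR⟩ := (sylIn_iff hP.1).mp hP
  have htop : (R.mapSurjective (QuotientGroup.mk'_surjective (C.subgroupOf K)) : Subgroup (↥K ⧸ C.subgroupOf K)) = ⊤ := by
    have := (R.mapSurjective (QuotientGroup.mk'_surjective (C.subgroupOf K))).is_maximal' (Q := ⊤)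
      (fun g => by
        obtain ⟨e, he⟩ := hq g.1
        exact ⟨e, Subtype.ext he⟩) le_top
    exact this.symm
  intro k hk
  have hmem : QuotientGroup.mk' (C.subgroupOf K) ⟨k, hk⟩ ∈ (R.mapSurjective (QuotientGroup.mk'_surjective (C.subgroupOf K)) : Subgroup (↥K ⧸ C.subgroupOf K)) := by
    rw [htop]; trivial
  rw [Sylow.coe_mapSurjective] at hmem
  obtain ⟨q, hq', hqk⟩ := hmem
  have h1 : q⁻¹ * ⟨k, hk⟩ ∈ C.subgroupOf K := (QuotientGroup.eq).mp hqk
  have h2 : (q : G)⁻¹ * k ∈ C := Subgroup.mem_subgroupOf.mp h1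
  have h3 : (q : G) ∈ P := by
    rw [hR] at hq'
    exact Subgroup.mem_subgroupOf.mp hq'
  have : k = (q : G) * ((q : G)⁻¹ * k) := by group
  rw [this]
  exact Subgroup.mul_mem _ (Subgroup.mem_sup_right h3) (Subgroup.mem_sup_left h2)

theorem sc_normalizer {G : Type*} [Group G] [Finite G] {A S : Subgroup G}
    (hsc : Cfsg.IsStronglyClosed A S) (g : G) (h : ∀ a ∈ A, g * a * g⁻¹ ∈ S) :
    g ∈ Subgroup.normalizer (A : Set G) :=
  Cfsg.Agent.Lib.Helper3.mem_normalizer_of_forall_conj_mem A g (fun a ha => hsc.2 a ha g (h a ha))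

theorem step2 {G : Type*} [Group G] [Finite G] {p : ℕ} [Fact p.Prime] (S : Sylow p G) (A : Subgroup G)
    (hA : IsMulCommutative ↥A) (hsc : Cfsg.IsStronglyClosed A (S : Subgroup G))
    (V : Subgroup G) (hVS : V ≤ (S : Subgroup G))
    (hfn : SylIn p ((S : Subgroup G) ⊓ Subgroup.normalizer (V : Set G)) (Subgroup.normalizer (V : Set G)))
    (IH : ∀ P : Subgroup G, P ≤ (S : Subgroup G) → Nat.card V < Nat.card P → ∀ m : G, cj m P ≤ (S : Subgroup G) →
        ∃ y ∈ Subgroup.normalizer (A : Set G), ∀ x ∈ P, m * x * m⁻¹ = y * x * y⁻¹)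
    (n : G) (hn : n ∈ Subgroup.normalizer (V : Set G)) :
    ∃ y ∈ Subgroup.normalizer (A : Set G), ∀ v ∈ V, n * v * n⁻¹ = y * v * y⁻¹ := by
  have hSA : (S : Subgroup G) ≤ Subgroup.normalizer (A : Set G) := fun s hs =>
    sc_normalizer hsc s (fun a ha => Subgroup.mul_mem _ (Subgroup.mul_mem _ hs (hsc.1 ha)) (Subgroup.inv_mem _ hs))
  by_cases hcase : A ⊓ Subgroup.normalizer (V : Set G) ≤ V
  · have hAV : A ≤ V := by
      by_contra hAV
      have hlt : V < A ⊔ V := lt_of_le_of_ne le_sup_right (fun h => hAV (le_sup_left.trans h.ge))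
      have hpg : IsPGroup p ↥(A ⊔ V) := S.isPGroup'.to_le (sup_le hsc.1 hVS)
      obtain ⟨t, ht, htn, htV⟩ := Cfsg.Agent.Lib.Helper3.exists_mem_normalizer_not_mem' (A ⊔ V) hpg V hlt
      obtain ⟨a, ha, v, hv, rfl⟩ := Cfsg.Agent.Lib.Lead.mem_sup_of_le_normalizer (N := A) (H := V) (hVS.trans hSA) ht
      have haN : a ∈ Subgroup.normalizer (V : Set G) := by
        have := Subgroup.mul_mem _ htn (Subgroup.inv_mem _ (Subgroup.le_normalizer hv))
        simpa using this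
      exact htV (V.mul_mem (hcase ⟨ha, haN⟩) hv)
    refine ⟨n, sc_normalizer hsc n (fun a ha => hVS ((Subgroup.mem_normalizer_iff.mp hn a).mp (hAV ha))), fun v _ => rfl⟩
  · obtain ⟨a₀, ha₀, ha₀V⟩ := SetLike.not_le_iff_exists.mp hcase
    have hKH : stabK V (A ⊓ V) ≤ Subgroup.normalizer (V : Set G) := fun k hk => hk.1
    have hCK : Subgroup.centralizer (V : Set G) ≤ stabK V (A ⊓ V) := by
      intro c hc
      refine ⟨Subgroup.centralizer_le_normalizer _ hc, fun v hv => ?_, fun w hw => ?_⟩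
      · have h1 := Subgroup.mem_centralizer_iff.mp hc v hv
        have e : c * v * c⁻¹ * v⁻¹ = 1 := by rw [← h1]; group
        rw [e]; exact Subgroup.one_mem _
      · exact (Subgroup.mem_centralizer_iff.mp hc w hw.2).symm
    have hWinv : ∀ m ∈ Subgroup.normalizer (V : Set G), ∀ w ∈ A ⊓ V, m * w * m⁻¹ ∈ A ⊓ V := by
      intro m hm w hw
      have h1 : m * w * m⁻¹ ∈ V := (Subgroup.mem_normalizer_iff.mp hm w).mp hw.2
      exact ⟨hsc.2 w hw.1 m (hVS h1), h1⟩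
    have hHK : Subgroup.normalizer (V : Set G) ≤ Subgroup.normalizer ((stabK V (A ⊓ V) : Subgroup G) : Set G) := by
      apply Cfsg.Agent.Lib.Helper4.le_normalizer_of_forall_conj
      intro l hl c hc
      have hl' := Subgroup.inv_mem _ hl
      refine ⟨Subgroup.mul_mem _ (Subgroup.mul_mem _ hl hc.1) hl', fun v hv => ?_, fun w hw => ?_⟩
      · have hv' : l⁻¹ * v * l ∈ V := by
          have := (Subgroup.mem_normalizer_iff.mp hl' v).mp hv
          simpa using this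
        have e : l * c * l⁻¹ * v * (l * c * l⁻¹)⁻¹ * v⁻¹ = l * (c * (l⁻¹ * v * l) * c⁻¹ * (l⁻¹ * v * l)⁻¹) * l⁻¹ := by group
        rw [e]
        exact hWinv l hl _ (hc.2.1 _ hv')
      · have hw' : l⁻¹ * w * l ∈ A ⊓ V := by
          have := hWinv l⁻¹ hl' w hw
          simpa using this
        have h1 := hc.2.2 _ hw'
        calc l * c * l⁻¹ * w = l * (c * (l⁻¹ * w * l)) * l⁻¹ := by group
        _ = l * ((l⁻¹ * w * l) * c) * l⁻¹ := by rw [h1]
        _ = w * (l * c * l⁻¹) := by group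
    have ha₀K : a₀ ∈ stabK V (A ⊓ V) := by
      refine ⟨ha₀.2, fun v hv => ⟨?_, ?_⟩, fun w hw => ?_⟩
      · have h1 : v * a₀⁻¹ * v⁻¹ ∈ A := (Subgroup.mem_normalizer_iff.mp (hSA (hVS hv)) a₀⁻¹).mp (A.inv_mem ha₀.1)
        have := A.mul_mem ha₀.1 h1
        have e : a₀ * v * a₀⁻¹ * v⁻¹ = a₀ * (v * a₀⁻¹ * v⁻¹) := by group
        rw [e]; exact this
      · exact V.mul_mem ((Subgroup.mem_normalizer_iff.mp ha₀.2 v).mp hv) (V.inv_mem hv)
      · exact congrArg Subtype.val (hA.is_comm.comm (⟨a₀, ha₀.1⟩ : A) ⟨w, hw.1⟩)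
    have hP' : SylIn p ((S : Subgroup G) ⊓ stabK V (A ⊓ V)) (stabK V (A ⊓ V)) := by
      have := hfn.inf_of_normal hKH hHK
      rwa [inf_assoc, inf_eq_right.mpr hKH] at this
    obtain ⟨e, he⟩ := (IsPGroup.iff_card).mp S.isPGroup'
    have hpow : ∀ k ∈ stabK V (A ⊓ V), ∃ e : ℕ, k ^ (p ^ e) ∈ Subgroup.centralizer (V : Set G) := by
      intro k hk
      refine ⟨e, Subgroup.mem_centralizer_iff.mpr (fun v hv => ?_)⟩
      have h1 := stab_pow V (A ⊓ V) k hk.2.1 hk.2.2 (p ^ e) v hv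
      have hwS : k * v * k⁻¹ * v⁻¹ ∈ (S : Subgroup G) := hsc.1 (hk.2.1 v hv).1
      have h2 : (k * v * k⁻¹ * v⁻¹) ^ (p ^ e) = 1 := by
        have := pow_card_eq_one' (G := ↥(S : Subgroup G)) (x := ⟨_, hwS⟩)
        rw [he] at this
        exact congrArg Subtype.val this
      rw [h2, one_mul] at h1
      calc v * k ^ p ^ e = (k ^ p ^ e * v * (k ^ p ^ e)⁻¹) * k ^ p ^ e := by rw [h1]
      _ = k ^ p ^ e * v := by group
    have hnK : cj n (stabK V (A ⊓ V)) = stabK V (A ⊓ V) := mem_normalizer_iff_cj.mp (hHK hn)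
    have hle1 : cj n ((S : Subgroup G) ⊓ stabK V (A ⊓ V)) ≤ stabK V (A ⊓ V) := by
      have := cj_mono (g := n) (inf_le_right : (S : Subgroup G) ⊓ stabK V (A ⊓ V) ≤ stabK V (A ⊓ V))
      rwa [hnK] at this
    obtain ⟨k, hkK, hk⟩ := hP'.exists_conj_le (isPGroup_cj hP'.2.1 n) hle1
    rw [cj_cj] at hk
    have hkeq : cj (k * n) ((S : Subgroup G) ⊓ stabK V (A ⊓ V)) = (S : Subgroup G) ⊓ stabK V (A ⊓ V) :=
      Subgroup.eq_of_le_of_card_ge hk (by rw [card_cj])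
    have hmV : k * n ∈ Subgroup.normalizer (V : Set G) := Subgroup.mul_mem _ (hKH hkK) hn
    have hmVeq : cj (k * n) V = V := mem_normalizer_iff_cj.mp hmV
    have hP₁S : V ⊔ ((S : Subgroup G) ⊓ stabK V (A ⊓ V)) ≤ (S : Subgroup G) := sup_le hVS inf_le_left
    have hlt : V < V ⊔ ((S : Subgroup G) ⊓ stabK V (A ⊓ V)) :=
      lt_of_le_of_ne le_sup_left (fun h => ha₀V (h.ge (Subgroup.mem_sup_right ⟨hsc.1 ha₀.1, ha₀K⟩)))
    obtain ⟨y, hy, hyx⟩ := IH _ hP₁S (Cfsg.Agent.Lib.Helper3.card_lt_card_of_lt' hlt) (k * n)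
      (by rw [cj_sup, hmVeq, hkeq]; exact hP₁S)
    have hKC : stabK V (A ⊓ V) ≤ Subgroup.normalizer ((Subgroup.centralizer (V : Set G) : Subgroup G) : Set G) := by
      apply Cfsg.Agent.Lib.Helper4.le_normalizer_of_forall_conj
      intro l hl c hc
      have hlN := Subgroup.inv_mem _ (hKH hl)
      rw [Subgroup.mem_centralizer_iff]
      intro v hv
      have hv' : l⁻¹ * v * l ∈ V := by
        have := (Subgroup.mem_normalizer_iff.mp hlN v).mp hv
        simpa using this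
      have h1 := Subgroup.mem_centralizer_iff.mp hc _ hv'
      calc v * (l * c * l⁻¹) = l * ((l⁻¹ * v * l) * c) * l⁻¹ := by group
      _ = l * (c * (l⁻¹ * v * l)) * l⁻¹ := by rw [h1]
      _ = l * c * l⁻¹ * v := by group
    have hk' := le_sup_of_pow_mem hCK hKC hP' hpow (Subgroup.inv_mem _ hkK)
    obtain ⟨c, hc, q, hq, hcq⟩ := Cfsg.Agent.Lib.Lead.mem_sup_of_le_normalizer
      (N := Subgroup.centralizer (V : Set G)) (H := (S : Subgroup G) ⊓ stabK V (A ⊓ V))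
      (inf_le_right.trans hKC) hk'
    refine ⟨q * y, Subgroup.mul_mem _ (hSA hq.1) hy, fun v hv => ?_⟩
    have h1 := hyx v (Subgroup.mem_sup_left hv)
    have h2 : k * n * v * (k * n)⁻¹ ∈ V := (Subgroup.mem_normalizer_iff.mp hmV v).mp hv
    have h3 : q * (k * n * v * (k * n)⁻¹) * q⁻¹ ∈ V := (Subgroup.mem_normalizer_iff.mp (hKH hq.2) _).mp h2
    have h4 := Subgroup.mem_centralizer_iff.mp hc _ h3
    calc n * v * n⁻¹ = k⁻¹ * (k * n * v * (k * n)⁻¹) * k⁻¹⁻¹ := by group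
    _ = c * q * (k * n * v * (k * n)⁻¹) * (c * q)⁻¹ := by rw [hcq]
    _ = c * (q * (k * n * v * (k * n)⁻¹) * q⁻¹) * c⁻¹ := by group
    _ = (q * (k * n * v * (k * n)⁻¹) * q⁻¹) * c * c⁻¹ := by rw [← h4]
    _ = q * (k * n * v * (k * n)⁻¹) * q⁻¹ := by group
    _ = q * (y * v * y⁻¹) * q⁻¹ := by rw [h1]
    _ = q * y * v * (q * y)⁻¹ := by group

theorem main {G : Type*} [Group G] [Finite G] {p : ℕ} [Fact p.Prime] (S : Sylow p G) (A : Subgroup G)
    (hA : IsMulCommutative ↥A) (hsc : Cfsg.IsStronglyClosed A (S : Subgroup G)) :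
    ∀ (k : ℕ) (U : Subgroup G), U ≤ (S : Subgroup G) → Nat.card (S : Subgroup G) - Nat.card U = k →
      ∀ g : G, cj g U ≤ (S : Subgroup G) →
      ∃ y ∈ Subgroup.normalizer (A : Set G), ∀ u ∈ U, g * u * g⁻¹ = y * u * y⁻¹ := by
  intro k
  induction k using Nat.strong_induction_on with
  | _ k ih =>
  intro U hUS hk g hg
  have IH : ∀ P : Subgroup G, P ≤ (S : Subgroup G) → Nat.card U < Nat.card P → ∀ m : G, cj m P ≤ (S : Subgroup G) →
        ∃ y ∈ Subgroup.normalizer (A : Set G), ∀ x ∈ P, m * x * m⁻¹ = y * x * y⁻¹ := by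
    intro P hPS hlt m hm
    have h1 := Subgroup.card_le_of_le hPS
    exact ih (Nat.card (S : Subgroup G) - Nat.card P) (by omega) P hPS rfl m hm
  by_cases hUeq : U = (S : Subgroup G)
  · refine ⟨g, sc_normalizer hsc g (fun a ha => hg (cj_mem (hUeq ▸ hsc.1 ha))), fun u _ => rfl⟩
  · have grow : ∀ U₀ : Subgroup G, U₀ ≤ (S : Subgroup G) → Nat.card U₀ = Nat.card U →
        Nat.card U₀ < Nat.card ↥((S : Subgroup G) ⊓ Subgroup.normalizer (U₀ : Set G)) := by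
      intro U₀ h0 hc
      have hne : U₀ ≠ (S : Subgroup G) := by
        intro h
        apply hUeq
        apply Subgroup.eq_of_le_of_card_ge hUS
        rw [← hc, h]
      obtain ⟨t, ht, htn, htU⟩ := Cfsg.Agent.Lib.Helper3.exists_mem_normalizer_not_mem' (S : Subgroup G) S.isPGroup' U₀ (lt_of_le_of_ne h0 hne)
      apply Cfsg.Agent.Lib.Helper3.card_lt_card_of_lt'
      exact lt_of_le_of_ne (le_inf h0 Subgroup.le_normalizer) (fun h => htU (h.ge ⟨ht, htn⟩))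
    obtain ⟨h, hh, hfn⟩ := exists_fn_conj S U hUS
    have move : ∀ (U₀ : Subgroup G) (h₀ : G), cj h₀ U₀ = cj h U →
        ∃ n₀ ∈ Subgroup.normalizer ((cj h U : Subgroup G) : Set G),
          cj (n₀ * h₀) ((S : Subgroup G) ⊓ Subgroup.normalizer (U₀ : Set G)) ≤ (S : Subgroup G) ⊓ Subgroup.normalizer ((cj h U : Subgroup G) : Set G) := by
      intro U₀ h₀ h0
      have h1 : cj h₀ ((S : Subgroup G) ⊓ Subgroup.normalizer (U₀ : Set G)) ≤ Subgroup.normalizer ((cj h U : Subgroup G) : Set G) := by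
        rw [← h0, ← cj_normalizer]
        exact cj_mono inf_le_right
      obtain ⟨n₀, hn₀, hle⟩ := hfn.exists_conj_le (isPGroup_cj (S.isPGroup'.to_inf_left) h₀) h1
      rw [cj_cj] at hle
      exact ⟨n₀, hn₀, hle⟩
    obtain ⟨n₁, hn₁, hle₁⟩ := move U h rfl
    have hU' : cj (h * g⁻¹) (cj g U) = cj h U := by
      rw [cj_cj]
      congr 1
      group
    obtain ⟨n₂, hn₂, hle₂⟩ := move (cj g U) (h * g⁻¹) hU'
    obtain ⟨y₁, hy₁, e₁⟩ := IH _ inf_le_left (grow U hUS rfl) (n₁ * h) (hle₁.trans inf_le_left)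
    obtain ⟨y₂, hy₂, e₂⟩ := IH _ inf_le_left (by rw [← card_cj g U]; exact grow (cj g U) hg (card_cj g U)) (n₂ * (h * g⁻¹)) (hle₂.trans inf_le_left)
    obtain ⟨y₃, hy₃, e₃⟩ := step2 S A hA hsc (cj h U) hh hfn
      (fun P hPS hlt m hm => IH P hPS (by rw [← card_cj h U]; exact hlt) m hm) (n₂ * n₁⁻¹)
      (Subgroup.mul_mem _ hn₂ (Subgroup.inv_mem _ hn₁))
    refine ⟨y₂⁻¹ * y₃ * y₁, Subgroup.mul_mem _ (Subgroup.mul_mem _ (Subgroup.inv_mem _ hy₂) hy₃) hy₁, fun u hu => ?_⟩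
    have E1 := e₁ u ⟨hUS hu, Subgroup.le_normalizer hu⟩
    have hv : n₁ * h * u * (n₁ * h)⁻¹ ∈ cj h U := by
      have h1 : h * u * h⁻¹ ∈ cj h U := cj_mem hu
      have h2 := (Subgroup.mem_normalizer_iff.mp hn₁ _).mp h1
      have e : n₁ * h * u * (n₁ * h)⁻¹ = n₁ * (h * u * h⁻¹) * n₁⁻¹ := by group
      rw [e]; exact h2
    have E3 := e₃ _ hv
    have hgu : g * u * g⁻¹ ∈ cj g U := cj_mem hu
    have E2 := e₂ _ ⟨hg hgu, Subgroup.le_normalizer hgu⟩
    have hid : n₂ * (h * g⁻¹) * (g * u * g⁻¹) * (n₂ * (h * g⁻¹))⁻¹ = n₂ * n₁⁻¹ * (n₁ * h * u * (n₁ * h)⁻¹) * (n₂ * n₁⁻¹)⁻¹ := by group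
    have E : y₂ * (g * u * g⁻¹) * y₂⁻¹ = y₃ * (y₁ * u * y₁⁻¹) * y₃⁻¹ := by
      rw [← E2, hid, E3, E1]
    calc g * u * g⁻¹ = y₂⁻¹ * (y₂ * (g * u * g⁻¹) * y₂⁻¹) * y₂ := by group
    _ = y₂⁻¹ * (y₃ * (y₁ * u * y₁⁻¹) * y₃⁻¹) * y₂ := by rw [E]
    _ = y₂⁻¹ * y₃ * y₁ * u * (y₂⁻¹ * y₃ * y₁)⁻¹ := by group

/-- Let S be a Sylow p-subgroup of the finite group G and A an abelian subgroup of S that is strongly closed in S with respect to G. Then A controls strong fusion in G: for some Sylow p-subgroup T containing A, whenever a subset of T is conjugated into T by an element of G, the same elementwise conjugation is induced by an element of N_G(A). -/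
theorem result {G : Type*} [Group G] [Finite G] {p : ℕ} [Fact p.Prime] (S : Sylow p G) (A : Subgroup G) (hA : IsMulCommutative ↥A) (hsc : Cfsg.IsStronglyClosed A (S : Subgroup G)) : Cfsg.ControlsStrongFusion p A := by
  refine ⟨S, hsc.1, fun X hX => ⟨hX, fun g hg => ?_⟩⟩
  have hUS : Subgroup.closure X ≤ (S : Subgroup G) := (Subgroup.closure_le _).mpr hX
  have hcj : cj g (Subgroup.closure X) ≤ (S : Subgroup G) := by
    rw [cj, MonoidHom.map_closure, Subgroup.closure_le]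
    rintro _ ⟨a, ha, rfl⟩
    exact hg ⟨a, ha, rfl⟩
  obtain ⟨y, hy, h⟩ := main S A hA hsc _ _ hUS rfl g hcj
  exact ⟨y, hy, fun a ha => h a (Subgroup.subset_closure ha)⟩

end Cfsg.Agent.S2791
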