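import Cfsg.Statements.S2941
import Mathlib
import Cfsg.Statements.S2941
import Cfsg.Agent.Lib.Lead.Coprime
import Cfsg.Agent.Lib.Helper3.ConjFam

set_option autoImplicit false
open Cfsg
open scoped commutatorElement

namespace Cfsg.Agent.S2941

open scoped commutatorElement

theorem pow_mem_mul {G : Type*} [Group G] (K : Subgroup G) (k j : G) (hk : k ∈ K)
    (hj : j ∈ Subgroup.normalizer (K : Set G)) (n : ℕ) : ∃ k' ∈ K, (k * j) ^ n = k' * j ^ n := by
  induction n with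
  | zero => exact ⟨1, K.one_mem, by simp⟩
  | succ n ih =>
    obtain ⟨k', hk', e⟩ := ih
    have hjn : j ^ n ∈ Subgroup.normalizer (K : Set G) := Subgroup.pow_mem _ hj n
    refine ⟨k' * (j ^ n * k * (j ^ n)⁻¹), K.mul_mem hk' ((Subgroup.mem_normalizer_iff.mp hjn k).mp hk), ?_⟩
    rw [pow_succ, e, pow_succ]
    group

/-- Let G be a finite group of characteristic 2 type in which every 2-local subgroup is solvable and the centralizer of Ω₁(Z(S)) lies in N_G(S) for every Sylow 2-subgroup S, and let T be a nontrivial 2-subgroup and K a J(T)-component (J the Thompson subgroup generated by the elementary abelian 2-subgroups of largest order). If a subgroup Q is normalized by ⟨K, J(T)⟩ and normalizes J(T), then Q normalizes K. -/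
theorem result {G : Type*} [Group G] [Finite G] (hL : Cfsg.IsCharacteristicTwoType G) (hN : ∀ N : Subgroup G, Cfsg.IsTwoLocal N → Group.IsSolvable ↥N)
    (hZ : ∀ S : Sylow 2 G, Subgroup.centralizer (Cfsg.omegaCenterOf (S : Subgroup G) : Set G) ≤ Subgroup.normalizer ((S : Subgroup G) : Set G)) (T : Subgroup G) (hT : IsPGroup 2 ↥T) (hT1 : T ≠ ⊥) (K : Subgroup G) (hK : Cfsg.IsJComponent T K)
    (Q : Subgroup G) (hQ1 : K ⊔ Cfsg.thompsonSubgroupOf 2 T ≤ Subgroup.normalizer (Q : Set G)) (hQ2 : Q ≤ Subgroup.normalizer (Cfsg.thompsonSubgroupOf 2 T : Set G)) :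
    Q ≤ Subgroup.normalizer (K : Set G) := by
  obtain ⟨hodd, hcomm, -, -, -, -⟩ := hK
  have hJT : Cfsg.thompsonSubgroupOf 2 T ≤ T := Subgroup.map_subtype_le _
  have hJ2 : IsPGroup 2 ↥(Cfsg.thompsonSubgroupOf 2 T) := hT.to_le hJT
  have hJK : Cfsg.thompsonSubgroupOf 2 T ≤ Subgroup.normalizer (K : Set G) := by
    have := Cfsg.Agent.Lib.Lead.le_normalizer_commutator_right K (Cfsg.thompsonSubgroupOf 2 T)
    rwa [hcomm] at this
  have hoddK : ∀ x ∈ K ⊔ Cfsg.thompsonSubgroupOf 2 T, Odd (orderOf x) → x ∈ K := by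
    intro x hx hxo
    obtain ⟨k, hk, j, hj, rfl⟩ := Cfsg.Agent.Lib.Lead.mem_sup_of_le_normalizer hJK hx
    obtain ⟨e, he⟩ := hJ2 ⟨j, hj⟩
    have he' : j ^ 2 ^ e = 1 := congrArg Subtype.val he
    obtain ⟨k', hk', e1⟩ := pow_mem_mul K k j hk (hJK hj) (2 ^ e)
    rw [he', mul_one] at e1
    have hcop : (2 ^ e).Coprime (orderOf (k * j)) := Nat.Coprime.pow_left e (Nat.coprime_two_left.mpr hxo)
    obtain ⟨m, hm⟩ := exists_pow_eq_self_of_coprime hcop
    rw [← hm, e1]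
    exact K.pow_mem hk' m
  intro q hq
  apply Cfsg.Agent.Lib.Helper3.mem_normalizer_of_forall_conj_mem K q
  have h1 : ∀ g ∈ K, q * g * q⁻¹ ∈ K ⊔ Cfsg.thompsonSubgroupOf 2 T := by
    intro g hg
    have hg' : g ∈ ⁅K, Cfsg.thompsonSubgroupOf 2 T⁆ := hcomm.ge hg
    rw [Subgroup.commutator_def] at hg'
    refine Subgroup.closure_induction (p := fun g _ => q * g * q⁻¹ ∈ K ⊔ Cfsg.thompsonSubgroupOf 2 T) ?_ ?_ ?_ ?_ hg'
    · rintro _ ⟨k, hk, j, hj, rfl⟩
      have hkN : k ∈ Subgroup.normalizer (Q : Set G) := hQ1 (Subgroup.mem_sup_left hk)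
      have hc : k⁻¹ * q * k * q⁻¹ ∈ Q := by
        have := (Subgroup.mem_normalizer_iff.mp (Subgroup.inv_mem _ hkN) q).mp hq
        have h2 := Q.mul_mem this (Q.inv_mem hq)
        simpa using h2
      have hj' : q * j * q⁻¹ ∈ Cfsg.thompsonSubgroupOf 2 T := (Subgroup.mem_normalizer_iff.mp (hQ2 hq) j).mp hj
      have hcj : (k⁻¹ * q * k * q⁻¹) * (q * j * q⁻¹) * (k⁻¹ * q * k * q⁻¹)⁻¹ ∈ Cfsg.thompsonSubgroupOf 2 T :=
        (Subgroup.mem_normalizer_iff.mp (hQ2 hc) _).mp hj'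
      have e : q * ⁅k, j⁆ * q⁻¹ = k * ((k⁻¹ * q * k * q⁻¹) * (q * j * q⁻¹) * (k⁻¹ * q * k * q⁻¹)⁻¹ * (q * j * q⁻¹)⁻¹) * k⁻¹ * (k * (q * j * q⁻¹) * k⁻¹ * (q * j * q⁻¹)⁻¹) := by
        rw [commutatorElement_def]; group
      rw [e]
      have hkX : k ∈ K ⊔ Cfsg.thompsonSubgroupOf 2 T := Subgroup.mem_sup_left hk
      have hjX : q * j * q⁻¹ ∈ K ⊔ Cfsg.thompsonSubgroupOf 2 T := Subgroup.mem_sup_right hj'
      have hcX : (k⁻¹ * q * k * q⁻¹) * (q * j * q⁻¹) * (k⁻¹ * q * k * q⁻¹)⁻¹ ∈ K ⊔ Cfsg.thompsonSubgroupOf 2 T := Subgroup.mem_sup_right hcj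
      exact Subgroup.mul_mem _ (Subgroup.mul_mem _ (Subgroup.mul_mem _ hkX (Subgroup.mul_mem _ hcX (Subgroup.inv_mem _ hjX))) (Subgroup.inv_mem _ hkX))
        (Subgroup.mul_mem _ (Subgroup.mul_mem _ (Subgroup.mul_mem _ hkX hjX) (Subgroup.inv_mem _ hkX)) (Subgroup.inv_mem _ hjX))
    · simp
    · intro x y _ _ hx hy
      have e : q * (x * y) * q⁻¹ = (q * x * q⁻¹) * (q * y * q⁻¹) := by group
      rw [e]; exact Subgroup.mul_mem _ hx hy
    · intro x _ hx
      have e : q * x⁻¹ * q⁻¹ = (q * x * q⁻¹)⁻¹ := by group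
      rw [e]; exact Subgroup.inv_mem _ hx
  intro a ha
  have ha' : a ∈ Subgroup.closure {g : G | g ∈ K ∧ Odd (orderOf g)} := hodd.ge ha
  refine Subgroup.closure_induction (p := fun g _ => q * g * q⁻¹ ∈ K) ?_ ?_ ?_ ?_ ha'
  · rintro g ⟨hgK, hgo⟩
    apply hoddK _ (h1 g hgK)
    have : orderOf (q * g * q⁻¹) = orderOf g := by
      have := orderOf_injective (MulAut.conj q).toMonoidHom (MulAut.conj q).injective g
      simpa using this
    rw [this]; exact hgo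
  · simp
  · intro x y _ _ hx hy
    have e : q * (x * y) * q⁻¹ = (q * x * q⁻¹) * (q * y * q⁻¹) := by group
    rw [e]; exact K.mul_mem hx hy
  · intro x _ hx
    have e : q * x⁻¹ * q⁻¹ = (q * x * q⁻¹)⁻¹ := by group
    rw [e]; exact K.inv_mem hx

end Cfsg.Agent.S2941
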