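import Cfsg.Statements.S3116
import Mathlib

set_option autoImplicit false
open Cfsg

namespace Cfsg.Agent.S3116

theorem aut_pow_two {X : Type*} [Group X] [Finite X] (x y : X) (n : ℕ) (hn : 1 ≤ n)
    (hx : orderOf x = 2 ^ n) (hidx : (Subgroup.zpowers x).index = 2) (hy : y ∉ Subgroup.zpowers x)
    (hord : ∀ z : X, z ∉ Subgroup.zpowers x → orderOf z < 2 ^ n) (α : MulAut X) :
    ∃ k : ℕ, α ^ 2 ^ k = 1 := by
  have hαx : ∀ β : MulAut X, β x ∈ Subgroup.zpowers x := by
    intro β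
    by_contra h
    have h1 := hord _ h
    rw [MulEquiv.orderOf_eq, hx] at h1
    exact lt_irrefl _ h1
  have hαC : ∀ β : MulAut X, ∀ c ∈ Subgroup.zpowers x, β c ∈ Subgroup.zpowers x := by
    intro β c hc
    obtain ⟨i, rfl⟩ := Subgroup.mem_zpowers_iff.mp hc
    rw [map_zpow]
    exact zpow_mem (hαx β) i
  have hαnC : ∀ β : MulAut X, ∀ z : X, z ∉ Subgroup.zpowers x → β z ∉ Subgroup.zpowers x := by
    intro β z hz h
    apply hz
    have h1 := hαC β⁻¹ _ h
    rwa [MulAut.inv_apply_self] at h1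
  have hfixC : ∀ γ : MulAut X, γ x = x → ∀ c ∈ Subgroup.zpowers x, γ c = c := by
    intro γ hγ c hc
    obtain ⟨i, rfl⟩ := Subgroup.mem_zpowers_iff.mp hc
    rw [map_zpow, hγ]
  have hmul : ∀ a b : X, a * b ∈ Subgroup.zpowers x ↔
      (a ∈ Subgroup.zpowers x ↔ b ∈ Subgroup.zpowers x) :=
    fun a b => Subgroup.mul_mem_iff_of_index_two hidx
  have hdecomp : ∀ z : X, z ∉ Subgroup.zpowers x → y⁻¹ * z ∈ Subgroup.zpowers x := by
    intro z hz
    rw [hmul, inv_mem_iff]
    exact ⟨fun h => absurd h hy, fun h => absurd h hz⟩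
  have hfix : ∀ γ : MulAut X, γ x = x → γ y = y → γ = 1 := by
    intro γ hγx hγy
    ext z
    rw [MulAut.one_apply]
    by_cases hz : z ∈ Subgroup.zpowers x
    · exact hfixC γ hγx z hz
    · have h1 := hfixC γ hγx _ (hdecomp z hz)
      have e : z = y * (y⁻¹ * z) := by group
      rw [e, map_mul, hγy, h1]
  obtain ⟨a, ha⟩ := mem_powers_iff_mem_zpowers.mpr (hαx α)
  have ha' : x ^ a = α x := ha
  have hcop : Nat.Coprime a (2 ^ n) := by
    have h1 : orderOf (x ^ a) = orderOf x := by rw [ha', MulEquiv.orderOf_eq]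
    rw [orderOf_pow, hx] at h1
    rcases Nat.div_eq_self.mp h1 with h2 | h2
    · exact absurd h2 (by positivity)
    · rw [Nat.Coprime, Nat.gcd_comm]; exact h2
  have hpowx : ∀ j : ℕ, (α ^ j) x = x ^ (a ^ j) := by
    intro j
    induction j with
    | zero => simp
    | succ j ih =>
      rw [pow_succ' α j, MulAut.mul_apply, ih, map_pow, ← ha', ← pow_mul, ← pow_succ']
  have hβx : (α ^ 2 ^ (n - 1)) x = x := by
    rw [hpowx]
    have h1 : a ^ 2 ^ (n - 1) ≡ 1 [MOD 2 ^ n] := by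
      have h2 := Nat.ModEq.pow_totient hcop
      rw [Nat.totient_prime_pow Nat.prime_two (by omega)] at h2
      simpa using h2
    have h3 : x ^ (a ^ 2 ^ (n - 1)) = x ^ 1 := by
      rw [pow_eq_pow_iff_modEq, hx]; exact h1
    rw [h3, pow_one]
  obtain ⟨β, hβ⟩ : ∃ β : MulAut X, β = α ^ 2 ^ (n - 1) := ⟨_, rfl⟩
  rw [← hβ] at hβx
  have hc : y⁻¹ * β y ∈ Subgroup.zpowers x := hdecomp _ (hαnC β y hy)
  have hpowy : ∀ j : ℕ, (β ^ j) y = y * (y⁻¹ * β y) ^ j := by
    intro j
    induction j with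
    | zero => simp
    | succ j ih =>
      rw [pow_succ' β j, MulAut.mul_apply, ih, map_mul, map_pow, hfixC β hβx _ hc,
        pow_succ' (y⁻¹ * β y) j, ← mul_assoc, mul_inv_cancel_left]
  have hpowx' : ∀ j : ℕ, (β ^ j) x = x := by
    intro j
    induction j with
    | zero => simp
    | succ j ih => rw [pow_succ' β j, MulAut.mul_apply, ih, hβx]
  have hc2 : (y⁻¹ * β y) ^ 2 ^ n = 1 := by
    have h1 : (⟨y⁻¹ * β y, hc⟩ : Subgroup.zpowers x) ^ Nat.card (Subgroup.zpowers x) = 1 :=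
      pow_card_eq_one'
    rw [Nat.card_zpowers, hx] at h1
    exact congrArg Subtype.val h1
  refine ⟨n - 1 + n, ?_⟩
  rw [pow_add, pow_mul, ← hβ]
  apply hfix
  · exact hpowx' _
  · rw [hpowy, hc2, mul_one]

theorem aut_dihedral {X : Type*} [Group X] [Finite X] (h2 : IsPGroup 2 X) (m : ℕ) (hm : 4 ≤ m)
    (e : X ≃* DihedralGroup m) (α : MulAut X) : ∃ k : ℕ, α ^ 2 ^ k = 1 := by
  haveI : NeZero m := ⟨by omega⟩
  haveI : Fact (Nat.Prime 2) := ⟨Nat.prime_two⟩
  have hcard : Nat.card X = 2 * m := by rw [Nat.card_congr e.toEquiv, DihedralGroup.nat_card]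
  obtain ⟨k, hk⟩ := h2.exists_card_eq
  have hk1 : 1 ≤ k := by
    rcases Nat.eq_zero_or_pos k with h0 | h0
    · rw [h0] at hk; omega
    · exact h0
  have hpk : 2 ^ k = 2 * 2 ^ (k - 1) := by rw [← pow_succ', Nat.sub_add_cancel hk1]
  have hm2 : m = 2 ^ (k - 1) := by omega
  have hx : orderOf (e.symm (DihedralGroup.r 1)) = 2 ^ (k - 1) := by
    rw [MulEquiv.orderOf_eq, DihedralGroup.orderOf_r_one]; exact hm2
  have hn1 : 1 ≤ k - 1 := by
    by_contra h
    push Not at h
    have h0 : k - 1 = 0 := by omega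
    rw [h0] at hm2; omega
  apply aut_pow_two (e.symm (DihedralGroup.r 1)) (e.symm (DihedralGroup.sr 0)) (k - 1) hn1 hx
  · have h1 := Subgroup.card_mul_index (Subgroup.zpowers (e.symm (DihedralGroup.r 1)))
    rw [Nat.card_zpowers, hx, hk, hpk, mul_comm 2] at h1
    exact Nat.eq_of_mul_eq_mul_left (by positivity) h1
  · intro hy
    obtain ⟨j, hj⟩ := mem_powers_iff_mem_zpowers.mpr hy
    have hj' : (e.symm (DihedralGroup.r 1)) ^ j = e.symm (DihedralGroup.sr 0) := hj
    rw [← map_pow, DihedralGroup.r_one_pow] at hj'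
    have h3 := e.symm.injective hj'
    exact absurd h3 (by simp)
  · intro z hz
    rcases hez : e z with i | i
    · exfalso
      apply hz
      have h1 : z = e.symm (DihedralGroup.r i) := by rw [← hez, MulEquiv.symm_apply_apply]
      rw [h1]
      have h2 : DihedralGroup.r i = (DihedralGroup.r 1) ^ i.val := by
        rw [DihedralGroup.r_one_pow, ZMod.natCast_zmod_val]
      rw [h2, map_pow]
      exact pow_mem (Subgroup.mem_zpowers _) _
    · have h1 : orderOf z = orderOf (e z) := (MulEquiv.orderOf_eq e z).symm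
      rw [h1, hez, DihedralGroup.orderOf_sr]
      omega

theorem aut_quasidihedral {X : Type*} [Group X] [Finite X] (h : Cfsg.IsQuasiDihedral X)
    (α : MulAut X) : ∃ k : ℕ, α ^ 2 ^ k = 1 := by
  obtain ⟨n, hn, hcard, x, y, hx, hy, hxy⟩ := h
  have hy2 : y * y = 1 := by rw [← pow_two, ← hy]; exact pow_orderOf_eq_one y
  have h2n1 : 4 ≤ 2 ^ (n - 1) := by
    calc 4 = 2 ^ 2 := by norm_num
      _ ≤ 2 ^ (n - 1) := Nat.pow_le_pow_right (by norm_num) (by omega)
  have h2n2 : 2 ^ n = 2 * 2 ^ (n - 1) := by rw [← pow_succ', Nat.sub_add_cancel (by omega)]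
  have hidx : (Subgroup.zpowers x).index = 2 := by
    have h1 := Subgroup.card_mul_index (Subgroup.zpowers x)
    rw [Nat.card_zpowers, hx, hcard, pow_succ] at h1
    exact Nat.eq_of_mul_eq_mul_left (by positivity) h1
  have hconj : ∀ i : ℕ, y * x ^ i * y⁻¹ = x ^ ((2 ^ (n - 1) - 1) * i) := by
    intro i
    rw [← conj_pow, hxy, ← pow_mul]
  have hyC : y ∉ Subgroup.zpowers x := by
    intro hyC
    obtain ⟨j, hj⟩ := mem_powers_iff_mem_zpowers.mpr hyC
    have hj' : x ^ j = y := hj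
    have h1 : y * x * y⁻¹ = x := by
      rw [← hj', (Commute.pow_self x j).eq, mul_assoc, mul_inv_cancel, mul_one]
    rw [hxy] at h1
    have h3 : x ^ (2 ^ (n - 1) - 1) = x ^ 1 := by rw [h1, pow_one]
    rw [pow_eq_pow_iff_modEq, hx] at h3
    have h4 := Nat.ModEq.eq_of_lt_of_lt h3 (by omega) (by omega)
    omega
  have hmul : ∀ a b : X, a * b ∈ Subgroup.zpowers x ↔
      (a ∈ Subgroup.zpowers x ↔ b ∈ Subgroup.zpowers x) :=
    fun a b => Subgroup.mul_mem_iff_of_index_two hidx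
  apply aut_pow_two x y n (by omega) hx hidx hyC
  intro z hz
  have hc : y * z ∈ Subgroup.zpowers x := by
    rw [hmul]; exact ⟨fun h => absurd h hyC, fun h => absurd h hz⟩
  obtain ⟨i, hi⟩ := mem_powers_iff_mem_zpowers.mpr hc
  have hi' : x ^ i = y * z := hi
  have hz' : z = y * x ^ i := by rw [hi', ← mul_assoc, hy2, one_mul]
  have hz2 : z * z = x ^ (2 ^ (n - 1) * i) := by
    have e1 : z * z = (y * x ^ i * y⁻¹) * (y * y) * x ^ i := by rw [hz']; group
    rw [e1, hconj, hy2, mul_one, ← pow_add]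
    congr 1
    have h1 : 1 ≤ 2 ^ (n - 1) := by omega
    have e2 : (2 ^ (n - 1) - 1) * i + i = (2 ^ (n - 1) - 1 + 1) * i := by ring
    rw [e2, Nat.sub_add_cancel h1]
  have hz4 : z ^ 4 = 1 := by
    have e1 : z ^ 4 = (z * z) * (z * z) := by
      rw [show (4 : ℕ) = 2 + 2 from rfl, pow_add, pow_two]
    rw [e1, hz2, ← pow_add, ← two_mul, ← mul_assoc, ← h2n2, pow_mul, ← hx, pow_orderOf_eq_one,
      one_pow]
  have h5 := Nat.le_of_dvd (by norm_num) (orderOf_dvd_of_pow_eq_one hz4)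
  omega

/-- The automorphism group of a dihedral 2-group of order at least 8, or of a quasi-dihedral (semidihedral) 2-group of order at least 16, is a 2-group. -/
theorem result {X : Type*} [Group X] [Finite X] (h2 : IsPGroup 2 X)
    (h : (∃ n : ℕ, 4 ≤ n ∧ Nonempty (X ≃* DihedralGroup n)) ∨ Cfsg.IsQuasiDihedral X) : IsPGroup 2 (MulAut X) := by
  intro α
  rcases h with ⟨m, hm, ⟨e⟩⟩ | h
  · exact aut_dihedral h2 m hm e α
  · exact aut_quasidihedral h α

end Cfsg.Agent.S3116
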