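import Cfsg.Statements.S3370
import Mathlib
import Cfsg.Agent.Lib.Lead.QuatLift

set_option autoImplicit false
open Cfsg

namespace Cfsg.Agent.S3370


open Cfsg.Agent.Lib.Lead in
/-- a group of order 8 with a unique involution is cyclic or quaternion -/
theorem l8 {G : Type*} [Group G] [Finite G] (hcard : Nat.card G = 8) (z : G) (hz1 : z ≠ 1)
    (hz2 : z * z = 1) (huniq : ∀ t : G, t * t = 1 → t = 1 ∨ t = z) :
    IsCyclic G ∨ Nonempty (G ≃* QuaternionGroup 2) := by
  by_cases h8 : ∃ x : G, orderOf x = 8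
  · obtain ⟨x, hx⟩ := h8
    left
    exact isCyclic_of_orderOf_eq_card x (by rw [hx, hcard])
  · right
    have h4 : ∀ x : G, x ^ 4 = 1 := by
      intro x
      have hdvd : orderOf x ∣ 8 := hcard ▸ orderOf_dvd_natCard x
      obtain ⟨k, hk, hk2⟩ := (Nat.dvd_prime_pow Nat.prime_two).1 (show orderOf x ∣ 2 ^ 3 from hdvd)
      have hk3 : k ≠ 3 := by
        rintro rfl
        exact h8 ⟨x, hk2⟩
      have h' : orderOf x ∣ 2 ^ 2 := by rw [hk2]; exact pow_dvd_pow 2 (by omega)
      exact orderOf_dvd_iff_pow_eq_one.1 h'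
    have hsq : ∀ x : G, x * x = 1 ∨ x * x = z := by
      intro x
      apply huniq
      have : x * x * (x * x) = x ^ 4 := by
        rw [show (4 : ℕ) = 2 + 2 from rfl, pow_add, pow_two]
      rw [this, h4]
    obtain ⟨x, hx1, hxz⟩ : ∃ x : G, x ≠ 1 ∧ x ≠ z := by
      by_contra h
      push_neg at h
      have hsub : (Set.univ : Set G) ⊆ {1, z} := by
        intro x _
        by_cases hx : x = 1
        · left; exact hx
        · right; exact h x hx
      have h1 := Set.ncard_le_ncard hsub (Set.toFinite _)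
      rw [Set.ncard_univ, hcard] at h1
      have h2 : ({1, z} : Set G).ncard ≤ 2 := by
        refine (Set.ncard_insert_le 1 {z}).trans ?_
        rw [Set.ncard_singleton]
      omega
    have hxx : x * x = z := by
      rcases hsq x with h | h
      · rcases huniq x h with h' | h'
        · exact absurd h' hx1
        · exact absurd h' hxz
      · exact h
    have hx4 : x ^ 4 = 1 := h4 x
    have hx2 : x ^ 2 = z := by rw [pow_two]; exact hxx
    have hox : orderOf x = 2 ^ (1 + 1) :=
      orderOf_eq_prime_pow (by rw [pow_one, hx2]; exact hz1) (by exact hx4)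
    have hox4 : orderOf x = 4 := hox.trans (by norm_num)
    obtain ⟨y, hy⟩ : ∃ y : G, y ∉ Subgroup.zpowers x := by
      by_contra h
      push_neg at h
      have htop : Subgroup.zpowers x = ⊤ := (Subgroup.eq_top_iff' _).2 h
      have h1 : Nat.card (Subgroup.zpowers x) = 4 := by rw [Nat.card_zpowers, hox4]
      rw [htop, Subgroup.card_top, hcard] at h1
      omega
    have hy1 : y ≠ 1 := by
      rintro rfl
      exact hy (one_mem _)
    have hzmem : z ∈ Subgroup.zpowers x := by
      rw [← hx2]; exact Subgroup.npow_mem_zpowers x 2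
    have hyz : y ≠ z := by
      rintro rfl
      exact hy hzmem
    have hyy : y * y = z := by
      rcases hsq y with h | h
      · rcases huniq y h with h' | h'
        · exact absurd h' hy1
        · exact absurd h' hyz
      · exact h
    have hxy : x * y ∉ Subgroup.zpowers x := by
      intro h
      apply hy
      have : y = x⁻¹ * (x * y) := by group
      rw [this]
      exact mul_mem (inv_mem (Subgroup.mem_zpowers x)) h
    have hxy2 : x * y * (x * y) = z := by
      rcases hsq (x * y) with h | h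
      · rcases huniq (x * y) h with h' | h'
        · exact absurd (h' ▸ one_mem _) hxy
        · exact absurd (h' ▸ hzmem) hxy
      · exact h
    have hrel : x * y * x = y := by
      have : x * y * x * y = y * y := by
        rw [hyy, ← hxy2]; group
      exact mul_right_cancel this
    have hxa : x ^ (2 * 2) = 1 := hx4
    have hya : y ^ 2 = x ^ 2 := by rw [hx2, pow_two, hyy]
    have hinj := quatHom_injective 2 x y hxa hya hrel hox4 (le_refl 2)
    have hcq : Nat.card (QuaternionGroup 2) = 8 := by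
      rw [Nat.card_eq_fintype_card, QuaternionGroup.card]
    have hbij : Function.Bijective (quatHom 2 x y hxa hya hrel) :=
      hinj.bijective_of_nat_card_le (by rw [hcard, hcq])
    exact ⟨(MulEquiv.ofBijective _ hbij).symm⟩

theorem two_grp_six {G : Type*} [Group G] (hG : IsPGroup 2 G) (g : G) (h6 : g ^ 6 = 1) :
    g * g = 1 := by
  obtain ⟨k, hk⟩ := hG g
  have h1 : orderOf g ∣ 2 ^ k := orderOf_dvd_of_pow_eq_one hk
  have h2 : orderOf g ∣ 2 * 3 := orderOf_dvd_of_pow_eq_one h6
  have hcop : Nat.Coprime (orderOf g) 3 :=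
    Nat.Coprime.coprime_dvd_left h1 (Nat.Coprime.pow_left k (by norm_num))
  have h3 : orderOf g ∣ 2 := hcop.dvd_of_dvd_mul_right h2
  have := orderOf_dvd_iff_pow_eq_one.1 h3
  rwa [pow_two] at this

theorem nt_core (u c : ℤ) (hc : c * c = 1) (a N j : ℕ) (ha : 1 ≤ a) (h1 : u - c = 2 ^ a)
    (h2 : u ^ (2 * j + 1) - c = 2 ^ N) : N ≤ a := by
  by_contra hlt
  push_neg at hlt
  have hd1 : (2 : ℤ) ^ (a + 1) ∣ u ^ 2 - 1 := by
    have e : u ^ 2 - 1 = (u - c) * (u + c) := by linear_combination hc
    rw [e, h1]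
    have e2 : u + c = 2 * (2 ^ (a - 1) + c) := by
      have : (2 : ℤ) ^ a = 2 * 2 ^ (a - 1) := by
        rw [← pow_succ']; congr 1; omega
      linear_combination h1 + this
    rw [e2, pow_succ]
    exact ⟨2 ^ (a - 1) + c, by ring⟩
  have hd2 : (2 : ℤ) ^ (a + 1) ∣ u ^ (2 * j + 1) - u := by
    have e : u ^ (2 * j + 1) - u = u * ((u ^ 2) ^ j - 1 ^ j) := by
      rw [one_pow, ← pow_mul]; ring
    rw [e]
    exact Dvd.dvd.mul_left (hd1.trans (sub_dvd_pow_sub_pow _ _ j)) u
  have hd3 : (2 : ℤ) ^ (a + 1) ∣ u ^ (2 * j + 1) - c := by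
    rw [h2]; exact pow_dvd_pow 2 (by omega)
  have hd4 : (2 : ℤ) ^ (a + 1) ∣ 2 ^ a := by
    have e : (2 : ℤ) ^ a = (u ^ (2 * j + 1) - c) - (u ^ (2 * j + 1) - u) := by
      rw [← h1]; ring
    rw [e]
    exact dvd_sub hd3 hd2
  have h5 := Int.le_of_dvd (by positivity) hd4
  have h6 : (0 : ℤ) < 2 ^ a := by positivity
  rw [pow_succ] at h5
  linarith

theorem nt_two (p n k : ℕ) (hp : p.Prime) (hk : 1 ≤ k) (h : 2 ^ n = p ^ k + 1) : k = 1 := by
  have hp2 : p ≠ 2 := by
    rintro rfl
    have hn : n ≠ 0 := by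
      rintro rfl
      have : 0 < 2 ^ k := by positivity
      rw [pow_zero] at h
      omega
    obtain ⟨n', rfl⟩ := Nat.exists_eq_succ_of_ne_zero hn
    obtain ⟨k', rfl⟩ := Nat.exists_eq_succ_of_ne_zero (by omega : k ≠ 0)
    rw [pow_succ, pow_succ] at h
    omega
  have hodd : Odd p := hp.odd_of_ne_two hp2
  rcases Nat.even_or_odd k with hke | hko
  · exfalso
    obtain ⟨j, rfl⟩ := hke
    have hj : 1 ≤ j := by omega
    have hoddj : Odd (p ^ j) := hodd.pow
    obtain ⟨t, ht⟩ := hoddj
    have e : p ^ (j + j) = 4 * (t * t + t) + 1 := by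
      rw [pow_add, ht]; ring
    rw [e] at h
    have hn : n = 1 := by
      rcases n with _ | _ | n
      · rw [pow_zero] at h; omega
      · rfl
      · exfalso
        rw [pow_succ, pow_succ] at h
        omega
    subst hn
    rw [pow_one] at h
    have ht0 : t * t + t = 0 := by omega
    have ht1 : t = 0 := by
      have : t ≤ t * t + t := Nat.le_add_left _ _
      omega
    subst ht1
    have h2 : 2 ≤ p ^ j := by
      calc 2 ≤ p := hp.two_le
        _ = p ^ 1 := (pow_one p).symm
        _ ≤ p ^ j := Nat.pow_le_pow_right hp.pos hj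
    omega
  · obtain ⟨j, rfl⟩ := hko
    have hdvd : p + 1 ∣ 2 ^ n := by
      rw [h]
      have := Odd.nat_add_dvd_pow_add_pow p 1 (⟨j, rfl⟩ : Odd (2 * j + 1))
      rwa [one_pow] at this
    obtain ⟨a, han, hpa⟩ := (Nat.dvd_prime_pow Nat.prime_two).1 hdvd
    have ha1 : 1 ≤ a := by
      rcases Nat.eq_zero_or_pos a with rfl | h'
      · rw [pow_zero] at hpa; have := hp.two_le; omega
      · exact h'
    have hle : n ≤ a := by
      apply nt_core (p : ℤ) (-1) (by norm_num) a n j ha1
      · have : ((p + 1 : ℕ) : ℤ) = ((2 ^ a : ℕ) : ℤ) := by rw [hpa]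
        push_cast at this
        linarith
      · have : ((2 ^ n : ℕ) : ℤ) = ((p ^ (2 * j + 1) + 1 : ℕ) : ℤ) := by rw [h]
        push_cast at this
        linarith
    have h2 : 2 ^ n ≤ 2 ^ a := Nat.pow_le_pow_right (by norm_num) hle
    rw [h, ← hpa] at h2
    have h3 : p ^ (2 * j + 1) ≤ p ^ 1 := by rw [pow_one]; omega
    have h4 := (Nat.pow_le_pow_iff_right hp.one_lt).1 h3
    omega

theorem nt_odd (q n k : ℕ) (hodd : Odd q) (hq3 : 3 ≤ q) (hn : 1 ≤ n) (h : q ^ n = 2 ^ k + 1) :
    n = 1 ∨ (q = 3 ∧ n = 2) := by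
  rcases Nat.even_or_odd n with hne | hno
  · right
    obtain ⟨l, rfl⟩ := hne
    have hl : 1 ≤ l := by omega
    obtain ⟨u, hu⟩ : ∃ u, u = q ^ l := ⟨_, rfl⟩
    have hu3 : 3 ≤ u := by
      rw [hu]
      calc 3 ≤ q := hq3
        _ = q ^ 1 := (pow_one q).symm
        _ ≤ q ^ l := Nat.pow_le_pow_right (by omega) hl
    have huodd : Odd u := by rw [hu]; exact hodd.pow
    have hfac : (u - 1) * (u + 1) = 2 ^ k := by
      have huu : u * u = 2 ^ k + 1 := by rw [hu, ← pow_add]; exact h
      obtain ⟨u', hu'⟩ : ∃ u', u = u' + 1 := ⟨u - 1, by omega⟩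
      rw [hu'] at huu ⊢
      rw [Nat.add_sub_cancel]
      nlinarith
    obtain ⟨i, hik, hi⟩ := (Nat.dvd_prime_pow Nat.prime_two).1 (Dvd.intro _ hfac)
    obtain ⟨j, hjk, hj⟩ := (Nat.dvd_prime_pow Nat.prime_two).1 (Dvd.intro_left _ hfac)
    have hi1 : i = 1 := by
      rcases i with _ | _ | i
      · exfalso
        rw [pow_zero] at hi
        obtain ⟨t, ht⟩ := huodd
        omega
      · rfl
      · exfalso
        have hj2 : 2 ≤ j := by
          by_contra hlt
          have hj01 : j = 0 ∨ j = 1 := by omega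
          rcases hj01 with rfl | rfl
          · rw [pow_zero] at hj; omega
          · rw [pow_one] at hj; omega
        obtain ⟨j', rfl⟩ : ∃ j', j = j' + 2 := ⟨j - 2, by omega⟩
        rw [pow_succ, pow_succ] at hi hj
        omega
    subst hi1
    rw [pow_one] at hi
    have hu3' : u = 3 := by omega
    rw [hu3'] at hu
    have hq3' : q = 3 := by
      have hdvd : q ∣ 3 := by
        rw [hu]; exact dvd_pow_self q (by omega)
      have := Nat.le_of_dvd (by norm_num) hdvd
      omega
    subst hq3'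
    refine ⟨rfl, ?_⟩
    have hl1 : l = 1 := by
      have h3 : (3 : ℕ) ^ l = 3 ^ 1 := by rw [pow_one]; exact hu.symm
      exact Nat.pow_right_injective (le_refl 2 |>.trans (by norm_num)) h3
    omega
  · left
    obtain ⟨l, rfl⟩ := hno
    have hdvd : q - 1 ∣ 2 ^ k := by
      have h' : 2 ^ k = q ^ (2 * l + 1) - 1 ^ (2 * l + 1) := by
        rw [h, one_pow, Nat.add_sub_cancel]
      rw [h']
      exact Nat.sub_dvd_pow_sub_pow q 1 (2 * l + 1)
    obtain ⟨a, hak, hqa⟩ := (Nat.dvd_prime_pow Nat.prime_two).1 hdvd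
    have ha1 : 1 ≤ a := by
      rcases Nat.eq_zero_or_pos a with rfl | h'
      · rw [pow_zero] at hqa; omega
      · exact h'
    have hle : k ≤ a := by
      apply nt_core (q : ℤ) 1 (by norm_num) a k l ha1
      · have : ((q : ℕ) : ℤ) = ((2 ^ a + 1 : ℕ) : ℤ) := by congr 1; omega
        push_cast at this
        linarith
      · have : ((q ^ (2 * l + 1) : ℕ) : ℤ) = ((2 ^ k + 1 : ℕ) : ℤ) := by rw [h]
        push_cast at this
        linarith
    have h2 : 2 ^ k ≤ 2 ^ a := Nat.pow_le_pow_right (by norm_num) hle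
    have h3 : q ^ (2 * l + 1) ≤ q ^ 1 := by rw [pow_one, h]; omega
    have h4 := (Nat.pow_le_pow_iff_right (by omega : 1 < q)).1 h3
    omega

theorem rmul {q : ℕ} {V G : Type*} [AddCommGroup V] [Module (ZMod q) V] [Group G]
    (ρ : G →* (V ≃ₗ[ZMod q] V)) (a b : G) (w : V) : ρ (a * b) w = ρ a (ρ b w) := by
  rw [map_mul]; rfl

theorem rone {q : ℕ} {V G : Type*} [AddCommGroup V] [Module (ZMod q) V] [Group G]
    (ρ : G →* (V ≃ₗ[ZMod q] V)) (w : V) : ρ 1 w = w := by
  rw [map_one]; rfl

theorem smul_inj {K V : Type*} [Field K] [AddCommGroup V] [Module K V] {v : V} (hv : v ≠ 0) :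
    Function.Injective (fun c : K => c • v) := by
  intro a b h
  have h' : a • v = b • v := h
  have h0 : (a - b) • v = 0 := by rw [sub_smul, h', sub_self]
  rcases smul_eq_zero.1 h0 with h1 | h1
  · exact sub_eq_zero.1 h1
  · exact absurd h1 hv

theorem card_eq {q : ℕ} {V : Type*} [AddCommGroup V] [Module (ZMod q) V] [Finite V]
    {G : Type*} [Group G] [Finite G] (ρ : G →* (V ≃ₗ[ZMod q] V))
    (htrans : ∀ v w : V, v ≠ 0 → w ≠ 0 → ∃ g : G, ρ g v = w) (v : V) (hv : v ≠ 0) :
    ∃ S : Subgroup G, (∀ g, g ∈ S ↔ ρ g v = v) ∧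
      Nat.card G = (Nat.card V - 1) * Nat.card S := by
  letI : MulAction G V := MulAction.compHom V ρ
  have hsm : ∀ (g : G) (w : V), g • w = ρ g w := fun g w => rfl
  refine ⟨MulAction.stabilizer G v, fun g => ?_, ?_⟩
  · rw [MulAction.mem_stabilizer_iff, hsm]
  · have hci := Subgroup.card_mul_index (MulAction.stabilizer G v)
    rw [MulAction.index_stabilizer] at hci
    have horb : MulAction.orbit G v = ({0} : Set V)ᶜ := by
      ext w
      constructor
      · intro hw
        obtain ⟨g, rfl⟩ := MulAction.mem_orbit_iff.1 hw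
        have hne : ρ g v ≠ 0 := fun h => hv ((ρ g).map_eq_zero_iff.1 h)
        exact hne
      · intro hw
        have hw' : w ≠ 0 := hw
        obtain ⟨g, hg⟩ := htrans v w hv hw'
        exact MulAction.mem_orbit_iff.2 ⟨g, hg⟩
    rw [horb, Set.ncard_compl, Set.ncard_singleton] at hci
    rw [← hci, mul_comm]

theorem one_dim (q : ℕ) [Fact q.Prime] {V : Type*} [AddCommGroup V] [Module (ZMod q) V]
    [Finite V] {G : Type*} [Group G] (ρ : G →* (V ≃ₗ[ZMod q] V)) (hρ : Function.Injective ρ)
    (htrans : ∀ v w : V, v ≠ 0 → w ≠ 0 → ∃ g : G, ρ g v = w)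
    (hV : Nat.card V = q) (v₀ : V) (hv₀ : v₀ ≠ 0) : Nonempty (G ≃* (ZMod q)ˣ) := by
  have hinj : Function.Injective (fun c : ZMod q => c • v₀) := smul_inj hv₀
  have hbij : Function.Bijective (fun c : ZMod q => c • v₀) :=
    hinj.bijective_of_nat_card_le (by rw [hV, Nat.card_zmod])
  choose c hc using fun g : G => hbij.2 (ρ g v₀)
  have hc' : ∀ g, c g • v₀ = ρ g v₀ := hc
  have hall : ∀ (g : G) (w : V), ρ g w = c g • w := by
    intro g w
    obtain ⟨a, ha⟩ := hbij.2 w
    have ha' : a • v₀ = w := ha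
    rw [← ha', map_smul, ← hc', smul_comm]
  have hmulc : ∀ g h, c (g * h) = c g * c h := by
    intro g h
    apply hinj
    show c (g * h) • v₀ = (c g * c h) • v₀
    rw [hc', rmul ρ, ← hc' h, map_smul, ← hc' g, smul_smul, mul_comm]
  have hone : c 1 = 1 := by
    apply hinj
    show c 1 • v₀ = (1 : ZMod q) • v₀
    rw [hc', rone ρ, one_smul]
  obtain ⟨F, hF⟩ : ∃ F : G →* ZMod q, ∀ g, F g = c g :=
    ⟨{ toFun := c, map_one' := hone, map_mul' := hmulc }, fun g => rfl⟩
  have hFu : ∀ g, ((F.toHomUnits g : (ZMod q)ˣ) : ZMod q) = c g := fun g => by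
    rw [MonoidHom.coe_toHomUnits, hF]
  have hFinj : Function.Injective F.toHomUnits := by
    intro g h hgh
    have h1 : c g = c h := by rw [← hFu g, ← hFu h, hgh]
    apply hρ
    apply LinearEquiv.ext
    intro w
    rw [hall, hall, h1]
  have hFsurj : Function.Surjective F.toHomUnits := by
    intro u
    have hu : (u : ZMod q) • v₀ ≠ 0 := smul_ne_zero u.ne_zero hv₀
    obtain ⟨g, hg⟩ := htrans v₀ _ hv₀ hu
    refine ⟨g, Units.ext ?_⟩
    rw [hFu]
    apply hinj
    show c g • v₀ = (u : ZMod q) • v₀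
    rw [hc', hg]
  exact ⟨MulEquiv.ofBijective F.toHomUnits ⟨hFinj, hFsurj⟩⟩

theorem case2 {V : Type*} [AddCommGroup V] [Module (ZMod 2) V] [Finite V]
    {G : Type*} [Group G] [Finite G] (p : ℕ) [Fact p.Prime] (hG : IsPGroup p G)
    (ρ : G →* (V ≃ₗ[ZMod 2] V)) (hρ : Function.Injective ρ)
    (htrans : ∀ v w : V, v ≠ 0 → w ≠ 0 → ∃ g : G, ρ g v = w)
    (hVp : Nat.card V = p + 1) (v : V) (hv : v ≠ 0) : Nat.card G = p := by
  obtain ⟨S, hS, hcard⟩ := card_eq ρ htrans v hv
  letI : MulAction G V := MulAction.compHom V ρ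
  have hcong := (hG.to_subgroup S).card_modEq_card_fixedPoints V
  have hsub : ({0, v} : Set V) ⊆ MulAction.fixedPoints S V := by
    intro w hw
    rw [MulAction.mem_fixedPoints]
    intro s
    rcases (Set.mem_insert_iff.1 hw) with h | h
    · rw [h]
      show ρ (s : G) (0 : V) = 0
      exact map_zero _
    · rw [Set.mem_singleton_iff.1 h]
      exact (hS s).1 s.2
  obtain ⟨F, hF⟩ : ∃ F, F = Nat.card (MulAction.fixedPoints S V) := ⟨_, rfl⟩
  rw [← hF, hVp] at hcong
  have h2 : 2 ≤ F := by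
    rw [hF, Nat.card_coe_set_eq]
    calc 2 = ({0, v} : Set V).ncard := (Set.ncard_pair (Ne.symm hv)).symm
      _ ≤ _ := Set.ncard_le_ncard hsub (Set.toFinite _)
  have hle : F ≤ p + 1 := by
    rw [hF, ← hVp]
    exact Nat.card_le_card_of_injective _ Subtype.val_injective
  have hd : p ∣ (p + 1) - F := (Nat.modEq_iff_dvd' hle).1 hcong.symm
  have hlt : (p + 1) - F < p := by omega
  have h0 : (p + 1) - F = 0 := Nat.eq_zero_of_dvd_of_lt hd hlt
  have hFp : F = p + 1 := by omega
  have huniv : MulAction.fixedPoints S V = Set.univ := by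
    rw [Set.eq_univ_iff_ncard, ← Nat.card_coe_set_eq, ← hF, hFp, hVp]
  have hSbot : S = ⊥ := by
    rw [Subgroup.eq_bot_iff_forall]
    intro h hh
    apply hρ
    apply LinearEquiv.ext
    intro w
    have hw : w ∈ MulAction.fixedPoints S V := by rw [huniv]; trivial
    have := (MulAction.mem_fixedPoints.1 hw) ⟨h, hh⟩
    rw [rone ρ]
    exact this
  rw [hcard, hVp, hSbot, Subgroup.card_bot]
  omega

theorem zmod3_cases : ∀ s : ZMod 3, s = 0 ∨ s = 1 ∨ s = -1 := by decide

theorem add3 {V : Type*} [AddCommGroup V] [Module (ZMod 3) V] (u : V) : u + u + u = 0 := by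
  have h : (3 : ZMod 3) • u = 0 := by
    have h' : (3 : ZMod 3) = 0 := by decide
    rw [h', zero_smul]
  have h2 : (3 : ZMod 3) • u = u + u + u := by
    rw [show (3 : ZMod 3) = 1 + 1 + 1 by norm_num, add_smul, add_smul, one_smul]
  rw [← h2, h]

theorem eq_zero_of_add_self3 {V : Type*} [AddCommGroup V] [Module (ZMod 3) V] (u : V)
    (h : u + u = 0) : u = 0 := by
  have h2 := add3 u
  rw [h, zero_add] at h2
  exact h2

theorem eq_zero_of_eq_neg3 {V : Type*} [AddCommGroup V] [Module (ZMod 3) V] (u : V)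
    (h : u = -u) : u = 0 := by
  apply eq_zero_of_add_self3
  have h1 := congrArg (fun t => u + t) h
  simpa using h1

theorem coords {V : Type*} [AddCommGroup V] [Module (ZMod 3) V] [Fact (Nat.Prime 3)] [Finite V]
    (hV : Nat.card V = 9) (v : V) (hv : v ≠ 0) :
    ∃ w₀ : V, (∀ c : ZMod 3, c • v ≠ w₀) ∧ (∀ u : V, ∃ a b : ZMod 3, a • v + b • w₀ = u) ∧
      (∀ a b a' b' : ZMod 3, a • v + b • w₀ = a' • v + b' • w₀ → a = a' ∧ b = b') := by
  have hex : ∃ w₀ : V, ∀ c : ZMod 3, c • v ≠ w₀ := by
    by_contra h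
    push_neg at h
    have hsurj : Function.Surjective (fun c : ZMod 3 => c • v) := fun w => h w
    have := Nat.card_le_card_of_surjective _ hsurj
    rw [hV, Nat.card_zmod] at this
    omega
  obtain ⟨w₀, hw₀⟩ := hex
  have hinj : Function.Injective (fun ab : ZMod 3 × ZMod 3 => ab.1 • v + ab.2 • w₀) := by
    rintro ⟨a, b⟩ ⟨a', b'⟩ h
    have h' : a • v + b • w₀ = a' • v + b' • w₀ := h
    have h1 : (b - b') • w₀ = (a' - a) • v := by
      rw [sub_smul, sub_smul]
      linear_combination (norm := abel) h'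
    by_cases hb : b = b'
    · rw [hb] at h'
      have h2 : a • v = a' • v := add_right_cancel h'
      have h3 : a = a' := smul_inj hv h2
      rw [h3, hb]
    · exfalso
      have hne : b - b' ≠ 0 := sub_ne_zero.2 hb
      apply hw₀ ((b - b')⁻¹ * (a' - a))
      rw [mul_smul, ← h1, smul_smul, inv_mul_cancel₀ hne, one_smul]
  have hbij : Function.Bijective (fun ab : ZMod 3 × ZMod 3 => ab.1 • v + ab.2 • w₀) :=
    hinj.bijective_of_nat_card_le (by rw [hV, Nat.card_prod, Nat.card_zmod])
  refine ⟨w₀, hw₀, fun u => ?_, fun a b a' b' h => ?_⟩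
  · obtain ⟨⟨a, b⟩, hab⟩ := hbij.2 u
    exact ⟨a, b, hab⟩
  · have := hinj (a₁ := (a, b)) (a₂ := (a', b')) h
    exact ⟨congrArg Prod.fst this, congrArg Prod.snd this⟩

theorem agree {V : Type*} [AddCommGroup V] [Module (ZMod 3) V] (v w₀ : V)
    (hspan : ∀ u : V, ∃ a b : ZMod 3, a • v + b • w₀ = u) (f f' : V ≃ₗ[ZMod 3] V)
    (hv : f v = f' v) (hw : f w₀ = f' w₀) : f = f' := by
  apply LinearEquiv.ext
  intro u
  obtain ⟨a, b, rfl⟩ := hspan u
  rw [map_add, map_add, map_smul, map_smul, map_smul, map_smul, hv, hw]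

theorem ch {V : Type*} [AddCommGroup V] [Module (ZMod 3) V] (v w₀ : V)
    (hspan : ∀ u : V, ∃ a b : ZMod 3, a • v + b • w₀ = u) (f : V →ₗ[ZMod 3] V) :
    ∃ s d : ZMod 3, ∀ u, f (f u) = s • f u + d • u := by
  obtain ⟨a, c, hfv⟩ := hspan (f v)
  obtain ⟨b, d, hfw⟩ := hspan (f w₀)
  refine ⟨a + d, -(a * d - b * c), fun u => ?_⟩
  obtain ⟨x, y, rfl⟩ := hspan u
  simp only [map_add, map_smul]
  rw [← hfv, ← hfw]
  simp only [map_add, map_smul]
  rw [← hfv, ← hfw]
  module

theorem tri {V : Type*} [AddCommGroup V] [Module (ZMod 3) V]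
    {G : Type*} [Group G] (hG : IsPGroup 2 G)
    (ρ : G →* (V ≃ₗ[ZMod 3] V)) (hρ : Function.Injective ρ)
    (g : G) (s d : ZMod 3) (hsd : ∀ u, ρ g (ρ g u) = s • ρ g u + d • u) :
    (∀ w, ρ g (ρ g w) = w) ∨ (∀ w, ρ g (ρ g w) = -w) ∨
      (∃ s : ZMod 3, (s = 1 ∨ s = -1) ∧ ∀ w, ρ g (ρ g w) = s • ρ g w + w) := by
  have hext : ∀ a b : G, (∀ w, ρ a w = ρ b w) → a = b := fun a b hh => hρ (LinearEquiv.ext hh)
  have hsix : g ^ 6 = 1 → ∀ w, ρ g (ρ g w) = w := by
    intro h6 w
    have := two_grp_six hG g h6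
    rw [← rmul ρ, this, rone ρ]
  have hg6 : g ^ 6 = g * g * g * (g * g * g) := by
    rw [show (6 : ℕ) = 3 + 3 from rfl, pow_add, pow_succ, pow_two]
  rcases zmod3_cases d with rfl | rfl | rfl
  · left
    have h1 : ∀ u, ρ g u = s • u := by
      intro u
      apply (ρ g).injective
      rw [hsd u, zero_smul, add_zero, map_smul]
    intro w
    rcases zmod3_cases s with rfl | rfl | rfl
    · have hw : ρ g w = ρ g 0 := by rw [h1 w, zero_smul, map_zero]
      have hw0 : w = 0 := (ρ g).injective hw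
      rw [hw0, map_zero, map_zero]
    · rw [h1, h1, one_smul, one_smul]
    · rw [h1, h1, neg_smul, one_smul, neg_smul, one_smul, neg_neg]
  · rcases zmod3_cases s with rfl | rfl | rfl
    · left
      intro w
      rw [hsd w, zero_smul, zero_add, one_smul]
    · right; right
      exact ⟨1, Or.inl rfl, fun w => by rw [hsd w, one_smul, one_smul]⟩
    · right; right
      exact ⟨-1, Or.inr rfl, fun w => by rw [hsd w, one_smul]⟩
  · rcases zmod3_cases s with rfl | rfl | rfl
    · right; left
      intro w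
      rw [hsd w, zero_smul, zero_add, neg_smul, one_smul]
    · left
      have h2 : ∀ u, ρ g (ρ g u) = ρ g u - u := by
        intro u; rw [hsd u, one_smul, neg_smul, one_smul, sub_eq_add_neg]
      have h3 : ∀ u, ρ g (ρ g (ρ g u)) = -u := by
        intro u
        rw [h2 (ρ g u), h2 u]; abel
      apply hsix
      apply hext
      intro w
      rw [hg6]
      simp only [rmul ρ]
      rw [rone ρ, h3 (ρ g (ρ g (ρ g w))), h3 w, neg_neg]
    · left
      have h2 : ∀ u, ρ g (ρ g u) = -ρ g u - u := by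
        intro u; rw [hsd u, neg_smul, one_smul, neg_smul, one_smul, sub_eq_add_neg]
      have h3 : ∀ u, ρ g (ρ g (ρ g u)) = u := by
        intro u
        rw [h2 (ρ g u), h2 u]; abel
      apply hsix
      apply hext
      intro w
      rw [hg6]
      simp only [rmul ρ]
      rw [rone ρ, h3 (ρ g (ρ g (ρ g w))), h3 w]

theorem stab_small {V : Type*} [AddCommGroup V] [Module (ZMod 3) V]
    {G : Type*} [Group G] (hG : IsPGroup 2 G)
    (ρ : G →* (V ≃ₗ[ZMod 3] V)) (hρ : Function.Injective ρ) (v w₀ : V)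
    (hw₀ : ∀ c : ZMod 3, c • v ≠ w₀)
    (hspan : ∀ u : V, ∃ a b : ZMod 3, a • v + b • w₀ = u)
    (huniq : ∀ a b a' b' : ZMod 3, a • v + b • w₀ = a' • v + b' • w₀ → a = a' ∧ b = b')
    (g₁ g₂ : G) (hv₁ : ρ g₁ v = v) (hv₂ : ρ g₂ v = v) (h1 : g₁ ≠ 1) (h2 : g₂ ≠ 1) :
    g₁ * g₂ = 1 := by
  have claim : ∀ k : G, ρ k v = v → k ≠ 1 → ∃ a : ZMod 3, ρ k w₀ = a • v - w₀ := by
    intro k hkv hk1
    obtain ⟨a, b, hab⟩ := hspan (ρ k w₀)
    rcases zmod3_cases b with rfl | rfl | rfl
    · exfalso
      apply hw₀ a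
      apply (ρ k).injective
      rw [map_smul, hkv, ← hab, zero_smul, add_zero]
    · exfalso
      apply hk1
      have hk : ρ k w₀ = a • v + w₀ := by rw [← hab, one_smul]
      have hk3 : k * k * k = 1 := by
        apply hρ
        apply agree v w₀ hspan
        · simp only [rmul ρ, rone ρ, hkv]
        · simp only [rmul ρ, rone ρ, hk, map_add, map_smul, hkv]
          linear_combination (norm := abel) add3 (a • v)
      have hkk := two_grp_six hG k (by
        rw [show (6 : ℕ) = 3 * 2 from rfl, pow_mul, show k ^ 3 = k * k * k by rw [pow_succ, pow_two], hk3, one_pow])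
      rw [hkk, one_mul] at hk3
      exact hk3
    · exact ⟨a, by rw [← hab, neg_smul, one_smul, sub_eq_add_neg]⟩
  obtain ⟨a, ha⟩ := claim g₁ hv₁ h1
  obtain ⟨a', ha'⟩ := claim g₂ hv₂ h2
  by_contra hne
  obtain ⟨a'', ha''⟩ := claim (g₁ * g₂) (by rw [rmul ρ, hv₂, hv₁]) hne
  rw [rmul ρ, ha', map_sub, map_smul, hv₁, ha] at ha''
  have key := huniq (a' - a) 1 a'' (-1) (by
    rw [sub_smul, one_smul, neg_smul, one_smul]
    linear_combination (norm := abel) ha'')
  exact absurd key.2 (by decide)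

theorem case3 {V : Type*} [AddCommGroup V] [Module (ZMod 3) V] [Fact (Nat.Prime 3)] [Finite V]
    {G : Type*} [Group G] [Finite G] (hG : IsPGroup 2 G)
    (ρ : G →* (V ≃ₗ[ZMod 3] V)) (hρ : Function.Injective ρ)
    (htrans : ∀ v w : V, v ≠ 0 → w ≠ 0 → ∃ g : G, ρ g v = w) (hV : Nat.card V = 9) :
    (IsCyclic G ∧ Nat.card G = 8) ∨ Nonempty (G ≃* QuaternionGroup 2) ∨
      (Cfsg.IsQuasiDihedral G ∧ Nat.card G = 16) := by
  classical
  haveI : Nontrivial V := by
    apply (Finite.one_lt_card_iff_nontrivial).1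
    rw [hV]; norm_num
  obtain ⟨v, hv⟩ := exists_ne (0 : V)
  obtain ⟨w₀, hw₀, hspan, huniq⟩ := coords hV v hv
  obtain ⟨S, hS, hcard⟩ := card_eq ρ htrans v hv
  rw [hV] at hcard
  have hext : ∀ g h : G, (∀ w, ρ g w = ρ h w) → g = h := fun g h hh => hρ (LinearEquiv.ext hh)
  have htri : ∀ g : G, (∀ w, ρ g (ρ g w) = w) ∨ (∀ w, ρ g (ρ g w) = -w) ∨
      (∃ s : ZMod 3, (s = 1 ∨ s = -1) ∧ ∀ w, ρ g (ρ g w) = s • ρ g w + w) := by
    intro g
    obtain ⟨s, d, hsd⟩ := ch v w₀ hspan (ρ g).toLinearMap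
    exact tri hG ρ hρ g s d hsd
  have hsmall : ∀ h ∈ S, h ≠ 1 → ∀ h' ∈ S, h' ≠ 1 → h * h' = 1 := by
    intro h hh h1 h' hh' h1'
    exact stab_small hG ρ hρ v w₀ hw₀ hspan huniq h h' ((hS h).1 hh) ((hS h').1 hh') h1 h1'
  by_cases hS1 : S = ⊥
  · have hcS : Nat.card S = 1 := by rw [hS1, Subgroup.card_bot]
    have hc8 : Nat.card G = 8 := by rw [hcard, hcS]
    have hreg : ∀ (g : G) (w : V), w ≠ 0 → ρ g w = w → g = 1 := by
      intro g w hw hgw
      obtain ⟨S', hS', hcard'⟩ := card_eq ρ htrans w hw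
      rw [hV, hc8] at hcard'
      have h1 : Nat.card S' = 1 := by omega
      have h2 : S' = ⊥ := Subgroup.card_eq_one.1 h1
      have h3 : g ∈ S' := (hS' g).2 hgw
      rw [h2, Subgroup.mem_bot] at h3
      exact h3
    have hinv : ∀ t : G, t * t = 1 → t ≠ 1 → ∀ w, ρ t w = -w := by
      intro t ht ht1 w
      have hfix : ρ t (ρ t w + w) = ρ t w + w := by
        rw [map_add, ← rmul ρ, ht, rone ρ, add_comm]
      by_cases h0 : ρ t w + w = 0
      · exact eq_neg_of_add_eq_zero_left h0
      · exact absurd (hreg t _ h0 hfix) ht1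
    obtain ⟨z, hz⟩ := exists_prime_orderOf_dvd_card' (G := G) 2 (by rw [hc8]; norm_num)
    have hz1 : z ≠ 1 := by
      intro h; rw [h, orderOf_one] at hz; norm_num at hz
    have hz2 : z * z = 1 := by
      rw [← pow_two, ← hz]; exact pow_orderOf_eq_one z
    have huniqz : ∀ t : G, t * t = 1 → t = 1 ∨ t = z := by
      intro t ht
      by_cases ht1 : t = 1
      · exact Or.inl ht1
      · right
        apply hext
        intro w
        rw [hinv t ht ht1 w, hinv z hz2 hz1 w]
    rcases l8 hc8 z hz1 hz2 huniqz with hcyc | hq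
    · exact Or.inl ⟨hcyc, hc8⟩
    · exact Or.inr (Or.inl hq)
  · right; right
    obtain ⟨y, hyS, hy1⟩ : ∃ y ∈ S, y ≠ 1 := by
      by_contra h
      push_neg at h
      exact hS1 ((Subgroup.eq_bot_iff_forall S).2 h)
    have hyy : y * y = 1 := hsmall y hyS hy1 y hyS hy1
    have hyv : ρ y v = v := (hS y).1 hyS
    have hSz : S = Subgroup.zpowers y := by
      apply le_antisymm
      · intro h hh
        by_cases hh1 : h = 1
        · rw [hh1]; exact one_mem _
        · have e := hsmall y hyS hy1 h hh hh1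
          have e2 : y * h = y * y := by rw [e, hyy]
          rw [mul_left_cancel e2]
          exact Subgroup.mem_zpowers y
      · exact (Subgroup.zpowers_le).2 hyS
    have hoy : orderOf y = 2 := orderOf_eq_prime (by rw [pow_two]; exact hyy) hy1
    have hcS : Nat.card S = 2 := by rw [hSz, Nat.card_zpowers, hoy]
    have hc16 : Nat.card G = 16 := by rw [hcard, hcS]
    have hyy' : ∀ w, ρ y (ρ y w) = w := by intro w; rw [← rmul ρ, hyy, rone ρ]
    have hyinv : y⁻¹ = y := inv_eq_of_mul_eq_one_right hyy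
    obtain ⟨x, s, hs, hx⟩ : ∃ x : G, ∃ s : ZMod 3, (s = 1 ∨ s = -1) ∧
        ∀ w, ρ x (ρ x w) = s • ρ x w + w := by
      by_contra hno
      have hsq : ∀ g : G, (∀ w, ρ g (ρ g w) = w) ∨ (∀ w, ρ g (ρ g w) = -w) := by
        intro g
        rcases htri g with h | h | ⟨s, hs, h⟩
        · exact Or.inl h
        · exact Or.inr h
        · exact absurd ⟨g, s, hs, h⟩ hno
      have hdich : ∀ w : V, w ≠ 0 → ρ y w = w ∨ ρ y w = -w := by
        intro w hw
        obtain ⟨c, hc⟩ := htrans v w hv hw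
        rw [← hc]
        have e1 : ∀ u, ρ (c * y) u = ρ c (ρ y u) := fun u => rmul ρ c y u
        rcases hsq (c * y) with h1 | h1 <;> rcases hsq c with h2 | h2
        · have a1 := h1 v
          rw [e1, e1, hyv] at a1
          have a2 := h2 (ρ y (ρ c v))
          rw [a1] at a2
          exact Or.inl a2.symm
        · have a1 := h1 v
          rw [e1, e1, hyv] at a1
          have a2 := h2 (ρ y (ρ c v))
          rw [a1] at a2
          exact Or.inr (neg_eq_iff_eq_neg.2 a2).symm
        · have a1 := h1 v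
          rw [e1, e1, hyv] at a1
          have a2 := h2 (ρ y (ρ c v))
          rw [a1, map_neg] at a2
          exact Or.inr a2.symm
        · have a1 := h1 v
          rw [e1, e1, hyv] at a1
          have a2 := h2 (ρ y (ρ c v))
          rw [a1, map_neg] at a2
          exact Or.inl (neg_injective a2).symm
      obtain ⟨w₂, hw₂⟩ : ∃ w₂, ρ y w₂ ≠ w₂ := by
        by_contra h
        push_neg at h
        exact hy1 (hext y 1 (fun w => by rw [h w, rone ρ]))
      have hw₂0 : w₂ ≠ 0 := by
        intro h0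
        apply hw₂
        rw [h0, map_zero]
      have hw₂n : ρ y w₂ = -w₂ := by
        rcases hdich w₂ hw₂0 with h | h
        · exact absurd h hw₂
        · exact h
      have hsum0 : v + w₂ ≠ 0 := by
        intro h
        have h' : w₂ = -v := eq_neg_of_add_eq_zero_right h
        apply hw₂
        rw [h', map_neg, hyv]
      rcases hdich (v + w₂) hsum0 with h | h
      · rw [map_add, hyv, hw₂n] at h
        have h' : -w₂ = w₂ := add_left_cancel h
        exact hw₂0 (eq_zero_of_eq_neg3 w₂ h'.symm)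
      · rw [map_add, hyv, hw₂n, neg_add] at h
        have h' : v = -v := add_right_cancel h
        exact hv (eq_zero_of_eq_neg3 v h')
    have hx4 : ∀ w, ρ x (ρ x (ρ x (ρ x w))) = -w := by
      intro w
      have e1 := hx w
      have e2 := hx (ρ x w)
      have e3 := hx (ρ x (ρ x w))
      have a1 := add3 (ρ x w)
      have a2 := add3 w
      rcases hs with hs1 | hs1
      · rw [hs1, one_smul] at e1 e2 e3
        rw [e3, e2, e1]
        linear_combination (norm := abel) a1 + a2
      · rw [hs1, neg_smul, one_smul] at e1 e2 e3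
        rw [e3, e2, e1]
        linear_combination (norm := abel) a2 - a1
    obtain ⟨X4, hX4def⟩ : ∃ X4 : G, X4 = x * x * (x * x) := ⟨_, rfl⟩
    have hX4 : ∀ w, ρ X4 w = -w := by
      intro w
      rw [hX4def]
      simp only [rmul ρ]
      exact hx4 w
    have hX4ne : X4 ≠ 1 := by
      intro h
      have e := hX4 v
      rw [h, rone ρ] at e
      exact hv (eq_zero_of_eq_neg3 v e)
    have hX4sq : X4 * X4 = 1 := by
      apply hext
      intro w
      rw [rmul ρ, hX4, hX4, neg_neg, rone ρ]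
    have hp4 : x ^ 4 = X4 := by
      rw [hX4def, show (4 : ℕ) = 2 + 2 from rfl, pow_add, pow_two]
    have hx8 : x ^ 8 = 1 := by
      have h : x ^ 8 = x ^ 4 * x ^ 4 := pow_add x 4 4
      rw [h, hp4, hX4sq]
    have hox : orderOf x = 8 := by
      have h := orderOf_eq_prime_pow (p := 2) (n := 2) (x := x)
        (by rw [show (2 : ℕ) ^ 2 = 4 from rfl, hp4]; exact hX4ne)
        (by rw [show (2 : ℕ) ^ (2 + 1) = 8 from rfl]; exact hx8)
      exact h.trans (by norm_num)
    have hHcard : Nat.card (Subgroup.zpowers x) = 8 := by rw [Nat.card_zpowers, hox]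
    have hHidx : (Subgroup.zpowers x).index = 2 := by
      have h := Subgroup.card_mul_index (Subgroup.zpowers x)
      rw [hHcard, hc16] at h
      omega
    have hyH : y ∉ Subgroup.zpowers x := by
      intro hy
      obtain ⟨j, hj, hjy⟩ := Finset.mem_image.1
        ((isOfFinOrder_of_finite x).mem_zpowers_iff_mem_range_orderOf.1 hy)
      have hjy' : x ^ j = y := hjy
      rw [hox, Finset.mem_range] at hj
      have hd : orderOf x ∣ j * 2 :=
        orderOf_dvd_of_pow_eq_one (by rw [pow_mul, hjy', pow_two, hyy])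
      rw [hox] at hd
      obtain ⟨t, ht⟩ := hd
      have hj04 : j = 0 ∨ j = 4 := by omega
      rcases hj04 with hj0 | hj4
      · rw [hj0, pow_zero] at hjy'
        exact hy1 hjy'.symm
      · rw [hj4, hp4] at hjy'
        have e := hX4 v
        rw [hjy', hyv] at e
        exact hv (eq_zero_of_eq_neg3 v e)
    have hN : (Subgroup.zpowers x).Normal := Subgroup.normal_of_index_eq_two hHidx
    have hcH : y * x * y ∈ Subgroup.zpowers x := by
      have h := hN.conj_mem x (Subgroup.mem_zpowers x) y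
      rwa [hyinv] at h
    obtain ⟨j, hj, hjc⟩ := Finset.mem_image.1
      ((isOfFinOrder_of_finite x).mem_zpowers_iff_mem_range_orderOf.1 hcH)
    have hjc' : x ^ j = y * x * y := hjc
    rw [hox, Finset.mem_range] at hj
    have hcw : ∀ w, ρ (y * x * y) w = ρ y (ρ x (ρ y w)) := by
      intro w; rw [rmul ρ, rmul ρ]
    have hc : ∀ w, ρ (y * x * y) (ρ (y * x * y) w) = s • ρ (y * x * y) w + w := by
      intro w
      rw [hcw, hcw, hyy', hx, map_add, map_smul, hyy']
    have hs0 : s ≠ 0 := by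
      rcases hs with h | h
      · rw [h]; exact one_ne_zero
      · rw [h]; exact neg_ne_zero.2 one_ne_zero
    have hconj : y * x * y = x ^ 3 := by
      have heven : ∀ i : ℕ, x ^ (2 * i) ≠ y * x * y := by
        intro i hi
        have e1 : (y * x * y) ^ 4 = 1 := by
          rw [← hi, ← pow_mul, show 2 * i * 4 = 8 * i by ring, pow_mul, hx8, one_pow]
        have e2 : (y * x * y) ^ 4 = y * x ^ 4 * y := by
          have h := conj_pow (i := 4) (a := y) (b := x)
          rw [hyinv] at h
          exact h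
        rw [e2, hp4] at e1
        apply hX4ne
        have h3 : X4 = y⁻¹ * (y * X4 * y) * y⁻¹ := by group
        rw [h3, e1, mul_one, hyinv, hyy]
      have hodd1 : x ^ 1 ≠ y * x * y := by
        intro h1
        rw [pow_one] at h1
        have hcomm : y * x = x * y := by
          have h2 : y * x = y * (y * x * y) := by rw [← h1]
          rw [h2, ← mul_assoc, ← mul_assoc, hyy, one_mul]
        have hcz : ∀ g ∈ Subgroup.zpowers x, y * g = g * y := by
          intro g hg
          obtain ⟨k, rfl⟩ := Subgroup.mem_zpowers_iff.1 hg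
          exact (Commute.zpow_right (show Commute y x from hcomm) k).eq
        have hcen : ∀ g : G, y * g = g * y := by
          intro g
          by_cases hg : g ∈ Subgroup.zpowers x
          · exact hcz g hg
          · have hgy : g * y ∈ Subgroup.zpowers x :=
              (Subgroup.mul_mem_iff_of_index_two hHidx).2
                ⟨fun h => absurd h hg, fun h => absurd h hyH⟩
            have e := hcz _ hgy
            have e2 : y * g * y = g * y * y := by rw [mul_assoc]; exact e
            exact mul_right_cancel e2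
        apply hy1
        apply hext
        intro w
        rw [rone ρ]
        by_cases hw : w = 0
        · rw [hw, map_zero]
        · obtain ⟨g, hg⟩ := htrans v w hv hw
          rw [← hg, ← rmul ρ, hcen, rmul ρ, hyv]
      have hp5 : x ^ 5 = X4 * x := by rw [← hp4]; exact pow_succ x 4
      have h5 : x ^ 5 ≠ y * x * y := by
        intro h5
        have e5 : ∀ w, ρ (y * x * y) w = -ρ x w := by
          intro w
          rw [← h5, hp5, rmul ρ, hX4]
        have e := hc v
        rw [e5, e5, map_neg, neg_neg, hx v] at e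
        have e' : s • ρ x v = -(s • ρ x v) := by
          rw [← smul_neg]; exact add_right_cancel e
        have e0 : s • ρ x v = 0 := eq_zero_of_eq_neg3 _ e'
        have e00 := (smul_eq_zero.1 e0).resolve_left hs0
        exact hv ((ρ x).map_eq_zero_iff.1 e00)
      have h78 : x ^ 7 * x = 1 := by rw [← pow_succ]; exact hx8
      have h7 : x ^ 7 ≠ y * x * y := by
        intro h7
        have e7 : ∀ w, ρ (y * x * y) (ρ x w) = w := by
          intro w
          rw [← h7, ← rmul ρ, h78, rone ρ]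
        have e := hc (ρ x (ρ x v))
        rw [e7, e7, hx v] at e
        have e' : s • ρ x v + s • ρ x v = 0 := by
          linear_combination (norm := abel) -e
        have e0 : s • ρ x v = 0 := eq_zero_of_add_self3 _ e'
        have e00 := (smul_eq_zero.1 e0).resolve_left hs0
        exact hv ((ρ x).map_eq_zero_iff.1 e00)
      interval_cases j
      · exact absurd hjc' (heven 0)
      · exact absurd hjc' hodd1
      · exact absurd hjc' (heven 1)
      · exact hjc'.symm
      · exact absurd hjc' (heven 2)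
      · exact absurd hjc' h5
      · exact absurd hjc' (heven 3)
      · exact absurd hjc' h7
    have h3 : y * x * y⁻¹ = x ^ 3 := by rw [hyinv]; exact hconj
    exact ⟨⟨3, le_refl 3, hc16.trans (by norm_num), x, y, hox.trans (by norm_num), hoy,
      h3.trans (by norm_num)⟩, hc16⟩

/-- Let q be a prime, V a non-trivial finite vector space over the field with q elements, and G a non-trivial finite p-group (p prime) acting faithfully and linearly on V and transitively on the non-zero vectors. Then either q = 2 and G has prime order p = |V| − 1; or p = 2, V has q elements with q = 2^m + 1 and G is cyclic of order 2^m; or p = 2, q = 3, V has 9 elements and G is cyclic of order 8, quaternion of order 8, or semidihedral of order 16. -/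
theorem result (q : ℕ) [Fact q.Prime] {V : Type*} [AddCommGroup V] [Module (ZMod q) V] [Finite V] [Nontrivial V]
    {G : Type*} [Group G] [Finite G] [Nontrivial G] (p : ℕ) [Fact p.Prime] (hG : IsPGroup p G)
    (ρ : G →* (V ≃ₗ[ZMod q] V)) (hρ : Function.Injective ρ)
    (htrans : ∀ v w : V, v ≠ 0 → w ≠ 0 → ∃ g : G, ρ g v = w) :
    (q = 2 ∧ p = Nat.card V - 1 ∧ Nat.card G = p) ∨
    (p = 2 ∧ Nat.card V = q ∧ (∃ m : ℕ, q = 2 ^ m + 1 ∧ Nat.card G = 2 ^ m) ∧ IsCyclic G) ∨
    (p = 2 ∧ q = 3 ∧ Nat.card V = 9 ∧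
      ((IsCyclic G ∧ Nat.card G = 8) ∨ Nonempty (G ≃* QuaternionGroup 2) ∨ (Cfsg.IsQuasiDihedral G ∧ Nat.card G = 16))) := by
  have hp : p.Prime := Fact.out
  have hq : q.Prime := Fact.out
  obtain ⟨v₀, hv₀⟩ := exists_ne (0 : V)
  obtain ⟨S, hS, hcard⟩ := card_eq ρ htrans v₀ hv₀
  obtain ⟨a, ha⟩ := IsPGroup.iff_card.1 hG
  have hG1 : 1 < Nat.card G := Finite.one_lt_card
  have hVpow : Nat.card V = q ^ Module.finrank (ZMod q) V := by
    have h := Module.natCard_eq_pow_finrank (K := ZMod q) (V := V)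
    rw [h, Nat.card_zmod]
  obtain ⟨n, hn⟩ : ∃ n, n = Module.finrank (ZMod q) V := ⟨_, rfl⟩
  rw [← hn] at hVpow
  have hV1 : 1 < Nat.card V := Finite.one_lt_card
  have hn0 : n ≠ 0 := by
    intro h0
    rw [h0, pow_zero] at hVpow
    omega
  by_cases hn1 : n = 1
  · rw [hn1, pow_one] at hVpow
    obtain ⟨e⟩ := one_dim q ρ hρ htrans hVpow v₀ hv₀
    have hcyc : IsCyclic G := isCyclic_of_surjective e.symm e.symm.surjective
    have hcG : Nat.card G = q - 1 := by
      rw [Nat.card_congr e.toEquiv, Nat.card_eq_fintype_card, ZMod.card_units]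
    have hq2 : q ≠ 2 := by
      intro h2
      rw [h2] at hcG
      omega
    have hqodd : Odd q := hq.odd_of_ne_two hq2
    have hp2 : p = 2 := by
      have h2 : 2 ∣ p ^ a := by
        rw [← ha, hcG]
        obtain ⟨t, ht⟩ := hqodd
        exact ⟨t, by omega⟩
      exact ((Nat.prime_dvd_prime_iff_eq Nat.prime_two hp).1
        (Nat.prime_two.dvd_of_dvd_pow h2)).symm
    subst hp2
    right; left
    have hq2' := hq.two_le
    exact ⟨rfl, hVpow, ⟨a, by omega, ha⟩, hcyc⟩
  · have hn2 : 2 ≤ n := by omega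
    have hNdvd : Nat.card V - 1 ∣ p ^ a := ⟨Nat.card S, by rw [← ha]; exact hcard⟩
    obtain ⟨k, hka, hN⟩ := (Nat.dvd_prime_pow hp).1 hNdvd
    have hVge : 4 ≤ Nat.card V := by
      rw [hVpow]
      calc 4 = 2 ^ 2 := by norm_num
        _ ≤ q ^ 2 := Nat.pow_le_pow_left hq.two_le 2
        _ ≤ q ^ n := Nat.pow_le_pow_right hq.pos hn2
    have hk1 : 1 ≤ k := by
      rcases Nat.eq_zero_or_pos k with h0 | h
      · rw [h0, pow_zero] at hN; omega
      · exact h
    have hVN : Nat.card V = Nat.card V - 1 + 1 := by omega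
    by_cases hq2 : q = 2
    · subst hq2
      left
      have hk : k = 1 := nt_two p n k hp hk1 (by rw [← hVpow, ← hN]; exact hVN)
      rw [hk, pow_one] at hN
      refine ⟨rfl, hN.symm, ?_⟩
      exact case2 p hG ρ hρ htrans (by omega) v₀ hv₀
    · have hqodd : Odd q := hq.odd_of_ne_two hq2
      have hp2 : p = 2 := by
        have h2 : 2 ∣ p ^ k := by
          rw [← hN, hVpow]
          obtain ⟨t, ht⟩ := (hqodd.pow : Odd (q ^ n))
          exact ⟨t, by rw [ht, Nat.add_sub_cancel]⟩
        exact ((Nat.prime_dvd_prime_iff_eq Nat.prime_two hp).1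
          (Nat.prime_two.dvd_of_dvd_pow h2)).symm
      subst hp2
      have hq3 : 3 ≤ q := by
        obtain ⟨t, ht⟩ := hqodd
        have := hq.two_le
        omega
      have hnt := nt_odd q n k hqodd hq3 (by omega) (by rw [← hVpow, ← hN]; exact hVN)
      rcases hnt with h | ⟨hq3', hn2'⟩
      · exact absurd h hn1
      · subst hq3'
        rw [hn2'] at hVpow
        have hV9 : Nat.card V = 9 := hVpow.trans (by norm_num)
        right; right
        exact ⟨rfl, rfl, hV9, case3 hG ρ hρ htrans hV9⟩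

end Cfsg.Agent.S3370
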