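import Cfsg.Statements.S3375
import Mathlib
import Cfsg.Agent.Lib.Helper5.DStar

set_option autoImplicit false
open Cfsg Cfsg.Agent.Lib.Helper5

namespace Cfsg.Agent.S3375

/-- Let γ be an automorphism of order 2 of a finite group H. (i) If γ fixes only the identity, then H is abelian and γ inverts every element. (ii) If γ has exactly two fixed points and H has a subgroup of index 2, then H has a γ-invariant abelian subgroup of index 2 on which γ acts by inversion. -/
theorem result {H : Type*} [Group H] [Finite H] (γ : MulAut H) (hγ : orderOf γ = 2) :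
    ((∀ h : H, γ h = h → h = 1) → (∀ a b : H, a * b = b * a) ∧ ∀ h : H, γ h = h⁻¹) ∧
    ((Nat.card {h : H // γ h = h} = 2 ∧ ∃ M : Subgroup H, M.index = 2) →
      ∃ A : Subgroup H, A.index = 2 ∧ IsMulCommutative A ∧ (∀ a ∈ A, γ a ∈ A) ∧ ∀ a ∈ A, γ a = a⁻¹) := by
  classical
  have hγ2 : ∀ h : H, γ (γ h) = h := by
    intro h
    have h1 : γ ^ 2 = 1 := by rw [← hγ]; exact pow_orderOf_eq_one γ
    have h2 : (γ ^ 2) h = h := by rw [h1]; rfl
    rw [pow_two, MulAut.mul_apply] at h2
    exact h2
  have hfinv : ∀ h : H, γ (γ h * h⁻¹) = (γ h * h⁻¹)⁻¹ := by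
    intro h
    rw [map_mul, map_inv, hγ2, mul_inv_rev, inv_inv]
  have hfeq : ∀ h k : H, γ h * h⁻¹ = γ k * k⁻¹ → γ (k⁻¹ * h) = k⁻¹ * h := by
    intro h k hk
    rw [map_mul, map_inv]
    have e : γ h = γ k * k⁻¹ * h := by rw [← hk]; group
    rw [e]; group
  have hcommOf : ∀ A : Subgroup H, (∀ a ∈ A, γ a = a⁻¹) → ∀ a ∈ A, ∀ b ∈ A, a * b = b * a := by
    intro A hA a ha b hb
    have h1 := hA (a * b) (mul_mem ha hb)
    rw [map_mul, hA a ha, hA b hb] at h1
    have h2 := congrArg (fun z => z⁻¹) h1
    simp only [mul_inv_rev, inv_inv] at h2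
    exact h2.symm
  constructor
  · intro hfpf
    have hinj : Function.Injective (fun h : H => γ h * h⁻¹) := by
      intro h k hk
      have h1 := hfpf _ (hfeq h k hk)
      exact (inv_mul_eq_one.mp h1).symm
    have hsurj := Finite.injective_iff_surjective.mp hinj
    have hinvall : ∀ g : H, γ g = g⁻¹ := by
      intro g
      obtain ⟨h, rfl⟩ := hsurj g
      exact hfinv h
    refine ⟨?_, hinvall⟩
    intro a b
    exact hcommOf ⊤ (fun a _ => hinvall a) a (Subgroup.mem_top a) b (Subgroup.mem_top b)
  · rintro ⟨hcard, M, hM⟩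
    have hA : ∃ A : Subgroup H, A.index = 2 ∧ ∀ a ∈ A, γ a ∈ A := by
      by_cases hinv : ∀ m ∈ M, γ m ∈ M
      · exact ⟨M, hM, hinv⟩
      · push Not at hinv
        obtain ⟨m₀, hm₀, hm₀'⟩ := hinv
        have hmul : ∀ a b : H, a * b ∈ M ↔ (a ∈ M ↔ b ∈ M) :=
          fun a b => Subgroup.mul_mem_iff_of_index_two hM
        refine ⟨{ carrier := {h | h ∈ M ↔ γ h ∈ M}
                  one_mem' := by
                    show (1 : H) ∈ M ↔ γ 1 ∈ M
                    rw [map_one]
                  mul_mem' := by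
                    intro a b ha hb
                    show a * b ∈ M ↔ γ (a * b) ∈ M
                    have ha' : a ∈ M ↔ γ a ∈ M := ha
                    have hb' : b ∈ M ↔ γ b ∈ M := hb
                    rw [map_mul, hmul, hmul, ha', hb']
                  inv_mem' := by
                    intro a ha
                    show a⁻¹ ∈ M ↔ γ a⁻¹ ∈ M
                    have ha' : a ∈ M ↔ γ a ∈ M := ha
                    rw [map_inv, inv_mem_iff, inv_mem_iff]
                    exact ha' }, ?_, ?_⟩
        · rw [Subgroup.index_eq_two_iff]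
          refine ⟨m₀, fun b => ?_⟩
          show Xor' (b * m₀ ∈ M ↔ γ (b * m₀) ∈ M) (b ∈ M ↔ γ b ∈ M)
          rw [map_mul, hmul, hmul]
          unfold Xor'
          by_cases h1 : b ∈ M <;> by_cases h2 : γ b ∈ M <;> simp [h1, h2, hm₀, hm₀']
        · intro a ha
          show γ a ∈ M ↔ γ (γ a) ∈ M
          have ha' : a ∈ M ↔ γ a ∈ M := ha
          rw [hγ2]; exact ha'.symm
    obtain ⟨A, hA2, hAinv⟩ := hA
    have hAmul : ∀ a b : H, a * b ∈ A ↔ (a ∈ A ↔ b ∈ A) :=
      fun a b => Subgroup.mul_mem_iff_of_index_two hA2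
    have hsub : Set.range (fun h : H => γ h * h⁻¹) ⊆ (A : Set H) := by
      rintro _ ⟨h, rfl⟩
      show γ h * h⁻¹ ∈ A
      rw [hAmul, inv_mem_iff]
      constructor
      · intro h1
        have h2 := hAinv _ h1
        rwa [hγ2] at h2
      · exact hAinv h
    obtain ⟨C, hC⟩ : ∃ C : Subgroup H, ∀ h, h ∈ C ↔ γ h = h :=
      ⟨{ carrier := {h | γ h = h}
         one_mem' := map_one γ
         mul_mem' := by
           intro a b ha hb
           show γ (a * b) = a * b
           rw [map_mul, show γ a = a from ha, show γ b = b from hb]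
         inv_mem' := by
           intro a ha
           show γ a⁻¹ = a⁻¹
           rw [map_inv, show γ a = a from ha] }, fun h => Iff.rfl⟩
    have hCcard : Nat.card C = 2 := by
      rw [← hcard]
      exact Nat.card_congr (Equiv.subtypeEquivRight hC)
    have hwell : ∀ a b : H, QuotientGroup.leftRel C a b → γ a * a⁻¹ = γ b * b⁻¹ := by
      intro a b hab
      rw [QuotientGroup.leftRel_apply, hC] at hab
      rw [map_mul, map_inv] at hab
      have e : γ b = γ a * (a⁻¹ * b) := by rw [← hab]; group
      rw [e]; group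
    obtain ⟨g, hg⟩ : ∃ g : H ⧸ C → H, ∀ a : H, g (QuotientGroup.mk a) = γ a * a⁻¹ :=
      ⟨Quotient.lift (fun h : H => γ h * h⁻¹) (fun a b hab => hwell a b hab), fun a => rfl⟩
    have hginj : Function.Injective g := by
      intro q₁ q₂
      obtain ⟨a, rfl⟩ := QuotientGroup.mk_surjective q₁
      obtain ⟨b, rfl⟩ := QuotientGroup.mk_surjective q₂
      intro hab
      rw [hg, hg] at hab
      rw [QuotientGroup.eq, hC]
      exact hfeq b a hab.symm
    have hrange : Set.range g = Set.range (fun h : H => γ h * h⁻¹) := by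
      ext y
      constructor
      · rintro ⟨q, rfl⟩
        obtain ⟨a, rfl⟩ := QuotientGroup.mk_surjective q
        exact ⟨a, (hg a).symm⟩
      · rintro ⟨a, rfl⟩
        exact ⟨QuotientGroup.mk a, hg a⟩
    have hc1 : Nat.card (Set.range g) = Nat.card (H ⧸ C) := Nat.card_range_of_injective hginj
    have hc2 : Nat.card H = Nat.card (H ⧸ C) * Nat.card C :=
      Subgroup.card_eq_card_quotient_mul_card_subgroup C
    have hc3 : Nat.card A * A.index = Nat.card H := Subgroup.card_mul_index A
    have hc4 : Nat.card (Set.range (fun h : H => γ h * h⁻¹)) = Nat.card A := by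
      rw [← hrange, hc1]
      rw [hCcard] at hc2; rw [hA2] at hc3
      omega
    have heq : Set.range (fun h : H => γ h * h⁻¹) = (A : Set H) := by
      apply Set.eq_of_subset_of_ncard_le hsub _ (Set.toFinite _)
      rw [← Nat.card_coe_set_eq, ← Nat.card_coe_set_eq]
      exact le_of_eq hc4.symm
    have hAinvert : ∀ a ∈ A, γ a = a⁻¹ := by
      intro a ha
      have h1 : a ∈ Set.range (fun h : H => γ h * h⁻¹) := by rw [heq]; exact ha
      obtain ⟨h, rfl⟩ := h1
      exact hfinv h
    exact ⟨A, hA2, isMulCommutative_of_comm (hcommOf A hAinvert), hAinv, hAinvert⟩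

end Cfsg.Agent.S3375
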