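import Cfsg.Statements.S3379
import Mathlib

set_option autoImplicit false
open Cfsg

namespace Cfsg.Agent.S3379

/-- Let G be a finite group all of whose Sylow subgroups are cyclic. Then G is generated by two elements x and y of coprime orders n and m with x⁻¹yx = y^r, where gcd(r − 1, m) = 1 and r^n ≡ 1 (mod m). -/
theorem result {G : Type*} [Group G] [Finite G]
    (hZ : ∀ (p : ℕ) [Fact p.Prime] (P : Sylow p G), IsCyclic (P : Subgroup G)) :
    ∃ (x y : G) (n m r : ℕ), Subgroup.closure {x, y} = ⊤ ∧ orderOf x = n ∧ orderOf y = m ∧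
      x⁻¹ * y * x = y ^ r ∧ Nat.Coprime (r - 1) m ∧ Nat.Coprime n m ∧ 1 ≤ r ∧ r ^ n % m = 1 % m := by
  classical
  haveI : IsZGroup G := ⟨fun p hp P => by haveI := Fact.mk hp; exact hZ p P⟩
  have hcop := IsZGroup.coprime_commutator_index G
  obtain ⟨H, hH⟩ := Subgroup.exists_right_complement'_of_coprime hcop
  have hKcyc : IsCyclic (commutator G) := IsZGroup.isCyclic_commutator G
  have hHcyc : IsCyclic H := by
    have h1 : Abelianization G ≃* H := hH.symm.QuotientMulEquiv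
    exact isCyclic_of_surjective _ h1.surjective
  obtain ⟨y', hy'⟩ := hKcyc.exists_generator
  obtain ⟨x', hx'⟩ := hHcyc.exists_generator
  obtain ⟨y, hy⟩ : ∃ y : G, y = (y' : G) := ⟨_, rfl⟩
  obtain ⟨x, hx⟩ : ∃ x : G, x = (x' : G) := ⟨_, rfl⟩
  have hyK : ∀ k ∈ commutator G, ∃ j : ℤ, y ^ j = k := by
    intro k hk
    obtain ⟨j, hj⟩ := Subgroup.mem_zpowers_iff.mp (hy' ⟨k, hk⟩)
    refine ⟨j, ?_⟩
    have h1 := congrArg Subtype.val hj
    rw [hy]; simpa using h1
  have hxH : ∀ h ∈ H, ∃ j : ℤ, x ^ j = h := by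
    intro k hk
    obtain ⟨j, hj⟩ := Subgroup.mem_zpowers_iff.mp (hx' ⟨k, hk⟩)
    refine ⟨j, ?_⟩
    have h1 := congrArg Subtype.val hj
    rw [hx]; simpa using h1
  have hymem : y ∈ commutator G := hy ▸ y'.2
  have hxmem : x ∈ H := hx ▸ x'.2
  have hm : 0 < orderOf y := orderOf_pos y
  have hKn : (commutator G).Normal := inferInstance
  have hclosure : Subgroup.closure ({x, y} : Set G) = ⊤ := by
    rw [eq_top_iff, ← hH.sup_eq_top, sup_le_iff]
    constructor
    · intro k hk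
      obtain ⟨j, rfl⟩ := hyK k hk
      exact zpow_mem (Subgroup.subset_closure (by simp)) j
    · intro h hh
      obtain ⟨j, rfl⟩ := hxH h hh
      exact zpow_mem (Subgroup.subset_closure (by simp)) j
  obtain ⟨j, hj⟩ := hyK (x⁻¹ * y * x) (by
    have h1 := hKn.conj_mem y hymem x⁻¹
    simpa using h1)
  obtain ⟨r, hr⟩ : ∃ r : ℕ, r = (j % (orderOf y : ℤ)).toNat + orderOf y := ⟨_, rfl⟩
  have hr1 : 1 ≤ r := by rw [hr]; omega
  have hyr : y ^ r = x⁻¹ * y * x := by
    rw [← hj, hr, pow_add, pow_orderOf_eq_one, mul_one, ← zpow_natCast,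
      Int.toNat_of_nonneg (Int.emod_nonneg _ (by positivity)), zpow_mod_orderOf]
  have hconj : ∀ (z : G) (i : ℕ), (x⁻¹ * z * x) ^ i = x⁻¹ * z ^ i * x := by
    intro z i
    have h1 := map_pow (MulAut.conj x⁻¹) z i
    simp only [MulAut.conj_apply, inv_inv] at h1
    exact h1.symm
  have hpow : ∀ k : ℕ, (x ^ k)⁻¹ * y * x ^ k = y ^ (r ^ k) := by
    intro k
    induction k with
    | zero => simp
    | succ k ih =>
      have e1 : (x ^ (k + 1))⁻¹ * y * x ^ (k + 1) = x⁻¹ * ((x ^ k)⁻¹ * y * x ^ k) * x := by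
        rw [pow_succ]; group
      rw [e1, ih, ← hconj, ← hyr, ← pow_mul, ← pow_succ']
  have hmod : r ^ orderOf x % orderOf y = 1 % orderOf y := by
    have h1 := hpow (orderOf x)
    rw [pow_orderOf_eq_one] at h1
    have h2 : y ^ (r ^ orderOf x) = y ^ 1 := by
      rw [← h1]; simp
    exact pow_eq_pow_iff_modEq.mp h2
  have hnm : Nat.Coprime (orderOf x) (orderOf y) := by
    have h1 : orderOf x ∣ (commutator G).index := by
      rw [hH.symm.index_eq_card, hx, Subgroup.orderOf_coe]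
      exact orderOf_dvd_natCard x'
    have h2 : orderOf y ∣ Nat.card (commutator G) := by
      rw [hy, Subgroup.orderOf_coe]
      exact orderOf_dvd_natCard y'
    exact (hcop.symm.coprime_dvd_left h1).coprime_dvd_right h2
  have hcop' : Nat.Coprime (r - 1) (orderOf y) := by
    have hLn : (Subgroup.zpowers (y ^ (r - 1))).Normal := by
      constructor
      intro l hl g
      obtain ⟨i, hi⟩ := Subgroup.mem_zpowers_iff.mp hl
      obtain ⟨j', hj'⟩ := hyK (g * y * g⁻¹) (hKn.conj_mem y hymem g)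
      rw [Subgroup.mem_zpowers_iff]
      refine ⟨j' * i, ?_⟩
      rw [← hi]
      have e1 : g * (y ^ (r - 1)) ^ i * g⁻¹ = ((g * y * g⁻¹) ^ (r - 1)) ^ i := by
        rw [conj_pow, conj_zpow]
      rw [e1, ← hj']
      simp only [← zpow_natCast, ← zpow_mul]
      congr 1
      ring
    have hyL : ((y : G) : G ⧸ Subgroup.zpowers (y ^ (r - 1))) =
        ((x : G) : G ⧸ Subgroup.zpowers (y ^ (r - 1)))⁻¹ * (y : G ⧸ Subgroup.zpowers (y ^ (r - 1))) *
          (x : G ⧸ Subgroup.zpowers (y ^ (r - 1))) := by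
      rw [← QuotientGroup.mk_inv, ← QuotientGroup.mk_mul, ← QuotientGroup.mk_mul, ← hyr]
      rw [QuotientGroup.eq]
      have h1 : y⁻¹ * y ^ r = y ^ (r - 1) := by
        obtain ⟨s, rfl⟩ : ∃ s, r = s + 1 := ⟨r - 1, by omega⟩
        rw [pow_succ']; simp
      rw [h1]; exact Subgroup.mem_zpowers _
    have hxy : (x : G ⧸ Subgroup.zpowers (y ^ (r - 1))) * (y : G ⧸ Subgroup.zpowers (y ^ (r - 1))) =
        (y : G ⧸ Subgroup.zpowers (y ^ (r - 1))) * (x : G ⧸ Subgroup.zpowers (y ^ (r - 1))) := by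
      nth_rewrite 1 [hyL]; group
    have hcl : Subgroup.closure ({(x : G ⧸ Subgroup.zpowers (y ^ (r - 1))),
        (y : G ⧸ Subgroup.zpowers (y ^ (r - 1)))} : Set (G ⧸ Subgroup.zpowers (y ^ (r - 1)))) = ⊤ := by
      have h1 := congrArg (Subgroup.map (QuotientGroup.mk' (Subgroup.zpowers (y ^ (r - 1))))) hclosure
      rw [MonoidHom.map_closure, Subgroup.map_top_of_surjective _ (QuotientGroup.mk'_surjective _)] at h1
      rw [← h1, Set.image_pair]
      rfl
    have hk : ∀ a ∈ ({(x : G ⧸ Subgroup.zpowers (y ^ (r - 1))),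
        (y : G ⧸ Subgroup.zpowers (y ^ (r - 1)))} : Set (G ⧸ Subgroup.zpowers (y ^ (r - 1)))),
        ∀ b ∈ ({(x : G ⧸ Subgroup.zpowers (y ^ (r - 1))),
        (y : G ⧸ Subgroup.zpowers (y ^ (r - 1)))} : Set (G ⧸ Subgroup.zpowers (y ^ (r - 1)))),
        a * b = b * a := by
      intro a ha b hb
      rcases ha with rfl | rfl <;> rcases hb with rfl | rfl
      · rfl
      · exact hxy
      · exact hxy.symm
      · rfl
    have hcomm : ∀ a b : G ⧸ Subgroup.zpowers (y ^ (r - 1)), a * b = b * a := by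
      have hmc := Subgroup.isMulCommutative_closure hk
      intro a b
      have ha : a ∈ Subgroup.closure ({(x : G ⧸ Subgroup.zpowers (y ^ (r - 1))),
        (y : G ⧸ Subgroup.zpowers (y ^ (r - 1)))} : Set (G ⧸ Subgroup.zpowers (y ^ (r - 1)))) :=
        hcl ▸ Subgroup.mem_top a
      have hb : b ∈ Subgroup.closure ({(x : G ⧸ Subgroup.zpowers (y ^ (r - 1))),
        (y : G ⧸ Subgroup.zpowers (y ^ (r - 1)))} : Set (G ⧸ Subgroup.zpowers (y ^ (r - 1)))) :=
        hcl ▸ Subgroup.mem_top b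
      have h1 := hmc.is_comm.comm (⟨a, ha⟩ : Subgroup.closure ({(x : G ⧸ Subgroup.zpowers (y ^ (r - 1))),
        (y : G ⧸ Subgroup.zpowers (y ^ (r - 1)))} : Set (G ⧸ Subgroup.zpowers (y ^ (r - 1))))) ⟨b, hb⟩
      exact congrArg Subtype.val h1
    have hKL : commutator G ≤ Subgroup.zpowers (y ^ (r - 1)) := by
      rw [commutator_def, Subgroup.commutator_le]
      intro g₁ _ g₂ _
      rw [← QuotientGroup.eq_one_iff, commutatorElement_def]
      simp only [QuotientGroup.mk_mul, QuotientGroup.mk_inv]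
      rw [hcomm (g₁ : G ⧸ Subgroup.zpowers (y ^ (r - 1))) g₂]; group
    obtain ⟨i, hi⟩ := Subgroup.mem_zpowers_iff.mp (hKL hymem)
    have h2 : y ^ (((r - 1 : ℕ) : ℤ) * i) = y ^ (1 : ℤ) := by
      rw [zpow_mul, zpow_natCast, hi, zpow_one]
    rw [zpow_eq_zpow_iff_modEq] at h2
    obtain ⟨c, hc⟩ := h2.symm.dvd
    rw [← Nat.isCoprime_iff_coprime]
    exact ⟨i, -c, by linarith⟩
  exact ⟨x, y, orderOf x, orderOf y, r, hclosure, rfl, rfl, hyr.symm, hcop', hnm, hr1, hmod⟩

end Cfsg.Agent.S3379
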