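import Cfsg.Statements.S3381
import Mathlib

set_option autoImplicit false
open Cfsg

namespace Cfsg.Agent.S3381


section

variable (q : ℕ) [Fact q.Prime] {V : Type*} [AddCommGroup V] [Module (ZMod q) V]
  {G : Type*} [Group G] (ρ : G →* (V ≃ₗ[ZMod q] V))

theorem three (hstab : ∀ v : V, v ≠ 0 → Nat.card {g : G // ρ g v = v} = 2) (v : V) (hv : v ≠ 0)
    (a b : G) (ha : ρ a v = v) (hb : ρ b v = v) (ha1 : a ≠ 1) (hb1 : b ≠ 1) : a = b := by
  obtain ⟨x, y, hxy, huniv⟩ := Nat.card_eq_two_iff.mp (hstab v hv)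
  have hmem : ∀ c : {g : G // ρ g v = v}, c = x ∨ c = y := by
    intro c
    have : c ∈ ({x, y} : Set _) := by rw [huniv]; trivial
    exact this
  have h1 : ρ (1 : G) v = v := by rw [map_one]; rfl
  by_contra hab
  rcases hmem ⟨1, h1⟩ with e1 | e1 <;> rcases hmem ⟨a, ha⟩ with ea | ea <;>
    rcases hmem ⟨b, hb⟩ with eb | eb
  all_goals first
    | exact ha1 (congrArg Subtype.val (ea.trans e1.symm))
    | exact hb1 (congrArg Subtype.val (eb.trans e1.symm))
    | exact hab (congrArg Subtype.val (ea.trans eb.symm))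

theorem exists_stab (hstab : ∀ v : V, v ≠ 0 → Nat.card {g : G // ρ g v = v} = 2) (v : V)
    (hv : v ≠ 0) : ∃ t : G, t ≠ 1 ∧ ρ t v = v := by
  obtain ⟨x, y, hxy, -⟩ := Nat.card_eq_two_iff.mp (hstab v hv)
  by_cases hx : (x : G) = 1
  · refine ⟨y, ?_, y.2⟩
    intro hy; exact hxy (Subtype.ext (hx.trans hy.symm))
  · exact ⟨x, hx, x.2⟩

theorem stab_sq (hstab : ∀ v : V, v ≠ 0 → Nat.card {g : G // ρ g v = v} = 2) (v : V)
    (hv : v ≠ 0) (t : G) (ht1 : t ≠ 1) (ht : ρ t v = v) : t * t = 1 := by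
  by_contra h
  have h2 : ρ (t * t) v = v := by
    rw [map_mul]
    show ρ t (ρ t v) = v
    rw [ht, ht]
  have h3 := three q ρ hstab v hv (t * t) t h2 ht h ht1
  exact ht1 (mul_eq_left.mp h3)

theorem sq_apply (t : G) (ht2 : t * t = 1) (w : V) : ρ t (ρ t w) = w := by
  have : ρ (t * t) w = w := by rw [ht2, map_one]; rfl
  rwa [map_mul] at this

theorem central_neg (hρ : Function.Injective ρ)
    (hstab : ∀ v : V, v ≠ 0 → Nat.card {g : G // ρ g v = v} = 2) (z : G) (hz1 : z ≠ 1)
    (hz2 : z * z = 1) (hzc : ∀ g : G, g * z = z * g) : ∀ w : V, ρ z w = -w := by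
  have hzz := sq_apply q ρ z hz2
  by_contra hcon
  have hex : ∃ u : V, u ≠ 0 ∧ ρ z u = u := by
    by_contra h
    push Not at h
    apply hcon
    intro w
    have h1 : ρ z (w + ρ z w) = w + ρ z w := by rw [map_add, hzz, add_comm]
    have h2 : w + ρ z w = 0 := by
      by_contra h3; exact h _ h3 h1
    exact eq_neg_of_add_eq_zero_right h2
  obtain ⟨u, hu, hzu⟩ := hex
  have hex2 : ∃ v₀ : V, ρ z v₀ ≠ v₀ := by
    by_contra h
    push Not at h
    apply hz1
    apply hρ
    rw [map_one]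
    ext w; exact h w
  obtain ⟨v₀, hv₀⟩ := hex2
  have hv₀0 : v₀ ≠ 0 := by rintro rfl; exact hv₀ (map_zero _)
  obtain ⟨t, ht1, htv₀⟩ := exists_stab q ρ hstab v₀ hv₀0
  have ht2 := stab_sq q ρ hstab v₀ hv₀0 t ht1 htv₀
  have htz : t ≠ z := by rintro rfl; exact hv₀ htv₀
  have htt := sq_apply q ρ t ht2
  have hcomm : ∀ (g : G) (w : V), ρ z (ρ g w) = ρ g (ρ z w) := by
    intro g w
    have : ρ (z * g) w = ρ (g * z) w := by rw [hzc g]
    rwa [map_mul, map_mul] at this
  have hi : ∀ x : V, x ≠ 0 → ρ z x = x → ρ t x ≠ x := by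
    intro x hx hzx htx
    exact htz (three q ρ hstab x hx t z htx hzx ht1 hz1)
  have hii : ∀ x : V, ρ z x = x → ρ t x = -x := by
    intro x hzx
    have h1 : ρ z (x + ρ t x) = x + ρ t x := by rw [map_add, hcomm, hzx]
    have h2 : ρ t (x + ρ t x) = x + ρ t x := by rw [map_add, htt, add_comm]
    have h3 : x + ρ t x = 0 := by
      by_contra h; exact hi _ h h1 h2
    exact eq_neg_of_add_eq_zero_right h3
  have h2ne : (2 : ZMod q) ≠ 0 := by
    intro h2
    have h3 : ρ t u = u := by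
      rw [hii u hzu]
      have h4 : (2 : ZMod q) • u = 0 := by rw [h2, zero_smul]
      rw [two_smul] at h4
      exact (eq_neg_of_add_eq_zero_left h4).symm
    exact hi u hu hzu h3
  have hhalf : ∀ d : V, d = -d → d = 0 := by
    intro d hd
    have h4 : (2 : ZMod q) • d = 0 := by
      rw [two_smul]
      nth_rewrite 2 [hd]
      exact add_neg_cancel d
    exact (smul_eq_zero.mp h4).resolve_left h2ne
  obtain ⟨v, hv⟩ : ∃ v : V, v = v₀ - ρ z v₀ := ⟨_, rfl⟩
  have hv0 : v ≠ 0 := by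
    intro h
    rw [hv] at h
    exact hv₀ (sub_eq_zero.mp h).symm
  have htv : ρ t v = v := by rw [hv, map_sub, ← hcomm, htv₀]
  have hzv : ρ z v = -v := by rw [hv, map_sub, hzz]; abel
  have hy0 : u + v ≠ 0 := by
    intro h
    have h1 : u = -v := eq_neg_of_add_eq_zero_left h
    have h2 : ρ z u = v := by rw [h1, map_neg, hzv, neg_neg]
    rw [hzu, h1] at h2
    exact hv0 (hhalf v h2.symm)
  obtain ⟨g, hg1, hgy⟩ := exists_stab q ρ hstab (u + v) hy0
  rw [map_add] at hgy
  have hd : ρ g u - u = v - ρ g v := by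
    rw [sub_eq_sub_iff_add_eq_add, hgy]; abel
  have hd1 : ρ z (ρ g u - u) = ρ g u - u := by rw [map_sub, hcomm, hzu]
  have hd2 : ρ z (v - ρ g v) = -(v - ρ g v) := by rw [map_sub, hcomm, hzv, map_neg]; abel
  have hd0 : ρ g u - u = 0 := by
    apply hhalf
    calc ρ g u - u = ρ z (ρ g u - u) := hd1.symm
      _ = ρ z (v - ρ g v) := by rw [hd]
      _ = -(v - ρ g v) := hd2
      _ = -(ρ g u - u) := by rw [hd]
  have hgu : ρ g u = u := sub_eq_zero.mp hd0
  have hgv : ρ g v = v := by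
    rw [hd0] at hd
    exact (sub_eq_zero.mp hd.symm).symm
  have h1 := three q ρ hstab u hu g z hgu hzu hg1 hz1
  have h2 := three q ρ hstab v hv0 g t hgv htv hg1 ht1
  exact htz (h2.symm.trans h1)

end

/-- Let G be a finite group acting faithfully and linearly on a non-trivial finite vector space V over the field with q elements (q prime) so that every non-zero vector has a stabilizer of order 2, and suppose G has a central involution. Then V has q^(2r) elements for some r and G contains exactly q^r + 1 non-central involutions. -/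
theorem result
    (q : ℕ) [Fact q.Prime] {V : Type*} [AddCommGroup V] [Module (ZMod q) V] [Finite V] [Nontrivial V]
    {G : Type*} [Group G] [Finite G] (ρ : G →* (V ≃ₗ[ZMod q] V)) (hρ : Function.Injective ρ)
    (hstab : ∀ v : V, v ≠ 0 → Nat.card {g : G // ρ g v = v} = 2)
    (z : G) (hz : orderOf z = 2) (hzc : z ∈ Subgroup.center G) :
    ∃ r : ℕ, Nat.card V = q ^ (2 * r) ∧
      Nat.card {g : G // orderOf g = 2 ∧ g ∉ Subgroup.center G} = q ^ r + 1 := by
  classical
  haveI : Fintype G := Fintype.ofFinite G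
  haveI : Fintype V := Fintype.ofFinite V
  have hq : q.Prime := Fact.out
  have hz1 : z ≠ 1 := by rintro rfl; rw [orderOf_one] at hz; omega
  have hz2 : z * z = 1 := by rw [← pow_two, ← hz]; exact pow_orderOf_eq_one z
  have hzc' : ∀ g : G, g * z = z * g := fun g => Subgroup.mem_center_iff.mp hzc g
  have hzneg := central_neg q ρ hρ hstab z hz1 hz2 hzc'
  have h2ne : (2 : ZMod q) ≠ 0 := by
    intro h2
    apply hz1; apply hρ; rw [map_one]; ext w
    rw [hzneg w]
    have h3 : (2 : ZMod q) • w = 0 := by rw [h2, zero_smul]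
    rw [two_smul] at h3
    show -w = w
    exact (eq_neg_of_add_eq_zero_left h3).symm
  have hhalf : ∀ d : V, d = -d → d = 0 := by
    intro d hd
    have h4 : (2 : ZMod q) • d = 0 := by
      rw [two_smul]
      nth_rewrite 2 [hd]
      exact add_neg_cancel d
    exact (smul_eq_zero.mp h4).resolve_left h2ne
  have hinvol : ∀ t : G, orderOf t = 2 → t ≠ 1 ∧ t * t = 1 := by
    intro t ht
    refine ⟨?_, ?_⟩
    · rintro rfl; rw [orderOf_one] at ht; omega
    · rw [← pow_two, ← ht]; exact pow_orderOf_eq_one t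
  have hI : ∀ g : G, (orderOf g = 2 ∧ g ∉ Subgroup.center G) ↔ (orderOf g = 2 ∧ g ≠ z) := by
    intro g
    constructor
    · rintro ⟨h1, h2⟩; exact ⟨h1, fun h => h2 (h ▸ hzc)⟩
    · rintro ⟨h1, h2⟩
      refine ⟨h1, fun hc => h2 ?_⟩
      obtain ⟨hg1, hg2⟩ := hinvol g h1
      have hgneg := central_neg q ρ hρ hstab g hg1 hg2 (fun x => Subgroup.mem_center_iff.mp hc x)
      apply hρ; ext w; rw [hgneg, hzneg]
  have F4 : ∀ v : V, v ≠ 0 → ∃ t : G, (orderOf t = 2 ∧ t ≠ z) ∧ ρ t v = v := by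
    intro v hv
    obtain ⟨t, ht1, htv⟩ := exists_stab q ρ hstab v hv
    have ht2 := stab_sq q ρ hstab v hv t ht1 htv
    haveI : Fact (Nat.Prime 2) := ⟨Nat.prime_two⟩
    refine ⟨t, ⟨orderOf_eq_prime (by rw [pow_two]; exact ht2) ht1, ?_⟩, htv⟩
    rintro rfl
    rw [hzneg] at htv
    exact hv (hhalf v htv.symm)
  have F2 : ∀ s t : G, s ≠ 1 → t ≠ 1 → s ≠ t → ∀ x : V, ρ s x = x → ρ t x = x → x = 0 := by
    intro s t hs ht hst x hsx htx
    by_contra hx
    exact hst (three q ρ hstab x hx s t hsx htx hs ht)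
  have F1 : ∀ t : G, t * t = 1 → t ≠ z → ∃ x : V, x ≠ 0 ∧ ρ t x = x := by
    intro t ht2 htz
    by_contra hcon
    push Not at hcon
    apply htz; apply hρ; ext w
    rw [hzneg]
    have h1 : ρ t (w + ρ t w) = w + ρ t w := by rw [map_add, sq_apply q ρ t ht2, add_comm]
    have h2 : w + ρ t w = 0 := by
      by_contra h3; exact hcon _ h3 h1
    exact eq_neg_of_add_eq_zero_right h2
  obtain ⟨C, hC⟩ : ∃ C : G → Submodule (ZMod q) V, C = fun t =>
      LinearMap.eqLocus ((ρ t : V ≃ₗ[ZMod q] V) : V →ₗ[ZMod q] V) LinearMap.id := ⟨_, rfl⟩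
  have hmemC : ∀ (t : G) (x : V), x ∈ C t ↔ ρ t x = x := by
    intro t x
    rw [hC]
    show x ∈ LinearMap.eqLocus ((ρ t : V ≃ₗ[ZMod q] V) : V →ₗ[ZMod q] V) LinearMap.id ↔ _
    rw [LinearMap.mem_eqLocus]
    rfl
  have F3 : ∀ t : G, t * t = 1 → Module.finrank (ZMod q) (C t) +
      Module.finrank (ZMod q) (C (t * z)) = Module.finrank (ZMod q) V := by
    intro t ht2
    have hinf : C t ⊓ C (t * z) = ⊥ := by
      rw [eq_bot_iff]
      rintro x ⟨h1, h2⟩
      rw [SetLike.mem_coe, hmemC] at h1 h2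
      rw [map_mul] at h2
      have h3 : ρ t (ρ z x) = x := h2
      rw [hzneg, map_neg, h1] at h3
      rw [Submodule.mem_bot]; exact hhalf x h3.symm
    have hsup : C t ⊔ C (t * z) = ⊤ := by
      rw [eq_top_iff]
      intro x _
      have e : x = (2 : ZMod q)⁻¹ • (x + ρ t x) + (2 : ZMod q)⁻¹ • (x - ρ t x) := by
        rw [← smul_add]
        have h5 : x + ρ t x + (x - ρ t x) = (2 : ZMod q) • x := by rw [two_smul]; abel
        rw [h5, smul_smul, inv_mul_cancel₀ h2ne, one_smul]
      rw [e]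
      apply Submodule.add_mem_sup
      · apply Submodule.smul_mem
        rw [hmemC, map_add, sq_apply q ρ t ht2, add_comm]
      · apply Submodule.smul_mem
        rw [hmemC, map_mul]
        show ρ t (ρ z (x - ρ t x)) = x - ρ t x
        rw [hzneg, map_neg, map_sub, sq_apply q ρ t ht2]; abel
    have h := Submodule.finrank_sup_add_finrank_inf_eq (C t) (C (t * z))
    rw [hsup, hinf, finrank_bot, add_zero, finrank_top] at h
    exact h.symm
  have F5 : ∀ s t : G, s ≠ 1 → t ≠ 1 → s ≠ t → Module.finrank (ZMod q) (C s) +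
      Module.finrank (ZMod q) (C t) ≤ Module.finrank (ZMod q) V := by
    intro s t hs ht hst
    have hinf : C s ⊓ C t = ⊥ := by
      rw [eq_bot_iff]
      rintro x ⟨h1, h2⟩
      rw [SetLike.mem_coe, hmemC] at h1 h2
      rw [Submodule.mem_bot]; exact F2 s t hs ht hst x h1 h2
    have h := Submodule.finrank_sup_add_finrank_inf_eq (C s) (C t)
    rw [hinf, finrank_bot, add_zero] at h
    rw [← h]; exact Submodule.finrank_le _
  have F6 : ∀ t : G, orderOf t = 2 → t ≠ z →
      Module.finrank (ZMod q) V = 2 * Module.finrank (ZMod q) (C t) := by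
    intro t hto htz
    obtain ⟨ht1, ht2⟩ := hinvol t hto
    have hmulz : ∀ s : G, s * s = 1 → (s * z) * (s * z) = 1 := by
      intro s hs2
      calc (s * z) * (s * z) = s * (z * s) * z := by group
        _ = s * (s * z) * z := by rw [hzc' s]
        _ = (s * s) * (z * z) := by group
        _ = 1 := by rw [hs2, hz2, one_mul]
    have hmulz1 : ∀ s : G, s * s = 1 → s ≠ z → s * z ≠ 1 := by
      intro s hs2 hsz h
      apply hsz
      have h1 : s = z⁻¹ := eq_inv_of_mul_eq_one_left h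
      rw [h1]; exact inv_eq_of_mul_eq_one_left hz2
    have htz2 := hmulz t ht2
    have htz1 := hmulz1 t ht2 htz
    have htzz : t * z ≠ z := by intro h; exact ht1 (mul_eq_right.mp h)
    have htzt : t * z ≠ t := by intro h; exact hz1 (mul_eq_left.mp h)
    obtain ⟨a, ha0, hta⟩ := F1 t ht2 htz
    obtain ⟨b, hb0, htb⟩ := F1 (t * z) htz2 htzz
    have hab : a + b ≠ 0 := by
      intro h
      have h1 : a = -b := eq_neg_of_add_eq_zero_left h
      have h2 : ρ (t * z) a = a := by rw [h1, map_neg, htb]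
      exact ha0 (F2 t (t * z) ht1 htz1 (Ne.symm htzt) a hta h2)
    obtain ⟨s, ⟨hso, hsz⟩, hsab⟩ := F4 (a + b) hab
    obtain ⟨hs1, hs2⟩ := hinvol s hso
    have hst : s ≠ t := by
      rintro rfl
      have h1 : ρ s b = b := by
        rw [map_add, hta] at hsab; exact add_left_cancel hsab
      exact hb0 (F2 s (s * z) hs1 htz1 (Ne.symm htzt) b h1 htb)
    have hstz : s ≠ t * z := by
      rintro rfl
      have h1 : ρ (t * z) a = a := by
        rw [map_add, htb] at hsab; exact add_right_cancel hsab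
      exact ha0 (F2 t (t * z) ht1 htz1 (Ne.symm htzt) a hta h1)
    have hsz1 := hmulz1 s hs2 hsz
    have hszt : s * z ≠ t := by
      intro h; apply hstz; rw [← h, mul_assoc, hz2, mul_one]
    have hsztz : s * z ≠ t * z := fun h => hst (mul_right_cancel h)
    have e1 := F5 s t hs1 ht1 hst
    have e2 := F5 s (t * z) hs1 htz1 hstz
    have e3 := F5 (s * z) t hsz1 ht1 hszt
    have e4 := F5 (s * z) (t * z) hsz1 htz1 hsztz
    have e5 := F3 s hs2
    have e6 := F3 t ht2
    omega
  obtain ⟨v₁, hv₁⟩ := exists_ne (0 : V)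
  obtain ⟨t₀, ⟨ht₀o, ht₀z⟩, ht₀v⟩ := F4 v₁ hv₁
  obtain ⟨r, hr⟩ : ∃ r : ℕ, r = Module.finrank (ZMod q) (C t₀) := ⟨_, rfl⟩
  have hD : Module.finrank (ZMod q) V = 2 * r := by rw [hr]; exact F6 t₀ ht₀o ht₀z
  have hcardV : Nat.card V = q ^ (2 * r) := by
    rw [Module.natCard_eq_pow_finrank (K := ZMod q) (V := V), Nat.card_zmod, hD]
  refine ⟨r, hcardV, ?_⟩
  have hdr : ∀ t : G, orderOf t = 2 → t ≠ z → Module.finrank (ZMod q) (C t) = r := by
    intro t h1 h2
    have := F6 t h1 h2
    omega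
  have hr1 : 1 ≤ r := by
    by_contra h
    have h0 : Module.finrank (ZMod q) (C t₀) = 0 := by omega
    rw [Submodule.finrank_eq_zero] at h0
    have : v₁ ∈ C t₀ := (hmemC _ _).mpr ht₀v
    rw [h0, Submodule.mem_bot] at this; exact hv₁ this
  obtain ⟨IF, hIF⟩ : ∃ IF : Finset G, IF = Finset.univ.filter (fun g => orderOf g = 2 ∧ g ≠ z) :=
    ⟨_, rfl⟩
  obtain ⟨A, hA⟩ : ∃ A : G → Finset V, A = fun t =>
      Finset.univ.filter (fun x : V => ρ t x = x ∧ x ≠ 0) := ⟨_, rfl⟩
  have hmemA : ∀ (t : G) (x : V), x ∈ A t ↔ (ρ t x = x ∧ x ≠ 0) := by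
    intro t x; rw [hA]; simp
  have hmemIF : ∀ g, g ∈ IF ↔ (orderOf g = 2 ∧ g ≠ z) := by
    intro g; rw [hIF]; simp
  have hunion : (Finset.univ : Finset V).erase 0 = IF.biUnion A := by
    ext x
    rw [Finset.mem_erase, Finset.mem_biUnion]
    constructor
    · rintro ⟨hx, -⟩
      obtain ⟨t, ht, htx⟩ := F4 x hx
      exact ⟨t, (hmemIF t).mpr ht, (hmemA t x).mpr ⟨htx, hx⟩⟩
    · rintro ⟨t, -, htx⟩
      exact ⟨((hmemA t x).mp htx).2, Finset.mem_univ _⟩
  have hdisj : (IF : Set G).PairwiseDisjoint A := by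
    intro s hs t ht hst
    show Disjoint (A s) (A t)
    rw [Finset.disjoint_left]
    intro x hxs hxt
    obtain ⟨h1, h2⟩ := (hmemA s x).mp hxs
    obtain ⟨h3, -⟩ := (hmemA t x).mp hxt
    exact h2 (F2 s t (hinvol s ((hmemIF s).mp hs).1).1 (hinvol t ((hmemIF t).mp ht).1).1 hst x h1 h3)
  have hAcard : ∀ t ∈ IF, (A t).card = q ^ r - 1 := by
    intro t ht
    obtain ⟨hto, htz⟩ := (hmemIF t).mp ht
    have h1 : Nat.card (C t) = q ^ r := by
      rw [Module.natCard_eq_pow_finrank (K := ZMod q), Nat.card_zmod, hdr t hto htz]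
    have h2 : Nat.card (C t) = (Finset.univ.filter (fun x : V => ρ t x = x)).card := by
      rw [Nat.card_eq_fintype_card]
      exact Fintype.card_of_subtype _ (fun x => by
        rw [Finset.mem_filter, hmemC]; simp)
    have h3 : Finset.univ.filter (fun x : V => ρ t x = x) = insert 0 (A t) := by
      ext x
      rw [Finset.mem_insert, hmemA]
      simp only [Finset.mem_filter, Finset.mem_univ, true_and]
      constructor
      · intro h
        by_cases hx : x = 0
        · left; exact hx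
        · right; exact ⟨h, hx⟩
      · rintro (rfl | ⟨h, -⟩)
        · exact map_zero _
        · exact h
    have h4 : (0 : V) ∉ A t := by rw [hmemA]; simp
    rw [h3, Finset.card_insert_of_notMem h4] at h2
    omega
  have hcount : Fintype.card V - 1 = IF.card * (q ^ r - 1) := by
    rw [← Finset.card_univ, ← Finset.card_erase_of_mem (Finset.mem_univ (0 : V)), hunion,
      Finset.card_biUnion hdisj, Finset.sum_const_nat hAcard]
  have hIFcard : IF.card = q ^ r + 1 := by
    have hqr : 2 ≤ q ^ r := by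
      calc 2 ≤ q := hq.two_le
        _ = q ^ 1 := (pow_one q).symm
        _ ≤ q ^ r := Nat.pow_le_pow_right hq.pos hr1
    have h5 : q ^ (2 * r) = q ^ r * q ^ r := by rw [two_mul, pow_add]
    rw [← Nat.card_eq_fintype_card, hcardV, h5] at hcount
    obtain ⟨y, hy⟩ : ∃ y, q ^ r = y + 2 := ⟨q ^ r - 2, by omega⟩
    rw [hy] at hcount ⊢
    have h6 : (y + 2) * (y + 2) - 1 = (y + 3) * (y + 1) := by
      have : (y + 2) * (y + 2) = (y + 3) * (y + 1) + 1 := by ring
      omega
    have h7 : y + 2 - 1 = y + 1 := by omega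
    rw [h6, h7] at hcount
    exact (Nat.eq_of_mul_eq_mul_right (by omega) hcount).symm
  rw [← hIFcard, hIF, Nat.card_eq_fintype_card, Fintype.card_subtype]
  congr 1
  ext g
  simp only [Finset.mem_filter, Finset.mem_univ, true_and]
  exact hI g

end Cfsg.Agent.S3381
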