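import Cfsg.Statements.S3383
import Mathlib
import Cfsg.Agent.Lib.Helper5.ChermakDelgado
import Cfsg.Agent.Lib.Helper5.SylowChain
import Cfsg.Agent.Lib.Helper1.Schmidt

set_option autoImplicit false
open Cfsg Cfsg.Agent.Lib.Helper5 Pointwise

namespace Cfsg.Agent.S3383

/-- Let H be a Frobenius complement in a finite group L and K the Frobenius kernel (as a subgroup). Then K is characteristic in L, and every normal subgroup of L either contains K or is contained in K. -/
theorem result {L : Type*} [Group L] [Finite L]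
    (H : Subgroup L) (hH : Cfsg.IsFrobeniusComplement H)
    (K : Subgroup L) (hK : (K : Set L) = Cfsg.frobeniusKernel H) :
    K.Characteristic ∧ ∀ N : Subgroup L, N.Normal → K ≤ N ∨ N ≤ K := by
  classical
  haveI : Fintype L := Fintype.ofFinite L
  obtain ⟨hH1, hHtop, hHfrob⟩ := hH
  have hmemK : ∀ x : L, x ∈ K ↔ x = 1 ∨ ∀ g : L, g⁻¹ * x * g ∉ H := by
    intro x
    have h1 : x ∈ K ↔ x ∈ Cfsg.frobeniusKernel H := by rw [← hK]; rfl
    rw [h1]
    show (x = 1 ∨ ∀ g : L, x ∉ MulAut.conj g • H) ↔ _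
    constructor
    · rintro (h | h)
      · exact Or.inl h
      · right; intro g hg; exact h g ((mem_conj_smul_iff g x H).mpr hg)
    · rintro (h | h)
      · exact Or.inl h
      · right; intro g hg; exact h g ((mem_conj_smul_iff g x H).mp hg)
  have hmal : ∀ g : L, ∀ m ∈ H, m ≠ 1 → g⁻¹ * m * g ∈ H → g ∈ H := by
    intro g m hm hm1 hgm
    by_contra hg
    have h1 : m ∈ H ⊓ (MulAut.conj g • H) :=
      Subgroup.mem_inf.mpr ⟨hm, (mem_conj_smul_iff g m H).mpr hgm⟩
    rw [hHfrob g hg, Subgroup.mem_bot] at h1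
    exact hm1 h1
  have hcent : ∀ h ∈ H, h ≠ 1 → ∀ x : L, x * h = h * x → x ∈ H := by
    intro h hh h1 x hx
    apply hmal x h hh h1
    have e : x⁻¹ * h * x = h := by rw [mul_assoc, ← hx]; group
    rw [e]; exact hh
  have hKH : ∀ x, x ∈ K → x ∈ H → x = 1 := by
    intro x hxK hxH
    rcases (hmemK x).mp hxK with h | h
    · exact h
    · exfalso; apply h 1; simpa using hxH
  have hKn : K.Normal := by
    constructor
    intro x hx g
    rw [hmemK] at hx ⊢
    rcases hx with h | h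
    · left; rw [h]; group
    · right
      intro g' hg'
      apply h (g⁻¹ * g')
      have e : (g⁻¹ * g')⁻¹ * x * (g⁻¹ * g') = g'⁻¹ * (g * x * g⁻¹) * g' := by group
      rw [e]; exact hg'
  have hcardK : Nat.card K = H.index := by
    have h1 := Cfsg.Agent.Lib.Helper1.card_conj_union_add_index H hmal
    obtain ⟨s, hs, hs2⟩ : ∃ s : Finset L, (∀ y, y ∈ s ↔ (y ≠ 1 ∧ ∃ g : L, g⁻¹ * y * g ∈ H)) ∧
        s.card + H.index = Fintype.card L := ⟨_, fun y => by simp, h1⟩
    have h2 : (s : Set L) = (K : Set L)ᶜ := by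
      ext y
      rw [Finset.mem_coe, hs, Set.mem_compl_iff, SetLike.mem_coe, hmemK]
      push Not
      rfl
    have h3 := Set.ncard_add_ncard_compl (K : Set L)
    rw [← h2, Set.ncard_coe_finset, ← Nat.card_coe_set_eq] at h3
    rw [← Nat.card_eq_fintype_card] at hs2
    have h4 : Nat.card ↥(K : Set L) = Nat.card K := rfl
    omega
  have hcop : Nat.Coprime (Nat.card K) (Nat.card H) := by
    by_contra hnc
    obtain ⟨p, hp, hpK, hpH⟩ := Nat.Prime.not_coprime_iff_dvd.mp hnc
    haveI : Fact p.Prime := ⟨hp⟩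
    obtain ⟨h, hh⟩ := exists_prime_orderOf_dvd_card' p hpH
    obtain ⟨k, hk⟩ := exists_prime_orderOf_dvd_card' p hpK
    have hh1 : (h : L) ≠ 1 := by
      intro h1
      have h2 : orderOf (h : L) = p := by rw [Subgroup.orderOf_coe]; exact hh
      rw [h1, orderOf_one] at h2
      exact hp.one_lt.ne h2
    have hk1 : (k : L) ≠ 1 := by
      intro h1
      have h2 : orderOf (k : L) = p := by rw [Subgroup.orderOf_coe]; exact hk
      rw [h1, orderOf_one] at h2
      exact hp.one_lt.ne h2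
    have hzh : IsPGroup p (Subgroup.zpowers (h : L)) := by
      apply IsPGroup.of_card (n := 1)
      rw [Nat.card_zpowers, Subgroup.orderOf_coe, hh, pow_one]
    have hzk : IsPGroup p (Subgroup.zpowers (k : L)) := by
      apply IsPGroup.of_card (n := 1)
      rw [Nat.card_zpowers, Subgroup.orderOf_coe, hk, pow_one]
    obtain ⟨P, hP⟩ := hzh.exists_le_sylow
    obtain ⟨P', hP'⟩ := hzk.exists_le_sylow
    obtain ⟨g, hg⟩ := MulAction.exists_smul_eq L P P'
    have hhP : (h : L) ∈ (P : Subgroup L) := hP (Subgroup.mem_zpowers _)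
    have hkP : g⁻¹ * (k : L) * g ∈ (P : Subgroup L) := by
      have h1 : (k : L) ∈ (P' : Subgroup L) := hP' (Subgroup.mem_zpowers _)
      rw [← hg, mem_sylow_smul_iff] at h1
      exact h1
    have hkK : g⁻¹ * (k : L) * g ∈ K := by
      have h1 := hKn.conj_mem k k.2 g⁻¹
      simpa using h1
    have hk1' : g⁻¹ * (k : L) * g ≠ 1 := by
      intro h1; apply hk1
      have e : (k : L) = g * (g⁻¹ * (k : L) * g) * g⁻¹ := by group
      rw [e, h1]; group
    haveI : Nontrivial (P : Subgroup L) := ⟨⟨⟨h, hhP⟩, 1, fun h2 => hh1 (congrArg Subtype.val h2)⟩⟩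
    haveI := P.isPGroup'.center_nontrivial
    obtain ⟨z, hz⟩ := exists_ne (1 : Subgroup.center (P : Subgroup L))
    have hzc : ∀ y : (P : Subgroup L), y * (z : (P : Subgroup L)) = (z : (P : Subgroup L)) * y :=
      fun y => Subgroup.mem_center_iff.mp z.2 y
    have hz1 : (((z : (P : Subgroup L)) : L)) ≠ 1 := by
      intro h1; apply hz
      apply Subtype.ext; apply Subtype.ext; exact h1
    have hzH : (((z : (P : Subgroup L)) : L)) ∈ H := by
      apply hcent h h.2 hh1
      exact (congrArg Subtype.val (hzc ⟨h, hhP⟩)).symm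
    have hkH : g⁻¹ * (k : L) * g ∈ H := by
      apply hcent _ hzH hz1
      exact congrArg Subtype.val (hzc ⟨_, hkP⟩)
    exact hk1' (hKH _ hkK hkH)
  have hpowK : ∀ x : L, x ^ Nat.card K = 1 → x ∈ K := by
    intro x hx
    rw [← QuotientGroup.eq_one_iff]
    have h1 : (QuotientGroup.mk x : L ⧸ K) ^ Nat.card K = 1 := by
      rw [← QuotientGroup.mk_pow, hx]; rfl
    have h2 : (QuotientGroup.mk x : L ⧸ K) ^ Nat.card (L ⧸ K) = 1 := pow_card_eq_one'
    have h3 : Nat.card (L ⧸ K) = Nat.card H := by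
      have e1 := Subgroup.card_eq_card_quotient_mul_card_subgroup K
      have e2 := Subgroup.card_mul_index H
      rw [← hcardK] at e2
      have e3 : Nat.card (L ⧸ K) * Nat.card K = Nat.card H * Nat.card K := by rw [← e1, e2]
      exact Nat.eq_of_mul_eq_mul_right Nat.card_pos e3
    rw [h3] at h2
    have h4 := orderOf_dvd_of_pow_eq_one h1
    have h5 := orderOf_dvd_of_pow_eq_one h2
    have h6 := Nat.dvd_gcd h4 h5
    rw [Nat.Coprime.gcd_eq_one hcop] at h6
    exact orderOf_eq_one_iff.mp (Nat.dvd_one.mp h6)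
  constructor
  · rw [Subgroup.characteristic_iff_map_le]
    intro φ
    rintro _ ⟨k, hk, rfl⟩
    apply hpowK
    show (φ k) ^ Nat.card K = 1
    rw [← map_pow]
    have h1 : k ^ Nat.card K = 1 := by
      have h2 : (⟨k, hk⟩ : K) ^ Nat.card K = 1 := pow_card_eq_one'
      exact congrArg Subtype.val h2
    rw [h1, map_one]
  · intro N hN
    by_cases hNK : N ≤ K
    · exact Or.inr hNK
    · left
      obtain ⟨x, hxN, hxK⟩ := Set.not_subset.mp hNK
      rw [SetLike.mem_coe, hmemK] at hxK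
      push Not at hxK
      obtain ⟨hx1, g, hg⟩ := hxK
      have hh₀N : g⁻¹ * x * g ∈ N := by
        have h1 := hN.conj_mem x hxN g⁻¹
        simpa using h1
      have hh₀1 : g⁻¹ * x * g ≠ 1 := by
        intro h; apply hx1
        have e : x = g * (g⁻¹ * x * g) * g⁻¹ := by group
        rw [e, h]; group
      generalize g⁻¹ * x * g = h₀ at hg hh₀N hh₀1
      have hψK : ∀ k : K, (k : L)⁻¹ * (h₀ * k * h₀⁻¹) ∈ K :=
        fun k => mul_mem (inv_mem k.2) (hKn.conj_mem k k.2 h₀)
      have hinj : Function.Injective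
          (fun k : K => (⟨(k : L)⁻¹ * (h₀ * k * h₀⁻¹), hψK k⟩ : K)) := by
        intro k k' hkk
        have h1 : (k : L)⁻¹ * (h₀ * k * h₀⁻¹) = (k' : L)⁻¹ * (h₀ * k' * h₀⁻¹) :=
          congrArg Subtype.val hkk
        have h2 : ((k' : L) * (k : L)⁻¹) * h₀ = h₀ * ((k' : L) * (k : L)⁻¹) := by
          have h3 : (k : L)⁻¹ * h₀ * k = (k' : L)⁻¹ * h₀ * k' := by
            have e1 : (k : L)⁻¹ * h₀ * k = ((k : L)⁻¹ * (h₀ * k * h₀⁻¹)) * h₀ := by group
            have e2 : (k' : L)⁻¹ * h₀ * k' = ((k' : L)⁻¹ * (h₀ * k' * h₀⁻¹)) * h₀ := by group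
            rw [e1, e2, h1]
          calc ((k' : L) * (k : L)⁻¹) * h₀ = k' * ((k : L)⁻¹ * h₀ * k) * (k : L)⁻¹ := by group
            _ = k' * ((k' : L)⁻¹ * h₀ * k') * (k : L)⁻¹ := by rw [h3]
            _ = h₀ * ((k' : L) * (k : L)⁻¹) := by group
        have h4 := hcent h₀ hg hh₀1 _ h2
        have h5 := hKH _ (mul_mem k'.2 (inv_mem k.2)) h4
        apply Subtype.ext
        exact (mul_inv_eq_one.mp h5).symm
      have hsurj := Finite.injective_iff_surjective.mp hinj
      intro k hk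
      obtain ⟨k₀, hk₀⟩ := hsurj ⟨k, hk⟩
      have h1 : (k₀ : L)⁻¹ * (h₀ * k₀ * h₀⁻¹) = k := congrArg Subtype.val hk₀
      rw [← h1]
      have e : (k₀ : L)⁻¹ * (h₀ * k₀ * h₀⁻¹) = ((k₀ : L)⁻¹ * h₀ * (k₀ : L)⁻¹⁻¹) * h₀⁻¹ := by group
      rw [e]
      exact mul_mem (hN.conj_mem h₀ hh₀N _) (inv_mem hh₀N)

end Cfsg.Agent.S3383
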