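import Cfsg.Statements.S3419
import Cfsg.Agent.Lib.Helper2.TwoPrimes
import Cfsg.Agent.Lib.Helper2.ThreePrimes
import Cfsg.Agent.Lib.Lead.Hall

set_option autoImplicit false
open Cfsg

namespace Cfsg.Agent.S3419

universe u

/-- no element of order pq in Perm (Fin n) if n < p + q -/
theorem no_pq (n p q : ℕ) (hp : p.Prime) (hq : q.Prime) (hpq : p ≠ q) (hn : n < p + q)
    (g : Equiv.Perm (Fin n)) : orderOf g ≠ p * q := by
  intro hg
  have hlcm : g.cycleType.lcm = p * q := by rw [Equiv.Perm.lcm_cycleType, hg]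
  have hsum : g.cycleType.sum ≤ n := by
    rw [Equiv.Perm.sum_cycleType]
    calc g.support.card ≤ Fintype.card (Fin n) := Finset.card_le_univ _
      _ = n := Fintype.card_fin n
  have hex : ∀ t u : ℕ, t.Prime → u.Prime → t ≠ u → g.cycleType.lcm = t * u →
      ∃ a ∈ g.cycleType, t ∣ a := by
    intro t u ht hu htu hl
    by_contra hcon
    push_neg at hcon
    have hdvd : g.cycleType.lcm ∣ u := by
      apply Multiset.lcm_dvd.mpr
      intro a ha
      have h1 : a ∣ t * u := by rw [← hl]; exact Multiset.dvd_lcm ha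
      have h2 : Nat.Coprime a t := by
        rw [Nat.coprime_comm]; exact (Nat.Prime.coprime_iff_not_dvd ht).mpr (hcon a ha)
      exact h2.dvd_of_dvd_mul_left h1
    rw [hl] at hdvd
    have h3 : t * u ∣ 1 * u := by simpa using hdvd
    have h4 := Nat.dvd_of_mul_dvd_mul_right hu.pos h3
    exact ht.one_lt.ne' (Nat.dvd_one.mp h4)
  obtain ⟨a, ha, hpa⟩ := hex p q hp hq hpq hlcm
  obtain ⟨b, hb, hqb⟩ := hex q p hq hp hpq.symm (by rw [hlcm, mul_comm])
  have ha2 := Equiv.Perm.two_le_of_mem_cycleType ha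
  have hb2 := Equiv.Perm.two_le_of_mem_cycleType hb
  by_cases hqa : q ∣ a
  · have h1 : p * q ∣ a :=
      Nat.Coprime.mul_dvd_of_dvd_of_dvd ((Nat.coprime_primes hp hq).mpr hpq) hpa hqa
    have h2 : a ≤ g.cycleType.sum := Multiset.le_sum_of_mem ha
    have h4 := Nat.le_of_dvd (by omega) h1
    have h5 : p + q ≤ p * q := by
      have := hp.two_le; have := hq.two_le; nlinarith
    omega
  · have hab : b ≠ a := fun h => hqa (h ▸ hqb)
    have hb' : b ∈ g.cycleType.erase a := (Multiset.mem_erase_of_ne hab).mpr hb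
    have h1 : a + (g.cycleType.erase a).sum = g.cycleType.sum := Multiset.sum_erase ha
    have h2 : b ≤ (g.cycleType.erase a).sum := Multiset.le_sum_of_mem hb'
    have h3 : p ≤ a := Nat.le_of_dvd (by omega) hpa
    have h4 : q ≤ b := Nat.le_of_dvd (by omega) hqb
    omega

theorem exists_tu {H : Type*} [Group H] [Finite H] (t u : ℕ) (ht : t.Prime) (hu : u.Prime)
    (htu : t ≠ u) (N : Subgroup H) [N.Normal] (hN : IsPGroup t N) (hN1 : N ≠ ⊥)
    (hu_dvd : u ∣ Nat.card H)
    (hnd : ∀ c : ℕ, 1 ≤ c → Nat.card N = t ^ c → ¬ u ∣ t ^ c - 1) :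
    ∃ g : H, orderOf g = t * u := by
  haveI := Fact.mk ht; haveI := Fact.mk hu
  obtain ⟨y, hy⟩ := exists_prime_orderOf_dvd_card' u hu_dvd
  obtain ⟨c, hc⟩ := IsPGroup.iff_card.mp hN
  have hc1 : 1 ≤ c := by
    rcases Nat.eq_zero_or_pos c with h | h
    · exfalso; rw [h, pow_zero] at hc; exact hN1 (Subgroup.card_eq_one.mp hc)
    · exact h
  have hnd' := hnd c hc1 hc
  let φ : Subgroup.zpowers y →* MulAut N := (MulAut.conjNormal).comp (Subgroup.zpowers y).subtype
  letI : MulAction (Subgroup.zpowers y) N := MulAction.compHom N φ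
  have hU : IsPGroup u (Subgroup.zpowers y) := by
    apply IsPGroup.of_card (n := 1); rw [Nat.card_zpowers, hy, pow_one]
  have hmod := hU.card_modEq_card_fixedPoints (α := N)
  have hsmul : ∀ (g : Subgroup.zpowers y) (x : N), ((g • x : N) : H) = (g : H) * x * (g : H)⁻¹ := by
    intro g x
    show ((φ g x : N) : H) = _
    simp [φ, MulAut.conjNormal_apply]
  by_cases hfix : ∃ x : N, x ≠ 1 ∧ x ∈ MulAction.fixedPoints (Subgroup.zpowers y) N
  · obtain ⟨x, hx1, hxf⟩ := hfix
    have hcomm : y * (x : H) * y⁻¹ = x := by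
      have h1 := hxf ⟨y, Subgroup.mem_zpowers y⟩
      have h2 := hsmul ⟨y, Subgroup.mem_zpowers y⟩ x
      rw [h1] at h2
      exact h2.symm
    have hcomm' : Commute (x : H) y := by
      show (x : H) * y = y * x
      have : y * (x : H) * y⁻¹ * y = x * y := by rw [hcomm]
      rw [← this]; group
    obtain ⟨j, hj⟩ := (IsPGroup.iff_orderOf.mp hN) x
    have hj1 : j ≠ 0 := by
      intro h; rw [h, pow_zero, orderOf_eq_one_iff] at hj; exact hx1 hj
    have hdvd : t ∣ orderOf (x : H) := by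
      rw [Subgroup.orderOf_coe, hj]; exact dvd_pow_self t hj1
    have ho := Cfsg.Agent.Lib.Helper2.ThreePrimes.pow_order_prime (x : H) t ht hdvd
    refine ⟨(x : H) ^ (orderOf (x : H) / t) * y, ?_⟩
    rw [(hcomm'.pow_left _).orderOf_mul_eq_mul_orderOf_of_coprime, ho, hy]
    rw [ho, hy]
    exact (Nat.coprime_primes ht hu).mpr htu
  · exfalso
    push_neg at hfix
    have hone : Nat.card (MulAction.fixedPoints (Subgroup.zpowers y) N) = 1 := by
      rw [Nat.card_eq_one_iff_unique]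
      refine ⟨⟨?_⟩, ⟨⟨1, ?_⟩⟩⟩
      · intro a b
        have ha : (a : N) = 1 := by
          by_contra h; exact hfix a h a.2
        have hb : (b : N) = 1 := by
          by_contra h; exact hfix b h b.2
        exact Subtype.ext (ha.trans hb.symm)
      · intro g
        show φ g 1 = 1
        exact map_one _
    rw [hone, hc] at hmod
    have h1 : u ∣ t ^ c - 1 := (Nat.modEq_iff_dvd' (Nat.one_le_pow _ _ ht.pos)).mp hmod.symm
    exact hnd' h1

theorem fact_mult (n p : ℕ) (hp : p.Prime) (hpn : p ≤ n) (hnp : n < 2 * p) (c : ℕ)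
    (hc : p ^ c ∣ n.factorial) : c ≤ 1 := by
  have hlog : Nat.log p n < 2 := Nat.log_lt_of_lt_pow (by omega) (by nlinarith [hp.two_le])
  have h1 := Nat.factorization_factorial hp hlog
  have h2 : n / p = 1 := by
    apply Nat.div_eq_of_lt_le <;> omega
  have h3 : (n.factorial).factorization p = 1 := by
    rw [h1]; simp [h2]
  have := (hp.pow_dvd_iff_le_factorization (Nat.factorial_ne_zero n)).mp hc
  omega

theorem arith_gen (n p q : ℕ) (hp : p.Prime) (hq : q.Prime) (hpq : p < q) (hqn : q ≤ n)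
    (hnp : n < 2 * p) (h5 : 5 ≤ n) :
    ∃ p q : ℕ, p.Prime ∧ q.Prime ∧ p ≠ q ∧ p ≠ 2 ∧ q ≠ 2 ∧ p ≤ n ∧ q ≤ n ∧ n < p + q ∧
      (∀ c, 1 ≤ c → p ^ c ∣ n.factorial → ¬ q ∣ p ^ c - 1) ∧
      (∀ c, 1 ≤ c → q ^ c ∣ n.factorial → ¬ p ∣ q ^ c - 1) := by
  have hp3 : 3 ≤ p := by omega
  refine ⟨p, q, hp, hq, by omega, by omega, by omega, by omega, hqn, by omega, ?_, ?_⟩
  · intro c hc1 hc hdvd
    have hc' := fact_mult n p hp (by omega) hnp c hc
    have hc1' : c = 1 := by omega
    subst hc1'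
    rw [pow_one] at hdvd
    have := Nat.le_of_dvd (by omega) hdvd
    omega
  · intro c hc1 hc hdvd
    have hc' := fact_mult n q hq hqn (by omega) c hc
    have hc1' : c = 1 := by omega
    subst hc1'
    rw [pow_one] at hdvd
    obtain ⟨k, hk⟩ := hdvd
    have hk1 : k = 1 := by
      rcases Nat.lt_or_ge k 2 with h | h
      · rcases Nat.eq_zero_or_pos k with h0 | h0
        · subst h0; omega
        · omega
      · have : p * 2 ≤ p * k := Nat.mul_le_mul_left p h
        omega
    subst hk1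
    rcases hp.eq_two_or_odd with h | h
    · omega
    · rcases hq.eq_two_or_odd with h' | h'
      · omega
      · omega

theorem arith (n : ℕ) (hn : 5 ≤ n) :
    ∃ p q : ℕ, p.Prime ∧ q.Prime ∧ p ≠ q ∧ p ≠ 2 ∧ q ≠ 2 ∧ p ≤ n ∧ q ≤ n ∧ n < p + q ∧
      (∀ c, 1 ≤ c → p ^ c ∣ n.factorial → ¬ q ∣ p ^ c - 1) ∧
      (∀ c, 1 ≤ c → q ^ c ∣ n.factorial → ¬ p ∣ q ^ c - 1) := by
  by_cases h12 : 12 ≤ n
  · obtain ⟨p, q, hp, hq, h1, h2, h3⟩ := Cfsg.Agent.Lib.Helper2.TwoPrimes.two_primes (n / 2) (by omega)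
    exact arith_gen n p q hp hq h2 (by omega) (by omega) hn
  · have h6 : n = 5 ∨ n = 6 ∨ n = 7 ∨ n = 8 ∨ n = 9 ∨ n = 10 ∨ n = 11 := by omega
    rcases h6 with rfl | rfl | rfl | rfl | rfl | rfl | rfl
    · exact arith_gen 5 3 5 (by norm_num) (by norm_num) (by omega) (by omega) (by omega) (by omega)
    · refine ⟨3, 5, by norm_num, by norm_num, by omega, by omega, by omega, by omega, by omega,
        by omega, ?_, ?_⟩
      · intro c hc1 hc
        have hf : (6 : ℕ).factorial = 720 := by decide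
        rw [hf] at hc
        have hc3 : c < 3 := by
          by_contra h
          have h27 : 3 ^ 3 ∣ 720 := (Nat.pow_dvd_pow 3 (by omega : 3 ≤ c)).trans hc
          norm_num at h27
        interval_cases c <;> norm_num
      · intro c hc1 hc
        have hf : (6 : ℕ).factorial = 720 := by decide
        rw [hf] at hc
        have hc3 : c < 2 := by
          by_contra h
          have h27 : 5 ^ 2 ∣ 720 := (Nat.pow_dvd_pow 5 (by omega : 2 ≤ c)).trans hc
          norm_num at h27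
        interval_cases c <;> norm_num
    · exact arith_gen 7 5 7 (by norm_num) (by norm_num) (by omega) (by omega) (by omega) (by omega)
    · exact arith_gen 8 5 7 (by norm_num) (by norm_num) (by omega) (by omega) (by omega) (by omega)
    · exact arith_gen 9 5 7 (by norm_num) (by norm_num) (by omega) (by omega) (by omega) (by omega)
    · refine ⟨5, 7, by norm_num, by norm_num, by omega, by omega, by omega, by omega, by omega,
        by omega, ?_, ?_⟩
      · intro c hc1 hc
        have hf : (10 : ℕ).factorial = 3628800 := by decide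
        rw [hf] at hc
        have hc3 : c < 3 := by
          by_contra h
          have h27 : 5 ^ 3 ∣ 3628800 := (Nat.pow_dvd_pow 5 (by omega : 3 ≤ c)).trans hc
          norm_num at h27
        interval_cases c <;> norm_num
      · intro c hc1 hc
        have hf : (10 : ℕ).factorial = 3628800 := by decide
        rw [hf] at hc
        have hc3 : c < 2 := by
          by_contra h
          have h27 : 7 ^ 2 ∣ 3628800 := (Nat.pow_dvd_pow 7 (by omega : 2 ≤ c)).trans hc
          norm_num at h27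
        interval_cases c <;> norm_num
    · exact arith_gen 11 7 11 (by norm_num) (by norm_num) (by omega) (by omega) (by omega) (by omega)

theorem core {G : Type u} [Group G] [Finite G] [hsolv : Group.IsSolvable G] (n p q : ℕ)
    (hp : p.Prime) (hq : q.Prime) (hpq : p ≠ q) (hpG : p ∣ Nat.card G) (hqG : q ∣ Nat.card G)
    (hGn : Nat.card G ∣ n)
    (hc1 : ∀ c, 1 ≤ c → p ^ c ∣ n → ¬ q ∣ p ^ c - 1)
    (hc2 : ∀ c, 1 ≤ c → q ^ c ∣ n → ¬ p ∣ q ^ c - 1) :
    ∃ g : G, orderOf g = p * q := by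
  have hG0 : Nat.card G ≠ 0 := Nat.card_pos.ne'
  obtain ⟨a, ha⟩ : ∃ a, a = (Nat.card G).factorization p := ⟨_, rfl⟩
  obtain ⟨b, hb⟩ : ∃ b, b = (Nat.card G).factorization q := ⟨_, rfl⟩
  have hcop : Nat.Coprime (p ^ a) (q ^ b) := Nat.Coprime.pow _ _ ((Nat.coprime_primes hp hq).mpr hpq)
  have hma : p ^ a ∣ Nat.card G := by rw [ha]; exact Nat.ordProj_dvd _ _
  have hmb : q ^ b ∣ Nat.card G := by rw [hb]; exact Nat.ordProj_dvd _ _
  have hm : p ^ a * q ^ b ∣ Nat.card G := Nat.Coprime.mul_dvd_of_dvd_of_dvd hcop hma hmb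
  obtain ⟨k, hk⟩ := hm
  have ha1 : 1 ≤ a := by
    rw [ha]; exact (hp.dvd_iff_one_le_factorization hG0).mp hpG
  have hb1 : 1 ≤ b := by
    rw [hb]; exact (hq.dvd_iff_one_le_factorization hG0).mp hqG
  have hpk : ¬ p ∣ k := by
    intro h
    obtain ⟨k', rfl⟩ := h
    have : p ^ (a + 1) ∣ Nat.card G := by
      rw [hk, pow_succ]; exact ⟨q ^ b * k', by ring⟩
    rw [ha] at this
    exact Nat.pow_succ_factorization_not_dvd hG0 hp this
  have hqk : ¬ q ∣ k := by
    intro h
    obtain ⟨k', rfl⟩ := h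
    have : q ^ (b + 1) ∣ Nat.card G := by
      rw [hk, pow_succ]; exact ⟨p ^ a * k', by ring⟩
    rw [hb] at this
    exact Nat.pow_succ_factorization_not_dvd hG0 hq this
  have hcop2 : Nat.Coprime (p ^ a * q ^ b) k := by
    apply Nat.Coprime.mul_left
    · exact Nat.Coprime.pow_left _ ((Nat.Prime.coprime_iff_not_dvd hp).mpr hpk)
    · exact Nat.Coprime.pow_left _ ((Nat.Prime.coprime_iff_not_dvd hq).mpr hqk)
  obtain ⟨H, hH, -⟩ := Cfsg.Agent.Lib.Lead.hallD_all _ G rfl (p ^ a * q ^ b) k hk hcop2 ⊥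
    (by rw [Subgroup.card_bot]; exact Nat.coprime_one_left _)
  have hpH : p ∣ Nat.card H := by rw [hH]; exact Dvd.dvd.mul_right (dvd_pow_self p (by omega)) _
  have hqH : q ∣ Nat.card H := by rw [hH]; exact Dvd.dvd.mul_left (dvd_pow_self q (by omega)) _
  have hHG : Nat.card H ∣ Nat.card G := Subgroup.card_subgroup_dvd_card H
  haveI : Nontrivial H := by
    rw [← Finite.one_lt_card_iff_nontrivial]
    have := Nat.le_of_dvd Nat.card_pos hpH
    have := hp.two_le
    omega
  obtain ⟨t, ht, M, hMn, hM1, hMt⟩ := Cfsg.Agent.Lib.Lead.exists_normal_pgroup_of_solvable H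
  haveI := hMn
  haveI := Fact.mk ht
  obtain ⟨c, hc⟩ := IsPGroup.iff_card.mp hMt
  have hc0 : c ≠ 0 := by
    intro h; rw [h, pow_zero] at hc; exact hM1 (Subgroup.card_eq_one.mp hc)
  have htH : t ∣ p ^ a * q ^ b := by
    rw [← hH]
    exact (dvd_pow_self t hc0).trans (hc ▸ Subgroup.card_subgroup_dvd_card M)
  have hMn' : Nat.card M ∣ n := (Subgroup.card_subgroup_dvd_card M).trans (hHG.trans hGn)
  rcases Cfsg.Agent.Lib.Helper2.ThreePrimes.prime_dvd_qr hp hq ht htH with rfl | rfl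
  · obtain ⟨g, hg⟩ := exists_tu t q ht hq hpq M hMt hM1 hqH
      (fun c' hc1' hcard => hc1 c' hc1' (hcard ▸ hMn'))
    exact ⟨(g : G), by rw [Subgroup.orderOf_coe, hg]⟩
  · obtain ⟨g, hg⟩ := exists_tu t p ht hp hpq.symm M hMt hM1 hpH
      (fun c' hc1' hcard => hc2 c' hc1' (hcard ▸ hMn'))
    exact ⟨(g : G), by rw [Subgroup.orderOf_coe, hg, mul_comm]⟩

theorem result {G : Type*} [Group G] [Finite G] (n : ℕ) (hn : 5 ≤ n)
    (hcard : Nat.card G = Nat.card ↥(alternatingGroup (Fin n)))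
    (hspec : Set.range (orderOf : G → ℕ) = Set.range (orderOf : ↥(alternatingGroup (Fin n)) → ℕ)) :
    ¬ Group.IsSolvable G := by
  intro hsolv
  have hcardA : 2 * Nat.card ↥(alternatingGroup (Fin n)) = n.factorial := by
    haveI : Nontrivial (Fin n) := Fin.nontrivial_iff_two_le.mpr (by omega)
    rw [Nat.card_eq_fintype_card, two_mul_card_alternatingGroup, Fintype.card_perm,
      Fintype.card_fin]
  have hG2 : 2 * Nat.card G = n.factorial := by rw [hcard, hcardA]
  obtain ⟨p, q, hp, hq, hpq, hp2, hq2, hpn, hqn, hsum, hc1, hc2⟩ := arith n hn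
  have hdiv : ∀ t : ℕ, t.Prime → t ≠ 2 → t ≤ n → t ∣ Nat.card G := by
    intro t ht ht2 htn
    have h1 : t ∣ 2 * Nat.card G := by rw [hG2]; exact (Nat.Prime.dvd_factorial ht).mpr htn
    rcases (Nat.Prime.dvd_mul ht).mp h1 with h | h
    · exact absurd ((Nat.prime_dvd_prime_iff_eq ht Nat.prime_two).mp h) ht2
    · exact h
  obtain ⟨g, hg⟩ := core (G := G) n.factorial p q hp hq hpq (hdiv p hp hp2 hpn)
    (hdiv q hq hq2 hqn) ⟨2, by rw [← hG2]; ring⟩ hc1 hc2
  have hmem : p * q ∈ Set.range (orderOf : G → ℕ) := ⟨g, hg⟩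
  rw [hspec] at hmem
  obtain ⟨s, hs⟩ := hmem
  exact no_pq n p q hp hq hpq hsum (s : Equiv.Perm (Fin n)) (by rw [Subgroup.orderOf_coe, hs])

end Cfsg.Agent.S3419
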