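import Cfsg.Statements.S3420
import Cfsg.Agent.S3419
import Cfsg.Agent.Lib.Helper7.PPrime

set_option autoImplicit false
open Cfsg

namespace Cfsg.Agent.S3420

universe u

theorem card_normalizer_not_dvd {G : Type u} [Group G] [Finite G] (p q : ℕ) (hp : p.Prime)
    (hq : q.Prime) (hpq : p ≠ q) (hno : ∀ g : G, orderOf g ≠ p * q) (hqp : ¬ q ∣ p - 1)
    (P : Subgroup G) (hP : Nat.card P = p) :
    ¬ q ∣ Nat.card (Subgroup.normalizer (P : Set G)) := by
  intro hdvd
  haveI := Fact.mk hp
  have hle : P ≤ Subgroup.normalizer (P : Set G) := Subgroup.le_normalizer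
  have hcardN : Nat.card (P.subgroupOf (Subgroup.normalizer (P : Set G))) = p := by
    rw [Cfsg.Agent.Lib.Lead.card_subgroupOf_of_le hle, hP]
  obtain ⟨g, hg⟩ := Cfsg.Agent.S3419.exists_tu (H := ↥(Subgroup.normalizer (P : Set G))) p q hp hq
    hpq (P.subgroupOf (Subgroup.normalizer (P : Set G)))
    (IsPGroup.of_card (n := 1) (by rw [hcardN, pow_one]))
    (by intro h; rw [h, Subgroup.card_bot] at hcardN; exact hp.one_lt.ne hcardN) hdvd
    (by
      intro c hc1 hc
      rw [hcardN] at hc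
      have hc1' : c = 1 := by
        by_contra h
        have h2 : 2 ≤ c := by omega
        have h3 : p ^ 2 ≤ p ^ c := Nat.pow_le_pow_right hp.pos h2
        have := hp.two_le
        nlinarith
      subst hc1'; rw [pow_one]; exact hqp)
  exact hno (g : G) (by rw [Subgroup.orderOf_coe, hg])

theorem result {G : Type*} [Group G] [Finite G] (n : ℕ) (hn : 11 ≤ n)
    (hcard : Nat.card G = Nat.card ↥(alternatingGroup (Fin n)))
    (hspec : Set.range (orderOf : G → ℕ) = Set.range (orderOf : ↥(alternatingGroup (Fin n)) → ℕ)) :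
    ∃ (N H : Subgroup G) (_ : N.Normal), H.Normal ∧ N < H ∧
      IsSimpleGroup (↥H ⧸ N.subgroupOf H) ∧ ¬ IsMulCommutative (↥H ⧸ N.subgroupOf H) ∧
      ∀ p : ℕ, p.Prime → n < 2 * p → p ≤ n → p ∣ Nat.card (↥H ⧸ N.subgroupOf H) := by
  have hcardA : 2 * Nat.card ↥(alternatingGroup (Fin n)) = n.factorial := by
    haveI : Nontrivial (Fin n) := Fin.nontrivial_iff_two_le.mpr (by omega)
    rw [Nat.card_eq_fintype_card, two_mul_card_alternatingGroup, Fintype.card_perm,
      Fintype.card_fin]
  have hG2 : 2 * Nat.card G = n.factorial := by rw [hcard, hcardA]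
  have hπdvd : ∀ t : ℕ, t.Prime → n < 2 * t → t ≤ n → t ∣ Nat.card G := by
    intro t ht ht1 htn
    have h1 : t ∣ 2 * Nat.card G := by rw [hG2]; exact (Nat.Prime.dvd_factorial ht).mpr htn
    rcases (Nat.Prime.dvd_mul ht).mp h1 with h | h
    · have := (Nat.prime_dvd_prime_iff_eq ht Nat.prime_two).mp h
      omega
    · exact h
  have hπsq : ∀ t : ℕ, t.Prime → n < 2 * t → t ≤ n → ¬ t ^ 2 ∣ Nat.card G := by
    intro t ht h1 h2 hd
    have := Cfsg.Agent.S3419.fact_mult n t ht h2 h1 2 (hd.trans ⟨2, by rw [← hG2]; ring⟩)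
    omega
  have hno : ∀ p q : ℕ, p.Prime → q.Prime → p ≠ q → n < p + q → ∀ g : G, orderOf g ≠ p * q := by
    intro p q hp hq hpq hsum g hg
    have hmem : p * q ∈ Set.range (orderOf : G → ℕ) := ⟨g, hg⟩
    rw [hspec] at hmem
    obtain ⟨s, hs⟩ := hmem
    exact Cfsg.Agent.S3419.no_pq n p q hp hq hpq hsum (s : Equiv.Perm (Fin n))
      (by rw [Subgroup.orderOf_coe, hs])
  have hπ1 : ∀ p q : ℕ, p.Prime → q.Prime → p ≠ q → n < 2 * p → p ≤ n → n < 2 * q → q ≤ n →
      ¬ q ∣ p - 1 := by
    intro p q hp hq hpq h1 h2 h3 h4 hd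
    obtain ⟨k, hk⟩ := hd
    have hp2 := hp.two_le
    have hk1 : k = 1 := by
      rcases Nat.lt_or_ge k 2 with h | h
      · rcases Nat.eq_zero_or_pos k with h0 | h0
        · subst h0; omega
        · omega
      · have : q * 2 ≤ q * k := Nat.mul_le_mul_left q h
        omega
    subst hk1
    rcases hp.eq_two_or_odd with h | h
    · omega
    · rcases hq.eq_two_or_odd with h' | h'
      · omega
      · omega
  have hK : ∀ p q : ℕ, p.Prime → q.Prime → p ≠ q → n < 2 * p → p ≤ n → n < 2 * q → q ≤ n →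
      ∀ P : Subgroup G, Nat.card P = p → ¬ q ∣ Nat.card (Subgroup.normalizer (P : Set G)) :=
    fun p q hp hq hpq h1 h2 h3 h4 P hP =>
      card_normalizer_not_dvd p q hp hq hpq (hno p q hp hq hpq (by omega))
        (hπ1 p q hp hq hpq h1 h2 h3 h4) P hP
  obtain ⟨p0, hp0, hp0a, hp0b⟩ : ∃ p0 : ℕ, p0.Prime ∧ n < 2 * p0 ∧ p0 ≤ n := by
    obtain ⟨p, hp, h1, h2⟩ := Nat.exists_prime_lt_and_le_two_mul (n / 2) (by omega)
    exact ⟨p, hp, by omega, by omega⟩
  haveI := Fact.mk hp0
  obtain ⟨N, hNdef⟩ : ∃ N : Subgroup G, N = Cfsg.pPrimeCore p0 G := ⟨_, rfl⟩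
  haveI hNn : N.Normal := by rw [hNdef]; infer_instance
  have hNcop : (Nat.card N).Coprime p0 := by
    rw [hNdef]; exact Cfsg.Agent.Lib.Helper7.pPrimeCore_coprime p0
  have hp0N : ¬ p0 ∣ Nat.card N := (Nat.Prime.coprime_iff_not_dvd hp0).mp hNcop.symm
  have hex : ∃ k : ℕ, ∃ H : Subgroup G, H.Normal ∧ N < H ∧ Nat.card H = k := by
    refine ⟨_, ⊤, inferInstance, ?_, rfl⟩
    rw [lt_top_iff_ne_top]
    intro h
    apply hp0N
    rw [h, Subgroup.card_top]
    exact hπdvd p0 hp0 hp0a hp0b
  classical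
  obtain ⟨H, hHn, hNH, hHk⟩ := Nat.find_spec hex
  have hmin : ∀ H' : Subgroup G, H'.Normal → N < H' → Nat.card H ≤ Nat.card H' := by
    intro H' h1 h2
    rw [hHk]; exact Nat.find_min' hex ⟨H', h1, h2, rfl⟩
  haveI := hHn
  have hNH' : N ≤ H := hNH.le
  have hp0H : p0 ∣ Nat.card H := by
    by_contra h
    have hc : (Nat.card H).Coprime p0 := ((Nat.Prime.coprime_iff_not_dvd hp0).mpr h).symm
    have h1 := Cfsg.Agent.Lib.Helper7.le_pPrimeCore p0 H hc
    rw [← hNdef] at h1
    exact lt_irrefl _ (lt_of_lt_of_le hNH h1)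
  have hsimple : ∀ M : Subgroup ↥H, M.Normal → N.subgroupOf H ≤ M →
      M = N.subgroupOf H ∨ M = ⊤ := by
    intro M hMn hNM
    haveI := hMn
    by_cases hpM : p0 ∣ Nat.card M
    · right
      obtain ⟨M1, hM1⟩ : ∃ M1 : Subgroup G, M1 = M.map H.subtype := ⟨_, rfl⟩
      have hM1H : M1 ≤ H := by rw [hM1]; exact Subgroup.map_subtype_le M
      have hNM1 : N ≤ M1 := by
        intro x hx
        rw [hM1]
        exact Subgroup.mem_map.mpr ⟨⟨x, hNH' hx⟩, hNM (Subgroup.mem_subgroupOf.mpr hx), rfl⟩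
      have hyM : ∀ y : G, y ∈ H → orderOf y = p0 → y ∈ M1 := by
        intro y hyH hy
        have h1 : orderOf (QuotientGroup.mk' M ⟨y, hyH⟩) ∣ p0 := by
          have := orderOf_map_dvd (QuotientGroup.mk' M) (⟨y, hyH⟩ : ↥H)
          rwa [Subgroup.orderOf_mk, hy] at this
        have h2 : orderOf (QuotientGroup.mk' M ⟨y, hyH⟩) ∣ Nat.card (↥H ⧸ M) :=
          orderOf_dvd_natCard _
        have h3 : ¬ p0 ∣ Nat.card (↥H ⧸ M) := by
          intro h
          have hmul : Nat.card ↥H = Nat.card (↥H ⧸ M) * Nat.card M :=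
            Subgroup.card_eq_card_quotient_mul_card_subgroup M
          have : p0 ^ 2 ∣ Nat.card H := by
            rw [hmul, pow_two]; exact Nat.mul_dvd_mul h hpM
          exact hπsq p0 hp0 hp0a hp0b (this.trans (Subgroup.card_subgroup_dvd_card H))
        have h4 : orderOf (QuotientGroup.mk' M ⟨y, hyH⟩) = 1 := by
          rcases (Nat.dvd_prime hp0).mp h1 with h | h
          · exact h
          · exact absurd (h ▸ h2) h3
        rw [orderOf_eq_one_iff, QuotientGroup.mk'_apply, QuotientGroup.eq_one_iff] at h4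
        rw [hM1]; exact Subgroup.mem_map.mpr ⟨⟨y, hyH⟩, h4, rfl⟩
      obtain ⟨x, hx⟩ := exists_prime_orderOf_dvd_card' p0 hpM
      have hxo : orderOf ((x : ↥H) : G) = p0 := by
        rw [Subgroup.orderOf_coe, Subgroup.orderOf_coe, hx]
      have hxC : ((x : ↥H) : G) ∈ M1.normalCore := by
        intro b
        apply hyM
        · exact hHn.conj_mem _ (x : ↥H).2 b
        · have h1 := (MulAut.conj b).orderOf_eq ((x : ↥H) : G)
          rw [MulAut.conj_apply] at h1
          rw [h1, hxo]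
      have hNC : N ≤ M1.normalCore := Subgroup.normal_le_normalCore.mpr hNM1
      have hNC' : N < M1.normalCore := by
        refine lt_of_le_of_ne hNC ?_
        intro h
        apply hp0N
        have hxN : ((x : ↥H) : G) ∈ N := h ▸ hxC
        have h1 := orderOf_dvd_natCard (⟨_, hxN⟩ : ↥N)
        rwa [Subgroup.orderOf_mk, hxo] at h1
      have h5 := hmin M1.normalCore inferInstance hNC'
      have h6 : M1.normalCore ≤ H := (Subgroup.normalCore_le M1).trans hM1H
      have h7 : M1.normalCore = H := Subgroup.eq_of_le_of_card_ge h6 h5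
      have h8 : M1 = H := le_antisymm hM1H (h7 ▸ Subgroup.normalCore_le M1)
      rw [eq_top_iff]
      intro z _
      have hz : (z : G) ∈ M1 := h8 ▸ z.2
      rw [hM1] at hz
      obtain ⟨z', hz', hzz⟩ := Subgroup.mem_map.mp hz
      have hzz' : z' = z := Subtype.ext hzz
      rwa [hzz'] at hz'
    · left
      have hc : (Nat.card M).Coprime p0 := ((Nat.Prime.coprime_iff_not_dvd hp0).mpr hpM).symm
      have h1 := Cfsg.Agent.Lib.Helper7.map_le_pPrimeCore_of_normal p0 H M hc
      rw [← hNdef] at h1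
      apply le_antisymm _ hNM
      intro z hz
      rw [Subgroup.mem_subgroupOf]
      exact h1 (Subgroup.mem_map.mpr ⟨z, hz, rfl⟩)
  have hnt : Nontrivial (↥H ⧸ N.subgroupOf H) := by
    obtain ⟨x, hxH, hxN⟩ := SetLike.exists_of_lt hNH
    refine ⟨⟨QuotientGroup.mk' _ ⟨x, hxH⟩, 1, fun h => hxN ?_⟩⟩
    rw [QuotientGroup.mk'_apply, QuotientGroup.eq_one_iff] at h
    exact Subgroup.mem_subgroupOf.mp h
  have hsimp : IsSimpleGroup (↥H ⧸ N.subgroupOf H) := by
    haveI := hnt
    refine ⟨fun K hK => ?_⟩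
    haveI := hK
    have hker : N.subgroupOf H ≤ K.comap (QuotientGroup.mk' (N.subgroupOf H)) := by
      intro z hz
      rw [Subgroup.mem_comap, QuotientGroup.mk'_apply, (QuotientGroup.eq_one_iff z).mpr hz]
      exact K.one_mem
    have hmap : (K.comap (QuotientGroup.mk' (N.subgroupOf H))).map
        (QuotientGroup.mk' (N.subgroupOf H)) = K :=
      Subgroup.map_comap_eq_self_of_surjective (QuotientGroup.mk'_surjective _) K
    rcases hsimple (K.comap (QuotientGroup.mk' (N.subgroupOf H))) inferInstance hker with h | h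
    · left
      rw [← hmap, h, eq_bot_iff]
      rintro _ ⟨z, hz, rfl⟩
      rw [Subgroup.mem_bot, QuotientGroup.mk'_apply, QuotientGroup.eq_one_iff]; exact hz
    · right
      rw [← hmap, h]
      exact Subgroup.map_top_of_surjective _ (QuotientGroup.mk'_surjective _)
  have hcardQ : Nat.card ↥H = Nat.card (↥H ⧸ N.subgroupOf H) * Nat.card N := by
    rw [Subgroup.card_eq_card_quotient_mul_card_subgroup (N.subgroupOf H),
      Cfsg.Agent.Lib.Lead.card_subgroupOf_of_le hNH']
  have hsyl : ∀ (t : ℕ) [Fact t.Prime], n < 2 * t → t ≤ n → ∀ (L : Subgroup G) [L.Normal],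
      t ∣ Nat.card L → ∃ P1 : Subgroup G, Nat.card P1 = t ∧
        L.index ∣ Nat.card (Subgroup.normalizer (P1 : Set G)) := by
    intro t hft ht1 ht2 L hLn htL
    have ht := hft.out
    obtain ⟨Q0⟩ : Nonempty (Sylow t ↥L) := inferInstance
    have hF := Sylow.normalizer_sup_eq_top Q0
    refine ⟨(Q0 : Subgroup ↥L).map L.subtype, ?_, ?_⟩
    · rw [Subgroup.card_map_of_injective L.subtype_injective, Sylow.card_eq_multiplicity]
      have h1 : 1 ≤ (Nat.card L).factorization t :=
        (ht.dvd_iff_one_le_factorization Nat.card_pos.ne').mp htL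
      have h2 : (Nat.card L).factorization t < 2 := by
        by_contra h
        have : t ^ 2 ∣ Nat.card L :=
          (ht.pow_dvd_iff_le_factorization Nat.card_pos.ne').mpr (by omega)
        exact hπsq t ht ht1 ht2 (this.trans (Subgroup.card_subgroup_dvd_card L))
      have h3 : (Nat.card L).factorization t = 1 := by omega
      rw [h3, pow_one]
    · have h1 : L.relIndex (Subgroup.normalizer (((Q0 : Subgroup ↥L).map L.subtype : Subgroup G) : Set G) ⊔ L)
          = L.relIndex (Subgroup.normalizer (((Q0 : Subgroup ↥L).map L.subtype : Subgroup G) : Set G)) :=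
        Subgroup.relIndex_sup_right _ _
      rw [hF, Subgroup.relIndex_top_right] at h1
      rw [h1]
      exact Subgroup.relIndex_dvd_card _ _
  have hdiv : ∀ q : ℕ, q.Prime → n < 2 * q → q ≤ n → q ∣ Nat.card (↥H ⧸ N.subgroupOf H) := by
    intro q hq hq1 hq2
    by_cases hqp : q = p0
    · subst hqp
      have h1 := hcardQ ▸ hp0H
      rcases (Nat.Prime.dvd_mul hq).mp h1 with h | h
      · exact h
      · exact absurd h hp0N
    · by_contra hcon
      haveI := Fact.mk hq
      by_cases hqN : q ∣ Nat.card N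
      · obtain ⟨Q1, hcardQ1, hidx⟩ := hsyl q hq1 hq2 N hqN
        have hp0idx : p0 ∣ N.index := by
          have h1 : Nat.card N * N.index = Nat.card G := Subgroup.card_mul_index N
          have h2 : p0 ∣ Nat.card N * N.index := h1 ▸ hπdvd p0 hp0 hp0a hp0b
          rcases (Nat.Prime.dvd_mul hp0).mp h2 with h | h
          · exact absurd h hp0N
          · exact h
        exact hK q p0 hq hp0 hqp hq1 hq2 hp0a hp0b Q1 hcardQ1 (hp0idx.trans hidx)
      · have hqH : ¬ q ∣ Nat.card H := by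
          rw [hcardQ]; intro h
          rcases (Nat.Prime.dvd_mul hq).mp h with h | h
          · exact hcon h
          · exact hqN h
        obtain ⟨P1, hcardP1, hidx⟩ := hsyl p0 hp0a hp0b H hp0H
        have hqidx : q ∣ H.index := by
          have h1 : Nat.card H * H.index = Nat.card G := Subgroup.card_mul_index H
          have h2 : q ∣ Nat.card H * H.index := h1 ▸ hπdvd q hq hq1 hq2
          rcases (Nat.Prime.dvd_mul hq).mp h2 with h | h
          · exact absurd h hqH
          · exact h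
        exact hK p0 q hp0 hq (Ne.symm hqp) hp0a hp0b hq1 hq2 P1 hcardP1 (hqidx.trans hidx)
  have hnc : ¬ IsMulCommutative (↥H ⧸ N.subgroupOf H) := by
    intro hcomm
    obtain ⟨p, q, hp, hq, hpq, h1, h2, h3, h4⟩ : ∃ p q : ℕ, p.Prime ∧ q.Prime ∧ p ≠ q ∧
        n < 2 * p ∧ p ≤ n ∧ n < 2 * q ∧ q ≤ n := by
      by_cases h12 : 12 ≤ n
      · obtain ⟨p, q, hp, hq, h1, h2, h3⟩ :=
          Cfsg.Agent.Lib.Helper2.TwoPrimes.two_primes (n / 2) (by omega)
        exact ⟨p, q, hp, hq, by omega, by omega, by omega, by omega, by omega⟩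
      · have h11 : n = 11 := by omega
        subst h11
        exact ⟨7, 11, by norm_num, by norm_num, by norm_num, by norm_num, by norm_num,
          by norm_num, by norm_num⟩
    letI : CommGroup (↥H ⧸ N.subgroupOf H) :=
      { (inferInstance : Group (↥H ⧸ N.subgroupOf H)) with
        mul_comm := fun a b => hcomm.is_comm.comm a b }
    have hprime : (Nat.card (↥H ⧸ N.subgroupOf H)).Prime :=
      @IsSimpleGroup.prime_card _ _ hsimp
    have e1 := (Nat.prime_dvd_prime_iff_eq hp hprime).mp (hdiv p hp h1 h2)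
    have e2 := (Nat.prime_dvd_prime_iff_eq hq hprime).mp (hdiv q hq h3 h4)
    exact hpq (e1.trans e2.symm)
  exact ⟨N, H, hNn, hHn, hNH, hsimp, hnc, hdiv⟩

end Cfsg.Agent.S3420
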