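import Cfsg.Statements.S3704

set_option autoImplicit false
open Cfsg

namespace Cfsg.Agent.S3704

open scoped Matrix

theorem colsum_zero {G X Y : Type*} [Group G] [MulAction G X] [MulAction G Y] [Fintype X] [Fintype Y]
    [MulAction.IsPretransitive G Y] (A : Matrix X Y ℚ)
    (hA : ∀ (g : G) x y, A (g • x) (g • y) = A x y) (hA0 : ∀ x, ∑ y, A x y = 0) :
    ∀ y, ∑ x, A x y = 0 := by
  intro y
  have hconst : ∀ y', ∑ x, A x y' = ∑ x, A x y := by
    intro y'
    obtain ⟨g, rfl⟩ := MulAction.exists_smul_eq G y y'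
    calc ∑ x, A x (g • y) = ∑ x, A (g • x) (g • y) :=
          (Equiv.sum_comp (MulAction.toPerm g) (fun x => A x (g • y))).symm
      _ = ∑ x, A x y := Finset.sum_congr rfl (fun x _ => hA g x y)
  have h1 : ∑ y', ∑ x, A x y' = 0 := by
    rw [Finset.sum_comm]; exact Finset.sum_eq_zero (fun x _ => hA0 x)
  rw [Finset.sum_congr rfl (fun y' _ => hconst y'), Finset.sum_const, Finset.card_univ,
    nsmul_eq_mul] at h1
  haveI : Nonempty Y := ⟨y⟩
  have hY : (Fintype.card Y : ℚ) ≠ 0 := by exact_mod_cast Fintype.card_ne_zero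
  exact (mul_eq_zero.mp h1).resolve_left hY

theorem rowsum_const {G X Y : Type*} [Group G] [MulAction G X] [MulAction G Y] [Fintype Y]
    [MulAction.IsPretransitive G X] (A : X → Y → ℚ)
    (hA : ∀ (g : G) x y, A (g • x) (g • y) = A x y) (x x' : X) :
    ∑ y, A x' y = ∑ y, A x y := by
  obtain ⟨g, rfl⟩ := MulAction.exists_smul_eq G x x'
  calc ∑ y, A (g • x) y = ∑ y, A (g • x) (g • y) :=
        (Equiv.sum_comp (MulAction.toPerm g) (fun y => A (g • x) y)).symm
    _ = ∑ y, A x y := Finset.sum_congr rfl (fun y _ => hA g x y)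

theorem gram {G X Y : Type*} [Group G] [MulAction G X] [MulAction G Y] [Fintype X] [DecidableEq X]
    [Fintype Y] (h2 : MulAction.IsMultiplyPretransitive G X 2) (hn : 2 ≤ Fintype.card X)
    (A B : Matrix X Y ℚ) (hA : ∀ (g : G) x y, A (g • x) (g • y) = A x y)
    (hB : ∀ (g : G) x y, B (g • x) (g • y) = B x y) (hB0 : ∀ y, ∑ x, B x y = 0) :
    ∃ d e : ℚ, A * Bᵀ = d • (1 : Matrix X X ℚ) + e • (Matrix.of (fun _ _ => (1:ℚ)) : Matrix X X ℚ) ∧
      Matrix.trace (A * Bᵀ) = (Fintype.card X - 1 : ℚ) * d := by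
  obtain ⟨M, hM⟩ : ∃ M : Matrix X X ℚ, M = A * Bᵀ := ⟨_, rfl⟩
  rw [← hM]
  have hMinv : ∀ (g : G) x x', M (g • x) (g • x') = M x x' := by
    intro g x x'
    simp only [hM, Matrix.mul_apply, Matrix.transpose_apply]
    calc ∑ y, A (g • x) y * B (g • x') y = ∑ y, A (g • x) (g • y) * B (g • x') (g • y) :=
          (Equiv.sum_comp (MulAction.toPerm g) (fun y => A (g • x) y * B (g • x') y)).symm
      _ = ∑ y, A x y * B x' y := Finset.sum_congr rfl (fun y _ => by rw [hA, hB])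
  have hrow : ∀ x, ∑ x', M x x' = 0 := by
    intro x
    simp only [hM, Matrix.mul_apply, Matrix.transpose_apply]
    rw [Finset.sum_comm]
    apply Finset.sum_eq_zero
    intro y _
    rw [← Finset.mul_sum, hB0 y, mul_zero]
  obtain ⟨x₀, x₁, h01⟩ : ∃ x₀ x₁ : X, x₀ ≠ x₁ := Fintype.one_lt_card_iff.mp (by omega)
  haveI : MulAction.IsPretransitive G X := MulAction.isPretransitive_of_is_two_pretransitive
  have hdiag : ∀ x, M x x = M x₀ x₀ := by
    intro x
    obtain ⟨g, rfl⟩ := MulAction.exists_smul_eq G x₀ x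
    exact hMinv g x₀ x₀
  have hoff : ∀ x x', x ≠ x' → M x x' = M x₀ x₁ := by
    intro x x' hne
    obtain ⟨g, rfl, rfl⟩ := MulAction.is_two_pretransitive_iff.mp h2 h01 hne
    exact hMinv g x₀ x₁
  have hsum : M x₀ x₀ + (Fintype.card X - 1 : ℚ) * M x₀ x₁ = 0 := by
    have h := hrow x₀
    rw [← Finset.add_sum_erase Finset.univ _ (Finset.mem_univ x₀)] at h
    rw [Finset.sum_congr rfl (fun x' hx' => hoff x₀ x' (Finset.ne_of_mem_erase hx').symm),
      Finset.sum_const, Finset.card_erase_of_mem (Finset.mem_univ x₀), Finset.card_univ,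
      nsmul_eq_mul, Nat.cast_sub (by omega), Nat.cast_one] at h
    exact h
  refine ⟨M x₀ x₀ - M x₀ x₁, M x₀ x₁, ?_, ?_⟩
  · ext x x'
    rw [Matrix.add_apply, Matrix.smul_apply, Matrix.smul_apply, Matrix.one_apply, Matrix.of_apply,
      smul_eq_mul, smul_eq_mul]
    by_cases hxx : x = x'
    · subst hxx; rw [if_pos rfl, hdiag x]; ring
    · rw [if_neg hxx, hoff x x' hxx]; ring
  · rw [Matrix.trace]
    simp only [Matrix.diag_apply]
    rw [Finset.sum_congr rfl (fun x _ => hdiag x), Finset.sum_const, Finset.card_univ, nsmul_eq_mul]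
    linear_combination hsum

theorem sumsq_pos {X Y : Type*} [Fintype X] [Fintype Y] (F : Matrix X Y ℚ) (hF : F ≠ 0) :
    0 < ∑ x, ∑ y, F x y * F x y := by
  obtain ⟨x, y, hxy⟩ : ∃ x y, F x y ≠ 0 := by
    by_contra hh
    push_neg at hh
    exact hF (by ext x y; exact hh x y)
  calc 0 < F x y * F x y := mul_self_pos.mpr hxy
    _ ≤ ∑ y', F x y' * F x y' :=
        Finset.single_le_sum (f := fun y' => F x y' * F x y') (fun y' _ => mul_self_nonneg _)
          (Finset.mem_univ y)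
    _ ≤ ∑ x', ∑ y', F x' y' * F x' y' :=
        Finset.single_le_sum (f := fun x' => ∑ y', F x' y' * F x' y')
          (fun x' _ => Finset.sum_nonneg (fun y' _ => mul_self_nonneg _)) (Finset.mem_univ x)

theorem core {G X Y : Type*} [Group G] [MulAction G X] [MulAction G Y] [Fintype X] [DecidableEq X]
    [Fintype Y] [DecidableEq Y] (h2 : MulAction.IsMultiplyPretransitive G X 2)
    [MulAction.IsPretransitive G Y] (hcard : Fintype.card Y = Fintype.card X)
    (hn : 3 ≤ Fintype.card X)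
    (A C : Matrix X Y ℚ) (hA : ∀ (g : G) x y, A (g • x) (g • y) = A x y)
    (hC : ∀ (g : G) x y, C (g • x) (g • y) = C x y)
    (hA0 : ∀ x, ∑ y, A x y = 0) (hC0 : ∀ x, ∑ y, C x y = 0)
    (hAC : ∑ x, ∑ y, A x y * C x y = 0) (hAne : A ≠ 0) (hCne : C ≠ 0) : False := by
  have hn2 : 2 ≤ Fintype.card X := by omega
  have hAc := colsum_zero (G := G) A hA hA0
  have hCc := colsum_zero (G := G) C hC hC0
  obtain ⟨a, e₁, hAA, htA⟩ := gram h2 hn2 A A hA hA hAc
  obtain ⟨c, e₂, hCC, htC⟩ := gram h2 hn2 C C hC hC hCc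
  obtain ⟨d, e₃, hACm, htAC⟩ := gram h2 hn2 A C hA hC hCc
  have hn3 : (3 : ℚ) ≤ Fintype.card X := by exact_mod_cast hn
  have hn1 : (Fintype.card X - 1 : ℚ) ≠ 0 := by linarith
  have hn1' : (0 : ℚ) < Fintype.card X - 1 := by linarith
  have trAA : Matrix.trace (A * Aᵀ) = ∑ x, ∑ y, A x y * A x y := by
    simp [Matrix.trace, Matrix.mul_apply]
  have trCC : Matrix.trace (C * Cᵀ) = ∑ x, ∑ y, C x y * C x y := by
    simp [Matrix.trace, Matrix.mul_apply]
  have trAC : Matrix.trace (A * Cᵀ) = ∑ x, ∑ y, A x y * C x y := by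
    simp [Matrix.trace, Matrix.mul_apply]
  have hd : d = 0 := by
    rw [trAC, hAC] at htAC
    exact (mul_eq_zero.mp htAC.symm).resolve_left hn1
  have ha : 0 < a := by
    have h1 := sumsq_pos A hAne
    rw [← trAA, htA] at h1
    exact (mul_pos_iff_of_pos_left hn1').mp h1
  have hc : 0 < c := by
    have h1 := sumsq_pos C hCne
    rw [← trCC, htC] at h1
    exact (mul_pos_iff_of_pos_left hn1').mp h1
  obtain ⟨J, hJ⟩ : ∃ J : Matrix X X ℚ, J = Matrix.of (fun _ _ => (1:ℚ)) := ⟨_, rfl⟩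
  rw [← hJ] at hAA hCC hACm
  have hJA : J * A = 0 := by
    ext x y
    simp only [Matrix.mul_apply, hJ, Matrix.of_apply, one_mul, Matrix.zero_apply]
    exact hAc y
  have hJC : J * C = 0 := by
    ext x y
    simp only [Matrix.mul_apply, hJ, Matrix.of_apply, one_mul, Matrix.zero_apply]
    exact hCc y
  have hJT : Jᵀ = J := by
    ext x y
    simp [hJ]
  obtain ⟨P, hP⟩ : ∃ P : Matrix Y Y ℚ, P = Aᵀ * A := ⟨_, rfl⟩
  obtain ⟨Q, hQ⟩ : ∃ Q : Matrix Y Y ℚ, Q = Cᵀ * C := ⟨_, rfl⟩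
  have hPP : P * P = a • P := by
    calc P * P = Aᵀ * ((A * Aᵀ) * A) := by simp only [hP, Matrix.mul_assoc]
      _ = Aᵀ * ((a • (1 : Matrix X X ℚ) + e₁ • J) * A) := by rw [hAA]
      _ = a • P := by
        rw [Matrix.add_mul, Matrix.smul_mul, Matrix.smul_mul, Matrix.one_mul, hJA, smul_zero,
          add_zero, Matrix.mul_smul, hP]
  have hQQ : Q * Q = c • Q := by
    calc Q * Q = Cᵀ * ((C * Cᵀ) * C) := by simp only [hQ, Matrix.mul_assoc]
      _ = Cᵀ * ((c • (1 : Matrix X X ℚ) + e₂ • J) * C) := by rw [hCC]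
      _ = c • Q := by
        rw [Matrix.add_mul, Matrix.smul_mul, Matrix.smul_mul, Matrix.one_mul, hJC, smul_zero,
          add_zero, Matrix.mul_smul, hQ]
  have hPQ : P * Q = 0 := by
    calc P * Q = Aᵀ * ((A * Cᵀ) * C) := by simp only [hP, hQ, Matrix.mul_assoc]
      _ = Aᵀ * ((d • (1 : Matrix X X ℚ) + e₃ • J) * C) := by rw [hACm]
      _ = 0 := by
        rw [hd, zero_smul, zero_add, Matrix.smul_mul, hJC, smul_zero, Matrix.mul_zero]
  have hCA : C * Aᵀ = e₃ • J := by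
    have h := congrArg Matrix.transpose hACm
    rw [Matrix.transpose_mul, Matrix.transpose_transpose, hd, zero_smul, zero_add,
      Matrix.transpose_smul, hJT] at h
    exact h
  have hQP : Q * P = 0 := by
    calc Q * P = Cᵀ * ((C * Aᵀ) * A) := by simp only [hP, hQ, Matrix.mul_assoc]
      _ = 0 := by rw [hCA, Matrix.smul_mul, hJA, smul_zero, Matrix.mul_zero]
  have hPT : Pᵀ = P := by rw [hP, Matrix.transpose_mul, Matrix.transpose_transpose]
  have hQT : Qᵀ = Q := by rw [hQ, Matrix.transpose_mul, Matrix.transpose_transpose]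
  obtain ⟨R, hR⟩ : ∃ R : Matrix Y Y ℚ, R = (a * c) • (1 : Matrix Y Y ℚ) - c • P - a • Q := ⟨_, rfl⟩
  have hRR : R * R = (a * c) • R := by
    rw [hR]
    simp only [sub_mul, mul_sub, Matrix.smul_mul, Matrix.mul_smul, Matrix.one_mul, Matrix.mul_one,
      hPP, hQQ, hPQ, hQP, smul_zero, sub_zero, smul_sub, smul_smul]
    module
  have hRT : Rᵀ = R := by
    rw [hR, Matrix.transpose_sub, Matrix.transpose_sub, Matrix.transpose_smul, Matrix.transpose_smul,
      Matrix.transpose_smul, Matrix.transpose_one, hPT, hQT]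
  have htrR : Matrix.trace R = a * c * (2 - Fintype.card X) := by
    rw [hR, Matrix.trace_sub, Matrix.trace_sub, Matrix.trace_smul, Matrix.trace_smul,
      Matrix.trace_smul, Matrix.trace_one, hP, hQ, Matrix.trace_mul_comm Aᵀ A,
      Matrix.trace_mul_comm Cᵀ C, htA, htC, hcard]
    simp only [smul_eq_mul]
    ring
  have hnonneg : 0 ≤ Matrix.trace (R * Rᵀ) := by
    simp only [Matrix.trace, Matrix.diag_apply, Matrix.mul_apply, Matrix.transpose_apply]
    exact Finset.sum_nonneg (fun i _ => Finset.sum_nonneg (fun j _ => mul_self_nonneg _))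
  rw [hRT, hRR, Matrix.trace_smul, htrR, smul_eq_mul] at hnonneg
  have hac : 0 < a * c := mul_pos ha hc
  nlinarith [mul_pos hac hac]

open Classical in
/-- orbit matrix -/
noncomputable def orbMat {G Ω : Type*} [Group G] [MulAction G Ω] (H : Subgroup G)
    (q : MulAction.orbitRel.Quotient H Ω) : Ω → G ⧸ H → ℚ := fun α y =>
  Quotient.liftOn' y
    (fun g => if (Quotient.mk'' (g⁻¹ • α) : MulAction.orbitRel.Quotient H Ω) = q then (1:ℚ) else 0)
    (by
      intro g g' hgg'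
      have hh : g⁻¹ * g' ∈ H := QuotientGroup.leftRel_apply.mp hgg'
      have h1 : (Quotient.mk'' (g'⁻¹ • α) : MulAction.orbitRel.Quotient H Ω)
          = Quotient.mk'' (g⁻¹ • α) := by
        apply Quotient.sound'
        show g'⁻¹ • α ∈ MulAction.orbit H (g⁻¹ • α)
        refine ⟨⟨(g⁻¹ * g')⁻¹, H.inv_mem hh⟩, ?_⟩
        show (g⁻¹ * g')⁻¹ • g⁻¹ • α = g'⁻¹ • α
        rw [smul_smul]
        congr 1
        group
      simp only [h1])

open Classical in
theorem orbMat_mk {G Ω : Type*} [Group G] [MulAction G Ω] (H : Subgroup G)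
    (q : MulAction.orbitRel.Quotient H Ω) (α : Ω) (g : G) :
    orbMat H q α (QuotientGroup.mk g) =
      if (Quotient.mk'' (g⁻¹ • α) : MulAction.orbitRel.Quotient H Ω) = q then (1:ℚ) else 0 := rfl

theorem orbMat_inv {G Ω : Type*} [Group G] [MulAction G Ω] (H : Subgroup G)
    (q : MulAction.orbitRel.Quotient H Ω) (x : G) (α : Ω) (y : G ⧸ H) :
    orbMat H q (x • α) (x • y) = orbMat H q α y := by
  induction y using QuotientGroup.induction_on with
  | H g =>
    have e : x • (QuotientGroup.mk g : G ⧸ H) = QuotientGroup.mk (x * g) := rfl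
    rw [e, orbMat_mk, orbMat_mk, mul_inv_rev, mul_smul, inv_smul_smul]

theorem orbMat_nonneg {G Ω : Type*} [Group G] [MulAction G Ω] (H : Subgroup G)
    (q : MulAction.orbitRel.Quotient H Ω) (α : Ω) (y : G ⧸ H) : 0 ≤ orbMat H q α y := by
  induction y using QuotientGroup.induction_on with
  | H g =>
    rw [orbMat_mk]
    split_ifs <;> norm_num

open Classical in
theorem orbMat_one {G Ω : Type*} [Group G] [MulAction G Ω] (H : Subgroup G)
    (q q' : MulAction.orbitRel.Quotient H Ω) (α : Ω)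
    (hα : (Quotient.mk'' α : MulAction.orbitRel.Quotient H Ω) = q') :
    orbMat H q α (QuotientGroup.mk (1 : G)) = if q' = q then 1 else 0 := by
  rw [orbMat_mk, inv_one, one_smul, hα]

theorem three_orbits {G Ω : Type*} [Group G] [MulAction G Ω] [Fintype Ω] [DecidableEq Ω]
    (h2 : MulAction.IsMultiplyPretransitive G Ω 2) (H : Subgroup G) [Fintype (G ⧸ H)]
    [DecidableEq (G ⧸ H)] (hcard : Fintype.card (G ⧸ H) = Fintype.card Ω) (hn : 3 ≤ Fintype.card Ω)
    (q₁ q₂ q₃ : MulAction.orbitRel.Quotient H Ω) (h12 : q₁ ≠ q₂) (h13 : q₁ ≠ q₃) (h23 : q₂ ≠ q₃) :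
    False := by
  haveI : MulAction.IsPretransitive G Ω := MulAction.isPretransitive_of_is_two_pretransitive
  obtain ⟨α₁, hα₁⟩ := Quotient.mk''_surjective q₁
  obtain ⟨α₂, hα₂⟩ := Quotient.mk''_surjective q₂
  obtain ⟨α₃, hα₃⟩ := Quotient.mk''_surjective q₃
  have hrow : ∀ (q : MulAction.orbitRel.Quotient H Ω) (x : Ω),
      ∑ y, orbMat H q x y = ∑ y, orbMat H q α₁ y :=
    fun q x => rowsum_const (G := G) (orbMat H q) (orbMat_inv H q) α₁ x
  have hpos : ∀ (q : MulAction.orbitRel.Quotient H Ω) (α : Ω),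
      (Quotient.mk'' α : MulAction.orbitRel.Quotient H Ω) = q → 0 < ∑ y, orbMat H q α₁ y := by
    intro q α hα
    rw [← hrow q α]
    calc (0:ℚ) < 1 := one_pos
      _ = orbMat H q α (QuotientGroup.mk (1 : G)) := by rw [orbMat_one H q q α hα, if_pos rfl]
      _ ≤ ∑ y, orbMat H q α y :=
          Finset.single_le_sum (f := fun y => orbMat H q α y) (fun y _ => orbMat_nonneg H q α y)
            (Finset.mem_univ _)
  obtain ⟨r₁, hr₁⟩ : ∃ r, r = ∑ y, orbMat H q₁ α₁ y := ⟨_, rfl⟩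
  obtain ⟨r₂, hr₂⟩ : ∃ r, r = ∑ y, orbMat H q₂ α₁ y := ⟨_, rfl⟩
  obtain ⟨r₃, hr₃⟩ : ∃ r, r = ∑ y, orbMat H q₃ α₁ y := ⟨_, rfl⟩
  have hr₁pos : 0 < r₁ := hr₁ ▸ hpos q₁ α₁ hα₁
  have hr₂pos : 0 < r₂ := hr₂ ▸ hpos q₂ α₂ hα₂
  obtain ⟨A, hAdef⟩ : ∃ A : Matrix Ω (G ⧸ H) ℚ,
      A = fun α y => r₂ * orbMat H q₁ α y - r₁ * orbMat H q₂ α y := ⟨_, rfl⟩
  obtain ⟨B, hBdef⟩ : ∃ B : Matrix Ω (G ⧸ H) ℚ,
      B = fun α y => r₃ * orbMat H q₁ α y - r₁ * orbMat H q₃ α y := ⟨_, rfl⟩
  have hAinv : ∀ (g : G) x y, A (g • x) (g • y) = A x y := by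
    intro g x y; simp only [hAdef, orbMat_inv]
  have hBinv : ∀ (g : G) x y, B (g • x) (g • y) = B x y := by
    intro g x y; simp only [hBdef, orbMat_inv]
  have hA0 : ∀ x, ∑ y, A x y = 0 := by
    intro x
    simp only [hAdef]
    rw [Finset.sum_sub_distrib, ← Finset.mul_sum, ← Finset.mul_sum, hrow q₁ x, hrow q₂ x, ← hr₁, ← hr₂]
    ring
  have hB0 : ∀ x, ∑ y, B x y = 0 := by
    intro x
    simp only [hBdef]
    rw [Finset.sum_sub_distrib, ← Finset.mul_sum, ← Finset.mul_sum, hrow q₁ x, hrow q₃ x, ← hr₁, ← hr₃]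
    ring
  have hAne : A ≠ 0 := by
    intro h
    have h1 := congrFun (congrFun h α₁) (QuotientGroup.mk (1 : G))
    rw [hAdef] at h1
    simp only [Matrix.zero_apply] at h1
    rw [orbMat_one H q₁ q₁ α₁ hα₁, orbMat_one H q₂ q₁ α₁ hα₁, if_pos rfl, if_neg h12] at h1
    linarith
  obtain ⟨s, hs⟩ : ∃ s, s = ∑ x, ∑ y, A x y * A x y := ⟨_, rfl⟩
  obtain ⟨t, ht⟩ : ∃ t, t = ∑ x, ∑ y, A x y * B x y := ⟨_, rfl⟩
  have hspos : 0 < s := hs ▸ sumsq_pos A hAne
  obtain ⟨C, hCdef⟩ : ∃ C : Matrix Ω (G ⧸ H) ℚ, C = fun α y => s * B α y - t * A α y := ⟨_, rfl⟩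
  have hCinv : ∀ (g : G) x y, C (g • x) (g • y) = C x y := by
    intro g x y; simp only [hCdef, hAinv, hBinv]
  have hC0 : ∀ x, ∑ y, C x y = 0 := by
    intro x
    simp only [hCdef]
    rw [Finset.sum_sub_distrib, ← Finset.mul_sum, ← Finset.mul_sum, hA0 x, hB0 x]
    ring
  have hAC : ∑ x, ∑ y, A x y * C x y = 0 := by
    have h1 : ∀ x y, A x y * C x y = s * (A x y * B x y) - t * (A x y * A x y) := by
      intro x y; simp only [hCdef]; ring
    simp only [h1, Finset.sum_sub_distrib, ← Finset.mul_sum]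
    rw [← hs, ← ht]
    ring
  have hCne : C ≠ 0 := by
    intro h
    have h1 := congrFun (congrFun h α₃) (QuotientGroup.mk (1 : G))
    rw [hCdef] at h1
    simp only [Matrix.zero_apply, hAdef, hBdef] at h1
    rw [orbMat_one H q₁ q₃ α₃ hα₃, orbMat_one H q₂ q₃ α₃ hα₃, orbMat_one H q₃ q₃ α₃ hα₃,
      if_pos rfl, if_neg (Ne.symm h13), if_neg (Ne.symm h23)] at h1
    have h2 : s * r₁ = 0 := by linarith
    rcases mul_eq_zero.mp h2 with h3 | h3
    · linarith
    · linarith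
  exact core (G := G) h2 hcard hn A C hAinv hCinv hA0 hC0 hAC hAne hCne

theorem result {G Ω : Type*} [Group G] [Finite G] [MulAction G Ω] [FaithfulSMul G Ω] [Finite Ω] (h2 : MulAction.IsMultiplyPretransitive G Ω 2) (H : Subgroup G) (hidx : H.index = Nat.card Ω) (hnt : ¬ MulAction.IsPretransitive H Ω) (hfix : ∀ a : Ω, ∃ h : H, h • a ≠ a) : Nat.card (MulAction.orbitRel.Quotient H Ω) = 2 := by
  classical
  letI : Fintype Ω := Fintype.ofFinite Ω
  letI : Fintype (G ⧸ H) := Fintype.ofFinite _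
  have hcard : Fintype.card (G ⧸ H) = Fintype.card Ω := by
    rw [← Nat.card_eq_fintype_card, ← Nat.card_eq_fintype_card, ← hidx]
    rfl
  have hidx0 : H.index ≠ 0 := Subgroup.index_ne_zero_of_finite
  haveI : Nonempty Ω := by
    rw [hidx] at hidx0
    exact (Nat.card_pos_iff.mp (Nat.pos_of_ne_zero hidx0)).1
  obtain ⟨α₀⟩ := ‹Nonempty Ω›
  haveI : Nonempty (MulAction.orbitRel.Quotient H Ω) := ⟨Quotient.mk'' α₀⟩
  letI : Fintype (MulAction.orbitRel.Quotient H Ω) := Fintype.ofFinite _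
  by_contra hne
  have h0 : 0 < Nat.card (MulAction.orbitRel.Quotient H Ω) := Nat.card_pos
  have h1 : Nat.card (MulAction.orbitRel.Quotient H Ω) ≠ 1 := by
    intro h
    apply hnt
    rw [MulAction.pretransitive_iff_subsingleton_quotient]
    exact (Nat.card_eq_one_iff_unique.mp h).1
  have h3 : 2 < Fintype.card (MulAction.orbitRel.Quotient H Ω) := by
    rw [← Nat.card_eq_fintype_card]; omega
  obtain ⟨q₁, q₂, q₃, h12, h13, h23⟩ := Fintype.two_lt_card_iff.mp h3
  have hn : 3 ≤ Fintype.card Ω := by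
    have hle : Nat.card (MulAction.orbitRel.Quotient H Ω) ≤ Nat.card Ω :=
      Nat.card_le_card_of_surjective (Quotient.mk'' : Ω → MulAction.orbitRel.Quotient H Ω)
        Quotient.mk''_surjective
    rw [← Nat.card_eq_fintype_card]
    omega
  exact three_orbits h2 H hcard hn q₁ q₂ q₃ h12 h13 h23

end Cfsg.Agent.S3704
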