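import Cfsg.Statements.S3733
import Mathlib

set_option autoImplicit false
open Cfsg

namespace Cfsg.Agent.S3733

open scoped IsMulCommutative in
/-- Let A and V be subgroups of a finite group with V abelian and nontrivial and A normalizing V. Suppose a nonempty finite family of proper subgroups of A partitions A: every non-identity element of A lies in exactly one member. If the number of members minus one is coprime to the order of V, then some member B of the family has a non-identity fixed point on V, that is V ∩ C(B) ≠ 1. -/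
theorem result {G : Type*} [Group G] [Finite G] (A V : Subgroup G) (hVab : IsMulCommutative V) (hV : V ≠ ⊥) (hAV : A ≤ Subgroup.normalizer (V : Set G)) (𝒜 : Finset (Subgroup G)) (hne : 𝒜.Nonempty) (hprop : ∀ B ∈ 𝒜, B < A) (hpart : ∀ a ∈ A, a ≠ 1 → ∃! B, B ∈ 𝒜 ∧ a ∈ B) (hk : (𝒜.card - 1).Coprime (Nat.card V)) : ∃ B ∈ 𝒜, V ⊓ Subgroup.centralizer (B : Set G) ≠ ⊥ := by
  classical
  by_contra hcon
  push Not at hcon
  have : Fintype G := Fintype.ofFinite G
  have : IsMulCommutative ↥V := hVab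
  let cj : G → (↥V →* ↥V) := fun g =>
    if h : g ∈ Subgroup.normalizer (V : Set G) then
      { toFun := fun v => ⟨g * v * g⁻¹, (Subgroup.mem_normalizer_iff.mp h v).mp v.2⟩
        map_one' := by apply Subtype.ext; simp
        map_mul' := by intro v w; apply Subtype.ext; simp [mul_assoc] }
    else MonoidHom.id _
  have cj_val : ∀ g, g ∈ Subgroup.normalizer (V : Set G) → ∀ v : ↥V,
      ((cj g v : ↥V) : G) = g * v * g⁻¹ := by
    intro g hg v
    simp only [cj, dif_pos hg]
    rfl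
  let S : Subgroup G → Finset G := fun H => Finset.univ.filter (fun g => g ∈ H)
  have hS : ∀ (H : Subgroup G) (g : G), g ∈ S H ↔ g ∈ H := by
    intro H g; simp [S]
  have hfix : ∀ H : Subgroup G, H ≤ Subgroup.normalizer (V : Set G) → ∀ v : ↥V, ∀ b ∈ H,
      cj b (∏ g ∈ S H, cj g v) = ∏ g ∈ S H, cj g v := by
    intro H hH v b hb
    rw [map_prod]
    apply Finset.prod_equiv (Equiv.mulLeft b)
    · intro g
      rw [hS, hS, Equiv.coe_mulLeft]
      exact (H.mul_mem_cancel_left hb).symm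
    · intro g hg
      rw [hS] at hg
      apply Subtype.ext
      rw [cj_val b (hH hb), cj_val g (hH hg), Equiv.coe_mulLeft,
        cj_val (b * g) (hH (H.mul_mem hb hg))]
      group
  have hN1 : ∀ H : Subgroup G, H ≤ Subgroup.normalizer (V : Set G) →
      (V ⊓ Subgroup.centralizer (H : Set G) = ⊥) → ∀ v : ↥V, ∏ g ∈ S H, cj g v = 1 := by
    intro H hH hbot v
    have hmem : ((∏ g ∈ S H, cj g v : ↥V) : G) ∈ V ⊓ Subgroup.centralizer (H : Set G) := by
      refine ⟨Subtype.property _, ?_⟩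
      show ((∏ g ∈ S H, cj g v : ↥V) : G) ∈ Subgroup.centralizer (H : Set G)
      rw [Subgroup.mem_centralizer_iff]
      intro b hb
      have h1 := congrArg Subtype.val (hfix H hH v b hb)
      rw [cj_val b (hH hb)] at h1
      calc b * ((∏ g ∈ S H, cj g v : ↥V) : G)
          = b * ((∏ g ∈ S H, cj g v : ↥V) : G) * b⁻¹ * b := by group
        _ = ((∏ g ∈ S H, cj g v : ↥V) : G) * b := by rw [h1]
    rw [hbot, Subgroup.mem_bot] at hmem
    exact Subtype.ext hmem
  obtain ⟨B₀, hB₀⟩ := hne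
  have hNB : ∀ B ∈ 𝒜, ∀ v : ↥V, ∏ g ∈ S B, cj g v = 1 :=
    fun B hB => hN1 B ((hprop B hB).le.trans hAV) (hcon B hB)
  have hNA : ∀ v : ↥V, ∏ g ∈ S A, cj g v = 1 := by
    apply hN1 A hAV
    rw [eq_bot_iff, ← hcon B₀ hB₀]
    exact inf_le_inf_left _ (Subgroup.centralizer_le (hprop B₀ hB₀).le)
  have hcj1 : ∀ v : ↥V, cj 1 v = v := by
    intro v
    apply Subtype.ext
    rw [cj_val 1 (Subgroup.one_mem _)]
    simp
  have hsplit : ∀ H : Subgroup G, ∀ v : ↥V,
      ∏ g ∈ S H, cj g v = v * ∏ g ∈ (S H).erase 1, cj g v := by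
    intro H v
    rw [← Finset.mul_prod_erase (S H) (fun g => cj g v) ((hS H 1).mpr H.one_mem), hcj1]
  have hunion : 𝒜.biUnion (fun B => (S B).erase 1) = (S A).erase 1 := by
    ext g
    simp only [Finset.mem_biUnion, Finset.mem_erase, hS]
    constructor
    · rintro ⟨B, hB, hg1, hgB⟩
      exact ⟨hg1, (hprop B hB).le hgB⟩
    · rintro ⟨hg1, hgA⟩
      obtain ⟨B, ⟨hB, hgB⟩, -⟩ := hpart g hgA hg1
      exact ⟨B, hB, hg1, hgB⟩
  have hdisj : (𝒜 : Set (Subgroup G)).PairwiseDisjoint (fun B => (S B).erase 1) := by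
    intro B hB B' hB' hne
    rw [Function.onFun, Finset.disjoint_left]
    intro g hg hg'
    rw [Finset.mem_erase, hS] at hg hg'
    apply hne
    obtain ⟨B'', -, huniq⟩ := hpart g ((hprop B hB).le hg.2) hg.1
    rw [huniq B ⟨hB, hg.2⟩, huniq B' ⟨hB', hg'.2⟩]
  have hkey : ∀ v : ↥V, v ^ (𝒜.card - 1) = 1 := by
    intro v
    have h1 : ∏ B ∈ 𝒜, ∏ g ∈ S B, cj g v = 1 := Finset.prod_eq_one (fun B hB => hNB B hB v)
    have h2 : ∏ B ∈ 𝒜, ∏ g ∈ S B, cj g v = v ^ 𝒜.card * ∏ g ∈ (S A).erase 1, cj g v := by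
      rw [← hunion, Finset.prod_biUnion hdisj, ← Finset.prod_const, ← Finset.prod_mul_distrib]
      exact Finset.prod_congr rfl (fun B _ => hsplit B v)
    have h3 := hNA v
    rw [hsplit A v] at h3
    rw [h2] at h1
    have h4 : v ^ 𝒜.card = v ^ (𝒜.card - 1) * v := by
      rw [← pow_succ]
      congr 1
      have := Finset.card_pos.mpr ⟨B₀, hB₀⟩
      omega
    rw [h4, mul_assoc, h3, mul_one] at h1
    exact h1
  apply hV
  rw [eq_bot_iff]
  intro x hx
  have h1 := hkey ⟨x, hx⟩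
  have h2 : orderOf (⟨x, hx⟩ : ↥V) ∣ Nat.gcd (𝒜.card - 1) (Nat.card V) :=
    Nat.dvd_gcd (orderOf_dvd_of_pow_eq_one h1) (orderOf_dvd_natCard _)
  rw [hk] at h2
  have h3 := orderOf_eq_one_iff.mp (Nat.dvd_one.mp h2)
  rw [Subgroup.mem_bot]
  exact congrArg Subtype.val h3

end Cfsg.Agent.S3733
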