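import Cfsg.Statements.S3735
import Cfsg.Agent.Lib.Helper6.Conj
import Cfsg.Agent.Lib.Helper6.Comm
import Cfsg.Agent.Lib.Lead.Coprime

set_option autoImplicit false
open Cfsg

namespace Cfsg.Agent.S3735

open Cfsg.Agent.Lib.Helper6

section
variable {G : Type*} [Group G]

theorem inv_sup {A X Y : Subgroup G} (hX : A ≤ Subgroup.normalizer (X : Set G))
    (hY : A ≤ Subgroup.normalizer (Y : Set G)) :
    A ≤ Subgroup.normalizer ((X ⊔ Y : Subgroup G) : Set G) := by
  intro a ha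
  rw [mem_normalizer_iff_cj, Subgroup.map_sup, mem_normalizer_iff_cj.mp (hX ha),
    mem_normalizer_iff_cj.mp (hY ha)]

theorem inv_inf {A X Y : Subgroup G} (hX : A ≤ Subgroup.normalizer (X : Set G))
    (hY : A ≤ Subgroup.normalizer (Y : Set G)) :
    A ≤ Subgroup.normalizer ((X ⊓ Y : Subgroup G) : Set G) := by
  intro a ha
  rw [Subgroup.mem_normalizer_iff]
  intro d
  have h1 := (Subgroup.mem_normalizer_iff.mp (hX ha)) d
  have h2 := (Subgroup.mem_normalizer_iff.mp (hY ha)) d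
  rw [Subgroup.mem_inf, Subgroup.mem_inf, h1, h2]

theorem map_iSup_le {ι : Sort*} (f : ι → Subgroup G) (g : G)
    (h : ∀ i, ∃ j, (f i).map (MulAut.conj g).toMonoidHom ≤ f j) :
    (⨆ i, f i).map (MulAut.conj g).toMonoidHom ≤ ⨆ i, f i := by
  rw [Subgroup.map_iSup]
  apply iSup_le
  intro i
  obtain ⟨j, hj⟩ := h i
  exact hj.trans (le_iSup f j)

theorem inv_iSup [Finite G] {ι : Sort*} (f : ι → Subgroup G) (A : Subgroup G)
    (h : ∀ a ∈ A, ∀ i, ∃ j, (f i).map (MulAut.conj a).toMonoidHom ≤ f j) :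
    A ≤ Subgroup.normalizer ((⨆ i, f i : Subgroup G) : Set G) := by
  intro a ha
  apply mem_normalizer_of_conj_mem
  intro d hd
  exact map_iSup_le f a (h a ha) ⟨d, hd, by simp [MulAut.conj_apply]⟩

/-- complement lemma: if `V` is a join of `A`-irreducible subgroups, then every `A`-invariant
subgroup has an `A`-invariant complement. -/
theorem exists_compl_of_irred [Finite G] (A V : Subgroup G)
    (hVc : ∀ x ∈ V, ∀ y ∈ V, x * y = y * x)
    {ι : Type*} (f : ι → Subgroup G) (hfV : (⨆ i, f i) = V)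
    (hfinv : ∀ i, A ≤ Subgroup.normalizer (f i : Set G))
    (hfirr : ∀ i, ∀ T : Subgroup G, T ≤ f i → A ≤ Subgroup.normalizer (T : Set G) →
      T = ⊥ ∨ T = f i)
    (U : Subgroup G) (hUV : U ≤ V) (hAU : A ≤ Subgroup.normalizer (U : Set G)) :
    ∃ W : Subgroup G, W ≤ V ∧ A ≤ Subgroup.normalizer (W : Set G) ∧ U ⊓ W = ⊥ ∧ U ⊔ W = V := by
  obtain ⟨W, hW, hWmax⟩ := WellFounded.has_min (wellFounded_gt (α := Subgroup G))
    {W : Subgroup G | W ≤ V ∧ A ≤ Subgroup.normalizer (W : Set G) ∧ U ⊓ W = ⊥}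
    ⟨⊥, bot_le, by
      intro a _
      apply mem_normalizer_of_conj_mem
      intro d hd
      rw [Subgroup.mem_bot] at hd ⊢
      rw [hd]; group, inf_bot_eq _⟩
  obtain ⟨hWV, hAW, hUW⟩ := hW
  refine ⟨W, hWV, hAW, hUW, ?_⟩
  by_contra hne
  have hlt : U ⊔ W ≤ V := sup_le hUV hWV
  obtain ⟨i, hi⟩ : ∃ i, ¬ f i ≤ U ⊔ W := by
    by_contra hcon
    push Not at hcon
    exact hne (le_antisymm hlt (hfV ▸ iSup_le hcon))
  have hfiV : f i ≤ V := hfV ▸ le_iSup f i
  have hinf : f i ⊓ (U ⊔ W) = ⊥ := by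
    rcases hfirr i (f i ⊓ (U ⊔ W)) inf_le_left (inv_inf (hfinv i) (inv_sup hAU hAW)) with h | h
    · exact h
    · exact absurd (h ▸ inf_le_right) hi
  apply hWmax (W ⊔ f i) ⟨sup_le hWV hfiV, inv_sup hAW (hfinv i), ?_⟩
  · refine lt_of_le_of_ne le_sup_left ?_
    intro h
    apply hi
    have : f i ≤ W := h ▸ le_sup_right
    exact this.trans le_sup_right
  · rw [eq_bot_iff]
    rintro u ⟨hu, huW⟩
    have hnorm : f i ≤ Subgroup.normalizer (W : Set G) := by
      intro s hs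
      apply mem_normalizer_of_conj_mem
      intro d hd
      rw [hVc s (hfiV hs) d (hWV hd), mul_inv_cancel_right]
      exact hd
    obtain ⟨w, hw, s, hs, rfl⟩ :=
      Cfsg.Agent.Lib.Lead.mem_sup_of_le_normalizer hnorm huW
    have hsU : s ∈ U ⊔ W := by
      have : s = w⁻¹ * (w * s) := by group
      rw [this]
      exact Subgroup.mul_mem _ (Subgroup.mem_sup_right (W.inv_mem hw)) (Subgroup.mem_sup_left hu)
    have hs1 : s = 1 := by
      have : s ∈ f i ⊓ (U ⊔ W) := ⟨hs, hsU⟩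
      rw [hinf] at this
      exact this
    rw [hs1, mul_one] at hu ⊢
    have : w ∈ U ⊓ W := ⟨hu, hw⟩
    rw [hUW] at this
    exact this

end

/-- Clifford's Theorem for actions on finite abelian groups, first part. Let H and V be subgroups of a finite group with V abelian and H normalizing V, and let A be a normal subgroup of H. If every H-invariant subgroup of V has an H-invariant complement in V, then every A-invariant subgroup of V has an A-invariant complement in V. -/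
theorem result {G : Type*} [Group G] [Finite G] (H A V : Subgroup G) (hVab : IsMulCommutative V) (hHV : H ≤ Subgroup.normalizer (V : Set G)) (hAH : A ≤ H) (hAn : H ≤ Subgroup.normalizer (A : Set G)) (hss : ∀ U : Subgroup G, U ≤ V → H ≤ Subgroup.normalizer (U : Set G) → ∃ W : Subgroup G, W ≤ V ∧ H ≤ Subgroup.normalizer (W : Set G) ∧ U ⊓ W = ⊥ ∧ U ⊔ W = V) (U : Subgroup G) (hUV : U ≤ V) (hAU : A ≤ Subgroup.normalizer (U : Set G)) : ∃ W : Subgroup G, W ≤ V ∧ A ≤ Subgroup.normalizer (W : Set G) ∧ U ⊓ W = ⊥ ∧ U ⊔ W = V := by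
  have hVc : ∀ x ∈ V, ∀ y ∈ V, x * y = y * x := by
    intro x hx y hy
    have := isMulCommutative_iff.mp hVab ⟨x, hx⟩ ⟨y, hy⟩
    exact congrArg Subtype.val this
  -- the family of A-irreducible subgroups of V
  let ι := {S : Subgroup G // S ≤ V ∧ S ≠ ⊥ ∧ A ≤ Subgroup.normalizer (S : Set G) ∧
    ∀ T : Subgroup G, T ≤ S → A ≤ Subgroup.normalizer (T : Set G) → T = ⊥ ∨ T = S}
  let f : ι → Subgroup G := fun S => S.1
  have hJV : (⨆ i, f i) ≤ V := iSup_le (fun i => i.2.1)
  -- conjugates of irreducibles by elements of H are irreducible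
  have hconj : ∀ h ∈ H, ∀ i : ι, ∃ j : ι, (f i).map (MulAut.conj h).toMonoidHom ≤ f j := by
    intro h hh i
    obtain ⟨S, hSV, hSne, hSA, hSirr⟩ := i
    have hAconj : ∀ (k : G), k ∈ H → ∀ T : Subgroup G, A ≤ Subgroup.normalizer (T : Set G) →
        A ≤ Subgroup.normalizer ((T.map (MulAut.conj k).toMonoidHom : Subgroup G) : Set G) := by
      intro k hk T hT a ha
      apply mem_normalizer_of_conj_mem
      intro d hd
      rw [mem_cj] at hd ⊢
      have hkA : k⁻¹ * a * k ∈ A := by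
        have h1 := (Subgroup.mem_normalizer_iff.mp (hAn (H.inv_mem hk))) a
        have h2 := h1.mp ha
        simpa using h2
      have h3 := (Subgroup.mem_normalizer_iff.mp (hT hkA)) (k⁻¹ * d * k)
      have h4 := h3.mp hd
      have e : k⁻¹ * a * k * (k⁻¹ * d * k) * (k⁻¹ * a * k)⁻¹ = k⁻¹ * (a * d * a⁻¹) * k := by group
      rw [e] at h4
      exact h4
    refine ⟨⟨S.map (MulAut.conj h).toMonoidHom, ?_, ?_, hAconj h hh S hSA, ?_⟩, le_rfl⟩
    · intro x hx
      rw [mem_cj] at hx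
      have h1 := (Subgroup.mem_normalizer_iff.mp (hHV hh)) (h⁻¹ * x * h)
      have h2 := h1.mp (hSV hx)
      have e : h * (h⁻¹ * x * h) * h⁻¹ = x := by group
      rw [e] at h2
      exact h2
    · intro hbot
      apply hSne
      rwa [Subgroup.map_eq_bot_iff_of_injective _ (MulAut.conj h).injective] at hbot
    · intro T hT hAT
      have hT' : T.map (MulAut.conj h⁻¹).toMonoidHom ≤ S := by
        have := cj_mono h⁻¹ hT
        rwa [cj_inv_cj] at this
      rcases hSirr _ hT' (hAconj h⁻¹ (H.inv_mem hh) T hAT) with h1 | h1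
      · left
        rwa [Subgroup.map_eq_bot_iff_of_injective _ (MulAut.conj h⁻¹).injective] at h1
      · right
        rw [← h1, cj_cj_inv]
  have hJH : H ≤ Subgroup.normalizer ((⨆ i, f i : Subgroup G) : Set G) := inv_iSup f H hconj
  obtain ⟨W, hWV, hHW, hJW, hJWV⟩ := hss _ hJV hJH
  have hWbot : W = ⊥ := by
    by_contra hWne
    obtain ⟨S₀, hS₀, hS₀min⟩ := WellFounded.has_min (wellFounded_lt (α := Subgroup G))
      {T : Subgroup G | T ≤ W ∧ T ≠ ⊥ ∧ A ≤ Subgroup.normalizer (T : Set G)}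
      ⟨W, le_rfl, hWne, hAH.trans hHW⟩
    obtain ⟨hS₀W, hS₀ne, hS₀A⟩ := hS₀
    have hmem : S₀ ≤ ⨆ i, f i := by
      refine le_iSup f ⟨S₀, hS₀W.trans hWV, hS₀ne, hS₀A, ?_⟩
      intro T hT hAT
      by_cases hTb : T = ⊥
      · exact Or.inl hTb
      · right
        by_contra hne
        exact hS₀min T ⟨hT.trans hS₀W, hTb, hAT⟩ (lt_of_le_of_ne hT hne)
    have : S₀ ≤ (⨆ i, f i) ⊓ W := le_inf hmem hS₀W
    rw [hJW] at this
    exact hS₀ne (le_bot_iff.mp this)
  rw [hWbot, sup_bot_eq] at hJWV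
  exact exists_compl_of_irred A V hVc f hJWV (fun i => i.2.2.2.1) (fun i => i.2.2.2.2) U hUV hAU

end Cfsg.Agent.S3735
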