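import Cfsg.Statements.S3741
import Mathlib
import Cfsg.Agent.Lib.Lead.Nilpotent
import Cfsg.Agent.Lib.Lead.Coprime

set_option autoImplicit false
open Cfsg

namespace Cfsg.Agent.S3741


open Cfsg.Agent.Lib
open scoped commutatorElement

/-- counting commuting pairs from one side -/
theorem pair_count_one {α β : Type*} [Finite α] [Finite β] (R : α → β → Prop) (p : ℕ) (hp : 0 < p)
    (SA : α → Prop) [DecidablePred SA]
    (hA : ∀ a, p * Nat.card {b : β // R a b} = if SA a then p * Nat.card β else Nat.card β) :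
    p * Nat.card {x : α × β // R x.1 x.2} =
      Nat.card β * (Nat.card {a // SA a} * (p - 1) + Nat.card α) := by
  haveI := Fintype.ofFinite α
  haveI := Fintype.ofFinite β
  have h1 : Nat.card {x : α × β // R x.1 x.2} = ∑ a : α, Nat.card {b : β // R a b} := by
    rw [Nat.card_congr (Equiv.subtypeProdEquivSigmaSubtype R), Nat.card_sigma]
  rw [h1, Finset.mul_sum]
  have h2 : ∀ a : α, p * Nat.card {b : β // R a b} =
      Nat.card β + (if SA a then (p - 1) * Nat.card β else 0) := by
    intro a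
    rw [hA a]
    by_cases h : SA a
    · rw [if_pos h, if_pos h]
      obtain ⟨q, rfl⟩ : ∃ q, p = q + 1 := ⟨p - 1, by omega⟩
      rw [Nat.add_sub_cancel]; ring
    · rw [if_neg h, if_neg h, add_zero]
  rw [Finset.sum_congr rfl (fun a _ => h2 a), Finset.sum_add_distrib, Finset.sum_const,
    Finset.card_univ, Finset.sum_ite, Finset.sum_const, Finset.sum_const_zero, add_zero,
    smul_eq_mul, smul_eq_mul]
  have h3 : Nat.card {a // SA a} = (Finset.filter (fun a => SA a) Finset.univ).card := by
    rw [Nat.card_eq_fintype_card, Fintype.card_subtype]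
  rw [h3, Nat.card_eq_fintype_card (α := α)]
  ring

theorem pair_count {α β : Type*} [Finite α] [Finite β] (R : α → β → Prop) (p : ℕ) (hp : 0 < p)
    (SA : α → Prop) (SB : β → Prop) [DecidablePred SA] [DecidablePred SB]
    (hA : ∀ a, p * Nat.card {b : β // R a b} = if SA a then p * Nat.card β else Nat.card β)
    (hB : ∀ b, p * Nat.card {a : α // R a b} = if SB b then p * Nat.card α else Nat.card α) :
    Nat.card β * (Nat.card {a // SA a} * (p - 1) + Nat.card α) =
      Nat.card α * (Nat.card {b // SB b} * (p - 1) + Nat.card β) := by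
  rw [← pair_count_one R p hp SA hA, ← pair_count_one (fun b a => R a b) p hp SB hB]
  congr 1
  exact Nat.card_congr ((Equiv.prodComm α β).subtypeEquiv (fun x => Iff.rfl))

section
variable {G : Type*} [Group G] [Finite G]

/-- the fibre count: for `a ∈ A`, the centralizer of `a` in `B` has index `1` or `p` -/
theorem fibre {p : ℕ} (hp : p.Prime) (A B : Subgroup G)
    (hZc : ∀ z ∈ ⁅A, B⁆, ∀ b ∈ B, b * z = z * b) (hcard : Nat.card ↥⁅A, B⁆ = p)
    (a : G) (ha : a ∈ A) [Decidable (a ∈ Subgroup.centralizer (B : Set G))] :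
    p * Nat.card {b : B // a * (b : G) = b * a} =
      if a ∈ Subgroup.centralizer (B : Set G) then p * Nat.card B else Nat.card B := by
  by_cases hc : a ∈ Subgroup.centralizer (B : Set G)
  · rw [if_pos hc]
    congr 1
    have h1 : ∀ b : B, a * (b : G) = b * a := fun b =>
      (Subgroup.mem_centralizer_iff.mp hc b b.2).symm
    exact Nat.card_congr (Equiv.subtypeUnivEquiv h1)
  · rw [if_neg hc]
    obtain ⟨f, hf⟩ : ∃ f : B →* ↥⁅A, B⁆, ∀ b : B, (f b : G) = ⁅a, (b : G)⁆ := by
      refine ⟨MonoidHom.mk' (fun b => ⟨⁅a, (b : G)⁆, Subgroup.commutator_mem_commutator ha b.2⟩) ?_,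
        fun b => rfl⟩
      intro b b'
      apply Subtype.ext
      show ⁅a, (b : G) * (b' : G)⁆ = ⁅a, (b : G)⁆ * ⁅a, (b' : G)⁆
      have h1 := hZc _ (Subgroup.commutator_mem_commutator ha b'.2) b b.2
      simp only [commutatorElement_def] at h1 ⊢
      have key : ∀ x y : G, x * (a * y * a⁻¹ * y⁻¹) = a * y * a⁻¹ * y⁻¹ * x →
          a * (x * y) * a⁻¹ * (x * y)⁻¹ = a * x * a⁻¹ * x⁻¹ * (a * y * a⁻¹ * y⁻¹) := by
        intro x y h
        calc a * (x * y) * a⁻¹ * (x * y)⁻¹
            = a * x * a⁻¹ * x⁻¹ * (x * (a * y * a⁻¹ * y⁻¹)) * x⁻¹ := by group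
          _ = a * x * a⁻¹ * x⁻¹ * ((a * y * a⁻¹ * y⁻¹) * x) * x⁻¹ := by rw [h]
          _ = a * x * a⁻¹ * x⁻¹ * (a * y * a⁻¹ * y⁻¹) := by group
      exact key _ _ h1
    have hker : ∀ b : B, b ∈ f.ker ↔ a * (b : G) = b * a := by
      intro b
      rw [MonoidHom.mem_ker]
      constructor
      · intro h
        have h1 : ⁅a, (b : G)⁆ = 1 := by rw [← hf, h]; rfl
        rw [commutatorElement_def] at h1
        calc a * (b : G) = (a * b * a⁻¹ * (b : G)⁻¹) * (b * a) := by group
          _ = b * a := by rw [h1, one_mul]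
      · intro h
        apply Subtype.ext
        rw [hf, commutatorElement_def, h]
        simp
    have h1 : Nat.card {b : B // a * (b : G) = b * a} = Nat.card f.ker :=
      Nat.card_congr (Equiv.subtypeEquivRight (fun b => (hker b).symm))
    have h2 : Nat.card f.ker * Nat.card f.range = Nat.card B := by
      rw [← Subgroup.index_ker]; exact Subgroup.card_mul_index _
    have h3 : Nat.card f.range ∣ p := by
      rw [← hcard]; exact Subgroup.card_subgroup_dvd_card _
    have h4 : Nat.card f.range = p := by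
      rcases (Nat.dvd_prime hp).mp h3 with h | h
      · exfalso
        apply hc
        rw [Subgroup.mem_centralizer_iff]
        intro b hb
        have h5 : f ⟨b, hb⟩ ∈ f.range := ⟨_, rfl⟩
        rw [Subgroup.card_eq_one.mp h, Subgroup.mem_bot] at h5
        exact ((hker ⟨b, hb⟩).mp (MonoidHom.mem_ker.mpr h5)).symm
      · exact h
    rw [h1, ← h2, h4, mul_comm]

/-- a normal-in-the-join subgroup of order `p` of a `p`-group is centralized -/
theorem central_of_card {p : ℕ} [Fact p.Prime] (hG : IsPGroup p G) (T Z : Subgroup G) (hZT : Z ≤ T)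
    (hN : T ≤ Subgroup.normalizer (Z : Set G)) (hcard : Nat.card Z = p) :
    ∀ z ∈ Z, ∀ t ∈ T, t * z = z * t := by
  classical
  have hp : p.Prime := Fact.out
  haveI : Group.IsNilpotent T := (hG.to_subgroup T).isNilpotent
  haveI : (Z.subgroupOf T).Normal := (Subgroup.normal_subgroupOf_iff_le_normalizer hZT).mpr hN
  have hc : Nat.card (Z.subgroupOf T) = p := by
    rw [Nat.card_congr (Subgroup.subgroupOfEquivOfLe hZT).toEquiv, hcard]
  have hne : Z.subgroupOf T ≠ ⊥ := by
    intro h
    rw [h, Subgroup.card_bot] at hc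
    exact hp.one_lt.ne hc
  have h1 := Lead.normal_inf_center_ne_bot (Z.subgroupOf T) hne
  have h2 : Nat.card (Z.subgroupOf T ⊓ Subgroup.center T : Subgroup T) ∣ p := by
    rw [← hc]; exact Subgroup.card_dvd_of_le inf_le_left
  have h3 : Nat.card (Z.subgroupOf T ⊓ Subgroup.center T : Subgroup T) = p := by
    rcases (Nat.dvd_prime hp).mp h2 with h | h
    · exact absurd (Subgroup.card_eq_one.mp h) h1
    · exact h
  have h4 : Z.subgroupOf T ⊓ Subgroup.center T = Z.subgroupOf T :=
    Subgroup.eq_of_le_of_card_ge inf_le_left (by rw [h3, hc])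
  intro z hz t ht
  have h5 : (⟨z, hZT hz⟩ : T) ∈ Z.subgroupOf T := Subgroup.mem_subgroupOf.mpr hz
  rw [← h4] at h5
  have h6 := Subgroup.mem_center_iff.mp h5.2 ⟨t, ht⟩
  exact congrArg Subtype.val h6

end

/-- Let A and B be subgroups of a finite p-group with [A, B] ≤ A ∩ B and [A, B] of order at most p. Then |A : C_A(B)| = |B : C_B(A)|. -/
theorem result {G : Type*} [Group G] [Finite G] {p : ℕ} [Fact p.Prime] (hG : IsPGroup p G) (A B : Subgroup G) (hAB : ⁅A, B⁆ ≤ A ⊓ B) (hcard : Nat.card ↥⁅A, B⁆ ≤ p) : (A ⊓ Subgroup.centralizer (B : Set G)).relIndex A = (B ⊓ Subgroup.centralizer (A : Set G)).relIndex B := by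
  classical
  have hp : p.Prime := Fact.out
  by_cases hbot : ⁅A, B⁆ = ⊥
  · have h1 : A ≤ Subgroup.centralizer (B : Set G) := Subgroup.commutator_eq_bot_iff_le_centralizer.mp hbot
    have h2 : B ≤ Subgroup.centralizer (A : Set G) := by
      rw [Subgroup.commutator_comm] at hbot
      exact Subgroup.commutator_eq_bot_iff_le_centralizer.mp hbot
    rw [inf_eq_left.mpr h1, inf_eq_left.mpr h2, Subgroup.relIndex_self, Subgroup.relIndex_self]
  · have hcardZ : Nat.card ↥⁅A, B⁆ = p := by
      obtain ⟨k, hk⟩ := IsPGroup.iff_card.mp (hG.to_subgroup ⁅A, B⁆)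
      rcases k with _ | k
      · rw [pow_zero] at hk
        exact absurd (Subgroup.card_eq_one.mp hk) hbot
      · have h1 : p ∣ Nat.card ↥⁅A, B⁆ := by rw [hk, pow_succ]; exact dvd_mul_left _ _
        exact le_antisymm hcard (Nat.le_of_dvd Nat.card_pos h1)
    -- conjugation by elements of A and B preserves the commutator subgroup
    have hconj : ∀ g : G, (∀ a ∈ A, ∀ b ∈ B, g * ⁅a, b⁆ * g⁻¹ ∈ ⁅A, B⁆) →
        ∀ z ∈ ⁅A, B⁆, g * z * g⁻¹ ∈ ⁅A, B⁆ := by
      intro g hg
      have h1 : ⁅A, B⁆ ≤ (⁅A, B⁆).comap (MulAut.conj g).toMonoidHom := by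
        rw [Subgroup.commutator_le]
        intro a ha b hb
        rw [Subgroup.mem_comap]
        exact hg a ha b hb
      intro z hz
      have := h1 hz
      rw [Subgroup.mem_comap] at this
      exact this
    have hA : ∀ a' ∈ A, ∀ z ∈ ⁅A, B⁆, a' * z * a'⁻¹ ∈ ⁅A, B⁆ := by
      intro a' ha'
      apply hconj
      intro a ha b hb
      have h1 : a' * ⁅a, b⁆ * a'⁻¹ = ⁅a' * a, b⁆ * ⁅a', b⁆⁻¹ := by
        rw [commutatorElement_def, commutatorElement_def, commutatorElement_def]; group
      rw [h1]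
      exact Subgroup.mul_mem _ (Subgroup.commutator_mem_commutator (A.mul_mem ha' ha) hb)
        (Subgroup.inv_mem _ (Subgroup.commutator_mem_commutator ha' hb))
    have hB : ∀ b' ∈ B, ∀ z ∈ ⁅A, B⁆, b' * z * b'⁻¹ ∈ ⁅A, B⁆ := by
      intro b' hb'
      apply hconj
      intro a ha b hb
      have h1 : b' * ⁅a, b⁆ * b'⁻¹ = ⁅a, b'⁆⁻¹ * ⁅a, b' * b⁆ := by
        rw [commutatorElement_def, commutatorElement_def, commutatorElement_def]; group
      rw [h1]
      exact Subgroup.mul_mem _ (Subgroup.inv_mem _ (Subgroup.commutator_mem_commutator ha hb'))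
        (Subgroup.commutator_mem_commutator ha (B.mul_mem hb' hb))
    have hnorm : A ⊔ B ≤ Subgroup.normalizer ((⁅A, B⁆ : Subgroup G) : Set G) := by
      apply sup_le
      · intro a' ha'
        rw [Subgroup.mem_normalizer_iff]
        intro z
        refine ⟨hA a' ha' z, fun h => ?_⟩
        have := hA a'⁻¹ (A.inv_mem ha') _ h
        rw [inv_inv] at this
        have e : a'⁻¹ * (a' * z * a'⁻¹) * a' = z := by group
        rwa [e] at this
      · intro b' hb'
        rw [Subgroup.mem_normalizer_iff]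
        intro z
        refine ⟨hB b' hb' z, fun h => ?_⟩
        have := hB b'⁻¹ (B.inv_mem hb') _ h
        rw [inv_inv] at this
        have e : b'⁻¹ * (b' * z * b'⁻¹) * b' = z := by group
        rwa [e] at this
    have hcen := central_of_card hG (A ⊔ B) ⁅A, B⁆ (hAB.trans (inf_le_left.trans le_sup_left)) hnorm hcardZ
    have hZcB : ∀ z ∈ ⁅A, B⁆, ∀ b ∈ B, b * z = z * b := fun z hz b hb =>
      hcen z hz b ((le_sup_right : B ≤ A ⊔ B) hb)
    have hZcA : ∀ z ∈ ⁅B, A⁆, ∀ a ∈ A, a * z = z * a := fun z hz a ha =>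
      hcen z (by rw [Subgroup.commutator_comm]; exact hz) a ((le_sup_left : A ≤ A ⊔ B) ha)
    have hcardZ' : Nat.card ↥⁅B, A⁆ = p := by rw [Subgroup.commutator_comm]; exact hcardZ
    have key := pair_count (α := A) (β := B) (fun a b => (a : G) * (b : G) = b * a) p hp.pos
      (fun a => (a : G) ∈ Subgroup.centralizer (B : Set G))
      (fun b => (b : G) ∈ Subgroup.centralizer (A : Set G))
      (fun a => fibre hp A B hZcB hcardZ a a.2)
      (fun b => by
        have h1 := fibre hp B A hZcA hcardZ' b b.2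
        rw [← h1]
        congr 1
        exact Nat.card_congr (Equiv.subtypeEquivRight (fun a => eq_comm)))
    have e1 : Nat.card {a : A // (a : G) ∈ Subgroup.centralizer (B : Set G)} =
        Nat.card ↥(A ⊓ Subgroup.centralizer (B : Set G)) := by
      have h1 : Nat.card ((A ⊓ Subgroup.centralizer (B : Set G)).subgroupOf A) =
          Nat.card ↥(A ⊓ Subgroup.centralizer (B : Set G)) :=
        Nat.card_congr (Subgroup.subgroupOfEquivOfLe inf_le_left).toEquiv
      rw [← h1]
      exact Nat.card_congr (Equiv.subtypeEquivRight (fun a => by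
        rw [Subgroup.mem_subgroupOf]
        exact ⟨fun h => ⟨a.2, h⟩, fun h => h.2⟩))
    have e2 : Nat.card {b : B // (b : G) ∈ Subgroup.centralizer (A : Set G)} =
        Nat.card ↥(B ⊓ Subgroup.centralizer (A : Set G)) := by
      have h1 : Nat.card ((B ⊓ Subgroup.centralizer (A : Set G)).subgroupOf B) =
          Nat.card ↥(B ⊓ Subgroup.centralizer (A : Set G)) :=
        Nat.card_congr (Subgroup.subgroupOfEquivOfLe inf_le_left).toEquiv
      rw [← h1]
      exact Nat.card_congr (Equiv.subtypeEquivRight (fun b => by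
        rw [Subgroup.mem_subgroupOf]
        exact ⟨fun h => ⟨b.2, h⟩, fun h => h.2⟩))
    rw [e1, e2] at key
    have rA := Lead.relIndex_mul_card_of_le (inf_le_left : A ⊓ Subgroup.centralizer (B : Set G) ≤ A)
    have rB := Lead.relIndex_mul_card_of_le (inf_le_left : B ⊓ Subgroup.centralizer (A : Set G) ≤ B)
    obtain ⟨q, hq⟩ : ∃ q, p = q + 2 := ⟨p - 2, by have := hp.two_le; omega⟩
    have hq1 : p - 1 = q + 1 := by omega
    rw [hq1] at key
    have cA : 0 < Nat.card ↥(A ⊓ Subgroup.centralizer (B : Set G)) := Nat.card_pos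
    have cB : 0 < Nat.card ↥(B ⊓ Subgroup.centralizer (A : Set G)) := Nat.card_pos
    generalize (A ⊓ Subgroup.centralizer (B : Set G)).relIndex A = x at rA ⊢
    generalize (B ⊓ Subgroup.centralizer (A : Set G)).relIndex B = y at rB ⊢
    generalize Nat.card ↥(A ⊓ Subgroup.centralizer (B : Set G)) = u at rA key cA
    generalize Nat.card ↥(B ⊓ Subgroup.centralizer (A : Set G)) = v at rB key cB
    rw [← rA, ← rB] at key
    have h1 : (y * v) * u * (q + 1) = (x * u) * v * (q + 1) := by nlinarith [key]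
    have h2 : y * (u * v) = x * (u * v) := by
      have := Nat.eq_of_mul_eq_mul_right (Nat.succ_pos q) h1
      nlinarith [this]
    exact (Nat.eq_of_mul_eq_mul_right (Nat.mul_pos cA cB) h2).symm

end Cfsg.Agent.S3741
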