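import Cfsg.Statements.S3744
import Cfsg.Agent.Lib.Helper6.PCompl
import Cfsg.Agent.Lib.Helper6.Conj

set_option autoImplicit false
open Pointwise

namespace Cfsg.Agent.S3744

open Cfsg.Agent.Lib Cfsg.Agent.Lib.Helper6

/-- A finite p-soluble group has a p-complement, all its p-complements are conjugate, and every subgroup of order prime to p lies in one of them. Here a p-complement is a subgroup of order prime to p whose index is a power of p. -/
theorem result {G : Type*} [Group G] [Finite G] {p : ℕ} [Fact p.Prime] (hG : Cfsg.IsPSolvable p G) : (∃ H : Subgroup G, (Nat.card H).Coprime p ∧ ∃ n : ℕ, H.index = p ^ n) ∧ (∀ H₁ H₂ : Subgroup G, (Nat.card H₁).Coprime p → (∃ n : ℕ, H₁.index = p ^ n) → (Nat.card H₂).Coprime p → (∃ n : ℕ, H₂.index = p ^ n) → ∃ g : G, H₂ = H₁.map (MulAut.conj g).toMonoidHom) ∧ (∀ U : Subgroup G, (Nat.card U).Coprime p → ∃ H : Subgroup G, (Nat.card H).Coprime p ∧ (∃ n : ℕ, H.index = p ^ n) ∧ ∃ g : G, U.map (MulAut.conj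 g).toMonoidHom ≤ H) := by
  have hp : p.Prime := Fact.out
  have hD := pD_all p _ G rfl hG
  have hC := pC_all p _ G rfl hG
  set v := (Nat.card G).factorization p with hv
  set m := Nat.card G / p ^ v with hm
  have hmn : Nat.card G = m * p ^ v := by
    rw [mul_comm]
    exact (Nat.ordProj_mul_ordCompl_eq_self (Nat.card G) p).symm
  have hmcop : m.Coprime p := (Nat.coprime_ordCompl hp Nat.card_pos.ne').symm
  have hm0 : 0 < m := by
    rcases Nat.eq_zero_or_pos m with h | h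
    · rw [h, zero_mul] at hmn
      exact absurd hmn Nat.card_pos.ne'
    · exact h
  -- characterisation of p-complements
  have hcomp : ∀ H : Subgroup G, Nat.card H = m → (Nat.card H).Coprime p ∧ ∃ n : ℕ, H.index = p ^ n := by
    intro H hH
    refine ⟨hH ▸ hmcop, v, ?_⟩
    have h1 := H.card_mul_index
    rw [hH, hmn] at h1
    exact Nat.eq_of_mul_eq_mul_left hm0 h1
  have hcomp' : ∀ H : Subgroup G, (Nat.card H).Coprime p → (∃ n : ℕ, H.index = p ^ n) →
      Nat.card H = m := by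
    intro H hcop ⟨n, hn⟩
    have h1 := H.card_mul_index
    rw [hn, hmn] at h1
    apply Nat.dvd_antisymm
    · have h2 : Nat.card H ∣ m * p ^ v := Dvd.intro _ h1
      exact (Nat.Coprime.pow_right v hcop).dvd_of_dvd_mul_right h2
    · have h2 : m ∣ Nat.card H * p ^ n := Dvd.intro _ h1.symm
      exact (Nat.Coprime.pow_right n hmcop).dvd_of_dvd_mul_right h2
  refine ⟨?_, ?_, ?_⟩
  · obtain ⟨H, hH, -⟩ := hD m (p ^ v) hmn hmcop ⟨v, rfl⟩ ⊥ (by simp)
    exact ⟨H, hcomp H hH⟩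
  · intro H₁ H₂ h1 h1' h2 h2'
    obtain ⟨g, hg⟩ := hC m (p ^ v) hmn hmcop ⟨v, rfl⟩ H₁ H₂ (hcomp' H₁ h1 h1') (hcomp' H₂ h2 h2')
    exact ⟨g, by rw [cj_eq_smul, hg]⟩
  · intro U hU
    obtain ⟨H, hH, hUH⟩ := hD m (p ^ v) hmn hmcop ⟨v, rfl⟩ U hU
    refine ⟨H, (hcomp H hH).1, (hcomp H hH).2, 1, ?_⟩
    rw [cj_one]
    exact hUH

end Cfsg.Agent.S3744
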