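import Cfsg.Statements.S3745
import Cfsg.Agent.Lib.Lead.Basic
import Cfsg.Agent.Lib.Lead.Hall
import Cfsg.Agent.Lib.Lead.Glauberman
import Cfsg.Agent.Lib.Lead.Coprime
import Cfsg.Agent.Lib.Lead.CoprimeSylow
import Cfsg.Agent.Lib.Lead.Charac
import Cfsg.Agent.Lib.Lead.Fitting2
import Cfsg.Agent.Lib.Helper4.CharP

set_option autoImplicit false
open Cfsg

namespace Cfsg.Agent.S3745

universe u

open Cfsg.Agent.Lib.Lead
open scoped Pointwise

def IsPi (π : Set ℕ) (n : ℕ) : Prop := ∀ p : ℕ, p.Prime → p ∣ n → p ∈ π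
def IsPi' (π : Set ℕ) (n : ℕ) : Prop := ∀ p : ℕ, p.Prime → p ∈ π → ¬ p ∣ n

theorem pi_split (π : Set ℕ) : ∀ N : ℕ, 0 < N → ∃ m n, N = m * n ∧ IsPi π m ∧ IsPi' π n := by
  intro N
  induction N using Nat.strong_induction_on with
  | _ N ih =>
    intro hN
    by_cases h1 : N = 1
    · exact ⟨1, 1, by omega, fun p hp hd => absurd (Nat.dvd_one.mp hd) hp.ne_one,
        fun p hp _ hd => hp.ne_one (Nat.dvd_one.mp hd)⟩
    · have hp := Nat.minFac_prime h1
      obtain ⟨N', hN'⟩ := Nat.minFac_dvd N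
      obtain ⟨q, hqdef⟩ : ∃ q, q = N.minFac := ⟨_, rfl⟩
      rw [← hqdef] at hp hN'
      have hN'pos : 0 < N' := by
        rcases Nat.eq_zero_or_pos N' with h | h
        · rw [h, mul_zero] at hN'; omega
        · exact h
      have hlt : N' < N := by
        have h2 := hp.two_le
        calc N' = 1 * N' := (one_mul _).symm
          _ < q * N' := Nat.mul_lt_mul_of_pos_right (by omega) hN'pos
          _ = N := hN'.symm
      obtain ⟨m, n, hmn, hm, hn⟩ := ih N' hlt hN'pos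
      by_cases hq : q ∈ π
      · refine ⟨q * m, n, ?_, ?_, hn⟩
        · calc N = q * N' := hN'
            _ = q * (m * n) := by rw [hmn]
            _ = q * m * n := by ring
        · intro p hpp hd
          rcases (Nat.Prime.dvd_mul hpp).mp hd with h | h
          · rw [(Nat.prime_dvd_prime_iff_eq hpp hp).mp h]; exact hq
          · exact hm p hpp h
      · refine ⟨m, q * n, ?_, hm, ?_⟩
        · calc N = q * N' := hN'
            _ = q * (m * n) := by rw [hmn]
            _ = m * (q * n) := by ring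
        · intro p hpp hpπ hd
          rcases (Nat.Prime.dvd_mul hpp).mp hd with h | h
          · rw [(Nat.prime_dvd_prime_iff_eq hpp hp).mp h] at hpπ; exact hq hpπ
          · exact hn p hpp hpπ h

theorem pi_coprime {π : Set ℕ} {m n : ℕ} (hm : IsPi π m) (hn : IsPi' π n) : m.Coprime n := by
  by_contra h
  obtain ⟨p, hp, hpm, hpn⟩ := Nat.Prime.not_coprime_iff_dvd.mp h
  exact hn p hp (hm p hp hpm) hpn

theorem pi_unique {π : Set ℕ} {m n m' n' : ℕ} (h : m * n = m' * n') (hm : IsPi π m) (hn : IsPi' π n)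
    (hm' : IsPi π m') (hn' : IsPi' π n') : m = m' := by
  have h1 : m ∣ m' := (pi_coprime hm hn').dvd_of_dvd_mul_right (h ▸ dvd_mul_right m n)
  have h2 : m' ∣ m := (pi_coprime hm' hn).dvd_of_dvd_mul_right (h.symm ▸ dvd_mul_right m' n')
  exact Nat.dvd_antisymm h1 h2

theorem hall_of_card_eq {X : Type*} [Group X] [Finite X] {π : Set ℕ} {H H' G : Subgroup X}
    (h : Cfsg.IsPiHallOf π H G) (hle : H' ≤ G) (hc : Nat.card H' = Nat.card H) :
    Cfsg.IsPiHallOf π H' G := by
  refine ⟨hle, ?_, ?_⟩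
  · rw [hc]; exact h.2.1
  · have h1 := relIndex_mul_card_of_le hle
    have h2 := relIndex_mul_card_of_le h.1
    rw [hc, ← h2] at h1
    have h3 : H'.relIndex G = H.relIndex G := Nat.eq_of_mul_eq_mul_right Nat.card_pos h1
    rw [h3]; exact h.2.2

theorem hall_conj {X : Type*} [Group X] [Finite X] {π : Set ℕ} {H G : Subgroup X}
    (h : Cfsg.IsPiHallOf π H G) {x : X} (hx : x ∈ Subgroup.normalizer (G : Set X)) :
    Cfsg.IsPiHallOf π (MulAut.conj x • H) G :=
  hall_of_card_eq h (conj_smul_le_of_mem_normalizer hx h.1) (card_conj_smul x H)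

theorem hallD' {X : Type u} [Group X] [Finite X] (π : Set ℕ) (G : Subgroup X) [hs : Group.IsSolvable G]
    (U : Subgroup X) (hU : U ≤ G) (hUπ : IsPi π (Nat.card U)) :
    ∃ H : Subgroup X, Cfsg.IsPiHallOf π H G ∧ U ≤ H := by
  obtain ⟨m, n, hmn, hm, hn⟩ := pi_split π (Nat.card G) Nat.card_pos
  have hcop : m.Coprime n := pi_coprime hm hn
  have hK : (Nat.card (U.subgroupOf G)).Coprime n := by
    rw [card_subgroupOf_of_le hU]; exact pi_coprime hUπ hn
  obtain ⟨H', hH', hUH'⟩ := hallD_all (Nat.card G) ↥G rfl m n hmn hcop (U.subgroupOf G) hK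
  have hmpos : 0 < m := Nat.pos_of_ne_zero (fun h => by
    rw [h, zero_mul] at hmn; exact (Nat.card_pos (α := G)).ne' hmn)
  refine ⟨H'.map G.subtype, ⟨Subgroup.map_subtype_le _, ?_, ?_⟩, ?_⟩
  · rw [Subgroup.card_map_of_injective G.subtype_injective, hH']; exact hm
  · have h1 := relIndex_mul_card_of_le (Subgroup.map_subtype_le H')
    rw [Subgroup.card_map_of_injective G.subtype_injective, hH', hmn] at h1
    have h3 : (H'.map G.subtype).relIndex G = n := by
      apply Nat.eq_of_mul_eq_mul_right hmpos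
      rw [h1, mul_comm]
    rw [h3]; exact hn
  · intro u hu
    exact ⟨⟨u, hU hu⟩, hUH' (Subgroup.mem_subgroupOf.mpr hu), rfl⟩

theorem hallC' {X : Type u} [Group X] [Finite X] (π : Set ℕ) (G : Subgroup X) [hs : Group.IsSolvable G]
    (H₁ H₂ : Subgroup X) (h₁ : Cfsg.IsPiHallOf π H₁ G) (h₂ : Cfsg.IsPiHallOf π H₂ G) :
    ∃ g ∈ G, MulAut.conj g • H₁ = H₂ := by
  have e1 := relIndex_mul_card_of_le h₁.1
  have e2 := relIndex_mul_card_of_le h₂.1
  have hc : Nat.card H₁ = Nat.card H₂ :=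
    pi_unique (by rw [mul_comm, e1, mul_comm, e2]) h₁.2.1 h₁.2.2 h₂.2.1 h₂.2.2
  obtain ⟨g, hg⟩ := hallC_all (Nat.card G) ↥G rfl (Nat.card H₁) (H₁.relIndex G)
    (by rw [mul_comm]; exact e1.symm)
    (pi_coprime h₁.2.1 h₁.2.2) (H₁.subgroupOf G) (H₂.subgroupOf G) (card_subgroupOf_of_le h₁.1)
    (by rw [card_subgroupOf_of_le h₂.1, hc])
  exact ⟨g, g.2, conj_smul_eq_of_subgroupOf h₁.1 h₂.1 g hg⟩

theorem partA {X : Type u} [Group X] [Finite X] (π : Set ℕ) (A G : Subgroup X)
    (hAG : A ≤ Subgroup.normalizer (G : Set X)) (hcop : (Nat.card A).Coprime (Nat.card G))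
    (hsolv : Group.IsSolvable G) :
    ∃ H : Subgroup X, Cfsg.IsPiHallOf π H G ∧ A ≤ Subgroup.normalizer (H : Set X) := by
  haveI := hsolv
  obtain ⟨H₀, hH₀, -⟩ := hallD' π G ⊥ bot_le (by
    intro p hp hd; rw [Subgroup.card_bot] at hd; exact absurd (Nat.dvd_one.mp hd) hp.ne_one)
  obtain ⟨k, hk, hfix⟩ := glauberman_exists (isAct_conj X) A G hAG hcop (Or.inr hsolv) H₀ (by
    intro a ha
    obtain ⟨g, hg, hgH⟩ := hallC' π G H₀ (MulAut.conj a • H₀) hH₀ (hall_conj hH₀ (hAG ha))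
    exact ⟨g, hg, hgH.symm⟩)
  refine ⟨MulAut.conj k • H₀, hall_conj hH₀ (Subgroup.le_normalizer hk), ?_⟩
  intro a ha
  exact mem_normalizer_of_conj_smul_eq (hfix a ha)

theorem partB {X : Type u} [Group X] [Finite X] (π : Set ℕ) (A G : Subgroup X)
    (hAG : A ≤ Subgroup.normalizer (G : Set X)) (hcop : (Nat.card A).Coprime (Nat.card G))
    (hsolv : Group.IsSolvable G) (H₁ H₂ : Subgroup X) (h₁ : Cfsg.IsPiHallOf π H₁ G)
    (hA₁ : A ≤ Subgroup.normalizer (H₁ : Set X)) (h₂ : Cfsg.IsPiHallOf π H₂ G)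
    (hA₂ : A ≤ Subgroup.normalizer (H₂ : Set X)) :
    ∃ c ∈ G ⊓ Subgroup.centralizer (A : Set X), MulAut.conj c • H₁ = H₂ := by
  haveI := hsolv
  obtain ⟨k, hk, hkH⟩ := hallC' π G H₁ H₂ h₁ h₂
  exact glauberman_conj (isAct_conj X) A G hAG hcop (Or.inr hsolv) H₁ H₂
    (fun a ha => conj_smul_eq_of_mem_normalizer (hA₁ ha))
    (fun a ha => conj_smul_eq_of_mem_normalizer (hA₂ ha)) k hk hkH

theorem norm_of_forall {X : Type*} [Group X] (A C : Subgroup X)
    (h : ∀ a ∈ A, ∀ x ∈ C, a * x * a⁻¹ ∈ C) : A ≤ Subgroup.normalizer (C : Set X) := by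
  intro a ha
  rw [Subgroup.mem_normalizer_iff]
  intro x
  constructor
  · exact h a ha x
  · intro hx
    have := h a⁻¹ (A.inv_mem ha) _ hx
    simpa [mul_assoc] using this

/-- image of `S` in `L/M` -/
def img {X : Type u} [Group X] (L M S : Subgroup X) [(M.subgroupOf L).Normal] :
    Subgroup (↥L ⧸ M.subgroupOf L) :=
  (S.subgroupOf L).map (QuotientGroup.mk' (M.subgroupOf L))

theorem img_card_dvd {X : Type u} [Group X] [Finite X] (L M S : Subgroup X) [(M.subgroupOf L).Normal]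
    (hS : S ≤ L) : Nat.card (img L M S) ∣ Nat.card S := by
  have := Subgroup.card_map_dvd (H := S.subgroupOf L) (QuotientGroup.mk' (M.subgroupOf L))
  rwa [card_subgroupOf_of_le hS] at this

theorem img_norm {X : Type u} [Group X] (L M A S : Subgroup X) [(M.subgroupOf L).Normal]
    (hAS : A ≤ Subgroup.normalizer (S : Set X)) :
    img L M A ≤ Subgroup.normalizer ((img L M S : Subgroup (↥L ⧸ M.subgroupOf L)) : Set (↥L ⧸ M.subgroupOf L)) := by
  rintro _ ⟨a, ha, rfl⟩
  have h1 : a ∈ Subgroup.normalizer ((S.subgroupOf L : Subgroup L) : Set L) :=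
    Subgroup.le_normalizer_comap L.subtype (hAS ha)
  exact Subgroup.le_normalizer_map _ ⟨a, h1, rfl⟩

theorem img_mono {X : Type u} [Group X] (L M : Subgroup X) [(M.subgroupOf L).Normal] {S S' : Subgroup X}
    (h : S ≤ S') : img L M S ≤ img L M S' := by
  rintro _ ⟨y, hy, rfl⟩
  exact ⟨y, h hy, rfl⟩

theorem img_comap {X : Type u} [Group X] (L M S : Subgroup X) [(M.subgroupOf L).Normal] (hMS : M ≤ S) :
    (img L M S).comap (QuotientGroup.mk' (M.subgroupOf L)) = S.subgroupOf L := by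
  unfold img
  rw [Subgroup.comap_map_eq, QuotientGroup.ker_mk', sup_eq_left]
  exact fun x hx => hMS hx

theorem img_card {X : Type u} [Group X] [Finite X] (L M S : Subgroup X) [(M.subgroupOf L).Normal]
    (hMS : M ≤ S) (hSL : S ≤ L) : Nat.card S = Nat.card M * Nat.card (img L M S) := by
  have h1 := card_comap_mk (M.subgroupOf L) (img L M S)
  rw [img_comap L M S hMS, card_subgroupOf_of_le hSL, card_subgroupOf_of_le (hMS.trans hSL)] at h1
  exact h1

theorem img_solvable {X : Type u} [Group X] (L M S : Subgroup X) [(M.subgroupOf L).Normal]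
    (hSL : S ≤ L) (hS : Group.IsSolvable S) : Group.IsSolvable (img L M S) := by
  haveI := hS
  haveI : Group.IsSolvable (S.subgroupOf L) :=
    solvable_of_solvable_injective (f := (Subgroup.subgroupOfEquivOfLe hSL).toMonoidHom)
      (Subgroup.subgroupOfEquivOfLe hSL).injective
  exact solvable_of_surjective
    (MonoidHom.subgroupMap_surjective (QuotientGroup.mk' (M.subgroupOf L)) (S.subgroupOf L))

theorem partC (π : Set ℕ) : ∀ n : ℕ, ∀ (X : Type u) [Group X] [Finite X] (A G U : Subgroup X),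
    Nat.card G ≤ n → A ≤ Subgroup.normalizer (G : Set X) → (Nat.card A).Coprime (Nat.card G) →
    Group.IsSolvable G → U ≤ G → A ≤ Subgroup.normalizer (U : Set X) → IsPi π (Nat.card U) →
    ∃ H : Subgroup X, Cfsg.IsPiHallOf π H G ∧ A ≤ Subgroup.normalizer (H : Set X) ∧ U ≤ H := by
  intro n
  induction n with
  | zero =>
    intro X _ _ A G U hc
    have := Nat.card_pos (α := G)
    omega
  | succ n ih =>
    intro X _ _ A G U hc hAG hcop hsolv hUG hAU hUπ
    haveI := hsolv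
    by_cases hGπ : IsPi π (Nat.card G)
    · refine ⟨G, ⟨le_rfl, hGπ, ?_⟩, hAG, hUG⟩
      intro p hp _ hd
      rw [Subgroup.relIndex_self] at hd
      exact hp.ne_one (Nat.dvd_one.mp hd)
    have hGnt : Nontrivial G := Finite.one_lt_card_iff_nontrivial.mp (by
      have := Nat.card_pos (α := G)
      by_contra hh
      have h1 : Nat.card G = 1 := by omega
      exact hGπ (fun p hp hd => by rw [h1] at hd; exact absurd (Nat.dvd_one.mp hd) hp.ne_one))
    obtain ⟨q, hq, M₀, hM₀n, hM₀ne, hM₀q⟩ := exists_normal_pgroup_of_solvable ↥G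
    haveI : Fact q.Prime := ⟨hq⟩
    obtain ⟨M, hMdef⟩ : ∃ M : Subgroup X, M = (Cfsg.pCore q ↥G).map G.subtype := ⟨_, rfl⟩
    have hMG : M ≤ G := by rw [hMdef]; exact Subgroup.map_subtype_le _
    have hMq : IsPGroup q M := by rw [hMdef]; exact (pCore_isPGroup' (G := ↥G) q).map _
    have hMne : M ≠ ⊥ := by
      intro h
      apply hM₀ne
      have h1 : M₀ ≤ Cfsg.pCore q ↥G := le_sSup ⟨hM₀n, hM₀q⟩
      rw [eq_bot_iff]
      intro x hx
      have h2 : (x : X) ∈ M := by rw [hMdef]; exact ⟨x, h1 hx, rfl⟩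
      rw [h, Subgroup.mem_bot] at h2
      rw [Subgroup.mem_bot]; exact Subtype.ext h2
    have hNM : Subgroup.normalizer (G : Set X) ≤ Subgroup.normalizer (M : Set X) := by
      rw [hMdef]
      haveI := Cfsg.Agent.Lib.Helper4.pCore_characteristic q ↥G
      exact le_normalizer_map_of_characteristic G (Cfsg.pCore q ↥G)
    have hGM0 : G ≤ Subgroup.normalizer (M : Set X) := Subgroup.le_normalizer.trans hNM
    have hAM0 : A ≤ Subgroup.normalizer (M : Set X) := hAG.trans hNM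
    obtain ⟨kq, hkq⟩ := IsPGroup.iff_card.mp hMq
    have hM2 : 2 ≤ Nat.card M := by
      have := (Subgroup.one_lt_card_iff_ne_bot M).mpr hMne
      omega
    have hMprime : ∀ p : ℕ, p.Prime → p ∣ Nat.card M → p = q := by
      intro p hp hd
      rw [hkq] at hd
      exact (Nat.prime_dvd_prime_iff_eq hp hq).mp (hp.dvd_of_dvd_pow hd)
    obtain ⟨L, hLdef⟩ : ∃ L : Subgroup X, L = Subgroup.normalizer (M : Set X) := ⟨_, rfl⟩
    have hGM : G ≤ L := hLdef ▸ hGM0
    have hAM : A ≤ L := hLdef ▸ hAM0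
    have hML : M ≤ L := hLdef ▸ Subgroup.le_normalizer
    have hMLn : (M.subgroupOf L).Normal := by rw [hLdef]; exact Subgroup.normal_in_normalizer
    have hUL : U ≤ L := hUG.trans hGM
    have hcG : Nat.card G = Nat.card M * Nat.card (img L M G) := img_card L M G hMG hGM
    have hcb : Nat.card (img L M G) ≤ n := by
      have h1 : 2 * Nat.card (img L M G) ≤ Nat.card M * Nat.card (img L M G) :=
        Nat.mul_le_mul_right _ hM2
      have h2 := Nat.card_pos (α := img L M G)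
      omega
    obtain ⟨Hb, hHb, hAHb, hUHb⟩ := ih (↥L ⧸ M.subgroupOf L) (img L M A) (img L M G) (img L M U)
      hcb (img_norm L M A G hAG)
      (Nat.Coprime.coprime_dvd_left (img_card_dvd L M A hAM)
        (Nat.Coprime.coprime_dvd_right (img_card_dvd L M G hGM) hcop))
      (img_solvable L M G hGM hsolv) (img_mono L M hUG) (img_norm L M A U hAU)
      (fun p hp hd => hUπ p hp (hd.trans (img_card_dvd L M U hUL)))
    obtain ⟨K, hKdef⟩ : ∃ K : Subgroup X,
      K = (Hb.comap (QuotientGroup.mk' (M.subgroupOf L))).map L.subtype := ⟨_, rfl⟩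
    have hK_mem : ∀ x : X, x ∈ K ↔ ∃ hx : x ∈ L, QuotientGroup.mk' (M.subgroupOf L) ⟨x, hx⟩ ∈ Hb := by
      intro x; rw [hKdef]; constructor
      · rintro ⟨y, hy, rfl⟩; exact ⟨y.2, hy⟩
      · rintro ⟨hx, h⟩; exact ⟨⟨x, hx⟩, h, rfl⟩
    have hMK : M ≤ K := by
      intro x hx
      rw [hK_mem]
      refine ⟨hML hx, ?_⟩
      have h1 : QuotientGroup.mk' (M.subgroupOf L) ⟨x, hML hx⟩ = 1 :=
        (QuotientGroup.eq_one_iff _).mpr hx
      rw [h1]; exact Hb.one_mem
    have hKG : K ≤ G := by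
      intro x hx
      obtain ⟨hxL, h⟩ := (hK_mem x).mp hx
      have h1 : (⟨x, hxL⟩ : L) ∈ (img L M G).comap (QuotientGroup.mk' (M.subgroupOf L)) := hHb.1 h
      rw [img_comap L M G hMG] at h1
      exact h1
    have hUK : U ≤ K := by
      intro x hx
      rw [hK_mem]
      exact ⟨hUL hx, hUHb ⟨⟨x, hUL hx⟩, hx, rfl⟩⟩
    have hAK : A ≤ Subgroup.normalizer (K : Set X) := by
      apply norm_of_forall
      intro a ha x hx
      obtain ⟨hxL, h⟩ := (hK_mem x).mp hx
      rw [hK_mem]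
      have haL : a ∈ L := hAM ha
      refine ⟨L.mul_mem (L.mul_mem haL hxL) (L.inv_mem haL), ?_⟩
      have h1 : QuotientGroup.mk' (M.subgroupOf L) ⟨a, haL⟩ ∈
          Subgroup.normalizer ((Hb : Subgroup (↥L ⧸ M.subgroupOf L)) : Set (↥L ⧸ M.subgroupOf L)) :=
        hAHb ⟨⟨a, haL⟩, ha, rfl⟩
      have h2 := (Subgroup.mem_normalizer_iff.mp h1 (QuotientGroup.mk' (M.subgroupOf L) ⟨x, hxL⟩)).mp h
      have e : QuotientGroup.mk' (M.subgroupOf L) ⟨a * x * a⁻¹, L.mul_mem (L.mul_mem haL hxL) (L.inv_mem haL)⟩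
          = QuotientGroup.mk' (M.subgroupOf L) ⟨a, haL⟩ * QuotientGroup.mk' (M.subgroupOf L) ⟨x, hxL⟩
            * (QuotientGroup.mk' (M.subgroupOf L) ⟨a, haL⟩)⁻¹ := by
        rw [← map_inv, ← map_mul, ← map_mul]; rfl
      rw [e]; exact h2
    have hcK : Nat.card K = Nat.card M * Nat.card Hb := by
      rw [hKdef, Subgroup.card_map_of_injective L.subtype_injective, card_comap_mk,
        card_subgroupOf_of_le hML]
    have hrel : K.relIndex G = Hb.relIndex (img L M G) := by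
      have h1 := relIndex_mul_card_of_le hKG
      have h2 := relIndex_mul_card_of_le hHb.1
      rw [hcK, hcG, ← h2] at h1
      have h3 : K.relIndex G * (Nat.card M * Nat.card Hb)
          = Hb.relIndex (img L M G) * (Nat.card M * Nat.card Hb) := by rw [h1]; ring
      exact Nat.eq_of_mul_eq_mul_right (Nat.mul_pos Nat.card_pos Nat.card_pos) h3
    by_cases hqπ : q ∈ π
    · refine ⟨K, ⟨hKG, ?_, ?_⟩, hAK, hUK⟩
      · intro p hp hd
        rw [hcK] at hd
        rcases (Nat.Prime.dvd_mul hp).mp hd with h | h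
        · rw [hMprime p hp h]; exact hqπ
        · exact hHb.2.1 p hp h
      · rw [hrel]; exact hHb.2.2
    by_cases hKeq : K = G
    · have hcG' : Nat.card G = Nat.card M * Nat.card Hb := by rw [← hKeq]; exact hcK
      have hM' : IsPi' π (Nat.card M) := by
        intro p hp hpπ hd
        rw [hMprime p hp hd] at hpπ
        exact hqπ hpπ
      obtain ⟨H₀, hH₀, hUH₀⟩ := hallD' π G U hUG hUπ
      have hcH₀ : Nat.card H₀ = Nat.card Hb := by
        refine pi_unique ?_ hH₀.2.1 hH₀.2.2 hHb.2.1 hM'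
        have h1 := relIndex_mul_card_of_le hH₀.1
        rw [mul_comm, h1, hcG', mul_comm]
      have hdisj : M ⊓ H₀ = ⊥ :=
        (Subgroup.disjoint_of_coprime_natCard (pi_coprime hH₀.2.1 hM').symm).eq_bot
      have hH₀M : H₀ ≤ Subgroup.normalizer (M : Set X) := hH₀.1.trans hGM0
      have hsup : M ⊔ H₀ = G := by
        apply Subgroup.eq_of_le_of_card_ge (sup_le hMG hH₀.1)
        rw [card_sup_of_le_normalizer hH₀M hdisj, hcH₀, hcG']
      obtain ⟨C, hCdef⟩ : ∃ C : Subgroup X, C = M ⊓ Subgroup.centralizer (U : Set X) := ⟨_, rfl⟩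
      have hCM : C ≤ M := by rw [hCdef]; exact inf_le_left
      have hCU : C ≤ Subgroup.centralizer (U : Set X) := by rw [hCdef]; exact inf_le_right
      have hAC : A ≤ Subgroup.normalizer (C : Set X) := by
        apply norm_of_forall
        intro a ha x hx
        rw [hCdef]
        refine Subgroup.mem_inf.mpr ⟨(Subgroup.mem_normalizer_iff.mp (hAM0 ha) x).mp (hCM hx), ?_⟩
        rw [Subgroup.mem_centralizer_iff]
        intro u hu
        have hu' := (Subgroup.mem_normalizer_iff''.mp (hAU ha) u).mp hu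
        have hc := Subgroup.mem_centralizer_iff.mp (hCU hx) _ hu'
        calc u * (a * x * a⁻¹) = a * (a⁻¹ * u * a * x) * a⁻¹ := by group
          _ = a * (x * (a⁻¹ * u * a)) * a⁻¹ := by rw [hc]
          _ = a * x * a⁻¹ * u := by group
      have hcopC : (Nat.card A).Coprime (Nat.card C) :=
        Nat.Coprime.coprime_dvd_right (Subgroup.card_dvd_of_le (hCM.trans hMG)) hcop
      have hsolvC : Group.IsSolvable C :=
        solvable_of_solvable_injective (Subgroup.inclusion_injective (hCM.trans hMG))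
      have horb : ∀ a ∈ A, ∃ k ∈ C, MulAut.conj a • H₀ = MulAut.conj k • H₀ := by
        intro a ha
        obtain ⟨g, hg, hgH⟩ := hallC' π G H₀ (MulAut.conj a • H₀) hH₀ (hall_conj hH₀ (hAG ha))
        rw [← hsup] at hg
        obtain ⟨m, hm, h, hh, rfl⟩ := mem_sup_of_le_normalizer hH₀M hg
        have h1 : MulAut.conj m • H₀ = MulAut.conj a • H₀ := by
          rw [← hgH, map_mul, mul_smul, Subgroup.conj_smul_eq_self_of_mem hh]
        refine ⟨m, ?_, h1.symm⟩
        rw [hCdef]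
        refine Subgroup.mem_inf.mpr ⟨hm, ?_⟩
        rw [Subgroup.mem_centralizer_iff]
        intro u hu
        have h2 : u ∈ MulAut.conj a • H₀ := by
          rw [mem_conj_smul]
          exact hUH₀ ((Subgroup.mem_normalizer_iff''.mp (hAU ha) u).mp hu)
        rw [← h1, mem_conj_smul] at h2
        have h3 : u⁻¹ * (m⁻¹ * u * m) ∈ M ⊓ H₀ := by
          refine ⟨?_, H₀.mul_mem (H₀.inv_mem (hUH₀ hu)) h2⟩
          have e : u⁻¹ * (m⁻¹ * u * m) = (u⁻¹ * m⁻¹ * u⁻¹⁻¹) * m := by group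
          rw [e]
          exact M.mul_mem ((Subgroup.mem_normalizer_iff.mp (hGM0 (G.inv_mem (hUG hu))) m⁻¹).mp
            (M.inv_mem hm)) hm
        rw [hdisj, Subgroup.mem_bot] at h3
        calc u * m = m * (u * (u⁻¹ * (m⁻¹ * u * m))) := by group
          _ = m * u := by rw [h3, mul_one]
      obtain ⟨k, hk, hfix⟩ := glauberman_exists (isAct_conj X) A C hAC hcopC (Or.inr hsolvC) H₀ horb
      refine ⟨MulAut.conj k • H₀, hall_conj hH₀ (Subgroup.le_normalizer (hMG (hCM hk))),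
        fun a ha => mem_normalizer_of_conj_smul_eq (hfix a ha), ?_⟩
      intro u hu
      rw [mem_conj_smul]
      have h1 := Subgroup.mem_centralizer_iff.mp (hCU hk) u hu
      have e : k⁻¹ * u * k = u := by rw [mul_assoc, h1, inv_mul_cancel_left]
      rw [e]; exact hUH₀ hu
    · have hKlt : Nat.card K < Nat.card G := card_lt_of_lt (lt_of_le_of_ne hKG hKeq)
      obtain ⟨H, hH, hAH, hUH⟩ := ih X A K U (by omega) hAK
        (Nat.Coprime.coprime_dvd_right (Subgroup.card_dvd_of_le hKG) hcop)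
        (solvable_of_solvable_injective (Subgroup.inclusion_injective hKG)) hUK hAU hUπ
      refine ⟨H, ⟨hH.1.trans hKG, hH.2.1, ?_⟩, hAH, hUH⟩
      intro p hp hpπ hd
      rw [← Subgroup.relIndex_mul_relIndex _ _ _ hH.1 hKG] at hd
      rcases (Nat.Prime.dvd_mul hp).mp hd with h | h
      · exact hH.2.2 p hp hpπ h
      · rw [hrel] at h; exact hHb.2.2 p hp hpπ h

theorem result {X : Type*} [Group X] [Finite X] (A G : Subgroup X) (hAG : A ≤ Subgroup.normalizer (G : Set X)) (hcop : (Nat.card A).Coprime (Nat.card G)) (hsolv : Group.IsSolvable G) (π : Set ℕ) : (∃ H : Subgroup X, Cfsg.IsPiHallOf π H G ∧ A ≤ Subgroup.normalizer (H : Set X)) ∧ (∀ H₁ H₂ : Subgroup X, Cfsg.IsPiHallOf π H₁ G → A ≤ Subgroup.normalizer (H₁ : Set X) → Cfsg.IsPiHallOf π H₂ G → A ≤ Subgroup.normalizer (H₂ : Set X) → ∃ c ∈ G ⊓ Subgroup.centralizer (A : Set X), H₂ = H₁.map (MulAut.conj c).toMonoidHom) ∧ (∀ U : Subgroup X, U ≤ G → A ≤ Subgroup.normalizer (U : Set X) → (∀ p : ℕ,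 p.Prime → p ∣ Nat.card U → p ∈ π) → ∃ H : Subgroup X, Cfsg.IsPiHallOf π H G ∧ A ≤ Subgroup.normalizer (H : Set X) ∧ U ≤ H) := by
  refine ⟨partA π A G hAG hcop hsolv, ?_, ?_⟩
  · intro H₁ H₂ h₁ hA₁ h₂ hA₂
    obtain ⟨c, hc, hcH⟩ := partB π A G hAG hcop hsolv H₁ H₂ h₁ hA₁ h₂ hA₂
    exact ⟨c, hc, hcH.symm⟩
  · intro U hUG hAU hUπ
    exact partC π (Nat.card G) _ A G U le_rfl hAG hcop hsolv hUG hAU hUπ

end Cfsg.Agent.S3745
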