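import Cfsg.Statements.S3760
import Mathlib

set_option autoImplicit false
open Cfsg

namespace Cfsg.Agent.S3760

/-- Let the group G act transitively on a set X, let x ∈ X with stabilizer H = G_x, and let K ≤ H. Then N_G(K) acts transitively on the set of fixed points of K if and only if every G-conjugate of K contained in H is already an H-conjugate of K. -/
theorem result {G : Type*} [Group G] {X : Type*} [MulAction G X] (htrans : ∀ a b : X, ∃ g : G, g • a = b) (x : X) (K : Subgroup G) (hK : K ≤ MulAction.stabilizer G x) : (∀ a b : X, (∀ k ∈ K, k • a = a) → (∀ k ∈ K, k • b = b) → ∃ g ∈ Subgroup.normalizer (K : Set G), g • a = b) ↔ ∀ g : G, K.map (MulAut.conj g).toMonoidHom ≤ MulAction.stabilizer G x → ∃ h ∈ MulAction.stabilizer G x, K.map (MulAut.conj g).toMonoidHom = K.map (MulAut.conj h).toMonoidHom := by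
  constructor
  · intro h g hg
    have hfix : ∀ k ∈ K, k • (g⁻¹ • x) = g⁻¹ • x := by
      intro k hk
      have h1 : g * k * g⁻¹ ∈ MulAction.stabilizer G x := by
        apply hg
        exact ⟨k, hk, by simp [MulAut.conj_apply]⟩
      rw [MulAction.mem_stabilizer_iff] at h1
      calc k • (g⁻¹ • x) = g⁻¹ • ((g * k * g⁻¹) • x) := by simp [mul_smul]
        _ = g⁻¹ • x := by rw [h1]
    have hfix0 : ∀ k ∈ K, k • x = x := fun k hk => MulAction.mem_stabilizer_iff.mp (hK hk)
    obtain ⟨n, hn, hnx⟩ := h x (g⁻¹ • x) hfix0 hfix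
    refine ⟨g * n, ?_, ?_⟩
    · rw [MulAction.mem_stabilizer_iff, mul_smul, hnx]; simp
    · rw [Subgroup.mem_normalizer_iff_map_conj_eq] at hn
      have : K.map (MulAut.conj (g * n)).toMonoidHom
          = (K.map (MulAut.conj n).toMonoidHom).map (MulAut.conj g).toMonoidHom := by
        rw [Subgroup.map_map]
        congr 1
        ext y
        simp [MulAut.conj_apply, mul_assoc]
      rw [this]
      have hn' : K.map (MulAut.conj n).toMonoidHom = K := hn
      rw [hn']
  · intro h a b ha hb
    have key : ∀ c : X, (∀ k ∈ K, k • c = c) → ∃ w ∈ Subgroup.normalizer (K : Set G), w • x = c := by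
      intro c hc
      obtain ⟨u, hu⟩ := htrans x c
      have hle : K.map (MulAut.conj u⁻¹).toMonoidHom ≤ MulAction.stabilizer G x := by
        rintro y ⟨k, hk, rfl⟩
        rw [MulAction.mem_stabilizer_iff]
        simp only [MulEquiv.toMonoidHom_eq_coe, MonoidHom.coe_coe, MulAut.conj_apply, inv_inv]
        rw [mul_smul, mul_smul, hu, hc k hk, ← hu]; simp
      obtain ⟨h1, hh1, heq⟩ := h u⁻¹ hle
      refine ⟨u * h1, ?_, ?_⟩
      · rw [Subgroup.mem_normalizer_iff_map_conj_eq]
        have e1 : K.map (MulAut.conj (u * h1)).toMonoidHom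
            = (K.map (MulAut.conj h1).toMonoidHom).map (MulAut.conj u).toMonoidHom := by
          rw [Subgroup.map_map]
          congr 1
          ext y
          simp [MulAut.conj_apply, mul_assoc]
        have e2 : (K.map (MulAut.conj u⁻¹).toMonoidHom).map (MulAut.conj u).toMonoidHom = K := by
          rw [Subgroup.map_map]
          have : (MulAut.conj u).toMonoidHom.comp (MulAut.conj u⁻¹).toMonoidHom = MonoidHom.id G := by
            ext y
            simp [MulAut.conj_apply, mul_assoc]
          rw [this, Subgroup.map_id]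
        show K.map (MulAut.conj (u * h1)).toMonoidHom = K
        rw [e1, ← heq, e2]
      · rw [mul_smul, MulAction.mem_stabilizer_iff.mp hh1, hu]
    obtain ⟨w1, hw1, hw1x⟩ := key a ha
    obtain ⟨w2, hw2, hw2x⟩ := key b hb
    refine ⟨w2 * w1⁻¹, Subgroup.mul_mem _ hw2 (Subgroup.inv_mem _ hw1), ?_⟩
    rw [← hw1x, mul_smul, inv_smul_smul, hw2x]

end Cfsg.Agent.S3760
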