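import Cfsg.Statements.S3766
import Cfsg.Agent.Lib.Lead.Fitting
import Cfsg.Agent.Lib.Lead.Fitting2
import Cfsg.Agent.Lib.Helper2.Comp4

set_option autoImplicit false
open Cfsg

namespace Cfsg.Agent.S3766

open scoped commutatorElement

theorem nilp_centralizes_chief {G : Type*} [Group G] (F : Subgroup G) (hFn : F.Normal)
    (hF : Group.IsNilpotent F) (U V : Subgroup G) (hU : U.Normal) (hV : V.Normal) (hVU : V < U)
    (hch : ∀ W : Subgroup G, W.Normal → V ≤ W → W ≤ U → W = V ∨ W = U) :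
    ⁅U, F⁆ ≤ V := by
  haveI := hU; haveI := hV; haveI := hFn
  have hW : (⁅U, F⁆ ⊔ V).Normal := inferInstance
  rcases hch (⁅U, F⁆ ⊔ V) hW le_sup_right (sup_le (Subgroup.commutator_le_left U F) hVU.le) with h | h
  · exact le_sup_left.trans h.le
  · exfalso
    have key : ∀ k, U ≤ F.lowerCentralSeries k ⊔ V := by
      intro k
      induction k with
      | zero =>
        rw [Subgroup.lowerCentralSeries_zero]
        calc U = ⁅U, F⁆ ⊔ V := h.symm
          _ ≤ F ⊔ V := sup_le_sup_right (Subgroup.commutator_le_right U F) V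
      | succ k ih =>
        calc U = ⁅U, F⁆ ⊔ V := h.symm
          _ ≤ F.lowerCentralSeries (k+1) ⊔ V := by
            refine sup_le ?_ le_sup_right
            rw [Subgroup.commutator_le]
            intro x hx f hf
            obtain ⟨c, hc, v, hv, rfl⟩ := Subgroup.mem_sup_of_normal_right.mp (ih hx)
            have e : ⁅c * v, f⁆ = (c * ⁅v, f⁆ * c⁻¹) * ⁅c, f⁆ := by
              simp only [commutatorElement_def]; group
            rw [e]
            refine Subgroup.mul_mem _ (Subgroup.mem_sup_right ?_) (Subgroup.mem_sup_left ?_)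
            · apply hV.conj_mem
              have e2 : ⁅v, f⁆ = v * (f * v⁻¹ * f⁻¹) := by rw [commutatorElement_def]; group
              rw [e2]
              exact V.mul_mem hv (hV.conj_mem _ (V.inv_mem hv) f)
            · rw [Subgroup.lowerCentralSeries_succ]
              exact Subgroup.commutator_mem_commutator hc hf
    obtain ⟨n, hn⟩ := (Subgroup.isNilpotent_iff_lowerCentralSeries F).mp hF
    have h1 := key n
    rw [hn, bot_sup_eq] at h1
    exact hVU.not_ge h1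

/-- iterated commutator with `C` -/
def cser {G : Type*} [Group G] (C K : Subgroup G) : ℕ → Subgroup G
  | 0 => K
  | n + 1 => ⁅cser C K n, C⁆

theorem cser_mono {G : Type*} [Group G] (C : Subgroup G) {K K' : Subgroup G} (h : K ≤ K') :
    ∀ n, cser C K n ≤ cser C K' n
  | 0 => h
  | n + 1 => Subgroup.commutator_mono (cser_mono C h n) le_rfl

theorem cser_succ' {G : Type*} [Group G] (C K : Subgroup G) :
    ∀ n, cser C K (n + 1) = cser C ⁅K, C⁆ n
  | 0 => rfl
  | n + 1 => by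
    show ⁅cser C K (n + 1), C⁆ = ⁅cser C ⁅K, C⁆ n, C⁆
    rw [cser_succ' C K n]

theorem cser_eq_bot {G : Type*} [Group G] [Finite G] (C F : Subgroup G)
    (hC : ∀ U V : Subgroup G, U.Normal → V.Normal → V < U →
      (∀ W : Subgroup G, W.Normal → V ≤ W → W ≤ U → W = V ∨ W = U) → U ≤ F → ⁅U, C⁆ ≤ V) :
    ∀ n : ℕ, ∀ K : Subgroup G, K.Normal → K ≤ F → Nat.card K ≤ n → ∃ k, cser C K k = ⊥ := by
  intro n
  induction n with
  | zero =>
    intro K _ _ hc
    have := Nat.card_pos (α := K)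
    omega
  | succ n ih =>
    intro K hKn hKF hc
    by_cases hK : K = ⊥
    · exact ⟨0, hK⟩
    have hfin : Set.Finite {V : Subgroup G | V.Normal ∧ V < K} := Set.toFinite _
    have hne : {V : Subgroup G | V.Normal ∧ V < K}.Nonempty :=
      ⟨⊥, inferInstance, bot_lt_iff_ne_bot.mpr hK⟩
    obtain ⟨V, hVmax⟩ := hfin.exists_maximal hne
    have hVn : V.Normal := hVmax.1.1
    have hVK : V < K := hVmax.1.2
    have hch : ∀ W : Subgroup G, W.Normal → V ≤ W → W ≤ K → W = V ∨ W = K := by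
      intro W hWn hVW hWK
      by_cases hWeq : W = K
      · exact Or.inr hWeq
      · left
        exact le_antisymm (hVmax.2 ⟨hWn, lt_of_le_of_ne hWK hWeq⟩ hVW) hVW
    have h1 : ⁅K, C⁆ ≤ V := hC K V hKn hVn hVK hch hKF
    have hcV : Nat.card V ≤ n := by
      by_contra hcon
      have : Nat.card K ≤ Nat.card V := by omega
      exact hVK.ne (Subgroup.eq_of_le_of_card_ge hVK.le this)
    obtain ⟨k, hk⟩ := ih V hVn (hVK.le.trans hKF) hcV
    refine ⟨k + 1, ?_⟩
    rw [cser_succ', eq_bot_iff]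
    exact (cser_mono C h1 k).trans hk.le

theorem result {G : Type*} [Group G] [Finite G] (hG : Group.IsSolvable G) (N : Subgroup G) [N.Normal] (g : G) : (g ∈ (Cfsg.fittingSubgroup ↥N).map N.subtype ↔ g ∈ N ∧ ∀ U V : Subgroup G, (U.Normal ∧ V.Normal ∧ V < U ∧ ∀ W : Subgroup G, W.Normal → V ≤ W → W ≤ U → W = V ∨ W = U) → ∀ u ∈ U, u * g * u⁻¹ * g⁻¹ ∈ V) ∧ (g ∈ (Cfsg.fittingSubgroup ↥N).map N.subtype ↔ g ∈ N ∧ ∀ U V : Subgroup G, (U.Normal ∧ V.Normal ∧ V < U ∧ ∀ W : Subgroup G, W.Normal → V ≤ W → W ≤ U → W = V ∨ W = U) → U ≤ (Cfsg.fittingSubgroup ↥N).map N.subtype → ∀ u ∈ U, u * g * u⁻¹ * g⁻¹ ∈ V) := by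
  classical
  set F : Subgroup G := (Cfsg.fittingSubgroup ↥N).map N.subtype with hFdef
  have hFN : F ≤ N := Subgroup.map_subtype_le _
  have hFn : F.Normal := by
    have h1 := Cfsg.Agent.Lib.Helper2.Comp.normalizer_le_normalizer_fitting N
    rw [Subgroup.normalizer_eq_top_iff.mpr inferInstance] at h1
    exact Subgroup.normalizer_eq_top_iff.mp (top_le_iff.mp h1)
  have hFnil : Group.IsNilpotent F := by
    haveI : Group.IsNilpotent (Cfsg.fittingSubgroup ↥N) := Cfsg.Agent.Lib.Lead.fitting_isNilpotent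
    exact (Group.isNilpotent_congr ((Cfsg.fittingSubgroup ↥N).equivMapOfInjective N.subtype
      N.subtype_injective)).mp inferInstance
  have hF4 : ∀ B : Subgroup G, B.Normal → Group.IsNilpotent B → B ≤ N → B ≤ F := by
    intro B hBn hBnil hBN
    have h1 : B.subgroupOf N ≤ Cfsg.fittingSubgroup ↥N := by
      apply le_sSup
      refine ⟨Subgroup.Normal.subgroupOf hBn N, ?_⟩
      exact (Group.isNilpotent_congr (Subgroup.subgroupOfEquivOfLe hBN)).mpr hBnil
    intro b hb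
    exact ⟨⟨b, hBN hb⟩, h1 (Subgroup.mem_subgroupOf.mpr hb), rfl⟩
  have hI : ∀ g ∈ F, ∀ U V : Subgroup G, (U.Normal ∧ V.Normal ∧ V < U ∧
      ∀ W : Subgroup G, W.Normal → V ≤ W → W ≤ U → W = V ∨ W = U) →
      ∀ u ∈ U, u * g * u⁻¹ * g⁻¹ ∈ V := by
    intro g hg U V ⟨hU, hV, hVU, hch⟩ u hu
    have h1 := nilp_centralizes_chief F hFn hFnil U V hU hV hVU hch
    have h2 : ⁅u, g⁆ ∈ ⁅U, F⁆ := Subgroup.commutator_mem_commutator hu hg
    have h3 := h1 h2
    rwa [commutatorElement_def] at h3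
  have hII : ∀ g ∈ N, (∀ U V : Subgroup G, (U.Normal ∧ V.Normal ∧ V < U ∧
      ∀ W : Subgroup G, W.Normal → V ≤ W → W ≤ U → W = V ∨ W = U) → U ≤ F →
      ∀ u ∈ U, u * g * u⁻¹ * g⁻¹ ∈ V) → g ∈ F := by
    intro g hgN hg
    let C : Subgroup G :=
      { carrier := {x | x ∈ N ∧ ∀ U V : Subgroup G, (U.Normal ∧ V.Normal ∧ V < U ∧
          ∀ W : Subgroup G, W.Normal → V ≤ W → W ≤ U → W = V ∨ W = U) → U ≤ F →
          ∀ u ∈ U, u * x * u⁻¹ * x⁻¹ ∈ V}
        one_mem' := ⟨N.one_mem, fun U V h _ u hu => by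
          have e : u * 1 * u⁻¹ * (1 : G)⁻¹ = 1 := by group
          rw [e]; exact V.one_mem⟩
        mul_mem' := by
          rintro x y ⟨hx, hx'⟩ ⟨hy, hy'⟩
          refine ⟨N.mul_mem hx hy, fun U V h hUF u hu => ?_⟩
          have e : u * (x * y) * u⁻¹ * (x * y)⁻¹
              = (u * x * u⁻¹ * x⁻¹) * (x * (u * y * u⁻¹ * y⁻¹) * x⁻¹) := by group
          rw [e]
          exact V.mul_mem (hx' U V h hUF u hu) (h.2.1.conj_mem _ (hy' U V h hUF u hu) x)
        inv_mem' := by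
          rintro x ⟨hx, hx'⟩
          refine ⟨N.inv_mem hx, fun U V h hUF u hu => ?_⟩
          have e : u * x⁻¹ * u⁻¹ * x⁻¹⁻¹ = x⁻¹ * (u * x * u⁻¹ * x⁻¹)⁻¹ * x⁻¹⁻¹ := by group
          rw [e]
          exact h.2.1.conj_mem _ (V.inv_mem (hx' U V h hUF u hu)) x⁻¹ }
    have hCn : C.Normal := ⟨by
      rintro x ⟨hx, hx'⟩ t
      refine ⟨(inferInstance : N.Normal).conj_mem x hx t, fun U V h hUF u hu => ?_⟩
      have e : u * (t * x * t⁻¹) * u⁻¹ * (t * x * t⁻¹)⁻¹
          = t * ((t⁻¹ * u * t⁻¹⁻¹) * x * (t⁻¹ * u * t⁻¹⁻¹)⁻¹ * x⁻¹) * t⁻¹ := by group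
      rw [e]
      exact h.2.1.conj_mem _ (hx' U V h hUF _ (h.1.conj_mem u hu t⁻¹)) t⟩
    have hCN : C ≤ N := fun x hx => hx.1
    have hgC : g ∈ C := ⟨hgN, hg⟩
    have hCc : ∀ U V : Subgroup G, U.Normal → V.Normal → V < U →
        (∀ W : Subgroup G, W.Normal → V ≤ W → W ≤ U → W = V ∨ W = U) → U ≤ F → ⁅U, C⁆ ≤ V := by
      intro U V hU hV hVU hch hUF
      rw [Subgroup.commutator_le]
      intro u hu x hx
      rw [commutatorElement_def]
      exact hx.2 U V ⟨hU, hV, hVU, hch⟩ hUF u hu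
    by_contra hgF
    have hCF : ¬ C ≤ F := fun h => hgF (h hgC)
    haveI := hG
    have hex : ∃ n, Cfsg.Agent.Lib.Lead.dser C n ≤ F := by
      obtain ⟨n, hn⟩ := (Group.IsSolvable.solvable : ∃ n, derivedSeries G n = ⊥)
      exact ⟨n, (Cfsg.Agent.Lib.Lead.dser_le_derivedSeries C n).trans (hn ▸ bot_le)⟩
    have h0 : Nat.find hex ≠ 0 := fun h => hCF (by have := Nat.find_spec hex; rwa [h] at this)
    obtain ⟨j, hj⟩ := Nat.exists_eq_succ_of_ne_zero h0
    have hD : ¬ Cfsg.Agent.Lib.Lead.dser C j ≤ F := Nat.find_min hex (by omega)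
    have hDD : ⁅Cfsg.Agent.Lib.Lead.dser C j, Cfsg.Agent.Lib.Lead.dser C j⁆ ≤ F := by
      have := Nat.find_spec hex; rwa [hj] at this
    obtain ⟨D, hDdef⟩ : ∃ D, D = Cfsg.Agent.Lib.Lead.dser C j := ⟨_, rfl⟩
    rw [← hDdef] at hD hDD
    have hDn : D.Normal := by rw [hDdef]; exact Cfsg.Agent.Lib.Lead.dser_normal C j
    have hDC : D ≤ C := by rw [hDdef]; exact Cfsg.Agent.Lib.Lead.dser_le C j
    haveI := hDn
    have hDDn : (⁅D, D⁆).Normal := inferInstance
    obtain ⟨k, hk⟩ := cser_eq_bot C F hCc (Nat.card ↥(⁅D, D⁆)) ⁅D, D⁆ hDDn hDD le_rfl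
    have hlcs : ∀ i, D.lowerCentralSeries (i + 1) ≤ cser C ⁅D, D⁆ i := by
      intro i
      induction i with
      | zero => exact le_rfl
      | succ i ih =>
        rw [Subgroup.lowerCentralSeries_succ]
        exact Subgroup.commutator_mono ih hDC
    have hDnil : Group.IsNilpotent D := by
      apply Subgroup.isNilpotent_of_lowerCentralSeries_eq_bot (n := k + 1)
      exact le_bot_iff.mp ((hlcs k).trans hk.le)
    exact hD (hF4 D hDn hDnil (hDC.trans hCN))
  exact ⟨⟨fun hg => ⟨hFN hg, hI g hg⟩, fun ⟨hgN, hg⟩ => hII g hgN (fun U V h _ => hg U V h)⟩,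
    ⟨fun hg => ⟨hFN hg, fun U V h _ => hI g hg U V h⟩, fun ⟨hgN, hg⟩ => hII g hgN hg⟩⟩

end Cfsg.Agent.S3766
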