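import Cfsg.Statements.S3768
import Mathlib
import Mathlib
import Cfsg.Agent.S0035
import Cfsg.Agent.S3383
import Cfsg.Agent.S0039

set_option autoImplicit false
open Cfsg

namespace Cfsg.Agent.S3768


/-- Let G be a finite Frobenius group with Frobenius complement R and Frobenius kernel K (the identity together with the elements in no conjugate of R), and let N be a normal subgroup of G not containing K. Then G/N is a Frobenius group with Frobenius complement RN/N whose Frobenius kernel is the image of K. -/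
theorem result {G : Type*} [Group G] [Finite G] (R : Subgroup G) (hR : Cfsg.IsFrobeniusComplement R) (N : Subgroup G) [N.Normal] (hKN : ¬ Cfsg.frobeniusKernel R ⊆ N) : Cfsg.IsFrobeniusComplement (R.map (QuotientGroup.mk' N)) ∧ Cfsg.frobeniusKernel (R.map (QuotientGroup.mk' N)) = QuotientGroup.mk' N '' Cfsg.frobeniusKernel R := by
  classical
  obtain ⟨K, hKset, hKn, hKc⟩ := Cfsg.Agent.S0035.result R hR
  obtain ⟨-, hdich⟩ := Cfsg.Agent.S3383.result R hR K hKset
  have hNK : N ≤ K := by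
    rcases hdich N inferInstance with h | h
    · exfalso
      apply hKN
      rw [← hKset]
      exact h
    · exact h
  have hdisj : ∀ w ∈ K, w ∈ R → w = 1 := by
    intro w hwK hwR
    exact Subgroup.disjoint_def.mp hKc.disjoint hwK hwR
  have hsurj : Function.Surjective (QuotientGroup.mk' N) := QuotientGroup.mk'_surjective N
  have hKbn : (K.map (QuotientGroup.mk' N)).Normal := Subgroup.Normal.map hKn _ hsurj
  have hmk1 : ∀ g : G, (QuotientGroup.mk' N) g = 1 ↔ g ∈ N := fun g => QuotientGroup.eq_one_iff g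
  -- K R = G
  have hdec : ∀ g : G, ∃ k ∈ K, ∃ r ∈ R, g = k * r := by
    intro g
    obtain ⟨⟨⟨k, hk⟩, ⟨r, hr⟩⟩, hkr⟩ := hKc.2 g
    exact ⟨k, hk, r, hr, hkr.symm⟩
  have hcb : Subgroup.IsComplement' (K.map (QuotientGroup.mk' N)) (R.map (QuotientGroup.mk' N)) := by
    apply Subgroup.isComplement'_of_disjoint_and_mul_eq_univ
    · rw [Subgroup.disjoint_def]
      rintro x ⟨k, hk, rfl⟩ ⟨r, hr, hkr⟩
      have h1 : r⁻¹ * k ∈ N := by
        rw [← hmk1, map_mul, map_inv, hkr, inv_mul_cancel]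
      have h2 : r ∈ K := by
        have e : r = k * (r⁻¹ * k)⁻¹ := by group
        rw [e]
        exact K.mul_mem hk (K.inv_mem (hNK h1))
      have h3 := hdisj r h2 hr
      rw [← hkr, h3, map_one]
    · rw [Set.eq_univ_iff_forall]
      intro x
      obtain ⟨g, rfl⟩ := hsurj x
      obtain ⟨k, hk, r, hr, rfl⟩ := hdec g
      rw [map_mul]
      exact Set.mul_mem_mul ⟨k, hk, rfl⟩ ⟨r, hr, rfl⟩
  have hKb1 : K.map (QuotientGroup.mk' N) ≠ ⊥ := by
    intro h
    apply hKN
    rw [← hKset]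
    intro k hk
    have h1 : (QuotientGroup.mk' N) k ∈ K.map (QuotientGroup.mk' N) := ⟨k, hk, rfl⟩
    rw [h, Subgroup.mem_bot, hmk1] at h1
    exact h1
  have hRinj : ∀ r ∈ R, (QuotientGroup.mk' N) r = 1 → r = 1 := by
    intro r hr h
    rw [hmk1] at h
    exact hdisj r (hNK h) hr
  have hRb1 : R.map (QuotientGroup.mk' N) ≠ ⊥ := by
    intro h
    apply hR.1
    rw [eq_bot_iff]
    intro r hr
    have h1 : (QuotientGroup.mk' N) r ∈ R.map (QuotientGroup.mk' N) := ⟨r, hr, rfl⟩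
    rw [h, Subgroup.mem_bot] at h1
    exact Subgroup.mem_bot.mpr (hRinj r hr h1)
  have hK1 : K ≠ ⊥ := by
    intro h
    apply hKb1
    rw [h, Subgroup.map_bot]
  have hfpf := (Cfsg.Agent.S0039.result K R hKc hK1 hR.1).mp hR
  have hfrob : Cfsg.IsFrobeniusComplement (R.map (QuotientGroup.mk' N)) := by
    haveI := hKbn
    rw [Cfsg.Agent.S0039.result (K.map (QuotientGroup.mk' N)) (R.map (QuotientGroup.mk' N)) hcb
      hKb1 hRb1]
    rintro _ ⟨r, hr, rfl⟩ hr1
    have hr1' : r ≠ 1 := by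
      rintro rfl
      exact hr1 (map_one _)
    have hinj : ∀ c ∈ K, ∀ c' ∈ K, c * r * c⁻¹ * r⁻¹ = c' * r * c'⁻¹ * r⁻¹ → c = c' := by
      intro c hc c' hc' h
      have h1 : c * r * c⁻¹ = c' * r * c'⁻¹ := mul_right_cancel h
      have h2 : c'⁻¹ * c ∈ K ⊓ Subgroup.centralizer {r} := by
        refine ⟨K.mul_mem (K.inv_mem hc') hc, ?_⟩
        show c'⁻¹ * c ∈ Subgroup.centralizer {r}
        rw [Subgroup.mem_centralizer_iff]
        intro w hw
        rw [Set.mem_singleton_iff] at hw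
        rw [hw]
        calc r * (c'⁻¹ * c) = c'⁻¹ * (c' * r * c'⁻¹) * c := by group
          _ = c'⁻¹ * (c * r * c⁻¹) * c := by rw [h1]
          _ = c'⁻¹ * c * r := by group
      rw [hfpf r hr hr1', Subgroup.mem_bot] at h2
      have e : c = c' * (c'⁻¹ * c) := by group
      rw [e, h2, mul_one]
    have hfN : ∀ n : ↥N, (n : G) * r * (n : G)⁻¹ * r⁻¹ ∈ N := by
      intro n
      have h1 : r * (n : G)⁻¹ * r⁻¹ ∈ N := by
        have := (inferInstance : N.Normal).conj_mem _ (N.inv_mem n.2) r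
        exact this
      have e : (n : G) * r * (n : G)⁻¹ * r⁻¹ = (n : G) * (r * (n : G)⁻¹ * r⁻¹) := by group
      rw [e]
      exact N.mul_mem n.2 h1
    have hfinj : Function.Injective (fun n : ↥N => (⟨(n : G) * r * (n : G)⁻¹ * r⁻¹, hfN n⟩ : ↥N)) := by
      intro n n' h
      have h1 : (n : G) * r * (n : G)⁻¹ * r⁻¹ = (n' : G) * r * (n' : G)⁻¹ * r⁻¹ :=
        congrArg Subtype.val h
      exact Subtype.ext (hinj _ (hNK n.2) _ (hNK n'.2) h1)
    have hfsurj := Finite.injective_iff_surjective.mp hfinj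
    rw [eq_bot_iff]
    rintro x ⟨⟨k, hk, rfl⟩, hxc⟩
    have h1 : (QuotientGroup.mk' N) r * (QuotientGroup.mk' N) k =
        (QuotientGroup.mk' N) k * (QuotientGroup.mk' N) r :=
      Subgroup.mem_centralizer_iff.mp hxc _ rfl
    have h2 : k * r * k⁻¹ * r⁻¹ ∈ N := by
      rw [← hmk1, map_mul, map_mul, map_mul, map_inv, map_inv, ← h1]
      group
    obtain ⟨n, hn⟩ := hfsurj ⟨k * r * k⁻¹ * r⁻¹, h2⟩
    have h3 : (n : G) * r * (n : G)⁻¹ * r⁻¹ = k * r * k⁻¹ * r⁻¹ := congrArg Subtype.val hn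
    have h4 := hinj _ (hNK n.2) _ hk h3
    rw [Subgroup.mem_bot, hmk1, ← h4]
    exact n.2
  refine ⟨hfrob, ?_⟩
  obtain ⟨K₂, hK₂set, hK₂n, hK₂c⟩ := Cfsg.Agent.S0035.result (R.map (QuotientGroup.mk' N)) hfrob
  obtain ⟨-, hdich₂⟩ := Cfsg.Agent.S3383.result (R.map (QuotientGroup.mk' N)) hfrob K₂ hK₂set
  have hcard : Nat.card K₂ = Nat.card (K.map (QuotientGroup.mk' N)) := by
    rw [← hK₂c.index_eq_card, ← hcb.index_eq_card]
  have heq : K₂ = K.map (QuotientGroup.mk' N) := by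
    rcases hdich₂ _ hKbn with h | h
    · exact Subgroup.eq_of_le_of_card_ge h (le_of_eq hcard.symm)
    · exact (Subgroup.eq_of_le_of_card_ge h (le_of_eq hcard)).symm
  rw [← hK₂set, heq, Subgroup.coe_map, hKset]

end Cfsg.Agent.S3768
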