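import Cfsg.Statements.S3771
import Mathlib
import Cfsg.Agent.Lib.Lead.NormalEA
import Cfsg.Agent.Lib.Helper1.Abel

set_option autoImplicit false
open Cfsg

namespace Cfsg.Agent.S3771


open Cfsg.Agent.Lib

/-- the centralizer of a normal subgroup of order `p²` of a `p`-group has index at most `p` -/
theorem index_centralizer_le {R : Type*} [Group R] [Finite R] {p : ℕ} [Fact p.Prime] (hR : IsPGroup p R)
    (N : Subgroup R) [N.Normal] (hNc : Nat.card N = p ^ 2) :
    (Subgroup.centralizer (N : Set R)).index ≤ p := by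
  classical
  have hp : p.Prime := Fact.out
  by_cases hNZ : N ≤ Subgroup.center R
  · have h1 : Subgroup.centralizer (N : Set R) = ⊤ := by
      rw [eq_top_iff]
      intro g _
      rw [Subgroup.mem_centralizer_iff]
      intro b hb
      exact (Subgroup.mem_center_iff.mp (hNZ hb) g).symm
    rw [h1, Subgroup.index_top]
    exact hp.one_lt.le
  · obtain ⟨n₀, hn₀N, hn₀c⟩ : ∃ n₀ ∈ N, n₀ ∉ Subgroup.center R := by
      by_contra h
      push_neg at h
      exact hNZ h
    have hNbot : N ≠ ⊥ := by
      rintro rfl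
      rw [Subgroup.card_bot] at hNc
      nlinarith [hp.two_le]
    obtain ⟨z, hzN, hzc, hzo⟩ := Lead.exists_central_order_p hR N hNbot
    have hZc : Subgroup.zpowers z ≤ Subgroup.center R := Subgroup.zpowers_le.mpr hzc
    have hZcard : Nat.card (Subgroup.zpowers z) = p := by rw [Nat.card_zpowers, hzo]
    have hCeq : Subgroup.centralizer (N : Set R) = Subgroup.centralizer ({n₀} : Set R) := by
      apply le_antisymm
      · exact Subgroup.centralizer_le (Set.singleton_subset_iff.mpr hn₀N)
      · intro g hg
        have hgn : g * n₀ = n₀ * g := Subgroup.mem_centralizer_singleton_iff.mp hg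
        obtain ⟨K, hK⟩ : ∃ K : Subgroup R, K = N ⊓ Subgroup.centralizer ({g} : Set R) := ⟨_, rfl⟩
        have hzK : Subgroup.zpowers z ≤ K := by
          rw [hK]
          apply Subgroup.zpowers_le.mpr
          refine ⟨hzN, ?_⟩
          show z ∈ Subgroup.centralizer ({g} : Set R)
          rw [Subgroup.mem_centralizer_singleton_iff]
          exact (Subgroup.mem_center_iff.mp hzc g).symm
        have hnK : n₀ ∈ K := by
          rw [hK]
          refine ⟨hn₀N, ?_⟩
          show n₀ ∈ Subgroup.centralizer ({g} : Set R)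
          rw [Subgroup.mem_centralizer_singleton_iff]
          exact hgn.symm
        have hKN : K ≤ N := by rw [hK]; exact inf_le_left
        have hKdvd : Nat.card K ∣ p ^ 2 := by rw [← hNc]; exact Subgroup.card_dvd_of_le hKN
        obtain ⟨m, hm, hKm⟩ := (Nat.dvd_prime_pow hp).mp hKdvd
        have hm2 : m = 2 := by
          by_contra hne
          have hm1 : m ≤ 1 := by omega
          have h1 : Nat.card K ≤ Nat.card (Subgroup.zpowers z) := by
            rw [hKm, hZcard]
            calc p ^ m ≤ p ^ 1 := Nat.pow_le_pow_right hp.pos hm1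
              _ = p := pow_one p
          have h2 : Subgroup.zpowers z = K := Subgroup.eq_of_le_of_card_ge hzK h1
          exact hn₀c (hZc (h2 ▸ hnK))
        have hKeq : K = N := Subgroup.eq_of_le_of_card_ge hKN (by rw [hKm, hm2, hNc])
        rw [Subgroup.mem_centralizer_iff]
        intro b hb
        have hbK : b ∈ K := hKeq ▸ hb
        rw [hK] at hbK
        have h9 : b ∈ Subgroup.centralizer ({g} : Set R) := hbK.2
        rw [Subgroup.mem_centralizer_singleton_iff] at h9
        exact h9
    rw [hCeq]
    have h1 : (Subgroup.centralizer ({n₀} : Set R)).index = (MulAction.orbit (ConjAct R) n₀).ncard := by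
      rw [← MulAction.index_stabilizer, ConjAct.stabilizer_eq_centralizer]
      rfl
    have h2 : MulAction.orbit (ConjAct R) n₀ ⊂ (N : Set R) := by
      rw [Set.ssubset_iff_of_subset]
      · refine ⟨1, N.one_mem, ?_⟩
        rintro ⟨g, hg⟩
        change g • n₀ = 1 at hg
        rw [ConjAct.smul_def] at hg
        apply hn₀c
        have h3 : n₀ = 1 := by
          have h4 : n₀ = (ConjAct.ofConjAct g)⁻¹ * (ConjAct.ofConjAct g * n₀ * (ConjAct.ofConjAct g)⁻¹) *
              ConjAct.ofConjAct g := by group
          rw [h4, hg]; group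
        rw [h3]; exact Subgroup.one_mem _
      · rintro y ⟨g, rfl⟩
        show g • n₀ ∈ N
        rw [ConjAct.smul_def]
        exact Subgroup.Normal.conj_mem inferInstance n₀ hn₀N _
    have h3 : (MulAction.orbit (ConjAct R) n₀).ncard < p ^ 2 := by
      have h5 := Set.ncard_lt_ncard h2 (Set.toFinite _)
      have e : (N : Set R).ncard = Nat.card N := (Nat.card_coe_set_eq (N : Set R)).symm
      rw [e, hNc] at h5
      exact h5
    obtain ⟨n, hn⟩ := IsPGroup.iff_card.mp hR
    have h4 : (Subgroup.centralizer ({n₀} : Set R)).index ∣ p ^ n := by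
      rw [← hn]; exact Subgroup.index_dvd_card _
    obtain ⟨k, -, hk⟩ := (Nat.dvd_prime_pow hp).mp h4
    rw [← h1, hk] at h3
    have hk1 : k ≤ 1 := by
      by_contra hne
      have h5 : p ^ 2 ≤ p ^ k := Nat.pow_le_pow_right hp.pos (by omega)
      omega
    rw [hk]
    calc p ^ k ≤ p ^ 1 := Nat.pow_le_pow_right hp.pos hk1
      _ = p := pow_one p

/-- Let p be a prime and R a finite p-group of p-rank at most 2 (no elementary abelian subgroup of order p³) in which every element has order dividing p. Then R has order at most p³. -/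
theorem result {R : Type*} [Group R] [Finite R] {p : ℕ} [Fact p.Prime] (hR : IsPGroup p R) (hrank : Cfsg.PRankLE p 2 R) (hexp : ∀ x : R, x ^ p = 1) : Nat.card R ≤ p ^ 3 := by
  classical
  have hp : p.Prime := Fact.out
  by_contra hcon
  push_neg at hcon
  obtain ⟨n, hn⟩ := IsPGroup.iff_card.mp hR
  have hn4 : 4 ≤ n := by
    by_contra h
    push_neg at h
    have : p ^ n ≤ p ^ 3 := Nat.pow_le_pow_right hp.pos (by omega)
    omega
  obtain ⟨N, hNn, -, hNc⟩ := Lead.exists_normal_card_sq hR (⊤ : Subgroup R)
    (by rw [Subgroup.card_top, hn]; exact Nat.pow_le_pow_right hp.pos (by omega))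
  haveI := hNn
  have hNcomm : ∀ a ∈ N, ∀ b ∈ N, a * b = b * a := by
    intro a ha b hb
    have := IsPGroup.commutative_of_card_eq_prime_sq hNc (⟨a, ha⟩ : N) ⟨b, hb⟩
    exact congrArg Subtype.val this
  obtain ⟨C, hC⟩ : ∃ C : Subgroup R, C = Subgroup.centralizer (N : Set R) := ⟨_, rfl⟩
  have hidx : C.index ≤ p := by rw [hC]; exact index_centralizer_le hR N hNc
  have hC3 : p ^ 3 ≤ Nat.card C := by
    have h1 := Subgroup.card_mul_index C
    rw [hn] at h1
    have h2 : p ^ n ≤ Nat.card C * p := by rw [← h1]; exact Nat.mul_le_mul_left _ hidx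
    have h3 : p ^ 4 ≤ p ^ n := Nat.pow_le_pow_right hp.pos hn4
    have h4 : p ^ 3 * p ≤ Nat.card C * p := by
      calc p ^ 3 * p = p ^ 4 := by ring
        _ ≤ p ^ n := h3
        _ ≤ Nat.card C * p := h2
    exact Nat.le_of_mul_le_mul_right h4 hp.pos
  have hNC : N ≤ C := by
    rw [hC]
    intro a ha
    rw [Subgroup.mem_centralizer_iff]
    intro b hb
    exact hNcomm b hb a ha
  obtain ⟨x, hxC, hxN⟩ : ∃ x ∈ C, x ∉ N := by
    by_contra h
    push_neg at h
    have h1 : C ≤ N := h
    have h2 := Subgroup.card_le_of_le h1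
    rw [hNc] at h2
    have h3 : p ^ 2 < p ^ 3 := Nat.pow_lt_pow_right hp.one_lt (by norm_num)
    omega
  have hcommA := Helper1.comm_of_mem_sup (A := N) (Z := Subgroup.zpowers x) hNcomm
    (by
      rintro a ha z ⟨k, rfl⟩
      have h1 : x * a = a * x := by
        rw [hC] at hxC
        exact (Subgroup.mem_centralizer_iff.mp hxC a ha).symm
      exact ((show Commute a x from h1.symm).zpow_right k).eq)
    (by
      rintro z ⟨k, rfl⟩ w ⟨l, rfl⟩
      exact ((Commute.refl x).zpow_zpow k l).eq)
  have hA := hrank (N ⊔ Subgroup.zpowers x) (Helper1.isMulCommutative_of_comm hcommA) (fun a _ => hexp a)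
  have h1 : N ⊔ Subgroup.zpowers x = N := by
    symm
    apply Subgroup.eq_of_le_of_card_ge le_sup_left
    rw [hNc]; exact hA
  apply hxN
  rw [← h1]
  exact (le_sup_right : Subgroup.zpowers x ≤ N ⊔ Subgroup.zpowers x) (Subgroup.mem_zpowers x)

end Cfsg.Agent.S3771
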