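import Cfsg.Statements.S3772
import Mathlib
import Cfsg.Agent.Lib.Lead.PFrat

set_option autoImplicit false
open Cfsg

namespace Cfsg.Agent.S3772

open scoped commutatorElement

theorem frattini_bot_of_sq {G : Type*} [Group G] [Finite G] (h : ∀ x : G, x ^ 2 = 1) :
    frattini G = ⊥ := by
  classical
  have hinv : ∀ x : G, x⁻¹ = x := by
    intro x
    have h1 := h x
    rw [pow_two] at h1
    exact inv_eq_of_mul_eq_one_left h1
  have hcomm : ∀ x y : G, x * y = y * x := by
    intro x y
    have h1 := hinv (x * y)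
    rw [mul_inv_rev, hinv x, hinv y] at h1
    exact h1.symm
  rw [Subgroup.eq_bot_iff_forall]
  intro z hz
  by_contra hz1
  have hfin : ({K : Subgroup G | z ∉ K} : Set (Subgroup G)).Finite := Set.toFinite _
  have hne : ({K : Subgroup G | z ∉ K} : Set (Subgroup G)).Nonempty :=
    ⟨⊥, fun hb => hz1 (Subgroup.mem_bot.1 hb)⟩
  obtain ⟨M, hM⟩ := hfin.exists_maximal hne
  have hzM : z ∉ M := hM.1
  have hmax : ∀ K : Subgroup G, z ∉ K → M ≤ K → K ≤ M := fun K hK hMK => hM.2 hK hMK
  have hco : IsCoatom M := by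
    refine ⟨fun htop => hzM (by rw [htop]; exact Subgroup.mem_top z), ?_⟩
    intro K hMK
    have hzK : z ∈ K := by
      by_contra hzK
      exact (lt_irrefl M) (lt_of_lt_of_le hMK (hmax K hzK hMK.le))
    rw [Subgroup.eq_top_iff']
    intro g
    by_cases hgM : g ∈ M
    · exact hMK.le hgM
    · have hgg : g * g = 1 := by rw [← pow_two]; exact h g
      let T : Subgroup G :=
        { carrier := {x | x ∈ M ∨ x * g ∈ M}
          one_mem' := Or.inl M.one_mem
          mul_mem' := by
            rintro a b (ha | ha) (hb | hb)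
            · exact Or.inl (M.mul_mem ha hb)
            · exact Or.inr (by rw [mul_assoc]; exact M.mul_mem ha hb)
            · have e : a * b * g = (a * g) * b := by rw [mul_assoc, hcomm b g, ← mul_assoc]
              exact Or.inr (by rw [e]; exact M.mul_mem ha hb)
            · have e : a * b = (a * g) * (b * g) := by
                calc a * b = a * (g * g) * b := by rw [hgg, mul_one]
                  _ = (a * g) * (g * b) := by simp only [mul_assoc]
                  _ = (a * g) * (b * g) := by rw [hcomm g b]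
              exact Or.inl (by rw [e]; exact M.mul_mem ha hb)
          inv_mem' := by
            intro a ha
            rw [hinv a]; exact ha }
      have hMT : M ≤ T := fun x hx => Or.inl hx
      have hgT : g ∈ T := Or.inr (by rw [hgg]; exact M.one_mem)
      have hzT : z ∈ T := by
        by_contra hzT
        exact hgM (hmax T hzT hMT hgT)
      rcases hzT with hzM' | hzg
      · exact absurd hzM' hzM
      · have hzz : z * z = 1 := by rw [← pow_two]; exact h z
        have e : g = z * (z * g) := by rw [← mul_assoc, hzz, one_mul]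
        rw [e]
        exact K.mul_mem hzK (hMK.le hzg)
  exact hzM (frattini_le_coatom hco hz)

theorem ar_lemma (d c j : ℕ) (hc1 : 1 ≤ c)
    (h : (2 * (j : ℤ) - 2 ^ (d + 1)) ^ 2 = 2 ^ (d + 1) * 2 ^ c) :
    ∃ e : ℕ, 2 * e + 1 = d + c ∧ (j = 2 ^ d + 2 ^ e ∨ j + 2 ^ e = 2 ^ d) := by
  obtain ⟨c', rfl⟩ : ∃ c', c = c' + 1 := ⟨c - 1, by omega⟩
  obtain ⟨δ, hδ⟩ : ∃ δ : ℤ, δ = (j : ℤ) - 2 ^ d := ⟨_, rfl⟩
  have h1 : δ ^ 2 = 2 ^ (d + c') := by
    have h2 : (2 * (j : ℤ) - 2 ^ (d + 1)) = 2 * δ := by rw [hδ, pow_succ]; ring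
    rw [h2] at h
    have h3 : (2 : ℤ) ^ (d + 1) * 2 ^ (c' + 1) = 4 * 2 ^ (d + c') := by
      rw [pow_succ, pow_succ, pow_add]; ring
    rw [h3] at h
    have h4 : (2 * δ) ^ 2 = 4 * δ ^ 2 := by ring
    rw [h4] at h
    linarith
  obtain ⟨t, ht⟩ : ∃ t : ℕ, t = δ.natAbs := ⟨_, rfl⟩
  have h5 : t * t = 2 ^ (d + c') := by
    have h6 : ((t * t : ℕ) : ℤ) = (2 : ℤ) ^ (d + c') := by
      rw [ht, Nat.cast_mul, Int.natAbs_mul_self', ← pow_two, h1]
    exact_mod_cast h6
  obtain ⟨e, -, he⟩ := (Nat.dvd_prime_pow Nat.prime_two).1 (Dvd.intro t h5)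
  have h7 : e + e = d + c' := by
    rw [he, ← pow_add] at h5
    exact Nat.pow_right_injective (le_refl 2) h5
  refine ⟨e, by omega, ?_⟩
  rcases Int.natAbs_eq δ with h8 | h8
  · left
    have ht' : (t : ℤ) = δ := by rw [ht]; exact h8.symm
    have h9 : (j : ℤ) = 2 ^ d + (t : ℤ) := by rw [ht', hδ]; ring
    rw [he] at h9
    exact_mod_cast h9
  · right
    have ht' : (t : ℤ) = -δ := by rw [ht]; linarith
    have h9 : (j : ℤ) + (t : ℤ) = 2 ^ d := by rw [ht', hδ]; ring
    rw [he] at h9
    exact_mod_cast h9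

/-- Let G be a finite 2-group whose Frattini subgroup Φ(G) has order 2, with |G : Φ(G)| = 2^d, and let j be the number of elements x of G with x² = 1. Then j = 2^d, or j = 2^d + 2^(d−r) or j = 2^d − 2^(d−r) for some positive integer r with 2r ≤ d. Moreover if d = 2r and j is 2^d + 2^r or 2^d − 2^r, then G is extraspecial. -/
theorem result {G : Type*} [Group G] [Finite G] (hG : IsPGroup 2 G) (hΦ : Nat.card (frattini G) = 2) (d : ℕ) (hd : (frattini G).index = 2 ^ d) : (Nat.card {x : G // x ^ 2 = 1} = 2 ^ d ∨ ∃ r : ℕ, 1 ≤ r ∧ 2 * r ≤ d ∧ (Nat.card {x : G // x ^ 2 = 1} = 2 ^ d + 2 ^ (d - r) ∨ Nat.card {x : G // x ^ 2 = 1} + 2 ^ (d - r) = 2 ^ d)) ∧ (∀ r : ℕ, d = 2 * r → (Nat.card {x : G // x ^ 2 = 1} = 2 ^ d + 2 ^ r ∨ Nat.card {x : G // x ^ 2 = 1} + 2 ^ r = 2 ^ d) → Cfsg.IsExtraspecial 2 G) := by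
  classical
  haveI : Fintype G := Fintype.ofFinite G
  haveI : Fact (Nat.Prime 2) := ⟨Nat.prime_two⟩
  obtain ⟨hcF, hsqF⟩ := Cfsg.Agent.Lib.Lead.commutator_le_frattini_and_pow_mem hG
  obtain ⟨⟨z, hzΦ⟩, hz1', huniq⟩ := (Nat.card_eq_two_iff' (1 : ↥(frattini G))).1 hΦ
  have hz1 : z ≠ 1 := fun h => hz1' (Subtype.ext h)
  have hΦ2 : ∀ u ∈ frattini G, u = 1 ∨ u = z := by
    intro u hu
    by_cases h : u = 1
    · exact Or.inl h
    · right
      have h1 := huniq ⟨u, hu⟩ (fun h0 => h (congrArg Subtype.val h0))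
      exact congrArg Subtype.val h1
  have hzc : ∀ g : G, g * z = z * g := by
    intro g
    have h1 : g * z * g⁻¹ ∈ frattini G :=
      (inferInstance : (frattini G).Normal).conj_mem z hzΦ g
    rcases hΦ2 _ h1 with h2 | h2
    · exfalso
      apply hz1
      have h3 : z = g⁻¹ * (g * z * g⁻¹) * g := by group
      rw [h3, h2]; group
    · calc g * z = g * z * g⁻¹ * g := by group
        _ = z * g := by rw [h2]
  have hΦc : ∀ u ∈ frattini G, ∀ g : G, g * u = u * g := by
    intro u hu g
    rcases hΦ2 u hu with h | h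
    · rw [h, mul_one, one_mul]
    · rw [h]; exact hzc g
  have hzz : z * z = 1 := by
    rcases hΦ2 _ ((frattini G).mul_mem hzΦ hzΦ) with h | h
    · exact h
    · exfalso; apply hz1
      calc z = z⁻¹ * (z * z) := by group
        _ = z⁻¹ * z := by rw [h]
        _ = 1 := inv_mul_cancel z
  obtain ⟨σ, hσ⟩ : ∃ σ : G → ℤ, ∀ u, σ u = if u = 1 then 1 else -1 := ⟨_, fun u => rfl⟩
  have hσmul : ∀ u ∈ frattini G, ∀ v ∈ frattini G, σ (u * v) = σ u * σ v := by
    intro u hu v hv
    rcases hΦ2 u hu with h1 | h1 <;> rcases hΦ2 v hv with h2 | h2 <;>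
      simp [hσ, h1, h2, hz1, hzz]
  have hσ1 : σ 1 = 1 := by simp [hσ]
  have hσpm : ∀ u, σ u = 1 ∨ σ u = -1 := by
    intro u
    rw [hσ]
    by_cases h : u = 1 <;> simp [h]
  obtain ⟨ε, hε⟩ : ∃ ε : G → ℤ, ∀ x, ε x = σ (x ^ 2) := ⟨_, fun x => rfl⟩
  obtain ⟨χ, hχ⟩ : ∃ χ : G → G → ℤ, ∀ x y, χ x y = σ ⁅y, x⁆ := ⟨_, fun x y => rfl⟩
  have hcm : ∀ x y : G, ⁅y, x⁆ ∈ frattini G := fun x y =>
    hcF (Subgroup.commutator_mem_commutator (Subgroup.mem_top y) (Subgroup.mem_top x))
  have hI1 : ∀ x y, ε (x * y) = χ x y * ε x * ε y := by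
    intro x y
    have hc := hΦc _ (hcm x y) x
    have e : (x * y) ^ 2 = ⁅y, x⁆ * x ^ 2 * y ^ 2 := by
      have e1 : (x * y) * (x * y) = x * ⁅y, x⁆ * x * y * y := by
        rw [commutatorElement_def]; group
      rw [pow_two, pow_two, pow_two, e1, hc]
      simp only [mul_assoc]
    rw [hε, hε, hε, hχ, e, hσmul _ ((frattini G).mul_mem (hcm x y) (hsqF x)) _ (hsqF y),
      hσmul _ (hcm x y) _ (hsqF x)]
  have hI2 : ∀ x y y', χ x (y * y') = χ x y * χ x y' := by
    intro x y y'
    have hc := hΦc _ (hcm x y') y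
    have e : ⁅y * y', x⁆ = ⁅y', x⁆ * ⁅y, x⁆ := by
      have e1 : ⁅y * y', x⁆ = y * ⁅y', x⁆ * y⁻¹ * ⁅y, x⁆ := by
        simp only [commutatorElement_def]; group
      rw [e1, hc]; group
    rw [hχ, hχ, hχ, e, hσmul _ (hcm x y') _ (hcm x y), mul_comm]
  have hεsq : ∀ y, ε y * ε y = 1 := by
    intro y
    rcases hσpm (y ^ 2) with h | h <;> rw [hε, h] <;> norm_num
  have hZc : ∀ x ∈ Subgroup.center G, ∀ y, χ x y = 1 := by
    intro x hx y
    rw [hχ]
    have h2 : ⁅y, x⁆ = 1 := by
      rw [commutatorElement_eq_one_iff_commute]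
      exact (Subgroup.mem_center_iff.1 hx y)
    rw [h2, hσ1]
  have hsumχ : ∀ x, ∑ y, χ x y
      = if x ∈ Subgroup.center G then (Fintype.card G : ℤ) else 0 := by
    intro x
    by_cases hx : x ∈ Subgroup.center G
    · rw [if_pos hx]
      simp [hZc x hx]
    · rw [if_neg hx]
      have hy : ∃ y₀, χ x y₀ = -1 := by
        by_contra hcon
        push_neg at hcon
        apply hx
        rw [Subgroup.mem_center_iff]
        intro y
        have h1 : χ x y = 1 := by
          rcases hσpm ⁅y, x⁆ with h | h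
          · rw [hχ]; exact h
          · exact absurd (by rw [hχ]; exact h) (hcon y)
        rw [hχ, hσ] at h1
        by_cases h2 : ⁅y, x⁆ = 1
        · exact (commutatorElement_eq_one_iff_commute.1 h2).eq
        · rw [if_neg h2] at h1; norm_num at h1
      obtain ⟨y₀, hy₀⟩ := hy
      have h1 : ∑ y, χ x (y₀ * y) = ∑ y, χ x y :=
        Equiv.sum_comp (Equiv.mulLeft y₀) (fun y => χ x y)
      have h2 : ∑ y, χ x (y₀ * y) = - ∑ y, χ x y := by
        rw [← Finset.sum_neg_distrib]
        apply Finset.sum_congr rfl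
        intro y _
        rw [hI2, hy₀]; ring
      linarith
  obtain ⟨S, hS⟩ : ∃ S : ℤ, S = ∑ x, ε x := ⟨_, rfl⟩
  obtain ⟨A, hA⟩ : ∃ A : ℤ, A = ∑ x, (if x ∈ Subgroup.center G then ε x else 0) := ⟨_, rfl⟩
  have hSS : S * S = (Fintype.card G : ℤ) * A := by
    have h1 : S * S = ∑ y, ∑ x, χ x y * ε x := by
      calc S * S = ∑ y, S * ε y := by rw [← Finset.mul_sum, ← hS]
        _ = ∑ y, ∑ x, χ x y * ε x := by
          apply Finset.sum_congr rfl
          intro y _
          have h2 : S = ∑ x, ε (x * y) := by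
            rw [hS]; exact (Equiv.sum_comp (Equiv.mulRight y) (fun x => ε x)).symm
          rw [h2, Finset.sum_mul]
          apply Finset.sum_congr rfl
          intro x _
          rw [hI1 x y, mul_assoc, hεsq y, mul_one]
    rw [h1, Finset.sum_comm, hA, Finset.mul_sum]
    apply Finset.sum_congr rfl
    intro x _
    rw [← Finset.sum_mul, hsumχ x]
    by_cases hx : x ∈ Subgroup.center G <;> simp [hx]
  have hcf : ∀ (p : G → Prop) [DecidablePred p],
      (Finset.univ.filter p).card = Nat.card {x : G // p x} := by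
    intro p _
    rw [Nat.card_eq_fintype_card]
    exact (Fintype.card_of_subtype _ (fun x => by simp)).symm
  obtain ⟨j, hj⟩ : ∃ j : ℕ, j = Nat.card {x : G // x ^ 2 = 1} := ⟨_, rfl⟩
  have hS2 : S = 2 * (j : ℤ) - (Fintype.card G : ℤ) := by
    have h1 : ∀ x ∈ (Finset.univ : Finset G),
        ε x = 2 * (if x ^ 2 = 1 then (1 : ℤ) else 0) - 1 := by
      intro x _
      rw [hε, hσ]
      by_cases h : x ^ 2 = 1 <;> simp [h]
    rw [hS, Finset.sum_congr rfl h1, Finset.sum_sub_distrib, ← Finset.mul_sum,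
      Finset.sum_boole, hcf, ← hj]
    simp
  have hAcase : A = 0 ∨ (A = (Nat.card ↥(Subgroup.center G) : ℤ) ∧
      ∀ x ∈ Subgroup.center G, x ^ 2 = 1) := by
    by_cases hex : ∃ x₀ ∈ Subgroup.center G, ε x₀ = -1
    · left
      obtain ⟨x₀, hx₀, hεx₀⟩ := hex
      have h1 : ∑ x, (if x₀ * x ∈ Subgroup.center G then ε (x₀ * x) else 0) = A := by
        rw [hA]
        exact Equiv.sum_comp (Equiv.mulLeft x₀)
          (fun x => if x ∈ Subgroup.center G then ε x else 0)
      have h2 : ∑ x, (if x₀ * x ∈ Subgroup.center G then ε (x₀ * x) else 0) = -A := by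
        rw [hA, ← Finset.sum_neg_distrib]
        apply Finset.sum_congr rfl
        intro x _
        have h3 : x₀ * x ∈ Subgroup.center G ↔ x ∈ Subgroup.center G := by
          constructor
          · intro h
            have h4 : x = x₀⁻¹ * (x₀ * x) := by group
            rw [h4]
            exact (Subgroup.center G).mul_mem ((Subgroup.center G).inv_mem hx₀) h
          · intro h
            exact (Subgroup.center G).mul_mem hx₀ h
        by_cases hx : x ∈ Subgroup.center G
        · rw [if_pos (h3.2 hx), if_pos hx, hI1, hZc x₀ hx₀ x, hεx₀]; ring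
        · rw [if_neg (fun h => hx (h3.1 h)), if_neg hx, neg_zero]
      linarith
    · right
      push_neg at hex
      have h1 : ∀ x ∈ Subgroup.center G, ε x = 1 := by
        intro x hx
        rcases hσpm (x ^ 2) with h | h
        · rw [hε]; exact h
        · exact absurd (by rw [hε]; exact h) (hex x hx)
      refine ⟨?_, ?_⟩
      · have h2 : ∀ x ∈ (Finset.univ : Finset G),
            (if x ∈ Subgroup.center G then ε x else 0)
              = (if x ∈ Subgroup.center G then (1 : ℤ) else 0) := by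
          intro x _
          by_cases hx : x ∈ Subgroup.center G
          · rw [if_pos hx, if_pos hx, h1 x hx]
          · rw [if_neg hx, if_neg hx]
        rw [hA, Finset.sum_congr rfl h2, Finset.sum_boole, hcf]
      · intro x hx
        have h2 := h1 x hx
        rw [hε, hσ] at h2
        by_contra h3
        rw [if_neg h3] at h2
        norm_num at h2
  have hcardG : Nat.card G = 2 ^ (d + 1) := by
    have h := Subgroup.card_mul_index (frattini G)
    rw [hΦ, hd] at h
    rw [← h, pow_succ]; ring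
  have hcardG' : (Fintype.card G : ℤ) = 2 ^ (d + 1) := by
    have h : Fintype.card G = 2 ^ (d + 1) := by
      rw [← Nat.card_eq_fintype_card]; exact hcardG
    exact_mod_cast h
  have hΦZ : frattini G ≤ Subgroup.center G := by
    intro u hu
    rw [Subgroup.mem_center_iff]
    intro g
    exact hΦc u hu g
  obtain ⟨c, hc⟩ := IsPGroup.iff_card.1 (hG.to_subgroup (Subgroup.center G))
  have hc1 : 1 ≤ c := by
    by_contra hcon
    have h0 : c = 0 := by omega
    have hdvd := Subgroup.card_dvd_of_le hΦZ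
    rw [hΦ, hc, h0] at hdvd
    norm_num at hdvd
  have hmain : j = 2 ^ d ∨
      (c ≤ d ∧ (2 * (j : ℤ) - 2 ^ (d + 1)) ^ 2 = 2 ^ (d + 1) * 2 ^ c) := by
    rcases hAcase with hA0 | ⟨hAZ, hsqZ⟩
    · left
      rw [hA0, mul_zero] at hSS
      have hS0 : S = 0 := mul_self_eq_zero.1 hSS
      rw [hS0, hcardG', pow_succ] at hS2
      have h1 : (j : ℤ) = 2 ^ d := by linarith
      exact_mod_cast h1
    · right
      have hZtop : Subgroup.center G ≠ ⊤ := by
        intro htop
        have hall : ∀ x : G, x ^ 2 = 1 :=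
          fun x => hsqZ x (by rw [htop]; exact Subgroup.mem_top x)
        have hbot := frattini_bot_of_sq hall
        rw [hbot] at hΦ
        simp at hΦ
      have hcd : c ≤ d := by
        by_contra hcon
        apply hZtop
        apply Subgroup.eq_top_of_card_eq
        have hdvd := Subgroup.card_subgroup_dvd_card (Subgroup.center G)
        rw [hc, hcardG] at hdvd ⊢
        have h1 := (Nat.pow_dvd_pow_iff_le_right (by norm_num : 1 < 2)).1 hdvd
        have h2 : c = d + 1 := by omega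
        rw [h2]
      refine ⟨hcd, ?_⟩
      rw [← hcardG', ← hS2, pow_two, hSS, hAZ, hc]
      norm_num
  refine ⟨?_, ?_⟩
  · rw [← hj]
    rcases hmain with hj2 | ⟨hcd, heq⟩
    · left; exact hj2
    · right
      obtain ⟨e, he, hje⟩ := ar_lemma d c j hc1 heq
      refine ⟨d - e, by omega, by omega, ?_⟩
      have h1 : d - (d - e) = e := by omega
      rw [h1]; exact hje
  · intro r hdr hjr
    rw [← hj] at hjr
    have hpr : 0 < 2 ^ r := pow_pos (by norm_num) r
    rcases hmain with hj2 | ⟨hcd, heq⟩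
    · exfalso
      obtain ⟨P, hP⟩ : ∃ P, P = 2 ^ r := ⟨_, rfl⟩
      obtain ⟨Q, hQ⟩ : ∃ Q, Q = 2 ^ d := ⟨_, rfl⟩
      rw [← hP] at hjr hpr
      rw [← hQ] at hjr hj2
      rcases hjr with h | h <;> omega
    · obtain ⟨e, he, hje⟩ := ar_lemma d c j hc1 heq
      have hpe : 0 < 2 ^ e := pow_pos (by norm_num) e
      have hre : 2 ^ e = 2 ^ r := by
        obtain ⟨P, hP⟩ : ∃ P, P = 2 ^ r := ⟨_, rfl⟩
        obtain ⟨Q, hQ⟩ : ∃ Q, Q = 2 ^ d := ⟨_, rfl⟩
        obtain ⟨E, hE⟩ : ∃ E, E = 2 ^ e := ⟨_, rfl⟩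
        rw [← hP] at hjr hpr ⊢
        rw [← hQ] at hjr hje
        rw [← hE] at hje hpe ⊢
        rcases hjr with h | h <;> rcases hje with h' | h' <;> omega
      have her : e = r := Nat.pow_right_injective (le_refl 2) hre
      have hc1' : c = 1 := by omega
      have hZ2 : Nat.card ↥(Subgroup.center G) = 2 := by rw [hc, hc1', pow_one]
      have hΦeqZ : frattini G = Subgroup.center G :=
        Subgroup.eq_of_le_of_card_ge hΦZ (by rw [hZ2, hΦ])
      have hZtop : Subgroup.center G ≠ ⊤ := by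
        intro htop
        have h1 : Nat.card ↥(Subgroup.center G) = Nat.card G := by
          rw [htop]; exact Subgroup.card_top
        rw [hZ2, hcardG] at h1
        have h2 : (2 : ℕ) ^ 1 = 2 ^ (d + 1) := by rw [pow_one]; exact h1
        have h3 := Nat.pow_right_injective (le_refl 2) h2
        omega
      have hCne : commutator G ≠ ⊥ := fun h => hZtop ((commutator_eq_bot_iff_center_eq_top G).1 h)
      have hCΦ : commutator G = frattini G := by
        apply Subgroup.eq_of_le_of_card_ge hcF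
        have hdvd := Subgroup.card_dvd_of_le hcF
        rw [hΦ] at hdvd ⊢
        rcases (Nat.dvd_prime Nat.prime_two).1 hdvd with h | h
        · exact absurd (Subgroup.card_eq_one.1 h) hCne
        · rw [h]
      exact ⟨⟨hG, hΦeqZ, hCΦ.trans hΦeqZ⟩, hZ2⟩

end Cfsg.Agent.S3772
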