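import Cfsg.Statements.S3774

set_option autoImplicit false

namespace Cfsg.Agent.S3774

/-- Let G be a nontrivial finite 2-group whose automorphism group permutes the involutions of G transitively. Then every involution of G is central, so that the involutions together with 1 form the subgroup Ω₁(Z(G)), and if this subgroup has order q then |G| is a power of q. -/
theorem result {G : Type*} [Group G] [Finite G] [Nontrivial G] (hG : IsPGroup 2 G) (htrans : ∀ x y : G, x ≠ 1 → x ^ 2 = 1 → y ≠ 1 → y ^ 2 = 1 → ∃ a : MulAut G, a x = y) : (∀ x : G, x ^ 2 = 1 → x ∈ Subgroup.center G) ∧ ∃ m : ℕ, Nat.card G = Nat.card {z : G // z ^ 2 = 1} ^ m := by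
  classical
  haveI : Fact (Nat.Prime 2) := ⟨Nat.prime_two⟩
  have hord : ∀ x : G, ∃ k, orderOf x = 2 ^ k := IsPGroup.iff_orderOf.mp hG
  -- the involution in ⟨x⟩
  have hinv : ∀ x : G, x ≠ 1 → x ^ (orderOf x / 2) ≠ 1 ∧ (x ^ (orderOf x / 2)) ^ 2 = 1 := by
    intro x hx
    obtain ⟨k, hk⟩ := hord x
    have hk0 : k ≠ 0 := by
      rintro rfl
      rw [pow_zero, orderOf_eq_one_iff] at hk
      exact hx hk
    have h2 : orderOf (x ^ (orderOf x / 2)) = 2 :=
      orderOf_pow_orderOf_div (by rw [hk]; positivity) (by rw [hk]; exact dvd_pow_self 2 hk0)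
    refine ⟨?_, ?_⟩
    · intro h
      rw [h, orderOf_one] at h2
      norm_num at h2
    · have h3 := pow_orderOf_eq_one (x ^ (orderOf x / 2))
      rwa [h2] at h3
  -- a central involution
  haveI : Nontrivial (Subgroup.center G) := hG.center_nontrivial
  obtain ⟨c, hc⟩ := exists_ne (1 : Subgroup.center G)
  have hc1 : (c : G) ≠ 1 := fun h => hc (Subtype.ext h)
  obtain ⟨hz1, hz2⟩ := hinv (c : G) hc1
  have hzc : (c : G) ^ (orderOf (c : G) / 2) ∈ Subgroup.center G := Subgroup.pow_mem _ c.2 _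
  set z₀ := (c : G) ^ (orderOf (c : G) / 2) with hz₀
  have h1 : ∀ x : G, x ^ 2 = 1 → x ∈ Subgroup.center G := by
    intro x hx2
    by_cases hx : x = 1
    · rw [hx]; exact Subgroup.one_mem _
    · obtain ⟨a, ha⟩ := htrans z₀ x hz1 hz2 hx hx2
      rw [Subgroup.mem_center_iff]
      intro g
      have h3 := Subgroup.mem_center_iff.mp hzc (a.symm g)
      have h4 := congrArg a h3
      rw [map_mul, map_mul, MulEquiv.apply_symm_apply, ha] at h4
      exact h4
  refine ⟨h1, ?_⟩
  have hcomm : ∀ x : G, x ^ 2 = 1 → ∀ g : G, g * x = x * g :=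
    fun x hx g => Subgroup.mem_center_iff.mp (h1 x hx) g
  let Ω : Subgroup G :=
    { carrier := {z | z ^ 2 = 1}
      mul_mem' := by
        intro a b ha hb
        show (a * b) ^ 2 = 1
        have hc : Commute a b := hcomm b hb a
        rw [hc.mul_pow, (ha : a ^ 2 = 1), (hb : b ^ 2 = 1), mul_one]
      one_mem' := one_pow 2
      inv_mem' := by
        intro a ha
        show (a⁻¹) ^ 2 = 1
        rw [inv_pow, (ha : a ^ 2 = 1), inv_one] }
  have hΩcard : Nat.card Ω = Nat.card {z : G // z ^ 2 = 1} :=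
    Nat.card_congr (Equiv.subtypeEquivRight (fun z => Iff.rfl))
  obtain ⟨a, ha⟩ : ∃ a, Nat.card Ω = 2 ^ a := (hG.to_subgroup Ω).exists_card_eq
  obtain ⟨n, hn⟩ : ∃ n, Nat.card G = 2 ^ n := hG.exists_card_eq
  haveI := Fintype.ofFinite G
  let s : Finset G := Finset.univ.filter (· ≠ 1)
  let t : Finset G := Finset.univ.filter (fun z => z ≠ 1 ∧ z ^ 2 = 1)
  let φ : G → G := fun x => x ^ (orderOf x / 2)
  have hφ : ∀ x ∈ s, φ x ∈ t := by
    intro x hx
    have hx1 : x ≠ 1 := (Finset.mem_filter.mp hx).2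
    exact Finset.mem_filter.mpr ⟨Finset.mem_univ _, hinv x hx1⟩
  have hcount := Finset.card_eq_sum_card_fiberwise hφ
  have hle : ∀ z ∈ t, ∀ z' ∈ t, (s.filter (fun x => φ x = z)).card ≤
      (s.filter (fun x => φ x = z')).card := by
    intro z hz z' hz'
    have hz' := (Finset.mem_filter.mp hz').2
    have hz := (Finset.mem_filter.mp hz).2
    obtain ⟨b, hb⟩ := htrans z z' hz.1 hz.2 hz'.1 hz'.2
    apply Finset.card_le_card_of_injOn (fun x => b x)
    · intro x hx
      have hx' := Finset.mem_filter.mp (Finset.mem_coe.mp hx)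
      have hx1 : x ≠ 1 := (Finset.mem_filter.mp hx'.1).2
      refine Finset.mem_coe.mpr (Finset.mem_filter.mpr
        ⟨Finset.mem_filter.mpr ⟨Finset.mem_univ _, ?_⟩, ?_⟩)
      · intro h
        apply hx1
        have h' : b x = 1 := h
        exact (MulEquiv.map_eq_one_iff b).mp h'
      · show (b x) ^ (orderOf (b x) / 2) = z'
        rw [MulEquiv.orderOf_eq, ← map_pow]
        have : x ^ (orderOf x / 2) = z := hx'.2
        rw [this, hb]
    · exact b.injective.injOn
  have hz₀t : z₀ ∈ t := Finset.mem_filter.mpr ⟨Finset.mem_univ _, hz1, hz2⟩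
  have hconst : ∀ z ∈ t, (s.filter (fun x => φ x = z)).card =
      (s.filter (fun x => φ x = z₀)).card :=
    fun z hz => le_antisymm (hle z hz z₀ hz₀t) (hle z₀ hz₀t z hz)
  rw [Finset.sum_congr rfl hconst, Finset.sum_const, smul_eq_mul] at hcount
  have hs : s.card = 2 ^ n - 1 := by
    have : s = Finset.univ.erase 1 := by
      ext x; simp [s]
    rw [this, Finset.card_erase_of_mem (Finset.mem_univ _), Finset.card_univ,
      ← Nat.card_eq_fintype_card, hn]
  have ht : t.card = 2 ^ a - 1 := by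
    have h5 : t = (Finset.univ.filter (fun z : G => z ^ 2 = 1)).erase 1 := by
      ext x; simp [t]
    have h6 : (Finset.univ.filter (fun z : G => z ^ 2 = 1)).card = 2 ^ a := by
      rw [← ha, hΩcard, Nat.card_eq_fintype_card, Fintype.card_subtype]
    rw [h5, Finset.card_erase_of_mem (by simp), h6]
  rw [hs, ht] at hcount
  have hdvd : 2 ^ a - 1 ∣ 2 ^ n - 1 := Dvd.intro _ hcount.symm
  have hgcd := Nat.pow_sub_one_gcd_pow_sub_one 2 a n
  rw [Nat.gcd_eq_left hdvd] at hgcd
  have h7 : 2 ^ a = 2 ^ Nat.gcd a n := by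
    have h8 : 1 ≤ 2 ^ a := Nat.one_le_two_pow
    have h9 : 1 ≤ 2 ^ Nat.gcd a n := Nat.one_le_two_pow
    omega
  have h10 : a = Nat.gcd a n := Nat.pow_right_injective (le_refl 2) h7
  have h11 : a ∣ n := by rw [h10]; exact Nat.gcd_dvd_right a n
  obtain ⟨m, rfl⟩ := h11
  exact ⟨m, by rw [hn, ← hΩcard, ha, pow_mul]⟩

end Cfsg.Agent.S3774
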