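import Cfsg.Statements.S3780
import Mathlib

set_option autoImplicit false
open Cfsg

namespace Cfsg.Agent.S3780


theorem lemP {p : ℕ} [Fact p.Prime] {A : Type*} [AddCommGroup A] [Module (ZMod p) A]
    (F : Module.End (ZMod p) A) (hF : F ^ p = 1) : (F - 1) ^ p = 0 := by
  have h1 : ((Polynomial.X : Polynomial (ZMod p)) - 1) ^ p = Polynomial.X ^ p - 1 := by
    rw [sub_pow_char, one_pow]
  have h2 := congrArg (Polynomial.aeval F) h1
  simp only [map_pow, map_sub, Polynomial.aeval_X, map_one] at h2
  rw [h2, hF, sub_self]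

theorem lemQ {p : ℕ} [Fact p.Prime] {A : Type*} [AddCommGroup A] [Module (ZMod p) A]
    (f : A →+ A) (hf : ∀ a, (⇑f)^[p] a = a) (N : A → A) (hNdef : N = fun a => f a - a) :
    ∀ a, N^[p] a = 0 := by
  obtain ⟨F, hF⟩ : ∃ F : A →ₗ[ZMod p] A, ∀ a, F a = f a :=
    ⟨f.toZModLinearMap p, fun a => rfl⟩
  have hFp : F ^ p = 1 := by
    apply LinearMap.ext
    intro a
    rw [Module.End.pow_apply]
    have hit : ∀ k (b : A), (⇑F)^[k] b = (⇑f)^[k] b := by
      intro k
      induction k with
      | zero => intro b; rfl
      | succ k ih =>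
        intro b
        rw [Function.iterate_succ_apply, Function.iterate_succ_apply, hF, ih]
    rw [hit, hf]; rfl
  have hN : (F - 1) ^ p = 0 := lemP F hFp
  have hNF : ∀ a, (F - 1) a = N a := by
    intro a
    rw [hNdef]
    simp [hF]
  intro a
  have h1 : ((F - 1) ^ p) a = 0 := by rw [hN]; rfl
  rw [Module.End.pow_apply] at h1
  have hit : ∀ k (b : A), (⇑(F - 1))^[k] b = N^[k] b := by
    intro k
    induction k with
    | zero => intro b; rfl
    | succ k ih =>
      intro b
      rw [Function.iterate_succ_apply, Function.iterate_succ_apply, hNF, ih]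
  rw [← hit]; exact h1

theorem card_le_fix_pow {p : ℕ} [Fact p.Prime] {A : Type*} [AddCommGroup A] [Finite A]
    (hA : ∀ a : A, p • a = 0) (f : A →+ A) (hf : ∀ a, (⇑f)^[p] a = a) :
    Nat.card A ≤ (Nat.card {a : A // f a = a}) ^ p := by
  classical
  haveI := Fintype.ofFinite A
  obtain ⟨N, hNdef⟩ : ∃ N : A → A, N = fun a => f a - a := ⟨_, rfl⟩
  have hNit : ∀ a, N^[p] a = 0 := by
    letI : Module (ZMod p) A := AddCommGroup.zmodModule hA
    exact lemQ f hf N hNdef
  have hNsub : ∀ x y, N (x - y) = N x - N y := by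
    intro x y
    rw [hNdef]
    simp only [map_sub]
    abel
  obtain ⟨K, hK⟩ : ∃ K : Finset A, K = Finset.univ.filter (fun a => N a = 0) := ⟨_, rfl⟩
  have hfib : ∀ (s : Finset A), s.card ≤ K.card * (s.image N).card := by
    intro s
    apply Finset.card_le_mul_card_image
    intro b hb
    by_cases hne : (s.filter (fun x => N x = b)).Nonempty
    · obtain ⟨x₀, hx₀⟩ := hne
      rw [Finset.mem_filter] at hx₀
      refine Finset.card_le_card_of_injOn (fun x => x - x₀) ?_ ?_
      · intro x hx
        simp only [Finset.mem_coe, Finset.mem_filter] at hx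
        show x - x₀ ∈ K
        rw [hK, Finset.mem_filter]
        exact ⟨Finset.mem_univ _, by rw [hNsub, hx.2, hx₀.2, sub_self]⟩
      · intro x _ y _ hxy
        exact sub_left_injective hxy
    · rw [Finset.not_nonempty_iff_eq_empty] at hne
      rw [hne, Finset.card_empty]
      exact Nat.zero_le _
  have hchain : ∀ i, Fintype.card A ≤ K.card ^ i * ((Finset.univ : Finset A).image (N^[i])).card := by
    intro i
    induction i with
    | zero => simp
    | succ i ih =>
      have h1 := hfib ((Finset.univ : Finset A).image (N^[i]))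
      rw [Finset.image_image] at h1
      have h2 : N ∘ N^[i] = N^[i + 1] := (Function.iterate_succ' N i).symm
      rw [h2] at h1
      calc Fintype.card A ≤ K.card ^ i * ((Finset.univ : Finset A).image (N^[i])).card := ih
        _ ≤ K.card ^ i * (K.card * ((Finset.univ : Finset A).image (N^[i + 1])).card) :=
          Nat.mul_le_mul_left _ h1
        _ = K.card ^ (i + 1) * ((Finset.univ : Finset A).image (N^[i + 1])).card := by
          rw [pow_succ, mul_assoc]
  have hpp := hchain p
  have himg : ((Finset.univ : Finset A).image (N^[p])).card ≤ 1 := by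
    apply Finset.card_le_one.2
    intro a ha b hb
    obtain ⟨a', -, rfl⟩ := Finset.mem_image.1 ha
    obtain ⟨b', -, rfl⟩ := Finset.mem_image.1 hb
    rw [hNit, hNit]
  have hKc : K.card = Nat.card {a : A // f a = a} := by
    rw [hK, Nat.card_eq_fintype_card, Fintype.card_subtype]
    congr 1
    ext a
    simp only [Finset.mem_filter, Finset.mem_univ, true_and, hNdef]
    exact sub_eq_zero
  rw [Nat.card_eq_fintype_card, ← hKc]
  calc Fintype.card A ≤ K.card ^ p * ((Finset.univ : Finset A).image (N^[p])).card := hpp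
    _ ≤ K.card ^ p * 1 := Nat.mul_le_mul_left _ himg
    _ = K.card ^ p := mul_one _

theorem gen_le {p : ℕ} [Fact p.Prime] {Q : Type*} [Group Q] [Finite Q] (r : ℕ)
    (hQ : Nat.card Q = p ^ r) :
    ∃ S : Finset Q, S.card ≤ r ∧ Subgroup.closure (S : Set Q) = ⊤ := by
  classical
  have hp : p.Prime := Fact.out
  have hQp : IsPGroup p Q := IsPGroup.of_card hQ
  have key : ∀ j, ∃ S : Finset Q, S.card ≤ j ∧
      (p ^ j ≤ Nat.card (Subgroup.closure (S : Set Q)) ∨ Subgroup.closure (S : Set Q) = ⊤) := by
    intro j
    induction j with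
    | zero =>
      refine ⟨∅, le_refl _, Or.inl ?_⟩
      rw [pow_zero]
      exact Nat.card_pos
    | succ j ih =>
      obtain ⟨S, hS, hor⟩ := ih
      rcases hor with hle | htop
      · by_cases htop : Subgroup.closure (S : Set Q) = ⊤
        · exact ⟨S, by omega, Or.inr htop⟩
        · obtain ⟨x, hx⟩ : ∃ x, x ∉ Subgroup.closure (S : Set Q) := by
            by_contra h
            push_neg at h
            exact htop ((Subgroup.eq_top_iff' _).2 h)
          refine ⟨insert x S, ?_, Or.inl ?_⟩
          · exact (Finset.card_insert_le x S).trans (by omega)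
          · have hsub : Subgroup.closure (S : Set Q) ≤
                Subgroup.closure ((insert x S : Finset Q) : Set Q) :=
              Subgroup.closure_mono (by
                intro y hy
                rw [Finset.coe_insert]
                exact Set.mem_insert_of_mem _ hy)
            have hxin : x ∈ Subgroup.closure ((insert x S : Finset Q) : Set Q) :=
              Subgroup.subset_closure (by rw [Finset.coe_insert]; exact Set.mem_insert _ _)
            have hdvd := Subgroup.card_dvd_of_le hsub
            have hne : Nat.card (Subgroup.closure (S : Set Q)) ≠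
                Nat.card (Subgroup.closure ((insert x S : Finset Q) : Set Q)) := by
              intro heq
              have h1 := Subgroup.eq_of_le_of_card_ge hsub (le_of_eq heq.symm)
              exact hx (h1 ▸ hxin)
            obtain ⟨a, ha⟩ := IsPGroup.iff_card.1
              (hQp.to_subgroup (Subgroup.closure (S : Set Q)))
            obtain ⟨b, hb⟩ := IsPGroup.iff_card.1
              (hQp.to_subgroup (Subgroup.closure ((insert x S : Finset Q) : Set Q)))
            rw [ha] at hle hdvd hne
            rw [hb] at hdvd hne ⊢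
            have hab : a ≤ b := (Nat.pow_dvd_pow_iff_le_right hp.one_lt).1 hdvd
            have hja : j ≤ a := (Nat.pow_le_pow_iff_right hp.one_lt).1 hle
            have hab' : a ≠ b := fun h => hne (by rw [h])
            exact Nat.pow_le_pow_right hp.pos (by omega)
      · exact ⟨S, by omega, Or.inr htop⟩
  obtain ⟨S, hS, hor⟩ := key r
  refine ⟨S, hS, ?_⟩
  rcases hor with hle | htop
  · apply Subgroup.eq_top_of_card_eq
    apply le_antisymm (Subgroup.card_le_card_group _)
    rw [hQ]
    exact hle
  · exact htop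

/-- Let V be a finite abelian p-group and α an automorphism of V of order p whose fixed-point subgroup has order p^n. Then V can be generated by pn elements: some subset of V with at most pn elements generates V. -/
theorem result {V : Type*} [CommGroup V] [Finite V] {p : ℕ} [Fact p.Prime] (hV : IsPGroup p V) (α : MulAut V) (hα : orderOf α = p) (n : ℕ) (hfix : Nat.card {v : V // α v = v} = p ^ n) : ∃ S : Finset V, S.card ≤ p * n ∧ Subgroup.closure (S : Set V) = ⊤ := by
  classical
  have hp : p.Prime := Fact.out
  obtain ⟨P, hP⟩ : ∃ P : V →* V, P = powMonoidHom p := ⟨_, rfl⟩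
  have hPa : ∀ v, P v = v ^ p := by intro v; rw [hP]; rfl
  have hαW : ∀ w : P.ker, (α.toMonoidHom.comp (P.ker).subtype) w ∈ P.ker := by
    intro w
    have hw : P (w : V) = 1 := MonoidHom.mem_ker.1 w.2
    rw [hPa] at hw
    rw [MonoidHom.mem_ker, hPa]
    show (α (w : V)) ^ p = 1
    rw [← map_pow, hw, map_one]
  obtain ⟨φ, hφ⟩ : ∃ φ : P.ker →* P.ker, ∀ w : P.ker, ((φ w : P.ker) : V) = α (w : V) :=
    ⟨(α.toMonoidHom.comp (P.ker).subtype).codRestrict P.ker hαW, fun w => rfl⟩
  obtain ⟨f, hf⟩ : ∃ f : Additive P.ker →+ Additive P.ker,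
      ∀ a, f a = Additive.ofMul (φ (Additive.toMul a)) :=
    ⟨MonoidHom.toAdditive φ, fun a => rfl⟩
  obtain ⟨c, hc⟩ : ∃ c : Additive P.ker → V, ∀ a, c a = ((Additive.toMul a : P.ker) : V) :=
    ⟨fun a => ((Additive.toMul a : P.ker) : V), fun a => rfl⟩
  have hcinj : Function.Injective c := by
    intro a b hab
    rw [hc, hc] at hab
    exact Additive.toMul.injective (Subtype.ext hab)
  have hcf : ∀ a, c (f a) = α (c a) := by
    intro a
    rw [hc, hc, hf]
    exact hφ _
  have hA : ∀ a : Additive P.ker, p • a = 0 := by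
    intro a
    apply hcinj
    rw [hc, hc]
    show (((Additive.toMul a : P.ker) ^ p : P.ker) : V) = ((1 : P.ker) : V)
    rw [Subgroup.coe_pow, Subgroup.coe_one, ← hPa]
    exact MonoidHom.mem_ker.1 (Additive.toMul a).2
  have hαit : ∀ v, (⇑α)^[p] v = v := by
    have h1 : α ^ p = 1 := by rw [← hα]; exact pow_orderOf_eq_one α
    have h2 : ∀ k v, (α ^ k) v = (⇑α)^[k] v := by
      intro k
      induction k with
      | zero => intro v; rfl
      | succ k ih =>
        intro v
        rw [pow_succ, MulAut.mul_apply, ih, Function.iterate_succ_apply]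
    intro v
    rw [← h2, h1]; rfl
  have hfit : ∀ a, (⇑f)^[p] a = a := by
    intro a
    apply hcinj
    have h3 : ∀ k b, c ((⇑f)^[k] b) = (⇑α)^[k] (c b) := by
      intro k
      induction k with
      | zero => intro b; rfl
      | succ k ih =>
        intro b
        rw [Function.iterate_succ_apply', Function.iterate_succ_apply', hcf, ih]
    rw [h3, hαit]
  have hM := card_le_fix_pow hA f hfit
  have hfixle : Nat.card {a : Additive P.ker // f a = a} ≤ p ^ n := by
    rw [← hfix]
    refine Nat.card_le_card_of_injective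
      (fun a => (⟨c a.1, by rw [← hcf, a.2]⟩ : {v : V // α v = v})) ?_
    intro a b hab
    have h1 : c a.1 = c b.1 := congrArg Subtype.val hab
    exact Subtype.ext (hcinj h1)
  have hWcard : Nat.card P.ker ≤ (p ^ n) ^ p := by
    have h0 : Nat.card (Additive P.ker) = Nat.card P.ker := Nat.card_congr Additive.toMul
    rw [← h0]
    exact hM.trans (Nat.pow_le_pow_left hfixle p)
  obtain ⟨r, hr⟩ := IsPGroup.iff_card.1 (hV.to_subgroup P.ker)
  have hrle : r ≤ n * p := by
    rw [hr, ← pow_mul] at hWcard
    exact (Nat.pow_le_pow_iff_right hp.one_lt).1 hWcard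
  have hQcard : Nat.card (V ⧸ P.range) = p ^ r := by
    have h1 := Subgroup.card_mul_index P.ker
    rw [Subgroup.index_ker] at h1
    have h2 := Subgroup.card_mul_index P.range
    have hpos : 0 < Nat.card P.range := Nat.card_pos
    have h3 : Nat.card P.range * P.range.index = Nat.card P.range * Nat.card P.ker := by
      rw [h2, ← h1, mul_comm]
    have h4 : P.range.index = Nat.card P.ker := Nat.eq_of_mul_eq_mul_left hpos h3
    rw [← hr, ← h4]
    rfl
  obtain ⟨Sbar, hSbar, hSbartop⟩ := gen_le r hQcard
  obtain ⟨S, hSdef⟩ : ∃ S : Finset V, S = Sbar.image Quotient.out := ⟨_, rfl⟩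
  have hScard : S.card ≤ p * n := by
    rw [hSdef]
    calc (Sbar.image Quotient.out).card ≤ Sbar.card := Finset.card_image_le
      _ ≤ r := hSbar
      _ ≤ n * p := hrle
      _ = p * n := mul_comm n p
  have hmap : Subgroup.map (QuotientGroup.mk' P.range) (Subgroup.closure (S : Set V)) = ⊤ := by
    rw [MonoidHom.map_closure, ← hSbartop]
    congr 1
    ext q
    simp only [hSdef, Finset.coe_image, Set.mem_image, Finset.mem_coe]
    constructor
    · rintro ⟨v, ⟨q', hq', rfl⟩, rfl⟩
      rw [QuotientGroup.mk'_apply, QuotientGroup.out_eq']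
      exact hq'
    · intro hq
      exact ⟨q.out, ⟨q, hq, rfl⟩, by rw [QuotientGroup.mk'_apply, QuotientGroup.out_eq']⟩
  have hdec : ∀ v : V, ∃ h ∈ Subgroup.closure (S : Set V), ∃ u : V, v = h * u ^ p := by
    intro v
    have hv : QuotientGroup.mk' P.range v ∈
        Subgroup.map (QuotientGroup.mk' P.range) (Subgroup.closure (S : Set V)) := by
      rw [hmap]; trivial
    obtain ⟨h, hh, hhv⟩ := Subgroup.mem_map.1 hv
    have hmem : h⁻¹ * v ∈ P.range := QuotientGroup.eq.1 hhv
    obtain ⟨u, hu⟩ := hmem
    refine ⟨h, hh, u, ?_⟩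
    rw [← hPa, hu]
    group
  have hit : ∀ k : ℕ, ∀ v : V, ∃ h ∈ Subgroup.closure (S : Set V), ∃ u : V,
      v = h * u ^ (p ^ k) := by
    intro k
    induction k with
    | zero =>
      intro v
      exact ⟨1, one_mem _, v, by simp⟩
    | succ k ih =>
      intro v
      obtain ⟨h, hh, u, hv⟩ := ih v
      obtain ⟨h', hh', u', hu⟩ := hdec u
      refine ⟨h * h' ^ (p ^ k), mul_mem hh (pow_mem hh' _), u', ?_⟩
      rw [hv, hu, mul_pow, ← pow_mul, mul_assoc, pow_succ, mul_comm p (p ^ k)]
  obtain ⟨m, hm⟩ := IsPGroup.iff_card.1 hV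
  refine ⟨S, hScard, (Subgroup.eq_top_iff' _).2 fun v => ?_⟩
  obtain ⟨h, hh, u, hv⟩ := hit m v
  have hu1 : u ^ (p ^ m) = 1 := by rw [← hm]; exact pow_card_eq_one'
  rw [hv, hu1, mul_one]
  exact hh

end Cfsg.Agent.S3780
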