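import Cfsg.Statements.S3784
import Mathlib

set_option autoImplicit false
open Cfsg

namespace Cfsg.Agent.S3784

theorem L_add {q a b : ℕ} (hq : Odd q) (hb : Odd b) (h : 2 ^ a = q ^ b + 1) : 2 ^ a ∣ q + 1 := by
  have hxy : (2 : ℤ) ∣ (q : ℤ) - (-1) := by
    obtain ⟨k, hk⟩ := hq
    exact ⟨k + 1, by rw [hk]; push_cast; ring⟩
  have hx : ¬ (2 : ℤ) ∣ (q : ℤ) := by
    intro h2
    have : (2 : ℕ) ∣ q := by exact_mod_cast h2
    exact (Nat.not_even_iff_odd.mpr hq) (even_iff_two_dvd.mpr this)
  have hn : ¬ (2 : ℤ) ∣ ((b : ℕ) : ℤ) := by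
    intro h2
    have : (2 : ℕ) ∣ b := by exact_mod_cast h2
    exact (Nat.not_even_iff_odd.mpr hb) (even_iff_two_dvd.mpr this)
  have h1 := emultiplicity_pow_sub_pow_of_prime Int.prime_two hxy hx hn
  have h2 : (q : ℤ) ^ b - (-1) ^ b = 2 ^ a := by
    rw [hb.neg_one_pow]
    have : ((2 ^ a : ℕ) : ℤ) = ((q ^ b + 1 : ℕ) : ℤ) := by rw [h]
    push_cast at this
    linarith
  rw [h2] at h1
  have h3 : (2 : ℤ) ^ a ∣ (q : ℤ) - (-1) := by
    apply pow_dvd_of_le_emultiplicity
    rw [← h1]
    exact le_emultiplicity_of_pow_dvd (dvd_refl _)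
  have h4 : ((2 ^ a : ℕ) : ℤ) ∣ ((q + 1 : ℕ) : ℤ) := by
    push_cast
    simpa using h3
  exact_mod_cast h4

theorem L_sub {p a b : ℕ} (hp : Odd p) (ha : Odd a) (h : p ^ a = 2 ^ b + 1) : 2 ^ b ∣ p - 1 := by
  have hp1 : 1 ≤ p := by
    obtain ⟨k, hk⟩ := hp
    omega
  have hxy : (2 : ℤ) ∣ (p : ℤ) - 1 := by
    obtain ⟨k, hk⟩ := hp
    exact ⟨k, by rw [hk]; push_cast; ring⟩
  have hx : ¬ (2 : ℤ) ∣ (p : ℤ) := by
    intro h2
    have : (2 : ℕ) ∣ p := by exact_mod_cast h2
    exact (Nat.not_even_iff_odd.mpr hp) (even_iff_two_dvd.mpr this)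
  have hn : ¬ (2 : ℤ) ∣ ((a : ℕ) : ℤ) := by
    intro h2
    have : (2 : ℕ) ∣ a := by exact_mod_cast h2
    exact (Nat.not_even_iff_odd.mpr ha) (even_iff_two_dvd.mpr this)
  have h1 := emultiplicity_pow_sub_pow_of_prime Int.prime_two hxy hx hn
  have h2 : (p : ℤ) ^ a - 1 ^ a = 2 ^ b := by
    rw [one_pow]
    have : ((p ^ a : ℕ) : ℤ) = ((2 ^ b + 1 : ℕ) : ℤ) := by rw [h]
    push_cast at this
    linarith
  rw [h2] at h1
  have h3 : (2 : ℤ) ^ b ∣ (p : ℤ) - 1 := by
    apply pow_dvd_of_le_emultiplicity
    rw [← h1]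
    exact le_emultiplicity_of_pow_dvd (dvd_refl _)
  have h4 : ((2 ^ b : ℕ) : ℤ) ∣ ((p - 1 : ℕ) : ℤ) := by
    rw [Nat.cast_sub hp1]
    push_cast
    exact h3
  exact_mod_cast h4

/-- Let p, q be primes and a, b positive integers with p^a = q^b + 1. Then either p = 2, b = 1, a is prime and q = 2^a − 1; or q = 2, a = 1, b is a power of 2 and p = 2^b + 1; or p^a = 9 and q^b = 8. -/
theorem result (p q a b : ℕ) (hp : p.Prime) (hq : q.Prime) (ha : 1 ≤ a) (hb : 1 ≤ b) (h : p ^ a = q ^ b + 1) : (p = 2 ∧ b = 1 ∧ a.Prime ∧ q + 1 = 2 ^ a) ∨ (q = 2 ∧ a = 1 ∧ (∃ m : ℕ, b = 2 ^ m) ∧ p = 2 ^ b + 1) ∨ (p ^ a = 9 ∧ q ^ b = 8) := by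
  rcases hp.eq_two_or_odd' with rfl | hpodd
  · rcases hq.eq_two_or_odd' with rfl | hqodd
    · exfalso
      have h1 : Even (2 ^ a) := Nat.even_pow.mpr ⟨even_two, by omega⟩
      have h2 : Even (2 ^ b) := Nat.even_pow.mpr ⟨even_two, by omega⟩
      rw [h] at h1
      exact (Nat.even_add_one.mp h1) h2
    · left
      have hb1 : b = 1 := by
        rcases Nat.even_or_odd b with hbe | hbo
        · exfalso
          obtain ⟨c, hc⟩ := hbe
          have hy : Odd (q ^ c) := hqodd.pow
          have hmod : (q ^ b + 1) % 4 = 2 := by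
            obtain ⟨k, hk⟩ := hy
            rw [hc, pow_add, hk]
            ring_nf
            omega
          rcases Nat.lt_or_ge a 2 with ha2 | ha2
          · have ha1 : a = 1 := by omega
            subst ha1
            have h3 : q ^ b = 1 := by omega
            have hq2 := hq.two_le
            have h4 : q ≤ q ^ b := Nat.le_self_pow (by omega) q
            omega
          · have h4 : 4 ∣ 2 ^ a := by
              have : (2 : ℕ) ^ 2 ∣ 2 ^ a := pow_dvd_pow 2 ha2
              simpa using this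
            omega
        · have hdvd := L_add hqodd hbo h
          have hle := Nat.le_of_dvd (by omega) hdvd
          rw [h] at hle
          by_contra hb1
          have hb2 : 2 ≤ b := by omega
          have h5 : q ^ 2 ≤ q ^ b := Nat.pow_le_pow_right hq.pos hb2
          have hq2 := hq.two_le
          nlinarith
      subst hb1
      have hqa : q + 1 = 2 ^ a := by rw [h]; ring
      refine ⟨rfl, rfl, ?_, hqa⟩
      have hq' : (2 ^ a - 1).Prime := by
        have : 2 ^ a - 1 = q := by omega
        rw [this]; exact hq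
      have ha1 : a ≠ 1 := by
        rintro rfl
        norm_num at hq'
      exact (Nat.prime_of_pow_sub_one_prime ha1 hq').2
  · rcases hq.eq_two_or_odd' with rfl | hqodd
    · right
      rcases Nat.even_or_odd a with hae | hao
      · right
        obtain ⟨c, hc⟩ := hae
        have hx2 : p ^ c * p ^ c = 2 ^ b + 1 := by rw [← h, hc, pow_add]
        have hx1 : 1 ≤ p ^ c := Nat.one_le_pow _ _ hp.pos
        obtain ⟨k, hk⟩ := Nat.exists_eq_add_of_le hx1
        have h1 : k * (k + 2) = 2 ^ b := by
          rw [hk] at hx2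
          nlinarith
        obtain ⟨i, hi, hxi⟩ := (Nat.dvd_prime_pow Nat.prime_two).mp (Dvd.intro _ h1)
        obtain ⟨j, hj, hxj⟩ := (Nat.dvd_prime_pow Nat.prime_two).mp (Dvd.intro_left _ h1)
        have hij : 2 ^ j = 2 ^ i + 2 := by omega
        have hi1 : i = 1 := by
          rcases Nat.lt_trichotomy i 1 with hi0 | hi1 | hi2
          · exfalso
            have hi00 : i = 0 := by omega
            subst hi00
            simp at hij
            rcases Nat.eq_zero_or_pos j with rfl | hjpos
            · simp at hij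
            · have : 2 ∣ 2 ^ j := dvd_pow_self 2 hjpos.ne'
              omega
          · exact hi1
          · exfalso
            have h4i : 4 ∣ 2 ^ i := by
              have : (2 : ℕ) ^ 2 ∣ 2 ^ i := pow_dvd_pow 2 hi2
              simpa using this
            rcases Nat.lt_or_ge j 2 with hj2 | hj2
            · have h2i : 0 < 2 ^ i := by positivity
              interval_cases j <;> omega
            · have h4j : 4 ∣ 2 ^ j := by
                have : (2 : ℕ) ^ 2 ∣ 2 ^ j := pow_dvd_pow 2 hj2
                simpa using this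
              omega
        subst hi1
        have hk2 : k = 2 := by simpa using hxi
        have hx3 : p ^ c = 3 := by omega
        constructor
        · rw [hc, pow_add, hx3]
          norm_num
        · have : 2 ^ b + 1 = 9 := by rw [← hx2, hx3]
          omega
      · left
        have hdvd := L_sub hpodd hao h
        have hp2 := hp.two_le
        have hp3 : 3 ≤ p := by
          obtain ⟨k, hk⟩ := hpodd
          omega
        have ha1 : a = 1 := by
          have hle := Nat.le_of_dvd (by omega) hdvd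
          by_contra ha1
          have ha2 : 2 ≤ a := by omega
          have h5 : p ^ 2 ≤ p ^ a := Nat.pow_le_pow_right hp.pos ha2
          have h6 : p ^ a ≤ p := by omega
          have h7 : p * p ≤ p := by rw [← pow_two]; exact h5.trans h6
          nlinarith
        subst ha1
        have hpb : p = 2 ^ b + 1 := by simpa using h
        refine ⟨rfl, rfl, ?_, hpb⟩
        have hP : (2 ^ b + 1).Prime := by rw [← hpb]; exact hp
        exact Nat.pow_of_pow_add_prime (by norm_num) (by omega) hP
    · exfalso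
      have h1 : Odd (p ^ a) := hpodd.pow
      have h2 : Odd (q ^ b) := hqodd.pow
      rw [h] at h1
      exact (Nat.not_even_iff_odd.mpr h1) h2.add_one

end Cfsg.Agent.S3784
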