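import Cfsg.Statements.S3785
import Cfsg.Agent.Lib.Helper6.OmegaCent
import Cfsg.Agent.Lib.Helper6.Primary
import Cfsg.Agent.Lib.Helper6.PSub
import Cfsg.Agent.Lib.Helper6.RealElt
import Cfsg.Agent.Lib.Lead.Fitting2

set_option autoImplicit false
open Cfsg

namespace Cfsg.Agent.S3785

open Cfsg.Agent.Lib.Helper6

/-- Let G be a finite solvable group whose Fitting subgroup F(G) has odd order. If an element g of G commutes with every element of prime order of F(G), then g ∈ F(G). -/
theorem result {G : Type*} [Group G] [Finite G] (hG : Group.IsSolvable G) (hodd : Odd (Nat.card (Cfsg.fittingSubgroup G))) (g : G) (hg : ∀ x ∈ Cfsg.fittingSubgroup G, (orderOf x).Prime → g * x = x * g) : g ∈ Cfsg.fittingSubgroup G := by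
  classical
  have hFn : (Cfsg.fittingSubgroup G).Normal := Cfsg.Agent.Lib.Lead.fitting_normal G
  have hCn : (Subgroup.centralizer
      {x : G | x ∈ Cfsg.fittingSubgroup G ∧ (orderOf x).Prime}).Normal := by
    constructor
    intro c hc k
    rw [Subgroup.mem_centralizer_iff] at hc ⊢
    intro x hx
    have hx' : k⁻¹ * x * k ∈ {x : G | x ∈ Cfsg.fittingSubgroup G ∧ (orderOf x).Prime} := by
      refine ⟨by have := hFn.conj_mem x hx.1 k⁻¹; simpa using this, ?_⟩
      have := orderOf_conj_eq k⁻¹ x
      rw [inv_inv] at this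
      rw [this]; exact hx.2
    have h1 := hc _ hx'
    calc x * (k * c * k⁻¹) = k * ((k⁻¹ * x * k) * c) * k⁻¹ := by group
      _ = k * (c * (k⁻¹ * x * k)) * k⁻¹ := by rw [h1]
      _ = k * c * k⁻¹ * x := by group
  have hgC : g ∈ Subgroup.centralizer
      {x : G | x ∈ Cfsg.fittingSubgroup G ∧ (orderOf x).Prime} := by
    rw [Subgroup.mem_centralizer_iff]
    intro x hx
    exact (hg x hx.1 hx.2).symm
  -- prime power order elements of the centralizer lie in F
  have key : ∀ y ∈ Subgroup.centralizer {x : G | x ∈ Cfsg.fittingSubgroup G ∧ (orderOf x).Prime},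
      ∀ (r k : ℕ), r.Prime → orderOf y = r ^ k → y ∈ Cfsg.fittingSubgroup G := by
    intro y hy r k hr hyo
    have _ : Fact r.Prime := ⟨hr⟩
    have hcent : ∀ (n : G),
        n ∈ Subgroup.centralizer {x : G | x ∈ Cfsg.fittingSubgroup G ∧ (orderOf x).Prime} →
        ∀ (q j : ℕ), q.Prime → orderOf n = q ^ j → ∀ s : ℕ, s.Prime → s ≠ q →
        Subgroup.zpowers n ≤ Subgroup.centralizer (Cfsg.pCore s G : Set G) := by
      intro n hn q j hq hno s hs hsq
      have _ : Fact s.Prime := ⟨hs⟩
      apply centralizes_of_centralizes_omega (p := s) (Subgroup.zpowers n) (Cfsg.pCore s G)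
      · rw [Nat.card_zpowers, hno]
        exact ((Nat.coprime_primes hq hs).mpr (Ne.symm hsq)).pow_left j
      · exact Cfsg.Agent.Lib.Lead.pCore_isPGroup' s
      · have := Cfsg.Agent.Lib.Lead.pCore_normal s G
        rw [Subgroup.normalizer_eq_top_iff.mpr this]; exact le_top
      · intro x hx hxΩ a ha
        have hxF : x ∈ Cfsg.fittingSubgroup G := by
          rw [Cfsg.Agent.Lib.Lead.fitting_eq_iSup_pCore]
          exact le_iSup (fun p : Nat.Primes => Cfsg.pCore (p : ℕ) G) ⟨s, hs⟩ hx
        have hnx : n * x = x * n := by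
          by_cases hx1 : x = 1
          · rw [hx1]; simp
          rcases hxΩ with h | ⟨h2, h4⟩
          · have hxo : orderOf x = s := orderOf_eq_prime h hx1
            exact ((Subgroup.mem_centralizer_iff.mp hn) x ⟨hxF, hxo ▸ hs⟩).symm
          · exfalso; apply hx1
            have hd : orderOf x ∣ 2 ^ 2 := orderOf_dvd_of_pow_eq_one h4
            have hd2 : orderOf x ∣ Nat.card (Cfsg.fittingSubgroup G) := by
              have := orderOf_dvd_natCard (⟨x, hxF⟩ : Cfsg.fittingSubgroup G)
              rwa [Subgroup.orderOf_mk] at this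
            have : orderOf x = 1 := by
              obtain ⟨i, hi, hxi⟩ := (Nat.dvd_prime_pow Nat.prime_two).mp hd
              rcases Nat.eq_zero_or_pos i with h0 | hpos
              · rw [hxi, h0, pow_zero]
              · exfalso
                have h2dvd : 2 ∣ Nat.card (Cfsg.fittingSubgroup G) :=
                  dvd_trans (hxi ▸ dvd_pow_self 2 hpos.ne') hd2
                exact (Nat.not_even_iff_odd.mpr hodd) (even_iff_two_dvd.mpr h2dvd)
            exact orderOf_eq_one_iff.mp this
        obtain ⟨i, rfl⟩ := Subgroup.mem_zpowers_iff.mp ha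
        have hc : Commute (n ^ i) x := Commute.zpow_left hnx i
        rw [hc.eq, mul_inv_cancel_right]
    -- E = product of the O_q(G), q ≠ r
    have hEn : (⨆ q : {q : Nat.Primes // (q : ℕ) ≠ r}, Cfsg.pCore (q.1 : ℕ) G).Normal := by
      rw [iSup]
      apply Subgroup.sSup_normal
      rintro _ ⟨q, rfl⟩
      exact Cfsg.Agent.Lib.Lead.pCore_normal _ G
    have hyE : y ∈ Subgroup.centralizer
        ((⨆ q : {q : Nat.Primes // (q : ℕ) ≠ r}, Cfsg.pCore (q.1 : ℕ) G : Subgroup G) : Set G) := by
      have h1 : (⨆ q : {q : Nat.Primes // (q : ℕ) ≠ r}, Cfsg.pCore (q.1 : ℕ) G) ≤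
          Subgroup.centralizer (Subgroup.zpowers y : Set G) := by
        apply iSup_le
        intro q
        exact Subgroup.le_centralizer_iff.mp (hcent y hy r k hr hyo q.1 q.1.2 q.2)
      exact (Subgroup.le_centralizer_iff.mp h1) (Subgroup.mem_zpowers y)
    -- N
    have hNn : (Subgroup.centralizer {x : G | x ∈ Cfsg.fittingSubgroup G ∧ (orderOf x).Prime} ⊓
        Subgroup.centralizer ((⨆ q : {q : Nat.Primes // (q : ℕ) ≠ r},
          Cfsg.pCore (q.1 : ℕ) G : Subgroup G) : Set G)).Normal := inferInstance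
    have hqE : ∀ n : G,
        n ∈ Subgroup.centralizer {x : G | x ∈ Cfsg.fittingSubgroup G ∧ (orderOf x).Prime} →
        n ∈ Subgroup.centralizer ((⨆ q : {q : Nat.Primes // (q : ℕ) ≠ r},
          Cfsg.pCore (q.1 : ℕ) G : Subgroup G) : Set G) →
        ∀ q j : ℕ, q.Prime → q ≠ r → orderOf n = q ^ j →
        n ∈ ⨆ q : {q : Nat.Primes // (q : ℕ) ≠ r}, Cfsg.pCore (q.1 : ℕ) G := by
      intro n hn1 hn2 q j hq hqr hno
      have hall : ∀ s : Nat.Primes, Cfsg.pCore (s : ℕ) G ≤
          Subgroup.centralizer (Subgroup.zpowers n : Set G) := by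
        intro s
        by_cases hsq : (s : ℕ) = q
        · intro x hx
          have hxE : x ∈ ⨆ q : {q : Nat.Primes // (q : ℕ) ≠ r}, Cfsg.pCore (q.1 : ℕ) G :=
            le_iSup (fun q : {q : Nat.Primes // (q : ℕ) ≠ r} => Cfsg.pCore (q.1 : ℕ) G)
              ⟨s, by rw [hsq]; exact hqr⟩ hx
          rw [Subgroup.mem_centralizer_iff]
          intro a ha
          obtain ⟨i, rfl⟩ := Subgroup.mem_zpowers_iff.mp ha
          have hnx : x * n = n * x := (Subgroup.mem_centralizer_iff.mp hn2) x hxE
          exact (Commute.zpow_left (show Commute n x from hnx.symm) i).eq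
        · exact Subgroup.le_centralizer_iff.mp (hcent n hn1 q j hq hno s s.2 hsq)
      have hnF : n ∈ Subgroup.centralizer (Cfsg.fittingSubgroup G : Set G) := by
        have h1 : Cfsg.fittingSubgroup G ≤ Subgroup.centralizer (Subgroup.zpowers n : Set G) := by
          rw [Cfsg.Agent.Lib.Lead.fitting_eq_iSup_pCore]; exact iSup_le hall
        exact (Subgroup.le_centralizer_iff.mp h1) (Subgroup.mem_zpowers n)
      have hnF' : n ∈ Cfsg.fittingSubgroup G := Cfsg.Agent.Lib.Lead.centralizer_fitting_le hnF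
      have hconjF : ∀ x ∈ Group.conjugatesOfSet ({n} : Set G),
          x ∈ Cfsg.fittingSubgroup G ∧ x ∈ Subgroup.centralizer (Cfsg.fittingSubgroup G : Set G)
            ∧ x ^ (q ^ j) = 1 := by
        intro x hx
        rw [Group.mem_conjugatesOfSet_iff] at hx
        obtain ⟨b, hb, hbx⟩ := hx
        rw [Set.mem_singleton_iff] at hb
        subst hb
        rw [isConj_iff] at hbx
        obtain ⟨c, rfl⟩ := hbx
        refine ⟨hFn.conj_mem _ hnF' c, ?_, ?_⟩
        · have hcn : (Subgroup.centralizer (Cfsg.fittingSubgroup G : Set G)).Normal := inferInstance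
          exact hcn.conj_mem _ hnF c
        · rw [conj_pow, ← hno, pow_orderOf_eq_one]; group
      have hT : IsPGroup q (Subgroup.normalClosure ({n} : Set G)) := by
        rw [Subgroup.normalClosure]
        apply isPGroup_closure_of_comm
        · intro x hx z hz
          have h1 := (hconjF x hx).2.1
          have h2 := (hconjF z hz).1
          exact ((Subgroup.mem_centralizer_iff.mp h1) z h2).symm
        · intro x hx
          exact ⟨j, (hconjF x hx).2.2⟩
      have hle : Subgroup.normalClosure ({n} : Set G) ≤ Cfsg.pCore q G :=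
        le_sSup ⟨Subgroup.normalClosure_normal, hT⟩
      have hnq : n ∈ Cfsg.pCore q G :=
        hle (Subgroup.subset_normalClosure (Set.mem_singleton n))
      exact le_iSup (fun q : {q : Nat.Primes // (q : ℕ) ≠ r} => Cfsg.pCore (q.1 : ℕ) G)
        ⟨⟨q, hq⟩, hqr⟩ hnq
    have hNnil : Group.IsNilpotent ↥(Subgroup.centralizer
        {x : G | x ∈ Cfsg.fittingSubgroup G ∧ (orderOf x).Prime} ⊓
        Subgroup.centralizer ((⨆ q : {q : Nat.Primes // (q : ℕ) ≠ r},
          Cfsg.pCore (q.1 : ℕ) G : Subgroup G) : Set G)) := by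
      have hPG : IsPGroup r (↥(Subgroup.centralizer
          {x : G | x ∈ Cfsg.fittingSubgroup G ∧ (orderOf x).Prime} ⊓
          Subgroup.centralizer ((⨆ q : {q : Nat.Primes // (q : ℕ) ≠ r},
            Cfsg.pCore (q.1 : ℕ) G : Subgroup G) : Set G)) ⧸
          ((⨆ q : {q : Nat.Primes // (q : ℕ) ≠ r}, Cfsg.pCore (q.1 : ℕ) G).subgroupOf
          (Subgroup.centralizer {x : G | x ∈ Cfsg.fittingSubgroup G ∧ (orderOf x).Prime} ⊓
          Subgroup.centralizer ((⨆ q : {q : Nat.Primes // (q : ℕ) ≠ r},
            Cfsg.pCore (q.1 : ℕ) G : Subgroup G) : Set G)))) := by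
        intro z
        obtain ⟨n', rfl⟩ := QuotientGroup.mk_surjective z
        refine ⟨(orderOf n').factorization r, ?_⟩
        rw [← QuotientGroup.mk_pow, QuotientGroup.eq_one_iff]
        have hn0 : orderOf n' ≠ 0 := (orderOf_pos n').ne'
        have hnm : r ^ (orderOf n').factorization r * (orderOf n' / r ^ (orderOf n').factorization r)
            = orderOf n' := Nat.ordProj_mul_ordCompl_eq_self (orderOf n') r
        have hox : (orderOf (n' ^ (r ^ (orderOf n').factorization r))).Coprime r := by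
          have h1 : orderOf (n' ^ (r ^ (orderOf n').factorization r))
              = orderOf n' / r ^ (orderOf n').factorization r := by
            rw [orderOf_pow' n' (pow_ne_zero _ hr.ne_zero)]
            congr 1
            exact Nat.gcd_eq_right (Nat.ordProj_dvd _ _)
          rw [h1]
          exact (Nat.coprime_ordCompl hr hn0).symm
        refine mem_of_forall_prime_pow _ r ?_ _ hox
        rintro ⟨w, hw⟩ ⟨q, b, hq, hqr, hwo⟩
        rw [Subgroup.mem_subgroupOf]
        exact hqE w hw.1 hw.2 q b hq hqr (by rw [← hwo, Subgroup.orderOf_mk])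
      have _ := hPG.isNilpotent
      refine Subgroup.isNilpotent_of_ker_le_center (QuotientGroup.mk'
        ((⨆ q : {q : Nat.Primes // (q : ℕ) ≠ r}, Cfsg.pCore (q.1 : ℕ) G).subgroupOf
          (Subgroup.centralizer {x : G | x ∈ Cfsg.fittingSubgroup G ∧ (orderOf x).Prime} ⊓
          Subgroup.centralizer ((⨆ q : {q : Nat.Primes // (q : ℕ) ≠ r},
            Cfsg.pCore (q.1 : ℕ) G : Subgroup G) : Set G)))) ?_
      rw [QuotientGroup.ker_mk']
      intro z hz
      rw [Subgroup.mem_center_iff]
      intro n'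
      apply Subtype.ext
      have := (Subgroup.mem_centralizer_iff.mp n'.2.2) z.1 hz
      exact this.symm
    have hNF : Subgroup.centralizer {x : G | x ∈ Cfsg.fittingSubgroup G ∧ (orderOf x).Prime} ⊓
        Subgroup.centralizer ((⨆ q : {q : Nat.Primes // (q : ℕ) ≠ r},
          Cfsg.pCore (q.1 : ℕ) G : Subgroup G) : Set G) ≤ Cfsg.fittingSubgroup G :=
      le_sSup ⟨hNn, hNnil⟩
    exact hNF ⟨hy, hyE⟩
  have := mem_of_forall_prime_pow (G := ↥(Subgroup.centralizer
      {x : G | x ∈ Cfsg.fittingSubgroup G ∧ (orderOf x).Prime}))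
    ((Cfsg.fittingSubgroup G).subgroupOf (Subgroup.centralizer
      {x : G | x ∈ Cfsg.fittingSubgroup G ∧ (orderOf x).Prime})) 1 (by
      rintro ⟨y, hy⟩ ⟨q, b, hq, -, hyo⟩
      rw [Subgroup.mem_subgroupOf]
      exact key y hy q b hq (by rw [← hyo, Subgroup.orderOf_mk])) ⟨g, hgC⟩ (Nat.coprime_one_right _)
  exact this

end Cfsg.Agent.S3785
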