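import Cfsg.Statements.S3950
import Cfsg.Agent.Lib.Helper7.Stem

set_option autoImplicit false
open Cfsg

namespace Cfsg.Agent.S3950


universe u

open scoped commutatorElement

/-- a twisted product `G × ZMod p` with cocycle `f₁ ⊗ f₂` -/
@[ext] structure Tw (G : Type u) [CommGroup G] (p : ℕ) (f₁ f₂ : G →* Multiplicative (ZMod p)) where
  g : G
  a : ZMod p

section

variable {G : Type u} [CommGroup G] {p : ℕ} {f₁ f₂ : G →* Multiplicative (ZMod p)}

def twMul (x y : Tw G p f₁ f₂) : Tw G p f₁ f₂ :=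
  ⟨x.g * y.g, x.a + y.a + Multiplicative.toAdd (f₁ x.g) * Multiplicative.toAdd (f₂ y.g)⟩

def twInv (x : Tw G p f₁ f₂) : Tw G p f₁ f₂ :=
  ⟨x.g⁻¹, -x.a + Multiplicative.toAdd (f₁ x.g) * Multiplicative.toAdd (f₂ x.g)⟩

instance instGroupTw : Group (Tw G p f₁ f₂) where
  mul := twMul
  one := ⟨1, 0⟩
  inv := twInv
  mul_assoc := fun x y z => by
    show twMul (twMul x y) z = twMul x (twMul y z)
    apply Tw.ext
    · simp only [twMul]; exact mul_assoc _ _ _
    · simp only [twMul, map_mul, toAdd_mul]; ring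
  one_mul := fun x => by
    show twMul ⟨1, 0⟩ x = x
    apply Tw.ext
    · simp only [twMul, one_mul]
    · simp only [twMul, map_one, toAdd_one, zero_mul, zero_add, add_zero]
  mul_one := fun x => by
    show twMul x ⟨1, 0⟩ = x
    apply Tw.ext
    · simp only [twMul, mul_one]
    · simp only [twMul, map_one, toAdd_one, mul_zero, add_zero]
  inv_mul_cancel := fun x => by
    show twMul (twInv x) x = ⟨1, 0⟩
    apply Tw.ext
    · simp only [twMul, twInv, inv_mul_cancel]
    · simp only [twMul, twInv, map_inv, toAdd_inv]; ring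

theorem tw_mul_g (x y : Tw G p f₁ f₂) : (x * y).g = x.g * y.g := rfl
theorem tw_mul_a (x y : Tw G p f₁ f₂) :
    (x * y).a = x.a + y.a + Multiplicative.toAdd (f₁ x.g) * Multiplicative.toAdd (f₂ y.g) := rfl
theorem tw_one_g : (1 : Tw G p f₁ f₂).g = 1 := rfl
theorem tw_one_a : (1 : Tw G p f₁ f₂).a = 0 := rfl

instance instFiniteTw [Finite G] [NeZero p] : Finite (Tw G p f₁ f₂) :=
  Finite.of_injective (fun x : Tw G p f₁ f₂ => (x.g, x.a)) (fun x y hxy => by
    simp only [Prod.mk.injEq] at hxy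
    exact Tw.ext hxy.1 hxy.2)

def twProj : Tw G p f₁ f₂ →* G where
  toFun x := x.g
  map_one' := rfl
  map_mul' := fun _ _ => rfl

theorem tw_z_pow (c : ZMod p) (k : ℕ) : (⟨1, c⟩ : Tw G p f₁ f₂) ^ k = ⟨1, (k : ZMod p) * c⟩ := by
  induction k with
  | zero =>
    rw [pow_zero]
    exact Tw.ext rfl (by rw [Nat.cast_zero, zero_mul]; rfl)
  | succ k ih =>
    rw [pow_succ, ih]
    apply Tw.ext
    · simp only [tw_mul_g, mul_one]
    · simp only [tw_mul_a, map_one, toAdd_one, zero_mul, add_zero, Nat.cast_succ]; ring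

theorem tw_stem [Fact p.Prime] (g₀ h₀ : G)
    (hc : Multiplicative.toAdd (f₁ g₀) * Multiplicative.toAdd (f₂ h₀) -
      Multiplicative.toAdd (f₁ h₀) * Multiplicative.toAdd (f₂ g₀) ≠ 0) :
    Cfsg.IsStemExtension (twProj : Tw G p f₁ f₂ →* G) := by
  haveI : NeZero p := ⟨(Fact.out : p.Prime).ne_zero⟩
  refine ⟨fun q => ⟨⟨q, 0⟩, rfl⟩, ?_, ?_⟩
  · intro x hx
    have hx1 : x.g = 1 := MonoidHom.mem_ker.mp hx
    rw [Subgroup.mem_center_iff]
    intro y
    apply Tw.ext
    · rw [tw_mul_g, tw_mul_g, mul_comm]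
    · simp only [tw_mul_a, hx1, map_one, toAdd_one, mul_zero, zero_mul]; ring
  · intro x hx
    have hx1 : x.g = 1 := MonoidHom.mem_ker.mp hx
    obtain ⟨c₀, hc₀⟩ : ∃ c₀ : ZMod p, c₀ = Multiplicative.toAdd (f₁ g₀) * Multiplicative.toAdd (f₂ h₀) -
      Multiplicative.toAdd (f₁ h₀) * Multiplicative.toAdd (f₂ g₀) := ⟨_, rfl⟩
    rw [← hc₀] at hc
    have hz : (⟨1, c₀⟩ : Tw G p f₁ f₂) ∈ commutator (Tw G p f₁ f₂) := by
      have h1 : ⁅(⟨g₀, 0⟩ : Tw G p f₁ f₂), (⟨h₀, 0⟩ : Tw G p f₁ f₂)⁆ = (⟨1, c₀⟩ : Tw G p f₁ f₂) := by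
        have h2 : (⟨g₀, 0⟩ : Tw G p f₁ f₂) * (⟨h₀, 0⟩ : Tw G p f₁ f₂) = (⟨1, c₀⟩ : Tw G p f₁ f₂) * ((⟨h₀, 0⟩ : Tw G p f₁ f₂) * (⟨g₀, 0⟩ : Tw G p f₁ f₂)) := by
          apply Tw.ext
          · simp only [tw_mul_g, one_mul]; exact mul_comm _ _
          · simp only [tw_mul_a, tw_mul_g, map_one, toAdd_one, zero_mul, add_zero, zero_add, hc₀]; ring
        rw [commutatorElement_def, h2]; group
      rw [← h1, commutator_def]
      exact Subgroup.commutator_mem_commutator (Subgroup.mem_top _) (Subgroup.mem_top _)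
    have hx2 : x = (⟨1, c₀⟩ : Tw G p f₁ f₂) ^ ((x.a * c₀⁻¹).val) := by
      rw [tw_z_pow, ZMod.natCast_zmod_val]
      apply Tw.ext
      · exact hx1
      · show x.a = x.a * c₀⁻¹ * c₀
        rw [mul_assoc, inv_mul_cancel₀ hc, mul_one]
    rw [hx2]
    exact Subgroup.pow_mem _ hz _

end
theorem result {G : Type*} [CommGroup G] [Finite G] : Cfsg.HasCyclicSchurMultiplier G 1 ↔ IsCyclic G := by
  constructor
  · intro hS
    obtain ⟨ι, _, n, hn, ⟨e⟩⟩ := CommGroup.equiv_prod_multiplicative_zmod_of_finite G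
    classical
    have hcop : ∀ i j : ι, i ≠ j → Nat.Coprime (n i) (n j) := by
      intro i j hij
      by_contra hnc
      obtain ⟨p, hp, hpi, hpj⟩ := Nat.Prime.not_coprime_iff_dvd.mp hnc
      haveI : Fact p.Prime := ⟨hp⟩
      haveI : NeZero p := ⟨hp.ne_zero⟩
      let ψ : ∀ k : ι, p ∣ n k → (G →* Multiplicative (ZMod p)) := fun k hk =>
        ((ZMod.castHom hk (ZMod p)).toAddMonoidHom.toMultiplicative).comp
          ((Pi.evalMonoidHom (fun i => Multiplicative (ZMod (n i))) k).comp e.toMonoidHom)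
      have hψ : ∀ (k : ι) (hk : p ∣ n k) (x : G), Multiplicative.toAdd (ψ k hk x) =
          ZMod.castHom hk (ZMod p) (Multiplicative.toAdd (e x k)) := fun k hk x => rfl
      have hstem := tw_stem (f₁ := ψ i hpi) (f₂ := ψ j hpj)
        (e.symm (Pi.mulSingle i (Multiplicative.ofAdd 1)))
        (e.symm (Pi.mulSingle j (Multiplicative.ofAdd 1))) (by
        simp only [hψ, MulEquiv.apply_symm_apply, Pi.mulSingle_eq_same, Pi.mulSingle_eq_of_ne hij,
          Pi.mulSingle_eq_of_ne (Ne.symm hij), toAdd_ofAdd, toAdd_one, map_one, map_zero, mul_one,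
          mul_zero, sub_zero]
        exact one_ne_zero)
      obtain ⟨π, hπ⟩ := hS.2 (Tw G p (ψ i hpi) (ψ j hpj)) twProj hstem
      have hk : (⟨1, 1⟩ : Tw G p (ψ i hpi) (ψ j hpj)) ∈
          (twProj : Tw G p (ψ i hpi) (ψ j hpj) →* G).ker := MonoidHom.mem_ker.mpr rfl
      obtain ⟨m, hm⟩ := hπ ⟨_, hk⟩
      have hm1 : m = 1 := Multiplicative.toAdd.injective (Subsingleton.elim _ _)
      rw [hm1, map_one] at hm
      have h1 := congrArg (fun k : ↥(twProj : Tw G p (ψ i hpi) (ψ j hpj) →* G).ker =>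
        (k : Tw G p (ψ i hpi) (ψ j hpj)).a) hm
      exact zero_ne_one (α := ZMod p) h1
    let b : (i : ι) → Multiplicative (ZMod (n i)) := fun i => Multiplicative.ofAdd 1
    have hpow : ∀ (k : ℕ) (i : ι), (b ^ k) i = Multiplicative.ofAdd ((k : ZMod (n i))) := by
      intro k i
      rw [Pi.pow_apply]
      show (Multiplicative.ofAdd (1 : ZMod (n i))) ^ k = _
      rw [← ofAdd_nsmul, nsmul_one]
    have hdvd : ∀ k : ℕ, b ^ k = 1 → ∀ i, n i ∣ k := by
      intro k hk i
      have h1 := congrFun hk i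
      rw [hpow, Pi.one_apply] at h1
      have h2 := congrArg Multiplicative.toAdd h1
      rw [toAdd_ofAdd, toAdd_one] at h2
      exact (ZMod.natCast_eq_zero_iff k (n i)).mp h2
    have hcard : Nat.card ((i : ι) → Multiplicative (ZMod (n i))) = ∏ i, n i := by
      rw [Nat.card_pi]
      apply Finset.prod_congr rfl
      intro i _
      exact (Nat.card_congr Multiplicative.toAdd).trans (Nat.card_zmod (n i))
    have hord : orderOf b = ∏ i, n i := by
      apply Nat.dvd_antisymm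
      · apply orderOf_dvd_of_pow_eq_one
        funext i
        rw [hpow, Pi.one_apply]
        have h1 : ((∏ i, n i : ℕ) : ZMod (n i)) = 0 := by
          rw [ZMod.natCast_eq_zero_iff]
          exact Finset.dvd_prod_of_mem n (Finset.mem_univ i)
        rw [h1]; rfl
      · have h1 := hdvd (orderOf b) (pow_orderOf_eq_one b)
        have h2 : (∏ i, (n i : ℤ)) ∣ ((orderOf b : ℕ) : ℤ) := by
          apply Fintype.prod_dvd_of_coprime
          · intro i j hij
            exact (Nat.isCoprime_iff_coprime).mpr (hcop i j hij)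
          · intro i
            exact Int.natCast_dvd_natCast.mpr (h1 i)
        rw [← Nat.cast_prod] at h2
        exact Int.natCast_dvd_natCast.mp h2
    haveI : Finite ((i : ι) → Multiplicative (ZMod (n i))) := Finite.of_equiv G e.toEquiv
    haveI hcyc : IsCyclic ((i : ι) → Multiplicative (ZMod (n i))) :=
      isCyclic_of_orderOf_eq_card b (hord.trans hcard.symm)
    exact isCyclic_of_surjective e.symm e.symm.surjective
  · intro hc
    apply Cfsg.Agent.Lib.Helper7.Stem.hasSchur_one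
    intro Γ _ _ σ hσ
    obtain ⟨hsurj, hcen, hcomm⟩ := hσ
    have hab : ∀ a b : Γ, a * b = b * a := commutative_of_cyclic_center_quotient σ hcen
    have h1 : commutator Γ = ⊥ := by
      rw [eq_bot_iff, commutator_def, Subgroup.commutator_le]
      intro a _ b _
      rw [Subgroup.mem_bot, commutatorElement_def, hab a b]
      group
    rw [eq_bot_iff]; exact hcomm.trans h1.le

end Cfsg.Agent.S3950
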