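import Mathlib
import Cfsg.Statements.S3951
import Cfsg.Agent.Lib.Helper7.Regular

set_option autoImplicit false
open Cfsg

namespace Cfsg.Agent.S3951

open scoped commutatorElement
noncomputable section

/-- a Heisenberg-type group on `ZMod m × ZMod n × ZMod n` -/
@[ext] structure Heis (m n : ℕ) (h : n ∣ m) where
  a : ZMod m
  b : ZMod n
  c : ZMod n

variable {m n : ℕ} {h : n ∣ m}

def heisMul (x y : Heis m n h) : Heis m n h :=
  ⟨x.a + y.a, x.b + y.b, x.c + y.c + x.b * ZMod.castHom h (ZMod n) y.a⟩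

def heisInv (x : Heis m n h) : Heis m n h :=
  ⟨-x.a, -x.b, -x.c + x.b * ZMod.castHom h (ZMod n) x.a⟩

instance instGroupHeis (m n : ℕ) (h : n ∣ m) : Group (Heis m n h) where
  mul := heisMul
  one := ⟨0, 0, 0⟩
  inv := heisInv
  mul_assoc := fun x y z => by
    show heisMul (heisMul x y) z = heisMul x (heisMul y z)
    apply Heis.ext
    · simp only [heisMul]; ring
    · simp only [heisMul]; ring
    · simp only [heisMul, map_add]; ring
  one_mul := fun x => by
    show heisMul ⟨0, 0, 0⟩ x = x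
    apply Heis.ext
    · simp only [heisMul, zero_add]
    · simp only [heisMul, zero_add]
    · simp only [heisMul, zero_add, zero_mul, add_zero]
  mul_one := fun x => by
    show heisMul x ⟨0, 0, 0⟩ = x
    apply Heis.ext
    · simp only [heisMul, add_zero]
    · simp only [heisMul, add_zero]
    · simp only [heisMul, map_zero, mul_zero, add_zero]
  inv_mul_cancel := fun x => by
    show heisMul (heisInv x) x = ⟨0, 0, 0⟩
    apply Heis.ext
    · simp only [heisMul, heisInv, neg_add_cancel]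
    · simp only [heisMul, heisInv, neg_add_cancel]
    · simp only [heisMul, heisInv]; ring

theorem heis_mul_a (x y : Heis m n h) : (x * y).a = x.a + y.a := rfl
theorem heis_mul_b (x y : Heis m n h) : (x * y).b = x.b + y.b := rfl
theorem heis_mul_c (x y : Heis m n h) :
    (x * y).c = x.c + y.c + x.b * ZMod.castHom h (ZMod n) y.a := rfl
theorem heis_one_a : (1 : Heis m n h).a = 0 := rfl
theorem heis_one_b : (1 : Heis m n h).b = 0 := rfl
theorem heis_one_c : (1 : Heis m n h).c = 0 := rfl

instance instFiniteHeis (m n : ℕ) [NeZero m] [NeZero n] (h : n ∣ m) : Finite (Heis m n h) :=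
  Finite.of_injective (fun x : Heis m n h => (x.a, x.b, x.c)) (fun x y hxy => by
    simp only [Prod.mk.injEq] at hxy
    exact Heis.ext hxy.1 hxy.2.1 hxy.2.2)

def heisProj (m n : ℕ) (h : n ∣ m) : Heis m n h →* Multiplicative (ZMod m × ZMod n) where
  toFun x := Multiplicative.ofAdd (x.a, x.b)
  map_one' := rfl
  map_mul' := fun _ _ => rfl

theorem heis_ker_iff (x : Heis m n h) : x ∈ (heisProj m n h).ker ↔ x.a = 0 ∧ x.b = 0 := by
  rw [MonoidHom.mem_ker]
  constructor
  · intro hx
    have h1 : Multiplicative.toAdd (heisProj m n h x) = Multiplicative.toAdd 1 := congrArg _ hx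
    have h2 : (x.a, x.b) = (0 : ZMod m × ZMod n) := h1
    exact ⟨congrArg Prod.fst h2, congrArg Prod.snd h2⟩
  · rintro ⟨h1, h2⟩
    show Multiplicative.ofAdd (x.a, x.b) = 1
    rw [h1, h2]; rfl

theorem heis_z_pow (k : ℕ) : (⟨0, 0, 1⟩ : Heis m n h) ^ k = ⟨0, 0, (k : ZMod n)⟩ := by
  induction k with
  | zero =>
    rw [pow_zero]
    exact Heis.ext rfl rfl (by rw [Nat.cast_zero]; rfl)
  | succ k ih =>
    rw [pow_succ, ih]
    apply Heis.ext
    · simp only [heis_mul_a, add_zero]
    · simp only [heis_mul_b, add_zero]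
    · simp only [heis_mul_c, zero_mul, add_zero, Nat.cast_succ]

end

/-- For positive integers `m` and `n` with `n` dividing `m`, the Schur multiplier of the abelian group `ZMod m × ZMod n` (written multiplicatively) is cyclic of order `n`. In particular the elementary abelian group of order `p ^ 2` has multiplier of order `p`. -/
theorem result (m n : ℕ) [NeZero m] [NeZero n] (hnm : n ∣ m) : Cfsg.HasCyclicSchurMultiplier (Multiplicative (ZMod m × ZMod n)) n := by
  refine ⟨⟨Heis m n hnm, inferInstance, inferInstance, heisProj m n hnm, ⟨?_, ?_, ?_⟩, ?_⟩, ?_⟩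
  · intro q
    exact ⟨⟨(Multiplicative.toAdd q).1, (Multiplicative.toAdd q).2, 0⟩, rfl⟩
  · intro x hx
    have hx' := (heis_ker_iff x).mp hx
    rw [Subgroup.mem_center_iff]
    intro y
    apply Heis.ext
    · simp only [heis_mul_a, hx'.1, add_zero, zero_add]
    · simp only [heis_mul_b, hx'.2, add_zero, zero_add]
    · simp only [heis_mul_c, hx'.1, hx'.2, map_zero, mul_zero, zero_mul, add_zero]
      ring
  · intro x hx
    obtain ⟨h1, h2⟩ := (heis_ker_iff x).mp hx
    have hx_eq : x = (⟨0, 0, 1⟩ : Heis m n hnm) ^ x.c.val := by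
      rw [heis_z_pow]
      exact Heis.ext h1 h2 (ZMod.natCast_zmod_val x.c).symm
    rw [hx_eq]
    apply Subgroup.pow_mem
    have hXY : (⟨0, 1, 0⟩ : Heis m n hnm) * ⟨1, 0, 0⟩
        = ⟨0, 0, 1⟩ * (⟨1, 0, 0⟩ * ⟨0, 1, 0⟩) := by
      apply Heis.ext
      · simp only [heis_mul_a, zero_add, add_zero]
      · simp only [heis_mul_b, zero_add, add_zero]
      · simp only [heis_mul_c, heis_mul_a, heis_mul_b, map_one, map_zero, mul_one, mul_zero,
          zero_mul, add_zero, zero_add]
    have hcomm : (⟨0, 0, 1⟩ : Heis m n hnm)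
        = ⁅(⟨0, 1, 0⟩ : Heis m n hnm), ⟨1, 0, 0⟩⁆ := by
      rw [commutatorElement_def, hXY]; group
    rw [hcomm, commutator_def]
    exact Subgroup.commutator_mem_commutator (Subgroup.mem_top _) (Subgroup.mem_top _)
  · refine ⟨{ toFun := fun k => Multiplicative.ofAdd k.1.c
              invFun := fun z => ⟨⟨0, 0, Multiplicative.toAdd z⟩,
                (heis_ker_iff _).mpr ⟨rfl, rfl⟩⟩
              left_inv := ?_
              right_inv := ?_
              map_mul' := ?_ }⟩
    · intro k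
      obtain ⟨h1, h2⟩ := (heis_ker_iff k.1).mp k.2
      apply Subtype.ext
      exact Heis.ext h1.symm h2.symm rfl
    · intro z; rfl
    · intro k k'
      obtain ⟨h1, h2⟩ := (heis_ker_iff k.1).mp k.2
      show Multiplicative.ofAdd ((k.1 * k'.1).c)
        = Multiplicative.ofAdd k.1.c * Multiplicative.ofAdd k'.1.c
      rw [heis_mul_c, h2, zero_mul, add_zero]; rfl
  · intro Γ _ _ σ hσ
    obtain ⟨hsurjσ, hK, hK'⟩ := hσ
    obtain ⟨ga, hga⟩ : ∃ ga : Multiplicative (ZMod m × ZMod n),
        ga = Multiplicative.ofAdd ((1 : ZMod m), (0 : ZMod n)) := ⟨_, rfl⟩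
    obtain ⟨gb, hgb⟩ : ∃ gb : Multiplicative (ZMod m × ZMod n),
        gb = Multiplicative.ofAdd ((0 : ZMod m), (1 : ZMod n)) := ⟨_, rfl⟩
    obtain ⟨A, hA⟩ := hsurjσ ga
    obtain ⟨B, hB⟩ := hsurjσ gb
    have hcent : ∀ k ∈ σ.ker, ∀ g : Γ, g * k = k * g := fun k hk g =>
      Subgroup.mem_center_iff.mp (hK hk) g
    have hq : ∀ q : Multiplicative (ZMod m × ZMod n),
        q = ga ^ (Multiplicative.toAdd q).1.val * gb ^ (Multiplicative.toAdd q).2.val := by
      intro q
      apply Multiplicative.toAdd.injective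
      rw [toAdd_mul, toAdd_pow, toAdd_pow, hga, hgb, toAdd_ofAdd, toAdd_ofAdd]
      apply Prod.ext
      · simp
      · simp
    obtain ⟨c, hc⟩ : ∃ c : Γ, c = A * B * A⁻¹ * B⁻¹ := ⟨_, rfl⟩
    have hcK : c ∈ σ.ker := by
      rw [MonoidHom.mem_ker, hc, map_mul, map_mul, map_mul, map_inv, map_inv, hA, hB,
        mul_comm ga gb, mul_inv_cancel_right, mul_inv_cancel]
    have hBn : B ^ n ∈ σ.ker := by
      rw [MonoidHom.mem_ker, map_pow, hB, hgb, ← ofAdd_nsmul]
      have h0 : n • ((0 : ZMod m), (1 : ZMod n)) = 0 := by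
        apply Prod.ext
        · simp
        · simp
      rw [h0]; rfl
    have hcc : ∀ g : Γ, Commute c g := fun g => (hcent c hcK g).symm
    have hcn : c ^ n = 1 := by
      have h1 : A * B * A⁻¹ = c * B := by rw [hc, inv_mul_cancel_right]
      have h2 : A * B ^ n * A⁻¹ = c ^ n * B ^ n := by
        rw [← conj_pow, h1, (hcc B).mul_pow]
      have h3 : A * B ^ n * A⁻¹ = B ^ n := by
        rw [hcent _ hBn A, mul_inv_cancel_right]
      have h4 : c ^ n * B ^ n = 1 * B ^ n := by rw [← h2, h3, one_mul]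
      exact mul_right_cancel h4
    have hnf : ∀ g : Γ, ∃ i j : ℕ, ∃ k ∈ σ.ker, g = A ^ i * B ^ j * k := by
      intro g
      refine ⟨(Multiplicative.toAdd (σ g)).1.val, (Multiplicative.toAdd (σ g)).2.val,
        (A ^ (Multiplicative.toAdd (σ g)).1.val * B ^ (Multiplicative.toAdd (σ g)).2.val)⁻¹ * g,
        ?_, by rw [mul_inv_cancel_left]⟩
      rw [MonoidHom.mem_ker, map_mul, map_inv, map_mul, map_pow, map_pow, hA, hB, ← hq (σ g),
        inv_mul_cancel]
    have hcl : Subgroup.closure (insert A (insert B (σ.ker : Set Γ))) = ⊤ := by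
      rw [eq_top_iff]
      intro g _
      have hA' : A ∈ Subgroup.closure (insert A (insert B (σ.ker : Set Γ))) :=
        Subgroup.subset_closure (Set.mem_insert _ _)
      have hB' : B ∈ Subgroup.closure (insert A (insert B (σ.ker : Set Γ))) :=
        Subgroup.subset_closure (Set.mem_insert_of_mem _ (Set.mem_insert _ _))
      obtain ⟨i, j, k, hk, rfl⟩ := hnf g
      exact Subgroup.mul_mem _
        (Subgroup.mul_mem _ (Subgroup.pow_mem _ hA' i) (Subgroup.pow_mem _ hB' j))
        (Subgroup.subset_closure (Set.mem_insert_of_mem _ (Set.mem_insert_of_mem _ hk)))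
    have hnorm : ∀ g : Γ, ∀ u ∈ Subgroup.zpowers c, g * u * g⁻¹ ∈ Subgroup.zpowers c := by
      intro g u hu
      obtain ⟨t, rfl⟩ := Subgroup.mem_zpowers_iff.mp hu
      rw [← ((hcc g).zpow_left t).eq, mul_inv_cancel_right]
      exact Subgroup.zpow_mem _ (Subgroup.mem_zpowers c) t
    have hgen : ∀ s ∈ insert A (insert B (σ.ker : Set Γ)),
        ∀ s' ∈ insert A (insert B (σ.ker : Set Γ)),
        s * s' * s⁻¹ * s'⁻¹ ∈ Subgroup.zpowers c := by
      have h1 : (1 : Γ) ∈ Subgroup.zpowers c := Subgroup.one_mem _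
      have hcm : c ∈ Subgroup.zpowers c := Subgroup.mem_zpowers c
      have e1 : ∀ a : Γ, a * a * a⁻¹ * a⁻¹ = 1 := fun a => by group
      have e2 : B * A * B⁻¹ * A⁻¹ = c⁻¹ := by rw [hc]; group
      have e3 : A * B * A⁻¹ * B⁻¹ = c := hc.symm
      have e4 : ∀ k ∈ σ.ker, ∀ s : Γ, s * k * s⁻¹ * k⁻¹ = 1 := by
        intro k hk s
        rw [hcent k hk s]; group
      have e5 : ∀ k ∈ σ.ker, ∀ s : Γ, k * s * k⁻¹ * s⁻¹ = 1 := by
        intro k hk s
        rw [← hcent k hk s]; group
      rintro s (hs | hs | hs) s' (hs' | hs' | hs')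
      · rw [hs, hs', e1]; exact h1
      · rw [hs, hs', e3]; exact hcm
      · rw [e4 s' hs' s]; exact h1
      · rw [hs, hs', e2]; exact Subgroup.inv_mem _ hcm
      · rw [hs, hs', e1]; exact h1
      · rw [e4 s' hs' s]; exact h1
      · rw [e5 s hs s']; exact h1
      · rw [e5 s hs s']; exact h1
      · rw [e5 s hs s']; exact h1
    have hcomm : commutator Γ ≤ Subgroup.zpowers c := by
      have h1 := Cfsg.Agent.Lib.Helper7.Reg.lemQ (Subgroup.zpowers c)
        (insert A (insert B (σ.ker : Set Γ))) (fun g _ u hu => hnorm g u hu) hgen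
      rw [hcl] at h1
      rw [commutator_def]; exact h1
    obtain ⟨c', hc'⟩ : ∃ c' : σ.ker, (c' : Γ) = c := ⟨⟨c, hcK⟩, rfl⟩
    have hc'n : c' ^ n = 1 := Subtype.ext (by rw [Subgroup.coe_pow, hc', hcn]; rfl)
    refine ⟨{ toFun := fun z => c' ^ (Multiplicative.toAdd z).val
              map_one' := ?_
              map_mul' := ?_ }, ?_⟩
    · show c' ^ (Multiplicative.toAdd (1 : Multiplicative (ZMod n))).val = 1
      rw [toAdd_one, ZMod.val_zero, pow_zero]
    · intro z w
      show c' ^ (Multiplicative.toAdd (z * w)).val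
        = c' ^ (Multiplicative.toAdd z).val * c' ^ (Multiplicative.toAdd w).val
      rw [toAdd_mul, ZMod.val_add, ← pow_add, ← pow_eq_pow_mod _ hc'n]
    · intro k
      obtain ⟨t, ht⟩ := Subgroup.mem_zpowers_iff.mp (hcomm (hK' k.2))
      refine ⟨Multiplicative.ofAdd ((t : ℤ) : ZMod n), ?_⟩
      show c' ^ (Multiplicative.toAdd (Multiplicative.ofAdd ((t : ℤ) : ZMod n))).val = k
      apply Subtype.ext
      rw [toAdd_ofAdd, Subgroup.coe_pow, hc', ← ht, ← zpow_natCast, ZMod.val_intCast]
      exact (zpow_eq_zpow_emod' t hcn).symm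


end Cfsg.Agent.S3951
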