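import Cfsg.Statements.S3961
import Cfsg.Agent.Lib.Helper7.Stem
import Mathlib

set_option autoImplicit false
universe u v
open Cfsg

namespace Cfsg.Agent.S3961


open scoped commutatorElement

theorem comm_central_left {H : Type*} [Group H] (z x w : H) (hz : z ∈ Subgroup.center H) :
    ⁅z * x, w⁆ = ⁅x, w⁆ := by
  rw [Subgroup.mem_center_iff] at hz
  have h := hz (x * w * x⁻¹)
  rw [commutatorElement_def, commutatorElement_def]
  calc z * x * w * (z * x)⁻¹ * w⁻¹ = z * (x * w * x⁻¹) * z⁻¹ * w⁻¹ := by group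
    _ = x * w * x⁻¹ * z * z⁻¹ * w⁻¹ := by rw [← h]
    _ = x * w * x⁻¹ * w⁻¹ := by group

theorem comm_central_right {H : Type*} [Group H] (z x y : H) (hz : z ∈ Subgroup.center H) :
    ⁅x, z * y⁆ = ⁅x, y⁆ := by
  rw [← commutatorElement_inv, comm_central_left z y x hz, commutatorElement_inv]

theorem hom_eq_of_central {G H : Type*} [Group G] [Group H] (hG : commutator G = ⊤) (f₁ f₂ : G →* H)
    (hz : ∀ g, f₁ g * (f₂ g)⁻¹ ∈ Subgroup.center H) : f₁ = f₂ := by
  have key : commutator G ≤ f₁.eqLocus f₂ := by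
    rw [commutator_eq_closure, Subgroup.closure_le]
    rintro x ⟨a, b, rfl⟩
    show f₁ ⁅a, b⁆ = f₂ ⁅a, b⁆
    rw [map_commutatorElement, map_commutatorElement]
    have ha : f₁ a = (f₁ a * (f₂ a)⁻¹) * f₂ a := by group
    have hb : f₁ b = (f₁ b * (f₂ b)⁻¹) * f₂ b := by group
    rw [ha, hb, comm_central_left _ _ _ (hz a), comm_central_right _ _ _ (hz b)]
  ext g
  have : g ∈ f₁.eqLocus f₂ := key (by rw [hG]; trivial)
  exact this

theorem result {G : Type u} {Q : Type v} [Group G] [Group Q] [Finite G] (hG : Group.IsPerfect G) (π : G →* Q) (hπ : Function.Surjective π) (hker : π.ker ≤ Subgroup.center G) : (∀ (X : Type u) [Group X] (ξ : X →* Q), Function.Surjective ξ → ξ.ker ≤ Subgroup.center X → ∃ η : G →* X, ξ.comp η = π) ↔ Cfsg.HasCyclicSchurMultiplier G 1 := by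
  constructor
  · intro huniv
    apply Cfsg.Agent.Lib.Helper7.Stem.hasSchur_one
    intro Γ _ _ σ hσ
    obtain ⟨hs, hc, hd⟩ := hσ
    have hΓ : commutator Γ = ⊤ := by
      rw [eq_top_iff]
      intro γ _
      have h1 : σ γ ∈ (commutator Γ).map σ := by
        have hmap : (commutator Γ).map σ = commutator G := by
          rw [commutator_def, Subgroup.map_commutator, Subgroup.map_top_of_surjective σ hs]
          rfl
        rw [hmap, hG.commutator_eq_top]; trivial
      obtain ⟨c, hc', hcg⟩ := h1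
      have h2 : γ * c⁻¹ ∈ σ.ker := by
        rw [MonoidHom.mem_ker, map_mul, map_inv, hcg, mul_inv_cancel]
      have h3 := (commutator Γ).mul_mem (hd h2) hc'
      simpa using h3
    have hcen : (π.comp σ).ker ≤ Subgroup.center Γ := by
      intro k hk
      rw [MonoidHom.mem_ker, MonoidHom.comp_apply] at hk
      have hσk : σ k ∈ Subgroup.center G := hker hk
      have hh := hom_eq_of_central hΓ (MulAut.conj k).toMonoidHom (MonoidHom.id Γ) (by
        intro γ
        apply hc
        rw [MonoidHom.mem_ker]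
        show σ (k * γ * k⁻¹ * γ⁻¹) = 1
        rw [map_mul, map_mul, map_mul, map_inv, map_inv]
        rw [Subgroup.mem_center_iff] at hσk
        rw [← hσk (σ γ)]
        group)
      rw [Subgroup.mem_center_iff]
      intro γ
      have h5 : k * γ * k⁻¹ = γ := DFunLike.congr_fun hh γ
      calc γ * k = (k * γ * k⁻¹) * k := by rw [h5]
        _ = k * γ := by group
    obtain ⟨η, hη⟩ := huniv Γ (π.comp σ) (hπ.comp hs) hcen
    have h4 : σ.comp η = MonoidHom.id G := by
      apply hom_eq_of_central hG.commutator_eq_top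
      intro g
      apply hker
      rw [MonoidHom.mem_ker]
      show π (σ (η g) * g⁻¹) = 1
      have h' : π (σ (η g)) = π g := DFunLike.congr_fun hη g
      rw [map_mul, map_inv, h', mul_inv_cancel]
    have h5 : η.comp σ = MonoidHom.id Γ := by
      apply hom_eq_of_central hΓ
      intro γ
      apply hc
      rw [MonoidHom.mem_ker]
      show σ (η (σ γ) * γ⁻¹) = 1
      have h' : σ (η (σ γ)) = σ γ := DFunLike.congr_fun h4 (σ γ)
      rw [map_mul, map_inv, h', mul_inv_cancel]
    rw [eq_bot_iff]
    intro k hk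
    rw [MonoidHom.mem_ker] at hk
    have h6 : η (σ k) = k := DFunLike.congr_fun h5 k
    rw [hk, map_one] at h6
    rw [Subgroup.mem_bot]; exact h6.symm
  · intro hM X _ ξ hξ hξc
    obtain ⟨-, hM2⟩ := hM
    obtain ⟨P, hP⟩ : ∃ P : Subgroup (G × X), ∀ a : G × X, a ∈ P ↔ π a.1 = ξ a.2 :=
      ⟨(π.comp (MonoidHom.fst G X)).eqLocus (ξ.comp (MonoidHom.snd G X)), fun a => Iff.rfl⟩
    obtain ⟨p₁, hp₁⟩ : ∃ p₁ : P →* G, ∀ a : P, p₁ a = (a : G × X).1 :=
      ⟨(MonoidHom.fst G X).comp P.subtype, fun a => rfl⟩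
    have hp₁s : Function.Surjective p₁ := by
      intro g
      obtain ⟨x, hx⟩ := hξ (π g)
      exact ⟨⟨(g, x), (hP _).mpr hx.symm⟩, by rw [hp₁]⟩
    have hp₁c : p₁.ker ≤ Subgroup.center P := by
      intro a ha
      rw [MonoidHom.mem_ker, hp₁] at ha
      rw [Subgroup.mem_center_iff]
      intro b
      have ha2 : (a : G × X).2 ∈ Subgroup.center X := by
        apply hξc
        rw [MonoidHom.mem_ker]
        have h' : π (a : G × X).1 = ξ (a : G × X).2 := (hP _).mp a.2
        rw [← h', ha, map_one]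
      rw [Subgroup.mem_center_iff] at ha2
      apply Subtype.ext
      apply Prod.ext
      · show (b : G × X).1 * (a : G × X).1 = (a : G × X).1 * (b : G × X).1
        rw [ha, mul_one, one_mul]
      · exact ha2 _
    have hfin : Finite (commutatorSet P) := by
      have hsub : commutatorSet P ⊆ Set.range (fun gh : G × G =>
          ⁅Function.surjInv hp₁s gh.1, Function.surjInv hp₁s gh.2⁆) := by
        rintro x ⟨a, b, rfl⟩
        refine ⟨(p₁ a, p₁ b), ?_⟩
        show ⁅Function.surjInv hp₁s (p₁ a), Function.surjInv hp₁s (p₁ b)⁆ = ⁅a, b⁆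
        obtain ⟨sa, hsa⟩ : ∃ sa, sa = Function.surjInv hp₁s (p₁ a) := ⟨_, rfl⟩
        obtain ⟨sb, hsb⟩ : ∃ sb, sb = Function.surjInv hp₁s (p₁ b) := ⟨_, rfl⟩
        have hsa' : p₁ sa = p₁ a := by rw [hsa]; exact Function.surjInv_eq hp₁s (p₁ a)
        have hsb' : p₁ sb = p₁ b := by rw [hsb]; exact Function.surjInv_eq hp₁s (p₁ b)
        rw [← hsa, ← hsb]
        have hza : a * sa⁻¹ ∈ Subgroup.center P := by
          apply hp₁c; rw [MonoidHom.mem_ker, map_mul, map_inv, hsa', mul_inv_cancel]
        have hzb : b * sb⁻¹ ∈ Subgroup.center P := by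
          apply hp₁c; rw [MonoidHom.mem_ker, map_mul, map_inv, hsb', mul_inv_cancel]
        have e1 : ⁅sa, sb⁆ = ⁅(a * sa⁻¹) * sa, (b * sb⁻¹) * sb⁆ := by
          rw [comm_central_left _ _ _ hza, comm_central_right _ _ _ hzb]
        have e2 : (a * sa⁻¹) * sa = a := by group
        have e3 : (b * sb⁻¹) * sb = b := by group
        rw [e1, e2, e3]
      exact ((Set.finite_range _).subset hsub).to_subtype
    haveI : Finite (commutatorSet P) := hfin
    haveI : Finite (commutator P) := inferInstance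
    have hmap : (commutator P).map p₁ = ⊤ := by
      rw [commutator_def, Subgroup.map_commutator, Subgroup.map_top_of_surjective p₁ hp₁s]
      exact hG.commutator_eq_top
    have hσs : Function.Surjective (p₁.comp (commutator P).subtype) := by
      intro g
      have hg : g ∈ (commutator P).map p₁ := by rw [hmap]; trivial
      obtain ⟨c, hc, rfl⟩ := hg
      exact ⟨⟨c, hc⟩, rfl⟩
    have hCC : ⁅commutator P, commutator P⁆ = commutator P := by
      apply le_antisymm
      · exact Subgroup.commutator_mono le_top le_top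
      · conv_lhs => rw [commutator_eq_closure]
        rw [Subgroup.closure_le]
        rintro x ⟨a, b, rfl⟩
        obtain ⟨ca, hca⟩ := hσs (p₁ a)
        obtain ⟨cb, hcb⟩ := hσs (p₁ b)
        have hca' : p₁ (ca : P) = p₁ a := hca
        have hcb' : p₁ (cb : P) = p₁ b := hcb
        have hza : a * (ca : P)⁻¹ ∈ Subgroup.center P := by
          apply hp₁c; rw [MonoidHom.mem_ker, map_mul, map_inv, hca', mul_inv_cancel]
        have hzb : b * (cb : P)⁻¹ ∈ Subgroup.center P := by
          apply hp₁c; rw [MonoidHom.mem_ker, map_mul, map_inv, hcb', mul_inv_cancel]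
        have e1 : ⁅(ca : P), (cb : P)⁆ = ⁅(a * (ca : P)⁻¹) * ca, (b * (cb : P)⁻¹) * cb⁆ := by
          rw [comm_central_left _ _ _ hza, comm_central_right _ _ _ hzb]
        have e2 : (a * (ca : P)⁻¹) * (ca : P) = a := by group
        have e3 : (b * (cb : P)⁻¹) * (cb : P) = b := by group
        rw [e2, e3] at e1
        show ⁅a, b⁆ ∈ ⁅commutator P, commutator P⁆
        rw [← e1]
        exact Subgroup.commutator_mem_commutator ca.2 cb.2
    have hperf : commutator ↥(commutator P) = ⊤ :=
      (Subgroup.isPerfect_iff.mpr hCC).commutator_eq_top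
    have hstem : Cfsg.IsStemExtension (p₁.comp (commutator P).subtype) := by
      refine ⟨hσs, ?_, ?_⟩
      · intro c hc
        rw [Subgroup.mem_center_iff]
        intro d
        have hc' : (c : P) ∈ Subgroup.center P := hp₁c hc
        rw [Subgroup.mem_center_iff] at hc'
        exact Subtype.ext (hc' d)
      · intro c _
        rw [hperf]; trivial
    obtain ⟨ρ, hρ⟩ := hM2 (↥(commutator P)) (p₁.comp (commutator P).subtype) hstem
    have hinj : Function.Injective (p₁.comp (commutator P).subtype) := by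
      rw [← MonoidHom.ker_eq_bot_iff, eq_bot_iff]
      intro k hk
      obtain ⟨a, ha⟩ := hρ ⟨k, hk⟩
      have ha1 : a = 1 := Multiplicative.toAdd.injective (Subsingleton.elim _ _)
      rw [ha1, map_one] at ha
      rw [Subgroup.mem_bot]
      have h7 := congrArg Subtype.val ha
      exact h7.symm
    obtain ⟨e, he⟩ : ∃ e : ↥(commutator P) ≃* G, ∀ c, e c = p₁ (c : P) :=
      ⟨MulEquiv.ofBijective (p₁.comp (commutator P).subtype) ⟨hinj, hσs⟩, fun c => rfl⟩
    refine ⟨(MonoidHom.snd G X).comp (P.subtype.comp ((commutator P).subtype.comp e.symm.toMonoidHom)), ?_⟩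
    ext g
    show ξ (((e.symm g : ↥(commutator P)) : P) : G × X).2 = π g
    have h1 : π (((e.symm g : ↥(commutator P)) : P) : G × X).1
        = ξ (((e.symm g : ↥(commutator P)) : P) : G × X).2 := (hP _).mp ((e.symm g : ↥(commutator P)) : P).2
    have h2 : (((e.symm g : ↥(commutator P)) : P) : G × X).1 = g := by
      rw [← hp₁, ← he, MulEquiv.apply_symm_apply]
    rw [← h1, h2]

end Cfsg.Agent.S3961
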