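import Cfsg.Statements.S3960
import Cfsg.Agent.S3961
import Cfsg.Agent.Lib.Helper7.Stem
import Mathlib

set_option autoImplicit false
universe u
open Cfsg

namespace Cfsg.Agent.S3960


open scoped commutatorElement

theorem perfect_of_stem {Γ G : Type*} [Group Γ] [Group G] (σ : Γ →* G) (hs : Function.Surjective σ)
    (hd : σ.ker ≤ commutator Γ) (hG : commutator G = ⊤) : commutator Γ = ⊤ := by
  rw [eq_top_iff]
  intro γ _
  have h1 : σ γ ∈ (commutator Γ).map σ := by
    have hmap : (commutator Γ).map σ = commutator G := by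
      rw [commutator_def, Subgroup.map_commutator, Subgroup.map_top_of_surjective σ hs]
      rfl
    rw [hmap, hG]; trivial
  obtain ⟨c, hc', hcg⟩ := h1
  have h2 : γ * c⁻¹ ∈ σ.ker := by
    rw [MonoidHom.mem_ker, map_mul, map_inv, hcg, mul_inv_cancel]
  have h3 := (commutator Γ).mul_mem (hd h2) hc'
  simpa using h3

theorem central_comp {Γ G Q : Type*} [Group Γ] [Group G] [Group Q] (σ : Γ →* G) (π : G →* Q)
    (hΓ : commutator Γ = ⊤) (hc : σ.ker ≤ Subgroup.center Γ) (hker : π.ker ≤ Subgroup.center G) :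
    (π.comp σ).ker ≤ Subgroup.center Γ := by
  intro k hk
  rw [MonoidHom.mem_ker, MonoidHom.comp_apply] at hk
  have hσk : σ k ∈ Subgroup.center G := hker hk
  have hh := Cfsg.Agent.S3961.hom_eq_of_central hΓ (MulAut.conj k).toMonoidHom (MonoidHom.id Γ) (by
    intro γ
    apply hc
    rw [MonoidHom.mem_ker]
    show σ (k * γ * k⁻¹ * γ⁻¹) = 1
    rw [map_mul, map_mul, map_mul, map_inv, map_inv]
    rw [Subgroup.mem_center_iff] at hσk
    rw [← hσk (σ γ)]
    group)
  rw [Subgroup.mem_center_iff]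
  intro γ
  have h5 : k * γ * k⁻¹ = γ := DFunLike.congr_fun hh γ
  calc γ * k = (k * γ * k⁻¹) * k := by rw [h5]
    _ = k * γ := by group

theorem stem_card_le {Γ Q : Type*} [Group Γ] [Group Q] [Finite Γ] [Finite Q] (σ : Γ →* Q)
    (hs : Function.Surjective σ) (hc : σ.ker ≤ Subgroup.center Γ) (hd : σ.ker ≤ commutator Γ) :
    Nat.card Γ ≤ Nat.card Q ^ (Nat.card Q * (Nat.card Q * Nat.card Q) + 1) * Nat.card Q := by
  have hq : 0 < Nat.card Q := Nat.card_pos
  have hidx : σ.ker.index = Nat.card Q := by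
    rw [Subgroup.index_ker, MonoidHom.range_eq_top.mpr hs, Subgroup.card_top]
  have hidx2 : (Subgroup.center Γ).index ∣ Nat.card Q := hidx ▸ Subgroup.index_dvd_of_le hc
  have hidx3 : (Subgroup.center Γ).index ≤ Nat.card Q := Nat.le_of_dvd hq hidx2
  have hidx4 : 0 < (Subgroup.center Γ).index := Nat.pos_of_dvd_of_pos hidx2 hq
  have hn : Nat.card (commutatorSet Γ) ≤ Nat.card Q * Nat.card Q := by
    have hsurj : Function.Surjective (fun qq : Q × Q =>
        (⟨⁅Function.surjInv hs qq.1, Function.surjInv hs qq.2⁆, ⟨_, _, rfl⟩⟩ : commutatorSet Γ)) := by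
      rintro ⟨x, a, b, rfl⟩
      refine ⟨(σ a, σ b), Subtype.ext ?_⟩
      show ⁅Function.surjInv hs (σ a), Function.surjInv hs (σ b)⁆ = ⁅a, b⁆
      obtain ⟨sa, hsa⟩ : ∃ sa, sa = Function.surjInv hs (σ a) := ⟨_, rfl⟩
      obtain ⟨sb, hsb⟩ : ∃ sb, sb = Function.surjInv hs (σ b) := ⟨_, rfl⟩
      have hsa' : σ sa = σ a := by rw [hsa]; exact Function.surjInv_eq hs (σ a)
      have hsb' : σ sb = σ b := by rw [hsb]; exact Function.surjInv_eq hs (σ b)
      rw [← hsa, ← hsb]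
      have hza : a * sa⁻¹ ∈ Subgroup.center Γ := by
        apply hc; rw [MonoidHom.mem_ker, map_mul, map_inv, hsa', mul_inv_cancel]
      have hzb : b * sb⁻¹ ∈ Subgroup.center Γ := by
        apply hc; rw [MonoidHom.mem_ker, map_mul, map_inv, hsb', mul_inv_cancel]
      have e1 : ⁅sa, sb⁆ = ⁅(a * sa⁻¹) * sa, (b * sb⁻¹) * sb⁆ := by
        rw [Cfsg.Agent.S3961.comm_central_left _ _ _ hza, Cfsg.Agent.S3961.comm_central_right _ _ _ hzb]
      have e2 : (a * sa⁻¹) * sa = a := by group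
      have e3 : (b * sb⁻¹) * sb = b := by group
      rw [e1, e2, e3]
    have h := Nat.card_le_card_of_surjective _ hsurj
    rwa [Nat.card_prod] at h
  have hdvd := Subgroup.card_commutator_dvd_index_center_pow Γ
  have hpos : 0 < (Subgroup.center Γ).index ^
      ((Subgroup.center Γ).index * Nat.card (commutatorSet Γ) + 1) := Nat.pow_pos hidx4
  have h1 : Nat.card (commutator Γ) ≤ (Subgroup.center Γ).index ^
      ((Subgroup.center Γ).index * Nat.card (commutatorSet Γ) + 1) := Nat.le_of_dvd hpos hdvd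
  have h2 : (Subgroup.center Γ).index ^
      ((Subgroup.center Γ).index * Nat.card (commutatorSet Γ) + 1)
      ≤ Nat.card Q ^ (Nat.card Q * (Nat.card Q * Nat.card Q) + 1) := by
    calc (Subgroup.center Γ).index ^ ((Subgroup.center Γ).index * Nat.card (commutatorSet Γ) + 1)
        ≤ Nat.card Q ^ ((Subgroup.center Γ).index * Nat.card (commutatorSet Γ) + 1) :=
          Nat.pow_le_pow_left hidx3 _
      _ ≤ Nat.card Q ^ (Nat.card Q * (Nat.card Q * Nat.card Q) + 1) :=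
          Nat.pow_le_pow_right hq (Nat.succ_le_succ (Nat.mul_le_mul hidx3 hn))
  have h3 : Nat.card σ.ker ≤ Nat.card (commutator Γ) := Subgroup.card_le_of_le hd
  have h4 := Subgroup.card_mul_index σ.ker
  rw [hidx] at h4
  calc Nat.card Γ = Nat.card σ.ker * Nat.card Q := h4.symm
    _ ≤ _ := Nat.mul_le_mul_right _ (h3.trans (h1.trans h2))

theorem result {Q : Type u} [Group Q] [Finite Q] (hQ : Group.IsPerfect Q) : ∃ (G : Type u) (_ : Group G) (_ : Finite G) (π : G →* Q), Group.IsPerfect G ∧ Function.Surjective π ∧ π.ker ≤ Subgroup.center G ∧ ∀ (X : Type u) [Group X] (ξ : X →* Q), Function.Surjective ξ → ξ.ker ≤ Subgroup.center X → ∃! η : G →* X, ξ.comp η = π := by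
  have hQc : commutator Q = ⊤ := hQ.commutator_eq_top
  obtain ⟨S, hS⟩ : ∃ S : Set ℕ, ∀ n, n ∈ S ↔ ∃ (Γ : Type u) (_ : Group Γ) (_ : Finite Γ) (σ : Γ →* Q),
      Cfsg.IsStemExtension σ ∧ Nat.card Γ = n := ⟨{n | ∃ (Γ : Type u) (_ : Group Γ) (_ : Finite Γ) (σ : Γ →* Q),
      Cfsg.IsStemExtension σ ∧ Nat.card Γ = n}, fun n => Iff.rfl⟩
  have hne : S.Nonempty := ⟨Nat.card Q, (hS _).mpr ⟨Q, inferInstance, inferInstance, MonoidHom.id Q,
    ⟨Function.surjective_id, by rw [MonoidHom.ker_id]; exact bot_le,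
      by rw [MonoidHom.ker_id]; exact bot_le⟩, rfl⟩⟩
  have hbdd : BddAbove S := ⟨Nat.card Q ^ (Nat.card Q * (Nat.card Q * Nat.card Q) + 1) * Nat.card Q, by
    intro n hn
    obtain ⟨Γ, _, _, σ, ⟨hs, hc, hd⟩, rfl⟩ := (hS _).mp hn
    exact stem_card_le σ hs hc hd⟩
  obtain ⟨G, iG, iF, π, ⟨hs, hc, hd⟩, hcard⟩ := (hS _).mp (Nat.sSup_mem hne hbdd)
  have hmax : ∀ (Γ : Type u) [Group Γ] [Finite Γ] (σ : Γ →* Q), Cfsg.IsStemExtension σ →
      Nat.card Γ ≤ Nat.card G := by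
    intro Γ _ _ σ hσ
    rw [hcard]
    exact le_csSup hbdd ((hS _).mpr ⟨Γ, inferInstance, inferInstance, σ, hσ, rfl⟩)
  have hGc : commutator G = ⊤ := perfect_of_stem π hs hd hQc
  have hM : Cfsg.HasCyclicSchurMultiplier G 1 := by
    apply Cfsg.Agent.Lib.Helper7.Stem.hasSchur_one
    intro C _ _ τ hτ
    obtain ⟨hτs, hτc, hτd⟩ := hτ
    have hCc : commutator C = ⊤ := perfect_of_stem τ hτs hτd hGc
    have hstem : Cfsg.IsStemExtension (π.comp τ) :=
      ⟨hs.comp hτs, central_comp τ π hCc hτc hc, by rw [hCc]; exact le_top⟩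
    have hle := hmax C (π.comp τ) hstem
    have hbij := hτs.bijective_of_nat_card_le hle
    exact (MonoidHom.ker_eq_bot_iff τ).mpr hbij.1
  refine ⟨G, iG, iF, π, ⟨hGc⟩, hs, hc, ?_⟩
  intro X _ ξ hξ hξc
  obtain ⟨η, hη⟩ := (Cfsg.Agent.S3961.result ⟨hGc⟩ π hs hc).mpr hM X ξ hξ hξc
  refine ⟨η, hη, ?_⟩
  intro η' hη'
  apply Cfsg.Agent.S3961.hom_eq_of_central hGc
  intro g
  apply hξc
  rw [MonoidHom.mem_ker, map_mul, map_inv]
  have h1 : ξ (η' g) = π g := DFunLike.congr_fun hη' g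
  have h2 : ξ (η g) = π g := DFunLike.congr_fun hη g
  rw [h1, h2, mul_inv_cancel]

end Cfsg.Agent.S3960
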