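import Cfsg.Statements.S3962
import Mathlib

set_option autoImplicit false
open Cfsg

namespace Cfsg.Agent.S3962

/-- Let `G` be a perfect group and `π : G →* Q` a surjective homomorphism whose kernel is central. Then `π` maps the centre of `G` onto the centre of `Q`. Taking `π` to be the map to `G ⧸ Z(G)` shows that the central quotient of a perfect group has trivial centre. -/
theorem result {G Q : Type*} [Group G] [Group Q] (hG : Group.IsPerfect G) (π : G →* Q) (hπ : Function.Surjective π) (hker : π.ker ≤ Subgroup.center G) : (Subgroup.center G).map π = Subgroup.center Q := by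
  apply le_antisymm
  · rintro _ ⟨z, hz', rfl⟩
    have hz : z ∈ Subgroup.center G := hz'
    rw [Subgroup.mem_center_iff] at hz ⊢
    intro q
    obtain ⟨g, rfl⟩ := hπ q
    rw [← map_mul, ← map_mul, hz g]
  · intro q hq
    obtain ⟨x, rfl⟩ := hπ q
    refine ⟨x, ?_, rfl⟩
    have hc : ∀ g : G, g * x * g⁻¹ * x⁻¹ ∈ Subgroup.center G := by
      intro g
      apply hker
      rw [MonoidHom.mem_ker]
      rw [Subgroup.mem_center_iff] at hq
      simp only [map_mul, map_inv]
      rw [hq (π g)]
      simp
    let f : G →* Subgroup.center G := MonoidHom.mk' (fun g => ⟨g * x * g⁻¹ * x⁻¹, hc g⟩) (by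
      intro a b
      apply Subtype.ext
      simp only [Subgroup.coe_mul]
      have hb := hc b
      rw [Subgroup.mem_center_iff] at hb
      calc a * b * x * (a * b)⁻¹ * x⁻¹ = a * (b * x * b⁻¹ * x⁻¹) * x * a⁻¹ * x⁻¹ := by group
        _ = (b * x * b⁻¹ * x⁻¹) * (a * x * a⁻¹ * x⁻¹) := by rw [hb a]; simp only [mul_assoc]
        _ = (a * x * a⁻¹ * x⁻¹) * (b * x * b⁻¹ * x⁻¹) := (hb _).symm)
    have hker2 : commutator G ≤ f.ker := by
      rw [commutator_eq_closure, Subgroup.closure_le]
      rintro y ⟨p, q, rfl⟩
      rw [SetLike.mem_coe, MonoidHom.mem_ker, commutatorElement_def, map_mul, map_mul, map_mul,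
        map_inv, map_inv]
      have hcomm : f p * f q = f q * f p := by
        apply Subtype.ext
        have := (f q).2
        rw [Subgroup.mem_center_iff] at this
        exact this _
      rw [hcomm]
      group
    rw [hG.commutator_eq_top] at hker2
    show x ∈ Subgroup.center G
    rw [Subgroup.mem_center_iff]
    intro g
    have h1 : f g = 1 := hker2 (Subgroup.mem_top g)
    have h2 : g * x * g⁻¹ * x⁻¹ = 1 := congrArg Subtype.val h1
    have h3 : g * x * g⁻¹ = x := by
      rw [mul_inv_eq_one] at h2; exact h2
    rw [mul_inv_eq_iff_eq_mul] at h3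
    exact h3

end Cfsg.Agent.S3962
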