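import Mathlib
import Cfsg.Statements.S3963
import Cfsg.Agent.Lib.Helper7.Stem

set_option autoImplicit false
open Cfsg

namespace Cfsg.Agent.S3963



/-- For every `n ≥ 1` the dicyclic (generalized quaternion) group of order `4 n` has trivial Schur multiplier. -/
theorem result (n : ℕ) [NeZero n] : Cfsg.HasCyclicSchurMultiplier (QuaternionGroup n) 1 := by
  apply Cfsg.Agent.Lib.Helper7.Stem.hasSchur_one
  intro Γ _ _ σ hσ
  obtain ⟨hsurjσ, hK, hK'⟩ := hσ
  obtain ⟨A, hA⟩ := hsurjσ (QuaternionGroup.a 1)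
  obtain ⟨X, hX⟩ := hsurjσ (QuaternionGroup.xa 0)
  have hcent : ∀ k ∈ σ.ker, ∀ g : Γ, g * k = k * g := fun k hk g =>
    Subgroup.mem_center_iff.mp (hK hk) g
  have hXA : X * A ^ n = A ^ n * X := by
    obtain ⟨z₂, hz₂⟩ : ∃ z₂ : Γ, z₂ = X * X * (A ^ n)⁻¹ := ⟨_, rfl⟩
    have hz₂K : z₂ ∈ σ.ker := by
      rw [MonoidHom.mem_ker, hz₂, map_mul, map_mul, map_inv, map_pow, hA, hX,
        QuaternionGroup.xa_mul_xa, QuaternionGroup.a_one_pow, add_zero, sub_zero, mul_inv_cancel]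
    have hXX : X * X = z₂ * A ^ n := by
      rw [hz₂, inv_mul_cancel_right]
    have h1 : X * (z₂ * A ^ n) = (z₂ * A ^ n) * X := by rw [← hXX, mul_assoc]
    have h2 : z₂ * (X * A ^ n) = z₂ * (A ^ n * X) := by
      calc z₂ * (X * A ^ n) = (z₂ * X) * A ^ n := (mul_assoc _ _ _).symm
        _ = (X * z₂) * A ^ n := by rw [hcent z₂ hz₂K X]
        _ = X * (z₂ * A ^ n) := mul_assoc _ _ _
        _ = (z₂ * A ^ n) * X := h1
        _ = z₂ * (A ^ n * X) := mul_assoc _ _ _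
    exact mul_left_cancel h2
  have hconj : QuaternionGroup.xa (0 : ZMod (2 * n)) * QuaternionGroup.a 1
      * (QuaternionGroup.xa 0)⁻¹ = (QuaternionGroup.a 1)⁻¹ := by
    rw [mul_inv_eq_iff_eq_mul, eq_inv_mul_iff_mul_eq, QuaternionGroup.xa_mul_a,
      QuaternionGroup.a_mul_xa]
    congr 1
    ring
  have hsurjQ : ∀ q : QuaternionGroup n, (∃ t : ℤ, q = QuaternionGroup.a 1 ^ t) ∨
      (∃ t : ℤ, q = QuaternionGroup.xa 0 * QuaternionGroup.a 1 ^ t) := by
    haveI : NeZero (2 * n) := ⟨by have := NeZero.pos n; omega⟩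
    intro q
    cases q with
    | a i =>
      left
      refine ⟨(i.val : ℤ), ?_⟩
      rw [zpow_natCast, QuaternionGroup.a_one_pow, ZMod.natCast_zmod_val]
    | xa i =>
      right
      refine ⟨(i.val : ℤ), ?_⟩
      rw [zpow_natCast, QuaternionGroup.a_one_pow, ZMod.natCast_zmod_val,
        QuaternionGroup.xa_mul_a, zero_add]
  have hord : ∀ t : ℤ, ((QuaternionGroup.a 1 : QuaternionGroup n) ^ 2) ^ t = 1 → (n : ℤ) ∣ t := by
    intro t ht
    have h1 := orderOf_dvd_iff_zpow_eq_one.mpr ht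
    have h2 : orderOf ((QuaternionGroup.a 1 : QuaternionGroup n) ^ 2) = n := by
      rw [orderOf_pow' _ (by norm_num), QuaternionGroup.orderOf_a_one,
        Nat.gcd_eq_right (show 2 ∣ 2 * n from ⟨n, rfl⟩)]
      exact Nat.mul_div_cancel_left n (by norm_num)
    rw [h2] at h1
    exact h1
  exact Cfsg.Agent.Lib.Helper7.Stem.stem_trivial σ hK hK' _ _ hconj hsurjQ A X hA hX n hXA hord


end Cfsg.Agent.S3963
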