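import Mathlib
import Cfsg.Statements.S3964
import Cfsg.Agent.Lib.Helper7.Stem

set_option autoImplicit false
open Cfsg

namespace Cfsg.Agent.S3964



/-- For odd `n` the dihedral group of order `2 n` has trivial Schur multiplier. -/
theorem result (n : ℕ) (hn : Odd n) : Cfsg.HasCyclicSchurMultiplier (DihedralGroup n) 1 := by
  haveI : NeZero n := ⟨by rintro rfl; simp at hn⟩
  apply Cfsg.Agent.Lib.Helper7.Stem.hasSchur_one
  intro Γ _ _ σ hσ
  obtain ⟨hsurjσ, hK, hK'⟩ := hσ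
  obtain ⟨A, hA⟩ := hsurjσ (DihedralGroup.r 1)
  obtain ⟨X, hX⟩ := hsurjσ (DihedralGroup.sr 0)
  have hcent : ∀ k ∈ σ.ker, ∀ g : Γ, g * k = k * g := fun k hk g =>
    Subgroup.mem_center_iff.mp (hK hk) g
  have hXA : X * A ^ n = A ^ n * X := by
    have h1 : A ^ n ∈ σ.ker := by
      rw [MonoidHom.mem_ker, map_pow, hA, DihedralGroup.r_one_pow_n]
    exact hcent _ h1 X
  have hconj : DihedralGroup.sr (0 : ZMod n) * DihedralGroup.r 1
      * (DihedralGroup.sr 0)⁻¹ = (DihedralGroup.r 1)⁻¹ := by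
    rw [mul_inv_eq_iff_eq_mul, eq_inv_mul_iff_mul_eq, DihedralGroup.sr_mul_r,
      DihedralGroup.r_mul_sr]
    congr 1
    ring
  have hsurjQ : ∀ q : DihedralGroup n, (∃ t : ℤ, q = DihedralGroup.r 1 ^ t) ∨
      (∃ t : ℤ, q = DihedralGroup.sr 0 * DihedralGroup.r 1 ^ t) := by
    intro q
    cases q with
    | r i =>
      left
      refine ⟨(i.val : ℤ), ?_⟩
      rw [zpow_natCast, DihedralGroup.r_one_pow, ZMod.natCast_zmod_val]
    | sr i =>
      right
      refine ⟨(i.val : ℤ), ?_⟩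
      rw [zpow_natCast, DihedralGroup.r_one_pow, ZMod.natCast_zmod_val,
        DihedralGroup.sr_mul_r, zero_add]
  have hord : ∀ t : ℤ, ((DihedralGroup.r 1 : DihedralGroup n) ^ 2) ^ t = 1 → (n : ℤ) ∣ t := by
    intro t ht
    have h1 := orderOf_dvd_iff_zpow_eq_one.mpr ht
    have h2 : orderOf ((DihedralGroup.r 1 : DihedralGroup n) ^ 2) = n := by
      rw [orderOf_pow' _ (by norm_num), DihedralGroup.orderOf_r_one]
      have h3 : Nat.gcd n 2 = 1 := by
        rw [Nat.gcd_comm]; exact Nat.coprime_two_left.mpr hn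
      rw [h3, Nat.div_one]
    rw [h2] at h1
    exact h1
  exact Cfsg.Agent.Lib.Helper7.Stem.stem_trivial σ hK hK' _ _ hconj hsurjQ A X hA hX n hXA hord


end Cfsg.Agent.S3964
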