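import Cfsg.Statements.S3966
import Mathlib

set_option autoImplicit false
open Cfsg

namespace Cfsg.Agent.S3966

def sigmaFun (n : ℕ) : QuaternionGroup n → DihedralGroup n
  | QuaternionGroup.a i => DihedralGroup.r (ZMod.castHom (dvd_mul_left n 2) (ZMod n) i)
  | QuaternionGroup.xa i => DihedralGroup.sr (ZMod.castHom (dvd_mul_left n 2) (ZMod n) i)

def sigma (n : ℕ) : QuaternionGroup n →* DihedralGroup n where
  toFun := sigmaFun n
  map_one' := by
    rw [QuaternionGroup.one_def]
    show DihedralGroup.r (ZMod.castHom (dvd_mul_left n 2) (ZMod n) 0) = 1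
    rw [map_zero, DihedralGroup.one_def]
  map_mul' := by
    rintro (i | i) (j | j) <;>
      simp [sigmaFun, map_add, map_sub, map_natCast]

theorem sigma_a (n : ℕ) (i : ZMod (2 * n)) :
    sigma n (QuaternionGroup.a i)
      = DihedralGroup.r (ZMod.castHom (dvd_mul_left n 2) (ZMod n) i) := rfl

theorem sigma_xa (n : ℕ) (i : ZMod (2 * n)) :
    sigma n (QuaternionGroup.xa i)
      = DihedralGroup.sr (ZMod.castHom (dvd_mul_left n 2) (ZMod n) i) := rfl

theorem cast_eq_zero (n : ℕ) [NeZero n] (i : ZMod (2 * n))
    (h : ZMod.castHom (dvd_mul_left n 2) (ZMod n) i = 0) :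
    i = 0 ∨ i = (n : ZMod (2 * n)) := by
  have hn : n ≠ 0 := NeZero.ne n
  have : NeZero (2 * n) := ⟨by omega⟩
  have h1 : ((i.val : ℕ) : ZMod (2 * n)) = i := ZMod.natCast_zmod_val i
  rw [← h1, map_natCast, ZMod.natCast_eq_zero_iff] at h
  have h2 : i.val < 2 * n := ZMod.val_lt i
  obtain ⟨t, ht⟩ := h
  have ht' : t = 0 ∨ t = 1 := by
    rcases t with _ | _ | t
    · left; rfl
    · right; rfl
    · exfalso; nlinarith
  rcases ht' with rfl | rfl
  · left; rw [← h1, ht]; simp
  · right; rw [← h1, ht]; simp

theorem two_n (n : ℕ) : (n : ZMod (2 * n)) + (n : ZMod (2 * n)) = 0 := by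
  have : ((2 * n : ℕ) : ZMod (2 * n)) = 0 := ZMod.natCast_self (2 * n)
  rw [← this]
  push_cast
  ring

theorem mem_ker_iff (n : ℕ) [NeZero n] (x : QuaternionGroup n) :
    x ∈ (sigma n).ker ↔ x = 1 ∨ x = QuaternionGroup.a (n : ZMod (2 * n)) := by
  rw [MonoidHom.mem_ker]
  constructor
  · intro h
    rcases x with i | i
    · rw [sigma_a, DihedralGroup.one_def] at h
      have h1 : ZMod.castHom (dvd_mul_left n 2) (ZMod n) i = 0 := by
        injection h
      rcases cast_eq_zero n i h1 with h2 | h2
      · left; rw [h2, QuaternionGroup.one_def]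
      · right; rw [h2]
    · rw [sigma_xa, DihedralGroup.one_def] at h
      cases h
  · rintro (rfl | rfl)
    · exact map_one _
    · rw [sigma_a, map_natCast, ZMod.natCast_self, DihedralGroup.one_def]

open scoped commutatorElement in
/-- For even `n ≥ 2` the dicyclic group of order `4 n` is a stem extension of the dihedral group of order `2 n` with kernel of order `2`: there is a surjective homomorphism `QuaternionGroup n →* DihedralGroup n` whose kernel is central, lies in the commutator subgroup and has two elements. Together with the order of the multiplier this exhibits the dicyclic group as a Schur covering group of the dihedral group. -/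
theorem result (n : ℕ) [NeZero n] (hn : Even n) : ∃ σ : QuaternionGroup n →* DihedralGroup n, Cfsg.IsStemExtension σ ∧ Nat.card σ.ker = 2 := by
  have hn0 : n ≠ 0 := NeZero.ne n
  refine ⟨sigma n, ⟨?_, ?_, ?_⟩, ?_⟩
  · intro d
    have hs : Function.Surjective (ZMod.castHom (dvd_mul_left n 2) (ZMod n)) :=
      ZMod.ringHom_surjective _
    rcases d with i | i
    · obtain ⟨j, rfl⟩ := hs i
      exact ⟨QuaternionGroup.a j, rfl⟩
    · obtain ⟨j, rfl⟩ := hs i
      exact ⟨QuaternionGroup.xa j, rfl⟩
  · intro x hx
    rw [mem_ker_iff] at hx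
    rcases hx with rfl | rfl
    · exact Subgroup.one_mem _
    · rw [Subgroup.mem_center_iff]
      rintro (j | j)
      · rw [QuaternionGroup.a_mul_a, QuaternionGroup.a_mul_a, add_comm]
      · rw [QuaternionGroup.xa_mul_a, QuaternionGroup.a_mul_xa]
        congr 1
        have := two_n n
        linear_combination this
  · intro x hx
    rw [mem_ker_iff] at hx
    rcases hx with rfl | rfl
    · exact Subgroup.one_mem _
    · obtain ⟨k, hk⟩ := hn
      have h1 : ⁅QuaternionGroup.a (k : ZMod (2 * n)), QuaternionGroup.xa (0 : ZMod (2 * n))⁆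
          = QuaternionGroup.a (n : ZMod (2 * n)) := by
        rw [commutatorElement_def, mul_inv_eq_iff_eq_mul, mul_inv_eq_iff_eq_mul,
          QuaternionGroup.a_mul_xa, QuaternionGroup.a_mul_xa, QuaternionGroup.xa_mul_a]
        congr 1
        have h2 : (n : ZMod (2 * n)) = (k : ZMod (2 * n)) + (k : ZMod (2 * n)) := by
          rw [hk]; push_cast; ring
        linear_combination h2
      rw [← h1]
      exact Subgroup.commutator_mem_commutator (Subgroup.mem_top _) (Subgroup.mem_top _)
  · rw [Nat.card_eq_two_iff]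
    have hne : QuaternionGroup.a (n : ZMod (2 * n)) ≠ (1 : QuaternionGroup n) := by
      rw [QuaternionGroup.one_def]
      intro h
      have h1 : (n : ZMod (2 * n)) = 0 := by injection h
      rw [ZMod.natCast_eq_zero_iff] at h1
      have := Nat.le_of_dvd (Nat.pos_of_ne_zero hn0) h1
      omega
    refine ⟨⟨1, Subgroup.one_mem _⟩,
      ⟨QuaternionGroup.a (n : ZMod (2 * n)), (mem_ker_iff n _).mpr (Or.inr rfl)⟩, ?_, ?_⟩
    · intro h
      exact hne (congrArg Subtype.val h).symm
    · ext ⟨x, hx⟩
      simp only [Set.mem_insert_iff, Set.mem_singleton_iff, Set.mem_univ, iff_true]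
      rcases (mem_ker_iff n x).mp hx with h | h
      · left; exact Subtype.ext h
      · right; exact Subtype.ext h

end Cfsg.Agent.S3966
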