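import Mathlib
import Cfsg.Statements.S3965
import Cfsg.Agent.Lib.Helper7.Stem
import Cfsg.Agent.S3966

set_option autoImplicit false
open Cfsg

namespace Cfsg.Agent.S3965


theorem equiv_zmod_two {K : Type*} [Group K] (h : Nat.card K = 2) :
    Nonempty (Multiplicative (ZMod 2) ≃* K) := by
  haveI : Fact (Nat.Prime 2) := ⟨Nat.prime_two⟩
  have hcyc : IsCyclic K := isCyclic_of_prime_card h
  have e := zmodCyclicMulEquiv hcyc
  rw [h] at e
  exact ⟨e⟩

/-- For even `n ≥ 2` the dihedral group of order `2 n` has Schur multiplier cyclic of order `2`. -/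
theorem result (n : ℕ) [NeZero n] (hn : Even n) : Cfsg.HasCyclicSchurMultiplier (DihedralGroup n) 2 := by
  have hn0 : n ≠ 0 := NeZero.ne n
  obtain ⟨h, hh⟩ := hn
  refine ⟨?_, ?_⟩
  · obtain ⟨σ, hσ, hcard⟩ := Cfsg.Agent.S3966.result n ⟨h, hh⟩
    obtain ⟨e⟩ := equiv_zmod_two hcard
    exact ⟨QuaternionGroup n, inferInstance, inferInstance, σ, hσ, ⟨e.symm⟩⟩
  · intro Γ _ _ σ hσ
    obtain ⟨hsurjσ, hK, hK'⟩ := hσ
    obtain ⟨A, hA⟩ := hsurjσ (DihedralGroup.r 1)
    obtain ⟨X, hX⟩ := hsurjσ (DihedralGroup.sr 0)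
    have hcent : ∀ k ∈ σ.ker, ∀ g : Γ, g * k = k * g := fun k hk g =>
      Subgroup.mem_center_iff.mp (hK hk) g
    have hXA : X * A ^ n = A ^ n * X := by
      have h1 : A ^ n ∈ σ.ker := by
        rw [MonoidHom.mem_ker, map_pow, hA, DihedralGroup.r_one_pow_n]
      exact hcent _ h1 X
    have hconj : DihedralGroup.sr (0 : ZMod n) * DihedralGroup.r 1
        * (DihedralGroup.sr 0)⁻¹ = (DihedralGroup.r 1)⁻¹ := by
      rw [mul_inv_eq_iff_eq_mul, eq_inv_mul_iff_mul_eq, DihedralGroup.sr_mul_r,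
        DihedralGroup.r_mul_sr]
      congr 1
      ring
    have hsurjQ : ∀ q : DihedralGroup n, (∃ t : ℤ, q = DihedralGroup.r 1 ^ t) ∨
        (∃ t : ℤ, q = DihedralGroup.sr 0 * DihedralGroup.r 1 ^ t) := by
      intro q
      cases q with
      | r i =>
        left
        refine ⟨(i.val : ℤ), ?_⟩
        rw [zpow_natCast, DihedralGroup.r_one_pow, ZMod.natCast_zmod_val]
      | sr i =>
        right
        refine ⟨(i.val : ℤ), ?_⟩
        rw [zpow_natCast, DihedralGroup.r_one_pow, ZMod.natCast_zmod_val,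
          DihedralGroup.sr_mul_r, zero_add]
    obtain ⟨c, hσc, hcN, hle⟩ := Cfsg.Agent.Lib.Helper7.Stem.stem_aux σ hK hK' _ _ hconj hsurjQ
      A X hA hX n hXA
    have hord : orderOf ((DihedralGroup.r 1 : DihedralGroup n) ^ 2) = h := by
      rw [orderOf_pow' _ (by norm_num), DihedralGroup.orderOf_r_one, hh,
        Nat.gcd_eq_right (show 2 ∣ h + h from ⟨h, by ring⟩)]
      omega
    have hw2 : (c ^ h) ^ 2 = 1 := by
      rw [← pow_mul, mul_two, ← hh, hcN]
    have hle2 : σ.ker ≤ Subgroup.zpowers (c ^ h) := by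
      intro k hk
      obtain ⟨t, rfl⟩ := Subgroup.mem_zpowers_iff.mp (hle hk)
      rw [MonoidHom.mem_ker, map_zpow, hσc, inv_zpow, inv_eq_one] at hk
      have h1 := orderOf_dvd_iff_zpow_eq_one.mpr hk
      rw [hord] at h1
      obtain ⟨m, rfl⟩ := h1
      rw [zpow_mul, zpow_natCast]
      exact Subgroup.zpow_mem _ (Subgroup.mem_zpowers _) m
    by_cases hbot : σ.ker = ⊥
    · refine ⟨1, fun k => ⟨1, Subtype.ext ?_⟩⟩
      have hk : (k : Γ) ∈ (⊥ : Subgroup Γ) := hbot.le k.2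
      rw [Subgroup.mem_bot] at hk
      rw [hk]; rfl
    · have hcard : Nat.card σ.ker = 2 := by
        have h1 : Nat.card σ.ker ≤ Nat.card (Subgroup.zpowers (c ^ h)) :=
          Subgroup.card_le_of_le hle2
        have h2 : Nat.card (Subgroup.zpowers (c ^ h)) ≤ 2 := by
          rw [Nat.card_zpowers]
          exact Nat.le_of_dvd (by norm_num) (orderOf_dvd_of_pow_eq_one hw2)
        have h3 : Nat.card σ.ker ≠ 1 := fun h4 => hbot (Subgroup.eq_bot_of_card_eq _ h4)
        have h5 : 0 < Nat.card σ.ker := Nat.card_pos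
        omega
      obtain ⟨e⟩ := equiv_zmod_two hcard
      exact ⟨e.toMonoidHom, e.surjective⟩


end Cfsg.Agent.S3965
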