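import Mathlib
import Cfsg.Statements.S3968
import Cfsg.Agent.Lib.Lead.Char15
import Cfsg.Agent.Lib.Lead.Char8
import Cfsg.Agent.Lib.Lead.LinTransfer
import Cfsg.Agent.Lib.Helper7.CharCenter

set_option autoImplicit false
open Cfsg

namespace Cfsg.Agent.S3968


open Cfsg.Agent.Lib Cfsg.Agent.Lib.Lead

/-- Let `p` be a prime and `G` a finite group with a faithful irreducible complex character of degree `p` (so `G` is an irreducible linear group in `p` variables). If `p ^ 2` divides the order of `G`, then the centre of `G` is nontrivial. -/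
theorem result {G : Type*} [Group G] [Finite G] (p : ℕ) (hp : p.Prime) (χ : Cfsg.IrrCharacter G) (hdeg : χ.1 1 = p) (hfaith : ∀ g : G, χ.1 g = χ.1 1 → g = 1) (hdiv : p ^ 2 ∣ Nat.card G) : Subgroup.center G ≠ ⊥ := by
  classical
  intro hZ
  haveI : Fintype G := Fintype.ofFinite G
  haveI : Fact p.Prime := ⟨hp⟩
  obtain ⟨n, ρ, hρ, hρχ⟩ := χ.2
  haveI := hρ
  have hfin : Module.finrank ℂ (Fin n → ℂ) = p := by
    have h1 := Representation.char_one ρ
    rw [hρχ, hdeg] at h1
    exact_mod_cast h1.symm
  obtain ⟨P⟩ : Nonempty (Sylow p G) := inferInstance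
  -- vanishing on elements of P that are central in P
  have hvan : ∀ z : G, z ∈ (P : Subgroup G) → (∀ y ∈ (P : Subgroup G), y * z = z * y) →
      z ≠ 1 → χ.1 z = 0 := by
    intro z hzP hzc hz1
    have hle : (P : Subgroup G) ≤ Subgroup.centralizer ({z} : Set G) := by
      intro y hy
      rw [Subgroup.mem_centralizer_iff]
      intro h hh
      rw [Set.mem_singleton_iff] at hh
      rw [hh]
      exact (hzc y hy).symm
    have hcop : Nat.Coprime (Module.finrank ℂ (Fin n → ℂ))
        (Subgroup.centralizer ({z} : Set G)).index := by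
      rw [hfin]
      apply (Nat.Prime.coprime_iff_not_dvd hp).mpr
      intro hdvd
      exact P.not_dvd_index (dvd_trans hdvd (Subgroup.index_dvd_of_le hle))
    rcases burnside_coprime ρ z hcop with h | h
    · rw [← hρχ]; exact h
    · exfalso
      obtain ⟨ω, hω⟩ := (char_norm_eq_iff ρ z).mp h
      have hcent : z ∈ Subgroup.center G := by
        rw [Subgroup.mem_center_iff]
        intro x
        have hcomm : ρ (x * z * x⁻¹ * z⁻¹) = 1 := by
          have e1 : ρ x * ρ z = ρ z * ρ x := by
            rw [hω]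
            rw [mul_smul_comm, smul_mul_assoc, mul_one, one_mul]
          rw [map_mul, map_mul, map_mul, e1, mul_assoc (ρ z), ← map_mul, mul_inv_cancel, map_one,
            mul_one, ← map_mul, mul_inv_cancel, map_one]
        have h1 : χ.1 (x * z * x⁻¹ * z⁻¹) = χ.1 1 := by
          rw [← hρχ]
          show LinearMap.trace ℂ _ (ρ (x * z * x⁻¹ * z⁻¹)) = LinearMap.trace ℂ _ (ρ 1)
          rw [hcomm, map_one ρ]
        have h2 := hfaith _ h1
        calc x * z = (x * z * x⁻¹ * z⁻¹) * (z * x) := by group
          _ = z * x := by rw [h2, one_mul]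
      rw [hZ, Subgroup.mem_bot] at hcent
      exact hz1 hcent
  have hPcard : p ^ 2 ∣ Nat.card (P : Subgroup G) := by
    rw [Sylow.card_eq_multiplicity]
    apply pow_dvd_pow
    have hG0 : Nat.card G ≠ 0 := Nat.card_pos.ne'
    exact (hp.pow_dvd_iff_le_factorization hG0).mp hdiv
  haveI : Fintype (P : Subgroup G) := Fintype.ofFinite _
  haveI : Fintype (Cfsg.IrrCharacter (P : Subgroup G)) := Fintype.ofFinite _
  have hχP : Cfsg.IsCharacter (P : Subgroup G) (fun x : (P : Subgroup G) => χ.1 x) :=
    isCharacter_restrict (P : Subgroup G) (isCharacter_of_irr χ.2)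
  obtain ⟨m, hm⟩ := isCharacter_decomp hχP
  have hmval : ∀ x : (P : Subgroup G), χ.1 (x : G)
      = ∑ θ : Cfsg.IrrCharacter (P : Subgroup G), (m θ : ℂ) * θ.1 x := by
    intro x
    have h := congrFun hm x
    rw [Finset.sum_apply] at h
    exact h
  choose d hd using (fun θ : Cfsg.IrrCharacter (P : Subgroup G) => irr_deg_dvd_card θ)
  have hsum1 : ∑ θ : Cfsg.IrrCharacter (P : Subgroup G), m θ * d θ = p := by
    have h := hmval 1
    rw [Subgroup.coe_one, hdeg] at h
    have h2 : (p : ℂ) = ((∑ θ : Cfsg.IrrCharacter (P : Subgroup G), m θ * d θ : ℕ) : ℂ) := by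
      rw [h]
      push_cast
      apply Finset.sum_congr rfl
      intro θ _
      rw [(hd θ).1]
    exact_mod_cast h2.symm
  have hPpos : 0 < Nat.card (P : Subgroup G) := Nat.card_pos
  by_cases hcase : ∃ θ : Cfsg.IrrCharacter (P : Subgroup G), m θ ≠ 0 ∧ d θ ≠ 1
  · obtain ⟨θ, hmθ, hdθ⟩ := hcase
    have hle : m θ * d θ ≤ p := by
      rw [← hsum1]
      exact Finset.single_le_sum (f := fun θ => m θ * d θ) (fun _ _ => Nat.zero_le _)
        (Finset.mem_univ θ)
    obtain ⟨k, hk⟩ := IsPGroup.iff_card.mp P.isPGroup'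
    have hdp : d θ = p := by
      have hdvd := (hd θ).2.1
      rw [hk] at hdvd
      obtain ⟨j, hj, hj2⟩ := (Nat.dvd_prime_pow hp).mp hdvd
      rcases j with _ | j
      · exact absurd (by simpa using hj2) hdθ
      · have h1 : d θ ≤ p := le_trans (Nat.le_mul_of_pos_left _ (Nat.pos_of_ne_zero hmθ)) hle
        have h2 : p ≤ d θ := by
          rw [hj2, pow_succ]
          exact Nat.le_mul_of_pos_left _ (pow_pos hp.pos _)
        exact le_antisymm h1 h2
    have hm1 : m θ = 1 := by
      rw [hdp] at hle
      have h1 : m θ ≤ 1 := by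
        apply Nat.le_of_mul_le_mul_right _ hp.pos
        rw [one_mul]; exact hle
      have h2 : 0 < m θ := Nat.pos_of_ne_zero hmθ
      omega
    have hothers : ∀ θ' : Cfsg.IrrCharacter (P : Subgroup G), θ' ≠ θ → m θ' = 0 := by
      intro θ' hne
      by_contra h0
      have h3 : m θ * d θ + m θ' * d θ' ≤ p := by
        rw [← hsum1]
        have h4 := Finset.add_sum_erase Finset.univ (fun θ => m θ * d θ) (Finset.mem_univ θ)
        rw [← h4]
        apply Nat.add_le_add_left
        exact Finset.single_le_sum (f := fun θ => m θ * d θ) (fun _ _ => Nat.zero_le _)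
          (Finset.mem_erase.mpr ⟨hne, Finset.mem_univ _⟩)
      rw [hm1, hdp, one_mul] at h3
      have h5 : 0 < m θ' * d θ' := Nat.mul_pos (Nat.pos_of_ne_zero h0) (hd θ').2.2
      omega
    have hχθ : ∀ x : (P : Subgroup G), χ.1 (x : G) = θ.1 x := by
      intro x
      rw [hmval x, Finset.sum_eq_single θ]
      · rw [hm1, Nat.cast_one, one_mul]
      · intro θ' _ hne
        rw [hothers θ' hne, Nat.cast_zero, zero_mul]
      · intro h; exact absurd (Finset.mem_univ _) h
    haveI : Nontrivial (P : Subgroup G) := by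
      rw [← Finite.one_lt_card_iff_nontrivial]
      have h1 := Nat.le_of_dvd hPpos hPcard
      have h2 := hp.two_le
      nlinarith
    haveI := (P.isPGroup').center_nontrivial
    obtain ⟨z, hz1⟩ : ∃ z : Subgroup.center (P : Subgroup G), z ≠ 1 := exists_ne 1
    have hzero := hvan ((z : (P : Subgroup G)) : G) (z : (P : Subgroup G)).2 (by
      intro y hy
      have h := (Subgroup.mem_center_iff.mp z.2) ⟨y, hy⟩
      exact congrArg Subtype.val h) (by
      intro h
      apply hz1
      apply Subtype.ext; apply Subtype.ext; exact h)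
    rw [hχθ] at hzero
    have hns := Helper7.CC.central_normSq θ (z : (P : Subgroup G)) z.2
    rw [hzero, (hd θ).1, hdp, map_zero, Complex.normSq_natCast] at hns
    have hp0 : (p : ℝ) ≠ 0 := by exact_mod_cast hp.ne_zero
    exact (mul_self_ne_zero.mpr hp0) hns.symm
  · push Not at hcase
    have hab : ∀ x y : (P : Subgroup G), x * y = y * x := by
      intro x y
      have h1 : χ.1 ((x * y * x⁻¹ * y⁻¹ : (P : Subgroup G)) : G) = χ.1 1 := by
        rw [hmval, hdeg]
        have h2 : ∀ θ : Cfsg.IrrCharacter (P : Subgroup G),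
            (m θ : ℂ) * θ.1 (x * y * x⁻¹ * y⁻¹) = ((m θ * d θ : ℕ) : ℂ) := by
          intro θ
          by_cases hmθ : m θ = 0
          · rw [hmθ]; simp
          · have hd1 := hcase θ hmθ
            obtain ⟨lam, hlam⟩ := hom_of_isCharacter_one (isCharacter_of_irr θ.2)
              (by rw [(hd θ).1, hd1, Nat.cast_one])
            have hval : θ.1 (x * y * x⁻¹ * y⁻¹) = 1 := by
              rw [hlam]
              show ((lam (x * y * x⁻¹ * y⁻¹) : ℂˣ) : ℂ) = 1
              have h3 : lam (x * y * x⁻¹ * y⁻¹) = 1 := by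
                rw [map_mul, map_mul, map_mul, map_inv, map_inv, mul_comm (lam x) (lam y),
                  mul_inv_cancel_right, mul_inv_cancel]
              rw [h3, Units.val_one]
            rw [hval, hd1]
            push_cast
            ring
        rw [Finset.sum_congr rfl (fun θ _ => h2 θ), ← Nat.cast_sum, hsum1]
      have h3 := hfaith _ h1
      have h4 : (x * y * x⁻¹ * y⁻¹ : (P : Subgroup G)) = 1 := Subtype.ext h3
      calc x * y = (x * y * x⁻¹ * y⁻¹) * (y * x) := by group
        _ = y * x := by rw [h4, one_mul]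
    have hvanP : ∀ x : (P : Subgroup G), x ≠ 1 → χ.1 (x : G) = 0 := by
      intro x hx
      apply hvan (x : G) x.2
      · intro y hy
        exact congrArg Subtype.val (hab ⟨y, hy⟩ x)
      · intro h; exact hx (Subtype.ext h)
    obtain ⟨k, hk⟩ := classInner_char_nat hχP (isCharacter_of_irr (irrOne (P : Subgroup G)).2)
    have hk' : (Nat.card (P : Subgroup G) : ℂ)⁻¹ * ∑ x : (P : Subgroup G),
        χ.1 (x : G) * (starRingEnd ℂ) ((irrOne (P : Subgroup G)).1 x) = (k : ℂ) := hk
    have hsumP : ∑ x : (P : Subgroup G),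
        χ.1 (x : G) * (starRingEnd ℂ) ((irrOne (P : Subgroup G)).1 x) = (p : ℂ) := by
      rw [Finset.sum_eq_single 1]
      · rw [Subgroup.coe_one, hdeg]
        show (p : ℂ) * (starRingEnd ℂ) (1 : ℂ) = (p : ℂ)
        rw [map_one, mul_one]
      · intro x _ hx
        rw [hvanP x hx, zero_mul]
      · intro h; exact absurd (Finset.mem_univ _) h
    rw [hsumP] at hk'
    have hPne : (Nat.card (P : Subgroup G) : ℂ) ≠ 0 := by exact_mod_cast hPpos.ne'
    have h5 : (p : ℂ) = ((k * Nat.card (P : Subgroup G) : ℕ) : ℂ) := by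
      push_cast
      rw [← hk']
      field_simp
    have h6 : p = k * Nat.card (P : Subgroup G) := by exact_mod_cast h5
    have h7 : p ^ 2 ∣ p := dvd_trans hPcard (Dvd.intro_left k h6.symm)
    have h8 := Nat.le_of_dvd hp.pos h7
    have h9 := hp.two_le
    nlinarith


end Cfsg.Agent.S3968
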