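import Cfsg.Statements.S3975
import Mathlib

set_option autoImplicit false
open Cfsg

namespace Cfsg.Agent.S3975

open scoped Pointwise

section
variable {G : Type*} [Group G]

/-- If `d` divides the index of every stabilizer on an invariant finset, `d` divides its size. -/
theorem dvd_card_of_dvd_index {X : Type*} [MulAction G X] [DecidableEq X] [Finite G] (d : ℕ) :
    ∀ (k : ℕ) (Y : Finset X), Y.card = k → (∀ g : G, ∀ x ∈ Y, g • x ∈ Y) →
      (∀ x ∈ Y, d ∣ (MulAction.stabilizer G x).index) → d ∣ Y.card := by
  intro k
  induction k using Nat.strong_induction_on with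
  | _ k ih =>
    intro Y hk hinv hd
    rcases Y.eq_empty_or_nonempty with rfl | ⟨x, hx⟩
    · simp
    · classical
      have hfin : (MulAction.orbit G x).Finite := Set.finite_range (fun g : G => g • x)
      let O : Finset X := hfin.toFinset
      have hO : O ⊆ Y := by
        intro y hy
        rw [Set.Finite.mem_toFinset] at hy
        obtain ⟨g, rfl⟩ := hy
        exact hinv g x hx
      have hOcard : O.card = (MulAction.stabilizer G x).index := by
        rw [MulAction.index_stabilizer, Set.ncard_eq_toFinset_card _ hfin]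
      have hlt : (Y \ O).card < k := by
        rw [← hk]
        apply Finset.card_lt_card
        refine ⟨Finset.sdiff_subset, fun hsub => ?_⟩
        have : x ∈ Y \ O := hsub hx
        rw [Finset.mem_sdiff] at this
        exact this.2 (by rw [Set.Finite.mem_toFinset]; exact MulAction.mem_orbit_self x)
      have h1 := ih _ hlt (Y \ O) rfl ?_ ?_
      · have : Y.card = (Y \ O).card + O.card := by
          rw [Finset.card_sdiff_add_card_eq_card hO]
        rw [this]
        exact dvd_add h1 (hOcard ▸ hd x hx)
      · intro g y hy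
        rw [Finset.mem_sdiff] at hy ⊢
        refine ⟨hinv g y hy.1, fun hgy => hy.2 ?_⟩
        rw [Set.Finite.mem_toFinset] at hgy ⊢
        have := MulAction.mem_orbit_of_mem_orbit g⁻¹ hgy
        rwa [inv_smul_smul] at this
      · intro y hy
        exact hd y (Finset.mem_sdiff.mp hy).1

theorem card_stabilizer_dvd [DecidableEq G] (S : Finset G) :
    Nat.card (MulAction.stabilizer G S) ∣ S.card := by
  let T : Set G := {x | x⁻¹ ∈ S}
  have hT : (QuotientGroup.mk ⁻¹' ((QuotientGroup.mk : G → G ⧸ MulAction.stabilizer G S) '' T))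
      = T := by
    apply Set.Subset.antisymm
    · rintro x ⟨t, ht, hxt⟩
      rw [QuotientGroup.eq] at hxt
      have h1 : (t⁻¹ * x)⁻¹ ∈ MulAction.stabilizer G S := Subgroup.inv_mem _ hxt
      have h2 : (t⁻¹ * x)⁻¹ • S = S := h1
      show x⁻¹ ∈ S
      have h3 : (t⁻¹ * x)⁻¹ • t⁻¹ ∈ (t⁻¹ * x)⁻¹ • S := Finset.smul_mem_smul_finset ht
      rw [h2] at h3
      simpa [mul_assoc] using h3
    · exact Set.subset_preimage_image _ _
  have hc := QuotientGroup.card_preimage_mk (MulAction.stabilizer G S)
    ((QuotientGroup.mk : G → G ⧸ MulAction.stabilizer G S) '' T)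
  rw [hT] at hc
  have hTS : Nat.card T = S.card := by
    rw [← Nat.card_eq_finsetCard S]
    exact Nat.card_congr ⟨fun x => ⟨x.1⁻¹, x.2⟩, fun s => ⟨s.1⁻¹, by show s.1⁻¹⁻¹ ∈ S; simp⟩,
      fun x => by simp, fun s => by simp⟩
  rw [← hTS, hc]
  exact Dvd.intro _ rfl

open Classical in
/-- the right coset `K g` as a finset -/
noncomputable def rcoset [Fintype G] [DecidableEq G] (K : Subgroup G) (g : G) : Finset G :=
  (Finset.univ.filter (fun x => x ∈ K)).image (fun x => x * g)

theorem card_rcoset [Fintype G] [DecidableEq G] (K : Subgroup G) (g : G) :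
    (rcoset K g).card = Nat.card K := by
  classical
  unfold rcoset
  rw [Finset.card_image_of_injective _ (mul_left_injective g), Nat.card_eq_fintype_card,
    Fintype.card_subtype]

theorem mem_rcoset [Fintype G] [DecidableEq G] (K : Subgroup G) (g x : G) :
    x ∈ rcoset K g ↔ x * g⁻¹ ∈ K := by
  unfold rcoset
  simp only [Finset.mem_image, Finset.mem_filter, Finset.mem_univ, true_and]
  constructor
  · rintro ⟨k, hk, rfl⟩
    simpa using hk
  · intro h
    exact ⟨x * g⁻¹, h, by simp⟩

theorem rcoset_eq [Fintype G] [DecidableEq G] (K : Subgroup G) (S : Finset G)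
    (hK : K ≤ MulAction.stabilizer G S) (hcard : S.card = Nat.card K) (g : G) (hg : g ∈ S) :
    S = rcoset K g := by
  symm
  apply Finset.eq_of_subset_of_card_le
  · intro x hx
    rw [mem_rcoset] at hx
    have h2 : (x * g⁻¹) • S = S := hK hx
    have h3 : (x * g⁻¹) • g ∈ (x * g⁻¹) • S := Finset.smul_mem_smul_finset hg
    rw [h2] at h3
    simpa using h3
  · rw [card_rcoset, hcard]

theorem stabilizer_rcoset [Fintype G] [DecidableEq G] (K : Subgroup G) (g : G) :
    MulAction.stabilizer G (rcoset K g) = K := by
  have hle : K ≤ MulAction.stabilizer G (rcoset K g) := by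
    intro k hk
    rw [MulAction.mem_stabilizer_iff]
    apply Finset.eq_of_subset_of_card_le
    · intro x hx
      rw [Finset.mem_smul_finset] at hx
      obtain ⟨y, hy, rfl⟩ := hx
      rw [mem_rcoset] at hy ⊢
      have : k • y * g⁻¹ = k * (y * g⁻¹) := by simp [mul_assoc]
      rw [this]
      exact K.mul_mem hk hy
    · rw [Finset.card_smul_finset]
  symm
  apply Subgroup.eq_of_le_of_card_ge hle
  have h1 := card_stabilizer_dvd (rcoset K g)
  rw [card_rcoset] at h1
  exact Nat.le_of_dvd Nat.card_pos h1

theorem choose_eq [Finite G] (p β m : ℕ) (hp : p.Prime) (hn : Nat.card G = p ^ β * m) :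
    ∃ t : ℕ, Nat.choose (p ^ β * m) (p ^ β) =
      Nat.card {H : Subgroup G // Nat.card H = p ^ β} * m + t * (p * m) := by
  classical
  have _ : Fintype G := Fintype.ofFinite G
  have hqpos : 0 < p ^ β := pow_pos hp.pos _
  let Ω : Finset (Finset G) := Finset.univ.filter (fun S => S.card = p ^ β)
  have hΩ : Ω.card = Nat.choose (p ^ β * m) (p ^ β) := by
    show (Finset.univ.filter (fun S : Finset G => S.card = p ^ β)).card = _
    rw [Finset.univ_filter_card_eq, Finset.card_powersetCard, Finset.card_univ,
      ← Nat.card_eq_fintype_card, hn]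
  let Ω₁ := Ω.filter (fun S => Nat.card (MulAction.stabilizer G S) = p ^ β)
  let Ω₂ := Ω.filter (fun S => ¬ Nat.card (MulAction.stabilizer G S) = p ^ β)
  have hsplit : Ω₁.card + Ω₂.card = Ω.card := Finset.card_filter_add_card_filter_not _
  have h2 : p * m ∣ Ω₂.card := by
    apply dvd_card_of_dvd_index (G := G) (p * m) _ Ω₂ rfl
    · intro g S hS
      simp only [Ω₂, Ω, Finset.mem_filter, Finset.mem_univ, true_and] at hS ⊢
      refine ⟨by rw [Finset.card_smul_finset]; exact hS.1, ?_⟩
      rw [MulAction.stabilizer_smul_eq_stabilizer_map_conj,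
        Subgroup.card_map_of_injective (MulAut.conj g).injective]
      exact hS.2
    · intro S hS
      simp only [Ω₂, Ω, Finset.mem_filter, Finset.mem_univ, true_and] at hS
      have hdvd := card_stabilizer_dvd S
      rw [hS.1] at hdvd
      obtain ⟨j, hj, hjc⟩ := (Nat.dvd_prime_pow hp).mp hdvd
      have hjlt : j < β := lt_of_le_of_ne hj (fun h => hS.2 (by rw [hjc, h]))
      have hidx : (MulAction.stabilizer G S).index * p ^ j = p ^ β * m := by
        rw [← hjc, ← hn]; exact Subgroup.index_mul_card _
      have : (MulAction.stabilizer G S).index = p ^ (β - j) * m := by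
        have e : p ^ β * m = p ^ (β - j) * m * p ^ j := by
          rw [mul_right_comm, ← pow_add, Nat.sub_add_cancel hj]
        rw [e] at hidx
        exact Nat.eq_of_mul_eq_mul_right (pow_pos hp.pos j) hidx
      rw [this]
      have : p ∣ p ^ (β - j) := dvd_pow_self p (by omega)
      exact Nat.mul_dvd_mul this dvd_rfl
  have h1 : Ω₁.card = Nat.card {H : Subgroup G // Nat.card H = p ^ β} * m := by
    have _ : Fintype (Subgroup G) := Fintype.ofFinite _
    let T : Finset (Subgroup G) := Finset.univ.filter (fun K => Nat.card K = p ^ β)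
    have hmaps : (Ω₁ : Set (Finset G)).MapsTo (fun S => MulAction.stabilizer G S) T := by
      intro S hS
      simp only [Ω₁, Ω, Finset.coe_filter, Finset.mem_filter, Finset.mem_univ, true_and,
        Set.mem_ofPred_eq] at hS
      simp only [T, Finset.coe_filter, Finset.mem_univ, true_and, Set.mem_ofPred_eq]
      exact hS.2
    rw [Finset.card_eq_sum_card_fiberwise hmaps]
    have hfib : ∀ K ∈ T, (Ω₁.filter (fun S => MulAction.stabilizer G S = K)).card = m := by
      intro K hK
      simp only [T, Finset.mem_filter, Finset.mem_univ, true_and] at hK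
      have hmemF : ∀ S, S ∈ Ω₁.filter (fun S => MulAction.stabilizer G S = K) ↔
          (S.card = p ^ β ∧ MulAction.stabilizer G S = K) := by
        intro S
        simp only [Ω₁, Ω, Finset.mem_filter, Finset.mem_univ, true_and]
        constructor
        · rintro ⟨⟨h1, h2⟩, h3⟩
          exact ⟨h1, h3⟩
        · rintro ⟨h1, h3⟩
          exact ⟨⟨h1, by rw [h3]; exact hK⟩, h3⟩
      have hU : (Ω₁.filter (fun S => MulAction.stabilizer G S = K)).biUnion id = Finset.univ := by
        apply Finset.eq_univ_of_forall
        intro g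
        rw [Finset.mem_biUnion]
        refine ⟨rcoset K g, ?_, ?_⟩
        · rw [hmemF]
          exact ⟨by rw [card_rcoset]; exact hK, stabilizer_rcoset K g⟩
        · show g ∈ rcoset K g
          rw [mem_rcoset]; simp
      have hcard := Finset.card_biUnion (s := Ω₁.filter (fun S => MulAction.stabilizer G S = K))
        (t := id) (by
          intro S hS S' hS' hne
          rw [Finset.mem_coe, hmemF] at hS hS'
          show Disjoint S S'
          rw [Finset.disjoint_left]
          intro g hg hg'
          apply hne
          rw [rcoset_eq K S hS.2.ge (by rw [hS.1, hK]) g hg,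
            rcoset_eq K S' hS'.2.ge (by rw [hS'.1, hK]) g hg'])
      rw [hU, Finset.card_univ, ← Nat.card_eq_fintype_card, hn] at hcard
      have hsum : ∑ u ∈ Ω₁.filter (fun S => MulAction.stabilizer G S = K), (id u).card
          = (Ω₁.filter (fun S => MulAction.stabilizer G S = K)).card * p ^ β := by
        rw [Finset.card_eq_sum_ones, Finset.sum_mul]
        apply Finset.sum_congr rfl
        intro S hS
        rw [hmemF] at hS
        rw [one_mul]; exact hS.1
      rw [hsum, mul_comm] at hcard
      exact (Nat.eq_of_mul_eq_mul_right hqpos hcard).symm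
    rw [Finset.sum_congr rfl hfib, Finset.sum_const, smul_eq_mul]
    congr 1
    rw [Nat.card_eq_fintype_card, Fintype.card_subtype]
  obtain ⟨t, ht⟩ := h2
  exact ⟨t, by rw [← hΩ, ← hsplit, h1, ht]; ring⟩

end

theorem cyclic_count (p β m : ℕ) (hp : p.Prime) (hm : 0 < m) :
    Nat.card {H : Subgroup (Multiplicative (ZMod (p ^ β * m))) // Nat.card H = p ^ β} = 1 := by
  classical
  have hn : 0 < p ^ β * m := Nat.mul_pos (pow_pos hp.pos _) hm
  have _ : NeZero (p ^ β * m) := ⟨hn.ne'⟩
  have _ : Fact p.Prime := ⟨hp⟩
  have hcard : Nat.card (Multiplicative (ZMod (p ^ β * m))) = p ^ β * m := by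
    rw [Nat.card_eq_fintype_card, Fintype.card_multiplicative, ZMod.card]
  rw [Nat.card_eq_one_iff_unique]
  constructor
  · constructor
    rintro ⟨H, hH⟩ ⟨K, hK⟩
    rw [Subtype.mk.injEq]
    have key : ∀ L : Subgroup (Multiplicative (ZMod (p ^ β * m))), Nat.card L = p ^ β →
        ∀ x, x ∈ L ↔ x ^ (p ^ β) = 1 := by
      intro L hL x
      constructor
      · intro hx
        have := pow_card_eq_one' (G := L) (x := ⟨x, hx⟩)
        rw [hL] at this
        exact congrArg Subtype.val this
      · intro hx
        have hsub : (Finset.univ.filter (fun y => y ∈ L)) ⊆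
            Finset.univ.filter (fun y : Multiplicative (ZMod (p ^ β * m)) => y ^ (p ^ β) = 1) := by
          intro y hy
          simp only [Finset.mem_filter, Finset.mem_univ, true_and] at hy ⊢
          have := pow_card_eq_one' (G := L) (x := ⟨y, hy⟩)
          rw [hL] at this
          exact congrArg Subtype.val this
        have hle := IsCyclic.card_pow_eq_one_le (α := Multiplicative (ZMod (p ^ β * m)))
          (pow_pos hp.pos β)
        have hcL : (Finset.univ.filter (fun y => y ∈ L)).card = p ^ β := by
          have h0 : (Finset.univ.filter (fun y => y ∈ L)).card = Nat.card L := by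
            rw [Nat.card_eq_fintype_card, Fintype.card_subtype]
          rw [h0, hL]
        have heq := Finset.eq_of_subset_of_card_le hsub (by rw [hcL]; exact hle)
        have : x ∈ Finset.univ.filter (fun y => y ∈ L) := by
          rw [heq]; simp [hx]
        simpa using this
    ext x
    rw [key H hH, key K hK]
  · obtain ⟨K, hK⟩ := Sylow.exists_subgroup_card_pow_prime p
      (G := Multiplicative (ZMod (p ^ β * m))) (n := β) (by rw [hcard]; exact Dvd.intro _ rfl)
    exact ⟨⟨K, hK⟩⟩

/-- Let `p` be a prime and `G` a finite group whose order is divisible by `p ^ β`. Then the number of subgroups of `G` of order `p ^ β` is congruent to `1` modulo `p`. (When `p ^ β` is the full power of `p` dividing the order, these are the Sylow `p`-subgroups and this is the usual Sylow count.) -/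
theorem result {G : Type*} [Group G] [Finite G] (p β : ℕ) (hp : p.Prime) (hdiv : p ^ β ∣ Nat.card G) : Nat.card {H : Subgroup G // Nat.card H = p ^ β} ≡ 1 [MOD p] := by
  obtain ⟨m, hm⟩ := hdiv
  have hmpos : 0 < m := by
    rcases Nat.eq_zero_or_pos m with h | h
    · rw [h, mul_zero] at hm
      exact absurd hm Nat.card_pos.ne'
    · exact h
  obtain ⟨t, ht⟩ := choose_eq (G := G) p β m hp hm
  have _ : NeZero (p ^ β * m) := ⟨(Nat.mul_pos (pow_pos hp.pos _) hmpos).ne'⟩
  obtain ⟨t', ht'⟩ := choose_eq (G := Multiplicative (ZMod (p ^ β * m))) p β m hp (by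
    rw [Nat.card_eq_fintype_card, Fintype.card_multiplicative, ZMod.card])
  rw [cyclic_count p β m hp hmpos] at ht'
  rw [ht] at ht'
  apply Nat.ModEq.mul_left_cancel' hmpos.ne'
  unfold Nat.ModEq
  have e : m * Nat.card {H : Subgroup G // Nat.card H = p ^ β} + m * p * t
      = m * 1 + m * p * t' := by
    rw [mul_comm m (Nat.card _), mul_comm (m * p) t, mul_comm m p, ht']; ring
  have := congrArg (· % (m * p)) e
  simpa [Nat.add_mul_mod_self_left] using this

end Cfsg.Agent.S3975
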