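import Cfsg.Statements.S3976
import Cfsg.Agent.S3975

set_option autoImplicit false
open Cfsg

namespace Cfsg.Agent.S3976

open scoped Pointwise

/-- conjugation action of `G` on the set of subgroups of a given order -/
noncomputable abbrev conjSubAct {G : Type*} [Group G] (q : ℕ) :
    MulAction G {H : Subgroup G // Nat.card H = q} where
  smul g H := ⟨MulAut.conj g • H.1,
    ((Nat.card_congr (Subgroup.equivSMul (MulAut.conj g) H.1).toEquiv).symm).trans H.2⟩
  one_smul H := Subtype.ext (by show MulAut.conj 1 • H.1 = H.1; rw [map_one, one_smul])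
  mul_smul g h H := Subtype.ext (by
    show MulAut.conj (g * h) • H.1 = MulAut.conj g • (MulAut.conj h • H.1)
    rw [map_mul, mul_smul])

/-- Let `p` be a prime and `G` a group of order `p ^ m`. For every `s ≤ m` the number of normal subgroups of `G` of order `p ^ s` is congruent to `1` modulo `p`. -/
theorem result {G : Type*} [Group G] [Finite G] (p m s : ℕ) (hp : p.Prime) (hG : Nat.card G = p ^ m) (hs : s ≤ m) : Nat.card {H : Subgroup G // H.Normal ∧ Nat.card H = p ^ s} ≡ 1 [MOD p] := by
  have _ : Fact p.Prime := ⟨hp⟩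
  have hGp : IsPGroup p G := IsPGroup.of_card hG
  have h1 := Cfsg.Agent.S3975.result (G := G) p s hp (by rw [hG]; exact pow_dvd_pow p hs)
  let _ : MulAction G {H : Subgroup G // Nat.card H = p ^ s} := conjSubAct (p ^ s)
  have h2 := hGp.card_modEq_card_fixedPoints {H : Subgroup G // Nat.card H = p ^ s}
  have e : Nat.card (MulAction.fixedPoints G {H : Subgroup G // Nat.card H = p ^ s}) =
      Nat.card {H : Subgroup G // H.Normal ∧ Nat.card H = p ^ s} := by
    apply Nat.card_congr
    refine ⟨fun x => ⟨x.1.1, ?_, x.1.2⟩, fun y => ⟨⟨y.1, y.2.2⟩, ?_⟩, fun x => rfl, fun y => rfl⟩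
    · apply Subgroup.Normal.of_conjugate_fixed
      intro g
      have := x.2 g
      exact congrArg Subtype.val this
    · intro g
      apply Subtype.ext
      show MulAut.conj g • y.1 = y.1
      have := y.2.1
      exact Subgroup.Normal.conj_smul_eq_self g y.1
  rw [← e]
  exact h2.symm.trans h1

end Cfsg.Agent.S3976
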