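import Cfsg.Statements.S3994
import Cfsg.Agent.Lib.Helper6.FrobDiv
import Cfsg.Agent.Lib.Helper6.RealElt

set_option autoImplicit false

namespace Cfsg.Agent.S3994

open Cfsg.Agent.Lib Finset

/-- a number all of whose prime factors divide `n` divides a power of `n` -/
theorem dvd_pow_self_of_primes (n : ℕ) : ∀ d : ℕ, d ≠ 0 → (∀ r : ℕ, r.Prime → r ∣ d → r ∣ n) →
    d ∣ n ^ d := by
  intro d
  induction d using Nat.strong_induction_on with
  | _ d ih =>
  intro hd0 h
  by_cases hd1 : d = 1
  · rw [hd1]; exact one_dvd _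
  have hr : (d.minFac).Prime := Nat.minFac_prime hd1
  obtain ⟨d', hd'⟩ := Nat.minFac_dvd d
  have hd'0 : d' ≠ 0 := by
    rintro rfl
    rw [mul_zero] at hd'
    exact hd0 hd'
  have hlt : d' < d := by
    have h2 := hr.two_le
    have h3 : 0 < d' := Nat.pos_of_ne_zero hd'0
    nlinarith
  have h1 := ih d' hlt hd'0 (fun r hrp hrd => h r hrp (hrd.trans ⟨d.minFac, by rw [mul_comm]; exact hd'⟩))
  have h2 : d.minFac ∣ n := h _ hr (Nat.minFac_dvd d)
  have h3 : d ∣ n ^ (d' + 1) := by
    rw [pow_succ']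
    calc d = d.minFac * d' := hd'
      _ ∣ n * n ^ d' := Nat.mul_dvd_mul h2 h1
  exact h3.trans (pow_dvd_pow n (by omega))

/-- Let G be a finite group and n a positive integer. The number of elements of G whose order is divisible by n is either 0 or divisible by the largest divisor of the order of G that is coprime to n. -/
theorem result {G : Type*} [Group G] [Finite G] (n : ℕ) (hn : 0 < n) :
    Nat.card {g : G // n ∣ orderOf g} = 0 ∨
      (Nat.card G / Nat.gcd (Nat.card G) (n ^ Nat.card G)) ∣ Nat.card {g : G // n ∣ orderOf g} := by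
  classical
  right
  haveI : Fintype G := Fintype.ofFinite G
  have hG0 : 0 < Nat.card G := Nat.card_pos
  set A := Nat.gcd (Nat.card G) (n ^ Nat.card G) with hA
  set B := Nat.card G / A with hB
  have hAG : A ∣ Nat.card G := Nat.gcd_dvd_left _ _
  have hAn : A ∣ n ^ Nat.card G := Nat.gcd_dvd_right _ _
  have hAB : A * B = Nat.card G := Nat.mul_div_cancel' hAG
  have hA0 : 0 < A := Nat.pos_of_dvd_of_pos hAG hG0
  have hBG : B ∣ Nat.card G := ⟨A, by rw [← hAB, mul_comm]⟩
  have hcop : A.Coprime B := by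
    by_contra hnc
    obtain ⟨q, hq, hqA, hqB⟩ := Nat.Prime.not_coprime_iff_dvd.mp hnc
    have hqn : q ∣ n := hq.dvd_of_dvd_pow (hqA.trans hAn)
    have hqAG : q * A ∣ Nat.card G := by
      obtain ⟨B', hB'⟩ := hqB
      exact ⟨B', by rw [← hAB, hB']; ring⟩
    have h1 : q * A ∣ n ^ (q * A) := by
      apply dvd_pow_self_of_primes n _ (Nat.mul_pos hq.pos hA0).ne'
      intro r hr hrd
      rcases (Nat.Prime.dvd_mul hr).mp hrd with h2 | h2
      · rwa [(Nat.prime_dvd_prime_iff_eq hr hq).mp h2]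
      · exact hr.dvd_of_dvd_pow (h2.trans hAn)
    have h2 : q * A ∣ n ^ Nat.card G :=
      h1.trans (pow_dvd_pow n (Nat.le_of_dvd hG0 hqAG))
    have h3 : q * A ∣ A := Nat.dvd_gcd hqAG h2
    have h4 := Nat.le_of_dvd hA0 h3
    have h5 := hq.two_le
    nlinarith
  have hnB : n.Coprime B := by
    by_contra hnc
    obtain ⟨q, hq, hqn, hqB⟩ := Nat.Prime.not_coprime_iff_dvd.mp hnc
    have hqA : q ∣ A := Nat.dvd_gcd (hqB.trans hBG) (hqn.trans (dvd_pow_self n hG0.ne'))
    have h1 : q ∣ 1 := by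
      have h2 := Nat.dvd_gcd hqA hqB
      rwa [Nat.Coprime.gcd_eq_one hcop] at h2
    exact hq.one_lt.ne' (Nat.dvd_one.mp h1)
  obtain ⟨e, he1, he0⟩ := Nat.chineseRemainder hcop 1 0
  obtain ⟨f, hf0, hf1⟩ := Nat.chineseRemainder hcop 0 1
  have he0' : B ∣ e := (Nat.modEq_zero_iff_dvd).mp he0
  have hf0' : A ∣ f := (Nat.modEq_zero_iff_dvd).mp hf0
  have hef : e + f ≡ 1 [MOD A * B] := by
    apply (Nat.modEq_and_modEq_iff_modEq_mul hcop).mp
    exact ⟨by simpa using he1.add hf0, by simpa using he0.add hf1⟩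
  have hall : ∀ x : G, x ^ (A * B) = 1 := fun x => by rw [hAB]; exact pow_card_eq_one'
  rw [← Helper6.card_filter_eq_natCard]
  have hKeq : univ.filter (fun g : G => n ∣ orderOf g) =
      univ.filter (fun x : G => x ^ (A * B) = 1 ∧ n ∣ orderOf (x ^ e)) := by
    ext x
    simp only [Finset.mem_filter, Finset.mem_univ, true_and]
    constructor
    · intro h
      refine ⟨hall x, ?_⟩
      have h1 : x ^ e * x ^ f = x := by
        rw [← pow_add]; exact Helper6.pow_eq_self_of_modEq_one (hall x) hef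
      have hc : Commute (x ^ e) (x ^ f) := (Commute.refl x).pow_pow e f
      have h2 : orderOf (x ^ e) ∣ A := by
        rw [orderOf_dvd_iff_pow_eq_one, ← pow_mul]
        obtain ⟨k, rfl⟩ := he0'
        rw [show B * k * A = (A * B) * k by ring, pow_mul, hall, one_pow]
      have h3 : orderOf (x ^ f) ∣ B := by
        rw [orderOf_dvd_iff_pow_eq_one, ← pow_mul]
        obtain ⟨k, rfl⟩ := hf0'
        rw [show A * k * B = (A * B) * k by ring, pow_mul, hall, one_pow]
      have h4 : (orderOf (x ^ e)).Coprime (orderOf (x ^ f)) :=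
        Nat.Coprime.coprime_dvd_left h2 (Nat.Coprime.coprime_dvd_right h3 hcop)
      have h5 := hc.orderOf_mul_eq_mul_orderOf_of_coprime h4
      rw [h1] at h5
      rw [h5] at h
      exact (Nat.Coprime.coprime_dvd_right h3 hnB).dvd_of_dvd_mul_right h
    · rintro ⟨-, h⟩
      exact h.trans (orderOf_pow_dvd e)
  rw [hKeq, Helper6.card_decomp A B e f he1 he0' hf0' hf1 hef (fun y => n ∣ orderOf y)]
  apply Helper6.orbit_sum_dvd B _ (fun y g => Helper6.conj_filter_card B y g) _ _ rfl
  · intro y hy g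
    simp only [Finset.mem_filter, Finset.mem_univ, true_and] at hy ⊢
    refine ⟨by rw [conj_pow, hy.1]; group, ?_⟩
    rw [Helper6.orderOf_conj_eq]
    exact hy.2
  · intro y hy
    rw [Helper6.card_filter_centralizer, Helper6.card_pow_gcd_card]
    set Cy := Subgroup.centralizer ({y} : Set G) with hCy
    have hidx : Nat.card Cy * Cy.index = Nat.card G := Subgroup.card_mul_index Cy
    have h1 := Helper6.frobenius_dvd (G := Cy) (Nat.gcd B (Nat.card Cy)) (Nat.gcd_dvd_right _ _)
    have h3 : B ∣ Cy.index * Nat.gcd B (Nat.card Cy) := by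
      rw [← Nat.gcd_mul_left]
      exact Nat.dvd_gcd (Dvd.intro_left _ rfl) (by rw [mul_comm, hidx]; exact hBG)
    exact h3.trans (Nat.mul_dvd_mul_left _ h1)

end Cfsg.Agent.S3994
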