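import Cfsg.Statements.S3997
import Cfsg.Agent.Lib.Helper6.RealElt

set_option autoImplicit false
open Cfsg

namespace Cfsg.Agent.S3997

/-- Let G and H be finite groups with the same order type: for every m they have the same number of elements of order m. If G is nilpotent then so is H. -/
theorem result {G H : Type*} [Group G] [Finite G] [Group H] [Finite H] (hT : (∀ m : ℕ, Nat.card {g : G // orderOf g = m} = Nat.card {h : H // orderOf h = m})) (hG : Group.IsNilpotent G) :
    Group.IsNilpotent H := by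
  classical
  have hequiv : ∀ m : ℕ, Nonempty ({g : G // orderOf g = m} ≃ {h : H // orderOf h = m}) :=
    fun m => Finite.card_eq.mp (hT m)
  let e : G ≃ H := Equiv.ofFiberEquiv (fun m => (hequiv m).some)
  have he : ∀ g : G, orderOf (e g) = orderOf g := fun g => Equiv.ofFiberEquiv_map _ g
  have hcardGH : Nat.card G = Nat.card H := Nat.card_congr e
  refine ((Group.isNilpotent_of_finite_tfae (G := H)).out 0 3 rfl rfl).mpr ?_
  intro p hp Q
  obtain ⟨P⟩ : Nonempty (Sylow p G) := inferInstance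
  have hPn : (P : Subgroup G).Normal := inferInstance
  have hEG : ∀ g : G, (∃ k, orderOf g = p ^ k) → g ∈ (P : Subgroup G) := by
    rintro g ⟨k, hk⟩
    have hpg : IsPGroup p (Subgroup.zpowers g) :=
      IsPGroup.of_card (n := k) (by rw [Nat.card_zpowers, hk])
    obtain ⟨P', hP'⟩ := hpg.exists_le_sylow
    obtain ⟨c, hc⟩ := MulAction.exists_smul_eq G P P'
    rw [Sylow.smul_eq_of_normal] at hc
    rw [hc]
    exact hP' (Subgroup.mem_zpowers g)
  have hPE : ∀ g ∈ (P : Subgroup G), ∃ k, orderOf g = p ^ k := by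
    intro g hg
    obtain ⟨k, hk⟩ := (IsPGroup.iff_orderOf.mp P.isPGroup') ⟨g, hg⟩
    exact ⟨k, by rw [← hk, Subgroup.orderOf_mk]⟩
  have hQE : ∀ h ∈ (Q : Subgroup H), ∃ k, orderOf h = p ^ k := by
    intro g hg
    obtain ⟨k, hk⟩ := (IsPGroup.iff_orderOf.mp Q.isPGroup') ⟨g, hg⟩
    exact ⟨k, by rw [← hk, Subgroup.orderOf_mk]⟩
  have hcardPQ : Nat.card P = Nat.card Q := by
    rw [P.card_eq_multiplicity, Q.card_eq_multiplicity, hcardGH]
  have hEHeq : {h : H | ∃ k, orderOf h = p ^ k} = e '' ((P : Subgroup G) : Set G) := by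
    ext h
    constructor
    · rintro ⟨k, hk⟩
      refine ⟨e.symm h, hEG _ ⟨k, ?_⟩, by simp⟩
      rw [← he]
      simpa using hk
    · rintro ⟨g, hg, rfl⟩
      obtain ⟨k, hk⟩ := hPE g hg
      exact ⟨k, by rw [he]; exact hk⟩
  have hEHcard : {h : H | ∃ k, orderOf h = p ^ k}.ncard = Nat.card Q := by
    rw [← hcardPQ, hEHeq, Set.ncard_image_of_injective _ e.injective]
    rfl
  have hsub : ((Q : Subgroup H) : Set H) ⊆ {h : H | ∃ k, orderOf h = p ^ k} := fun h hh => hQE h hh
  have hQeq : ((Q : Subgroup H) : Set H) = {h : H | ∃ k, orderOf h = p ^ k} :=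
    Set.eq_of_subset_of_ncard_le hsub (by rw [hEHcard]; exact le_of_eq rfl) (Set.toFinite _)
  constructor
  intro q hq h
  have h1 : h * q * h⁻¹ ∈ {h : H | ∃ k, orderOf h = p ^ k} := by
    obtain ⟨k, hk⟩ := hQE q hq
    exact ⟨k, by rw [Cfsg.Agent.Lib.Helper6.orderOf_conj_eq]; exact hk⟩
  rw [← hQeq] at h1
  exact h1

end Cfsg.Agent.S3997
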