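import Cfsg.Statements.S4002
import Cfsg.Agent.Lib.Helper2.ThreePrimes

set_option autoImplicit false
open Cfsg

namespace Cfsg.Agent.S4002

theorem result {G : Type*} [Group G] [Finite G] (n : ℕ) (hn : 7 ≤ n) (h : Set.range (orderOf : G → ℕ) = {k : ℕ | 1 ≤ k ∧ k ≤ n}) : ¬ Group.IsSolvable G := by
  intro hsolv
  obtain ⟨p, q, r, hp, hq, hr, hpq, hpr, hqr, hpn, hqn, hrn, h1, h2, h3⟩ :=
    Cfsg.Agent.Lib.Helper2.ThreePrimes.exists_primes n hn
  have hex : ∀ t : ℕ, t.Prime → t ≤ n → t ∣ Nat.card G := by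
    intro t ht htn
    have hmem : t ∈ Set.range (orderOf : G → ℕ) := by
      rw [h]; exact ⟨ht.one_lt.le, htn⟩
    obtain ⟨g, hg⟩ := hmem
    rw [← hg]; exact orderOf_dvd_natCard g
  have hle : ∀ g : G, orderOf g ≤ n := by
    intro g
    have hmem : orderOf g ∈ Set.range (orderOf : G → ℕ) := ⟨g, rfl⟩
    rw [h] at hmem
    exact hmem.2
  obtain ⟨g, hg⟩ := Cfsg.Agent.Lib.Helper2.ThreePrimes.three_primes _ G rfl p q r hp hq hr hpq hpr
    hqr (hex p hp hpn) (hex q hq hqn) (hex r hr hrn)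
  have := hle g
  rcases hg with h' | h' | h' <;> omega

end Cfsg.Agent.S4002
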