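import Cfsg.Statements.S4005
import Mathlib
import Cfsg.Agent.Lib.Lead.NormalEA
import Cfsg.Agent.Lib.Helper1.Abel
import Cfsg.Agent.Lib.Helper5.NormalCompl

set_option autoImplicit false
open Cfsg

namespace Cfsg.Agent.S4005


open Cfsg.Agent.Lib

section
variable {G : Type*} [Group G]

/-- no element of order six: a cube-trivial `x ≠ 1` commuting with a square-trivial `w` forces `w = 1` -/
theorem no_six (hord : ∀ g : G, orderOf g = 1 ∨ orderOf g = 2 ∨ orderOf g = 3)
    (x w : G) (hc : x * w = w * x) (hx3 : x ^ 3 = 1) (hx : x ≠ 1) (hw : w ^ 2 = 1) : w = 1 := by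
  have hcm : Commute x w := hc
  have key : ∀ n, (x * w) ^ n = x ^ n * w ^ n := fun n => hcm.mul_pow n
  rcases hord (x * w) with h | h | h
  · have h1 : x * w = 1 := orderOf_eq_one_iff.mp h
    exfalso; apply hx
    have h2 : x = w⁻¹ := eq_inv_of_mul_eq_one_left h1
    have h3 : x ^ 2 = 1 := by rw [h2, inv_pow, hw, inv_one]
    calc x = x ^ 3 * (x ^ 2)⁻¹ := by group
      _ = 1 := by rw [hx3, h3]; group
  · exfalso; apply hx
    have h1 : (x * w) ^ 2 = 1 := by rw [← h]; exact pow_orderOf_eq_one _
    rw [key, hw, mul_one] at h1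
    calc x = x ^ 3 * (x ^ 2)⁻¹ := by group
      _ = 1 := by rw [hx3, h1]; group
  · have h1 : (x * w) ^ 3 = 1 := by rw [← h]; exact pow_orderOf_eq_one _
    rw [key, hx3, one_mul] at h1
    calc w = w ^ 3 * (w ^ 2)⁻¹ := by group
      _ = 1 := by rw [h1, hw]; group

theorem comm_or_cube (hord : ∀ g : G, orderOf g = 1 ∨ orderOf g = 2 ∨ orderOf g = 3)
    (s t : G) (hs : s * s = 1) (ht : t * t = 1) : s * t = t * s ∨ (s * t) ^ 3 = 1 := by
  have h2 : (s * t) * (s * t) = 1 → s * t = t * s := by
    intro h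
    have e : s * ((s * t) * (s * t)) * t = (s * s) * (t * s) * (t * t) := by group
    rw [h, hs, ht] at e
    simpa using e
  rcases hord (s * t) with h | h | h
  · left; apply h2
    rw [orderOf_eq_one_iff.mp h, one_mul]
  · left; apply h2
    rw [← pow_two, ← h]; exact pow_orderOf_eq_one _
  · right; rw [← h]; exact pow_orderOf_eq_one _

/-- the key Coxeter-type lemma: an involution commutes with every member of a four-group -/
theorem coxeter (hord : ∀ g : G, orderOf g = 1 ∨ orderOf g = 2 ∨ orderOf g = 3)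
    (s t u : G) (hs : s * s = 1) (ht : t * t = 1) (hu : u * u = 1)
    (htu : t * u = u * t) (hu1 : u ≠ 1) (hne : t ≠ u) : s * t = t * s := by
  by_contra hst
  have hsi : s⁻¹ = s := inv_eq_of_mul_eq_one_left hs
  have hst3 : (s * t) ^ 3 = 1 := (comm_or_cube hord s t hs ht).resolve_left hst
  have hx1 : s * t ≠ 1 := by
    intro h; apply hst
    have h2 : s = t⁻¹ := eq_inv_of_mul_eq_one_left h
    have h3 : t * s = 1 := by rw [h2]; exact mul_inv_cancel t
    rw [h, h3]
  have hsu : s * u ≠ u * s := by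
    intro hc
    apply hu1
    apply no_six hord (s * t) u _ hst3 hx1 (by rw [pow_two]; exact hu)
    calc s * t * u = s * (t * u) := by group
      _ = s * (u * t) := by rw [htu]
      _ = (s * u) * t := by group
      _ = (u * s) * t := by rw [hc]
      _ = u * (s * t) := by group
  have hsu3 : (s * u) ^ 3 = 1 := (comm_or_cube hord s u hs hu).resolve_left hsu
  have hc2 : (t * u) * (t * u) = 1 := by
    calc (t * u) * (t * u) = t * (u * t) * u := by group
      _ = t * (t * u) * u := by rw [htu]
      _ = (t * t) * (u * u) := by group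
      _ = 1 := by rw [ht, hu, one_mul]
  have hc1 : t * u ≠ 1 := by
    intro h; apply hne
    have h2 : t = u⁻¹ := eq_inv_of_mul_eq_one_left h
    rw [h2]; exact inv_eq_of_mul_eq_one_left hu
  have hsc : s * (t * u) ≠ (t * u) * s := by
    intro hc
    apply hc1
    apply no_six hord (s * t) (t * u) _ hst3 hx1 (by rw [pow_two]; exact hc2)
    calc s * t * (t * u) = s * (t * t) * u := by group
      _ = s * u := by rw [ht, mul_one]
      _ = s * ((t * t) * u) := by rw [ht, one_mul]
      _ = s * (t * (t * u)) := by group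
      _ = s * (t * (u * t)) := by rw [htu]
      _ = (s * (t * u)) * t := by group
      _ = ((t * u) * s) * t := by rw [hc]
      _ = t * u * (s * t) := by group
  have hsc3 : (s * (t * u)) ^ 3 = 1 := (comm_or_cube hord s (t * u) hs hc2).resolve_left hsc
  have braid : ∀ a b : G, a * a = 1 → b * b = 1 → (a * b) ^ 3 = 1 → a * b * a = b * a * b := by
    intro a b ha hb h
    have hai : a⁻¹ = a := inv_eq_of_mul_eq_one_left ha
    have hbi : b⁻¹ = b := inv_eq_of_mul_eq_one_left hb
    have h1 : a * b * a * (b * a * b) = 1 := by rw [← h, pow_three']; group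
    have h2 : a * b * a = (b * a * b)⁻¹ := eq_inv_of_mul_eq_one_left h1
    rw [h2, mul_inv_rev, mul_inv_rev, hai, hbi, mul_assoc]
  have b1 := braid s t hs ht hst3
  have b2 := braid s u hs hu hsu3
  have hsq : (s * t * u) * (s * t * u) = (t * u * s) * (t * u * s) := by
    calc (s * t * u) * (s * t * u) = s * t * u * s * (t * u) := by group
      _ = s * t * u * s * (u * t) := by rw [htu]
      _ = s * t * (u * s * u) * t := by group
      _ = s * t * (s * u * s) * t := by rw [b2]
      _ = (s * t * s) * u * s * t := by group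
      _ = (t * s * t) * u * s * t := by rw [b1]
      _ = t * s * (t * u) * s * t := by group
      _ = t * s * (u * t) * s * t := by rw [htu]
      _ = t * s * u * (t * s * t) := by group
      _ = t * s * u * (s * t * s) := by rw [b1]
      _ = t * (s * u * s) * t * s := by group
      _ = t * (u * s * u) * t * s := by rw [b2]
      _ = t * u * s * (u * t) * s := by group
      _ = t * u * s * (t * u) * s := by rw [htu]
      _ = (t * u * s) * (t * u * s) := by group
  obtain ⟨X, hX⟩ : ∃ X, X = s * (t * u) := ⟨_, rfl⟩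
  have hX3 : X ^ 3 = 1 := by rw [hX]; exact hsc3
  have e1 : X * X = (t * u * s) * (t * u * s) := by
    rw [← hsq, hX]; group
  have e2 : s * (X * X) * s = X * X := by
    calc s * (X * X) * s = s * X * 1 * X * s := by group
      _ = s * X * (s * s) * X * s := by rw [hs]
      _ = (s * X * s) * (s * X * s) := by group
      _ = ((s * s) * (t * u * s)) * ((s * s) * (t * u * s)) := by rw [hX]; group
      _ = (t * u * s) * (t * u * s) := by rw [hs, one_mul]
      _ = X * X := e1.symm
  have hsX : s * (X * X) = (X * X) * s := by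
    calc s * (X * X) = (s * (X * X) * s) * s⁻¹ := by group
      _ = X * X * s⁻¹ := by rw [e2]
      _ = X * X * s := by rw [hsi]
  have hXX : X = (X * X) * (X * X) := by
    calc X = X ^ 3 * X := by rw [hX3, one_mul]
      _ = (X * X) * (X * X) := by rw [pow_three']; group
  have hsX1 : s * X = X * s := by
    calc s * X = s * ((X * X) * (X * X)) := congrArg (fun y => s * y) hXX
      _ = (s * (X * X)) * (X * X) := by group
      _ = ((X * X) * s) * (X * X) := by rw [hsX]
      _ = (X * X) * (s * (X * X)) := by group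
      _ = (X * X) * ((X * X) * s) := by rw [hsX]
      _ = ((X * X) * (X * X)) * s := by group
      _ = X * s := congrArg (fun y => y * s) hXX.symm
  apply hsc
  rw [hX] at hsX1
  calc s * (t * u) = (s * (t * u) * s) * s⁻¹ := by group
    _ = (s * (s * (t * u))) * s⁻¹ := by rw [hsX1]
    _ = (s * s) * (t * u) * s⁻¹ := by group
    _ = (t * u) * s := by rw [hs, one_mul, hsi]

/-- the norm identity for an element of order three acting on a normal elementary abelian 2-subgroup -/
theorem norm_id (hord : ∀ g : G, orderOf g = 1 ∨ orderOf g = 2 ∨ orderOf g = 3)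
    (T : Subgroup G) [T.Normal] (hT2 : ∀ a ∈ T, a * a = 1) (hTc : ∀ a ∈ T, ∀ b ∈ T, a * b = b * a)
    (x : G) (hx3 : x ^ 3 = 1) (hx : x ≠ 1) (v : G) (hv : v ∈ T) :
    x * x * v * (x * x)⁻¹ = v * (x * v * x⁻¹) := by
  obtain ⟨p, hp⟩ : ∃ p, p = x * v * x⁻¹ := ⟨_, rfl⟩
  obtain ⟨q, hq⟩ : ∃ q, q = x * x * v * (x * x)⁻¹ := ⟨_, rfl⟩
  have h1 : p ∈ T := by rw [hp]; exact Subgroup.Normal.conj_mem inferInstance v hv x
  have h2 : q ∈ T := by rw [hq]; exact Subgroup.Normal.conj_mem inferInstance v hv (x * x)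
  have hw : v * p * q ∈ T := T.mul_mem (T.mul_mem hv h1) h2
  have hxw : x * (v * p * q) = (v * p * q) * x := by
    have e1 : x * (v * p * q) * x⁻¹ = p * q * (x ^ 3 * v * (x ^ 3)⁻¹) := by rw [hp, hq]; group
    rw [hx3] at e1
    have e2 : p * q * (1 * v * (1 : G)⁻¹) = v * p * q := by
      rw [one_mul, inv_one, mul_one]
      calc p * q * v = p * (q * v) := by group
        _ = p * (v * q) := by rw [hTc q h2 v hv]
        _ = (p * v) * q := by group
        _ = (v * p) * q := by rw [hTc p h1 v hv]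
    rw [e2] at e1
    calc x * (v * p * q) = (x * (v * p * q) * x⁻¹) * x := by group
      _ = (v * p * q) * x := by rw [e1]
  have hw1 : v * p * q = 1 := no_six hord x (v * p * q) hxw hx3 hx (by rw [pow_two]; exact hT2 _ hw)
  have h3 : q = (v * p)⁻¹ := eq_inv_of_mul_eq_one_right hw1
  have h4 : (v * p)⁻¹ = v * p := inv_eq_of_mul_eq_one_left (hT2 _ (T.mul_mem hv h1))
  rw [← hq, ← hp, h3, h4]

/-- a 3-subgroup of order at least nine cannot act on a nontrivial normal elementary abelian 2-subgroup -/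
theorem no_nine [Finite G] (hord : ∀ g : G, orderOf g = 1 ∨ orderOf g = 2 ∨ orderOf g = 3)
    (T : Subgroup G) [T.Normal] (hT2 : ∀ a ∈ T, a * a = 1) (hTc : ∀ a ∈ T, ∀ b ∈ T, a * b = b * a)
    (hTne : ∃ v ∈ T, v ≠ 1) (P : Subgroup G) (hP : IsPGroup 3 P) (h9 : 9 ≤ Nat.card P) : False := by
  haveI : Fact (Nat.Prime 3) := ⟨Nat.prime_three⟩
  have htop : (⊤ : Subgroup P) ≠ ⊥ := by
    intro h
    have h1 : Nat.card (⊤ : Subgroup P) = 1 := by rw [h, Subgroup.card_bot]
    rw [Subgroup.card_top] at h1
    omega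
  obtain ⟨a', -, ha'c, ha'o⟩ := Lead.exists_central_order_p hP (⊤ : Subgroup P) htop
  obtain ⟨a, ha⟩ : ∃ a : G, a = (a' : G) := ⟨_, rfl⟩
  have hao : orderOf a = 3 := by rw [ha, Subgroup.orderOf_coe]; exact ha'o
  have ha3 : a ^ 3 = 1 := by rw [← hao]; exact pow_orderOf_eq_one a
  have ha1 : a ≠ 1 := by
    intro h; rw [h, orderOf_one] at hao; omega
  obtain ⟨b, hbP, hbz⟩ : ∃ b ∈ P, b ∉ Subgroup.zpowers a := by
    by_contra h
    push_neg at h
    have h1 : P ≤ Subgroup.zpowers a := h
    have h2 := Subgroup.card_le_of_le h1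
    rw [Nat.card_zpowers, hao] at h2
    omega
  have hab : a * b = b * a := by
    have := Subgroup.mem_center_iff.mp ha'c ⟨b, hbP⟩
    have h1 := congrArg Subtype.val this
    rw [ha]
    exact h1.symm
  have hb1 : b ≠ 1 := by
    intro h; apply hbz; rw [h]; exact Subgroup.one_mem _
  have hb3 : b ^ 3 = 1 := by
    rcases hord b with h | h | h
    · rw [orderOf_eq_one_iff.mp h, one_pow]
    · exfalso
      obtain ⟨k, hk⟩ := hP ⟨b, hbP⟩
      have hk' : b ^ 3 ^ k = 1 := by
        have := congrArg Subtype.val hk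
        simpa using this
      have hd := orderOf_dvd_of_pow_eq_one hk'
      rw [h] at hd
      have := Nat.Prime.dvd_of_dvd_pow Nat.prime_two hd
      omega
    · rw [← h]; exact pow_orderOf_eq_one b
  have hc3 : (a * b) ^ 3 = 1 := by
    rw [(show Commute a b from hab).mul_pow, ha3, hb3, one_mul]
  have hc1 : a * b ≠ 1 := by
    intro h
    apply hbz
    have : b = a⁻¹ := eq_inv_of_mul_eq_one_right h
    rw [this]; exact Subgroup.inv_mem _ (Subgroup.mem_zpowers a)
  have hcc : (a * b) * (a * b) = (a * a) * (b * b) := by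
    calc (a * b) * (a * b) = a * (b * a) * b := by group
      _ = a * (a * b) * b := by rw [hab]
      _ = (a * a) * (b * b) := by group
  have key : ∀ v ∈ T, a * v * a⁻¹ = b * v * b⁻¹ := by
    intro v hv
    obtain ⟨Bv, hBv⟩ : ∃ Bv, Bv = b * v * b⁻¹ := ⟨_, rfl⟩
    obtain ⟨Av, hAv⟩ : ∃ Av, Av = a * v * a⁻¹ := ⟨_, rfl⟩
    obtain ⟨W, hW⟩ : ∃ W, W = a * Bv * a⁻¹ := ⟨_, rfl⟩
    have hBvT : Bv ∈ T := by rw [hBv]; exact Subgroup.Normal.conj_mem inferInstance v hv b
    have n1 := norm_id hord T hT2 hTc a ha3 ha1 v hv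
    have n2 := norm_id hord T hT2 hTc a ha3 ha1 Bv hBvT
    have n3 := norm_id hord T hT2 hTc b hb3 hb1 v hv
    have n4 := norm_id hord T hT2 hTc (a * b) hc3 hc1 v hv
    rw [← hAv] at n1
    rw [← hW] at n2
    rw [← hBv] at n3
    have e1 : a * b * v * (a * b)⁻¹ = W := by rw [hW, hBv]; group
    have e2 : (a * b) * (a * b) * v * ((a * b) * (a * b))⁻¹ =
        (a * a * v * (a * a)⁻¹) * (a * a * Bv * (a * a)⁻¹) := by
      rw [hcc]
      calc a * a * (b * b) * v * (a * a * (b * b))⁻¹
          = a * a * (b * b * v * (b * b)⁻¹) * (a * a)⁻¹ := by group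
        _ = a * a * (v * Bv) * (a * a)⁻¹ := by rw [n3]
        _ = (a * a * v * (a * a)⁻¹) * (a * a * Bv * (a * a)⁻¹) := by group
    rw [e1, e2, n1, n2] at n4
    have h5 : (Av * Bv) * W = 1 * W := by
      rw [one_mul]
      have h6 : v * ((Av * Bv) * W) = v * W := by
        calc v * ((Av * Bv) * W) = (v * Av) * (Bv * W) := by group
          _ = v * W := n4
      exact mul_left_cancel h6
    have h7 : Av * Bv = 1 := mul_right_cancel h5
    have h8 : Av = Bv⁻¹ := eq_inv_of_mul_eq_one_left h7
    have h9' : Bv⁻¹ = Bv := inv_eq_of_mul_eq_one_left (hT2 Bv hBvT)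
    rw [← hAv, ← hBv, h8, h9']
  obtain ⟨v, hvT, hv1⟩ := hTne
  obtain ⟨y, hy⟩ : ∃ y, y = b⁻¹ * a := ⟨_, rfl⟩
  have hyv : y * v = v * y := by
    have h1 := key v hvT
    calc y * v = b⁻¹ * (a * v * a⁻¹) * a := by rw [hy]; group
      _ = b⁻¹ * (b * v * b⁻¹) * a := by rw [h1]
      _ = v * y := by rw [hy]; group
  have hy1 : y ≠ 1 := by
    intro h
    apply hbz
    rw [hy] at h
    have : a = b := by
      calc a = b * (b⁻¹ * a) := by group
        _ = b := by rw [h, mul_one]
    rw [← this]; exact Subgroup.mem_zpowers a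
  have hy3 : y ^ 3 = 1 := by
    have hcm : Commute b⁻¹ a := (show Commute b a from hab.symm).inv_left
    rw [hy, hcm.mul_pow, ha3, inv_pow, hb3, inv_one, one_mul]
  exact hv1 (no_six hord y v hyv hy3 hy1 (by rw [pow_two]; exact hT2 v hvT))

end

/-- A finite group whose set of element orders is exactly {1, 2, 3} has either a normal elementary abelian 3-subgroup of index 2 or a normal elementary abelian 2-subgroup of index 3. -/
theorem result {G : Type*} [Group G] [Finite G] (h : Set.range (orderOf : G → ℕ) = {k : ℕ | 1 ≤ k ∧ k ≤ 3}) :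
    (∃ N : Subgroup G, N.Normal ∧ Cfsg.IsElementaryAbelian 3 N ∧ N.index = 2) ∨
      (∃ N : Subgroup G, N.Normal ∧ Cfsg.IsElementaryAbelian 2 N ∧ N.index = 3) := by
  classical
  have hord : ∀ g : G, orderOf g = 1 ∨ orderOf g = 2 ∨ orderOf g = 3 := by
    intro g
    have h0 : orderOf g ∈ Set.range (orderOf : G → ℕ) := ⟨g, rfl⟩
    rw [h] at h0
    obtain ⟨h1, h2⟩ := h0
    omega
  obtain ⟨t₀, ht₀⟩ : ∃ t : G, orderOf t = 2 := by
    have h0 : (2 : ℕ) ∈ Set.range (orderOf : G → ℕ) := by
      rw [h]; exact ⟨by norm_num, by norm_num⟩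
    exact h0
  obtain ⟨x₀, hx₀⟩ : ∃ x : G, orderOf x = 3 := by
    have h0 : (3 : ℕ) ∈ Set.range (orderOf : G → ℕ) := by
      rw [h]; exact ⟨by norm_num, by norm_num⟩
    exact h0
  haveI : Fact (Nat.Prime 2) := ⟨Nat.prime_two⟩
  haveI : Fact (Nat.Prime 3) := ⟨Nat.prime_three⟩
  obtain ⟨T⟩ : Nonempty (Sylow 2 G) := inferInstance
  have hT2 : ∀ a ∈ (T : Subgroup G), a * a = 1 := by
    intro a ha
    obtain ⟨k, hk⟩ := T.isPGroup' ⟨a, ha⟩
    have hk' : a ^ 2 ^ k = 1 := by
      have := congrArg Subtype.val hk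
      simpa using this
    have hdvd : orderOf a ∣ 2 ^ k := orderOf_dvd_of_pow_eq_one hk'
    rcases hord a with h1 | h1 | h1
    · rw [orderOf_eq_one_iff.mp h1, one_mul]
    · rw [← pow_two, ← h1]; exact pow_orderOf_eq_one a
    · exfalso
      rw [h1] at hdvd
      have := Nat.Prime.dvd_of_dvd_pow Nat.prime_three hdvd
      omega
  have hTc : ∀ a ∈ (T : Subgroup G), ∀ b ∈ (T : Subgroup G), a * b = b * a := by
    intro a ha b hb
    have hab := hT2 (a * b) (Subgroup.mul_mem _ ha hb)
    have e : a * ((a * b) * (a * b)) * b = (a * a) * (b * a) * (b * b) := by group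
    rw [hab, hT2 a ha, hT2 b hb] at e
    simpa using e
  obtain ⟨k, hk⟩ := IsPGroup.iff_card.mp T.isPGroup'
  have hk0 : k ≠ 0 := by
    rintro rfl
    have h2 : 2 ^ 1 ∣ Nat.card G := by rw [pow_one, ← ht₀]; exact orderOf_dvd_natCard t₀
    have h3 := T.pow_dvd_card_of_pow_dvd_card h2
    rw [hk] at h3
    norm_num at h3
  have hprime : ∀ q : ℕ, q.Prime → q ∣ Nat.card G → q = 2 ∨ q = 3 := by
    intro q hq hdvd
    haveI : Fact q.Prime := ⟨hq⟩
    obtain ⟨g, hg⟩ := exists_prime_orderOf_dvd_card' q hdvd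
    have hq1 := hq.one_lt
    rcases hord g with h1 | h1 | h1 <;> omega
  rcases Nat.lt_or_ge k 2 with hk2 | hk2
  · have hk1 : k = 1 := by omega
    subst hk1
    rw [pow_one] at hk
    left
    have hcyc : IsCyclic (T : Subgroup G) := isCyclic_of_prime_card hk
    obtain ⟨K, hKn, hK⟩ := Helper5.exists_normal_complement_of_cyclic_sylow_two T hcyc
    have hidx : K.index = 2 := by rw [← hk]; exact hK.symm.index_eq_card
    have hKodd : ¬ 2 ∣ Nat.card K := by
      have h1 := hK.index_eq_card
      rw [← h1]; exact T.not_dvd_index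
    have hK3 : ∀ x ∈ K, x ^ 3 = 1 := by
      intro x hx
      have hd : orderOf x ∣ Nat.card K := by
        have := orderOf_dvd_natCard (⟨x, hx⟩ : K)
        rwa [Subgroup.orderOf_mk] at this
      rcases hord x with h1 | h1 | h1
      · rw [orderOf_eq_one_iff.mp h1, one_pow]
      · exfalso; rw [h1] at hd; exact hKodd hd
      · rw [← h1]; exact pow_orderOf_eq_one x
    have ht₀K : t₀ ∉ K := by
      intro hmem
      have hd : orderOf t₀ ∣ Nat.card K := by
        have := orderOf_dvd_natCard (⟨t₀, hmem⟩ : K)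
        rwa [Subgroup.orderOf_mk] at this
      rw [ht₀] at hd; exact hKodd hd
    have ht₀2 : t₀ * t₀ = 1 := by rw [← pow_two, ← ht₀]; exact pow_orderOf_eq_one t₀
    have hti : t₀⁻¹ = t₀ := inv_eq_of_mul_eq_one_left ht₀2
    have hinv : ∀ x ∈ K, t₀ * x * t₀⁻¹ = x⁻¹ := by
      intro x hx
      have hgK : t₀ * x ∉ K := by
        intro hmem
        apply ht₀K
        have := K.mul_mem hmem (K.inv_mem hx)
        simpa using this
      have hg2 : (t₀ * x) * (t₀ * x) = 1 := by
        rcases hord (t₀ * x) with h1 | h1 | h1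
        · rw [orderOf_eq_one_iff.mp h1, one_mul]
        · rw [← pow_two, ← h1]; exact pow_orderOf_eq_one _
        · exfalso; apply hgK
          have h3 : (t₀ * x) ^ 3 = 1 := by rw [← h1]; exact pow_orderOf_eq_one _
          have h4 : t₀ * x = ((t₀ * x) * (t₀ * x)) * ((t₀ * x) * (t₀ * x)) := by
            calc t₀ * x = (t₀ * x) ^ 3 * (t₀ * x) := by rw [h3, one_mul]
              _ = ((t₀ * x) * (t₀ * x)) * ((t₀ * x) * (t₀ * x)) := by rw [pow_three']; group
          rw [h4]
          exact K.mul_mem (Subgroup.mul_self_mem_of_index_two hidx _)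
            (Subgroup.mul_self_mem_of_index_two hidx _)
      rw [hti]
      exact eq_inv_of_mul_eq_one_left (by rw [← hg2]; group)
    have hKc : ∀ y ∈ K, ∀ z ∈ K, y * z = z * y := by
      intro y hy z hz
      have h1 := hinv (y * z) (K.mul_mem hy hz)
      have h2 : t₀ * (y * z) * t₀⁻¹ = (t₀ * y * t₀⁻¹) * (t₀ * z * t₀⁻¹) := by group
      rw [h2, hinv y hy, hinv z hz] at h1
      have h3 : (y⁻¹ * z⁻¹)⁻¹ = ((y * z)⁻¹)⁻¹ := congrArg (fun w => w⁻¹) h1
      simpa using h3.symm
    exact ⟨K, hKn, ⟨Helper1.isMulCommutative_of_comm hKc, hK3⟩, hidx⟩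
  · right
    have hcardT4 : 4 ≤ Nat.card (T : Subgroup G) := by
      rw [hk]
      calc 4 = 2 ^ 2 := by norm_num
        _ ≤ 2 ^ k := Nat.pow_le_pow_right (by norm_num) hk2
    have hcomm : ∀ s : G, s * s = 1 → ∀ t ∈ (T : Subgroup G), s * t = t * s := by
      intro s hs t ht
      by_cases ht1 : t = 1
      · rw [ht1, mul_one, one_mul]
      obtain ⟨u, huT, hu1, hut⟩ : ∃ u ∈ (T : Subgroup G), u ≠ 1 ∧ t ≠ u := by
        by_contra hcon
        push_neg at hcon
        have hle : (T : Subgroup G) ≤ Subgroup.zpowers t := by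
          intro u hu
          by_cases hu1 : u = 1
          · rw [hu1]; exact Subgroup.one_mem _
          · rw [← hcon u hu hu1]; exact Subgroup.mem_zpowers t
        have h1 := Subgroup.card_le_of_le hle
        have h2 : Nat.card (Subgroup.zpowers t) ≤ 2 := by
          rw [Nat.card_zpowers]
          exact Nat.le_of_dvd (by norm_num)
            (orderOf_dvd_of_pow_eq_one (by rw [pow_two]; exact hT2 t ht))
        omega
      exact coxeter hord s t u hs (hT2 t ht) (hT2 u huT) (hTc t ht u huT) hu1 hut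
    haveI hTn : (T : Subgroup G).Normal := by
      constructor
      intro t ht g
      obtain ⟨s, hs⟩ : ∃ s, s = g * t * g⁻¹ := ⟨_, rfl⟩
      rw [← hs]
      have hs2 : s * s = 1 := by
        rw [hs]
        calc g * t * g⁻¹ * (g * t * g⁻¹) = g * (t * t) * g⁻¹ := by group
          _ = 1 := by rw [hT2 t ht]; group
      have hsT := hcomm s hs2
      have hsi : s⁻¹ = s := inv_eq_of_mul_eq_one_left hs2
      have hZ : IsPGroup 2 (Subgroup.zpowers s) := by
        have hd : orderOf s ∣ 2 := orderOf_dvd_of_pow_eq_one (by rw [pow_two]; exact hs2)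
        rcases (Nat.dvd_prime Nat.prime_two).mp hd with h1 | h1
        · exact IsPGroup.of_card (n := 0) (by rw [Nat.card_zpowers, h1, pow_zero])
        · exact IsPGroup.of_card (n := 1) (by rw [Nat.card_zpowers, h1, pow_one])
      have hnorm : Subgroup.zpowers s ≤ Subgroup.normalizer (((T : Subgroup G)) : Set G) := by
        rw [Subgroup.zpowers_le, Subgroup.mem_normalizer_iff]
        intro v
        have key : ∀ v ∈ (T : Subgroup G), s * v * s⁻¹ = v := fun v hv => by
          rw [hsT v hv]; group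
        constructor
        · intro hv; rw [key v hv]; exact hv
        · intro hv
          have h2 : v = s * (s * v * s⁻¹) * s⁻¹ := by
            calc v = s⁻¹ * (s * v * s⁻¹) * s := by group
              _ = s * (s * v * s⁻¹) * s⁻¹ := by rw [hsi]
          rw [h2, key _ hv]; exact hv
      have hP := IsPGroup.to_sup_of_normal_right' hZ T.isPGroup' hnorm
      have hmax := T.is_maximal' hP le_sup_right
      have hmem : s ∈ Subgroup.zpowers s ⊔ (T : Subgroup G) :=
        (le_sup_left : Subgroup.zpowers s ≤ _) (Subgroup.mem_zpowers s)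
      rw [hmax] at hmem
      exact hmem
    have hidx3 : (T : Subgroup G).index = 3 := by
      have hdvd : (T : Subgroup G).index ∣ Nat.card G := Subgroup.index_dvd_card _
      have hne : (T : Subgroup G).index ≠ 0 := Subgroup.index_ne_zero_of_finite
      have h3 : ∀ {d : ℕ}, d.Prime → d ∣ (T : Subgroup G).index → d = 3 := by
        intro d hd hdd
        rcases hprime d hd (hdd.trans hdvd) with h1 | h1
        · exfalso; rw [h1] at hdd; exact T.not_dvd_index hdd
        · exact h1
      have hpow := Nat.eq_prime_pow_of_unique_prime_dvd hne h3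
      obtain ⟨b, hb⟩ : ∃ b, (T : Subgroup G).index = 3 ^ b := ⟨_, hpow⟩
      have h3G : 3 ∣ Nat.card G := by rw [← hx₀]; exact orderOf_dvd_natCard x₀
      have hcm : Nat.card (T : Subgroup G) * (T : Subgroup G).index = Nat.card G :=
        Subgroup.card_mul_index _
      have hb1 : b ≠ 0 := by
        rintro rfl
        rw [pow_zero] at hb
        rw [hb, mul_one, hk] at hcm
        rw [← hcm] at h3G
        have := Nat.Prime.dvd_of_dvd_pow Nat.prime_three h3G
        omega
      by_contra hne3
      have hb2 : 2 ≤ b := by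
        rcases Nat.lt_or_ge b 2 with h' | h'
        · exfalso
          have hb' : b = 1 := by omega
          rw [hb', pow_one] at hb
          exact hne3 hb
        · exact h'
      have h9 : 3 ^ 2 ∣ Nat.card G := by
        rw [← hcm, hb]
        exact Dvd.dvd.mul_left (pow_dvd_pow 3 hb2) _
      obtain ⟨P⟩ : Nonempty (Sylow 3 G) := inferInstance
      have h9P : 3 ^ 2 ∣ Nat.card (P : Subgroup G) := P.pow_dvd_card_of_pow_dvd_card h9
      have h9le : 9 ≤ Nat.card (P : Subgroup G) := Nat.le_of_dvd Nat.card_pos (by simpa using h9P)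
      have hTne : ∃ v ∈ (T : Subgroup G), v ≠ 1 := by
        by_contra hcon
        push_neg at hcon
        have hbot : (T : Subgroup G) = ⊥ := (Subgroup.eq_bot_iff_forall _).mpr hcon
        rw [hbot, Subgroup.card_bot] at hcardT4
        omega
      exact no_nine hord (T : Subgroup G) hT2 hTc hTne (P : Subgroup G) P.isPGroup' h9le
    exact ⟨(T : Subgroup G), hTn, ⟨Helper1.isMulCommutative_of_comm hTc,
      fun a ha => by rw [pow_two]; exact hT2 a ha⟩, hidx3⟩

end Cfsg.Agent.S4005
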