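import Cfsg.Statements.S4200
import Cfsg.Agent.Lib.Helper6.RealElt

set_option autoImplicit false
open Cfsg

namespace Cfsg.Agent.S4200

theorem sum_card_centralizer (G : Type*) [Group G] [Fintype G] :
    ∑ x : G, Nat.card (Subgroup.centralizer ({x} : Set G))
      = Nat.card (ConjClasses G) * Nat.card G := by
  rw [← card_comm_eq_card_conjClasses_mul_card, ← Nat.card_sigma]
  apply Nat.card_congr
  refine
    { toFun := fun p => ⟨⟨p.1, p.2.1⟩, ?_⟩
      invFun := fun q => ⟨q.1.1, ⟨q.1.2, ?_⟩⟩
      left_inv := fun p => rfl
      right_inv := fun q => rfl }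
  · have := p.2.2
    rw [Subgroup.mem_centralizer_iff] at this
    exact (this p.1 (Set.mem_singleton _))
  · rw [Subgroup.mem_centralizer_iff]
    intro h hh
    rw [Set.mem_singleton_iff] at hh
    subst hh
    exact q.2

open Cfsg.Agent.Lib.Helper6 in
/-- Let Y be a subgroup of the finite group X, of index m. Then the numbers of conjugacy classes satisfy k(Y) ≤ m·k(X) and k(X) ≤ m·k(Y), and the second inequality is strict unless Y is normal in X. -/
theorem result {X : Type*} [Group X] [Finite X] (Y : Subgroup X) : Nat.card (ConjClasses Y) ≤ Y.index * Nat.card (ConjClasses X) ∧ Nat.card (ConjClasses X) ≤ Y.index * Nat.card (ConjClasses Y) ∧ (¬ Y.Normal → Nat.card (ConjClasses X) < Y.index * Nat.card (ConjClasses Y)) := by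
  classical
  have : Fintype X := Fintype.ofFinite X
  have hm : 0 < Y.index := Nat.pos_of_ne_zero Subgroup.index_ne_zero_of_finite
  have hXY : Y.index * Nat.card Y = Nat.card X := Subgroup.index_mul_card Y
  have hYpos : 0 < Nat.card Y := Nat.card_pos
  have hXpos : 0 < Nat.card X := Nat.card_pos
  have hS1 := sum_card_centralizer X
  have hS3 := sum_card_centralizer Y
  have hS2 : ∑ x : X, Nat.card ((Subgroup.centralizer ({x} : Set X)).subgroupOf Y)
      = ∑ y : Y, Nat.card (Subgroup.centralizer ({(y : X)} : Set X)) := by
    rw [← Nat.card_sigma, ← Nat.card_sigma]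
    apply Nat.card_congr
    refine
      { toFun := fun p => ⟨p.2.1, ⟨p.1, ?_⟩⟩
        invFun := fun q => ⟨q.2.1, ⟨q.1, ?_⟩⟩
        left_inv := fun p => rfl
        right_inv := fun q => rfl }
    · have := p.2.2
      rw [Subgroup.mem_subgroupOf, Subgroup.mem_centralizer_iff] at this
      rw [Subgroup.mem_centralizer_iff]
      intro h hh
      rw [Set.mem_singleton_iff] at hh
      subst hh
      exact (this p.1 (Set.mem_singleton _)).symm
    · have := q.2.2
      rw [Subgroup.mem_centralizer_iff] at this
      rw [Subgroup.mem_subgroupOf, Subgroup.mem_centralizer_iff]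
      intro h hh
      rw [Set.mem_singleton_iff] at hh
      subst hh
      exact (this q.1 (Set.mem_singleton _)).symm
  have hP : ∀ x : X, Nat.card (Subgroup.centralizer ({x} : Set X))
      ≤ Y.index * Nat.card ((Subgroup.centralizer ({x} : Set X)).subgroupOf Y) := by
    intro x
    have h1 : Nat.card ((Subgroup.centralizer ({x} : Set X)).subgroupOf Y)
        * (Subgroup.centralizer ({x} : Set X)).relIndex Y = Nat.card Y :=
      Subgroup.card_mul_index ((Subgroup.centralizer ({x} : Set X)).subgroupOf Y)
    have h2 : (Subgroup.centralizer ({x} : Set X)).relIndex Y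
        ≤ (Subgroup.centralizer ({x} : Set X)).index := by
      have := Subgroup.relIndex_le_of_le_right (H := Subgroup.centralizer ({x} : Set X))
        (K := Y) (L := ⊤) le_top
        (by rw [Subgroup.relIndex_top_right]; exact Subgroup.index_ne_zero_of_finite)
      rwa [Subgroup.relIndex_top_right] at this
    have h3 : Nat.card (Subgroup.centralizer ({x} : Set X))
        * (Subgroup.centralizer ({x} : Set X)).index = Nat.card X := Subgroup.card_mul_index _
    have hHi : 0 < (Subgroup.centralizer ({x} : Set X)).index :=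
      Nat.pos_of_ne_zero Subgroup.index_ne_zero_of_finite
    have : Nat.card (Subgroup.centralizer ({x} : Set X))
        * (Subgroup.centralizer ({x} : Set X)).index
        ≤ (Y.index * Nat.card ((Subgroup.centralizer ({x} : Set X)).subgroupOf Y))
          * (Subgroup.centralizer ({x} : Set X)).index := by
      rw [h3, ← hXY, ← h1]
      calc Y.index * (Nat.card ((Subgroup.centralizer ({x} : Set X)).subgroupOf Y)
            * (Subgroup.centralizer ({x} : Set X)).relIndex Y)
          = (Y.index * Nat.card ((Subgroup.centralizer ({x} : Set X)).subgroupOf Y))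
            * (Subgroup.centralizer ({x} : Set X)).relIndex Y := by ring
        _ ≤ _ := Nat.mul_le_mul_left _ h2
    exact Nat.le_of_mul_le_mul_right this hHi
  have hQ : ∀ y : Y, Nat.card (Subgroup.centralizer ({(y : X)} : Set X))
        ≤ Y.index * Nat.card (Subgroup.centralizer ({y} : Set Y)) ∧
      ((∃ g : X, g * y * g⁻¹ ∉ Y) → Nat.card (Subgroup.centralizer ({(y : X)} : Set X))
        < Y.index * Nat.card (Subgroup.centralizer ({y} : Set Y))) := by
    intro y
    have ha := index_centralizer_eq_ncard_orbit y
    have hb := index_centralizer_eq_ncard_orbit (y : X)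
    have hsub : Subtype.val '' (MulAction.orbit (ConjAct Y) y)
        ⊆ MulAction.orbit (ConjAct X) (y : X) := by
      rintro _ ⟨w, hw, rfl⟩
      rw [ConjAct.mem_orbit_conjAct] at hw ⊢
      rw [isConj_iff] at hw ⊢
      obtain ⟨c, hc⟩ := hw
      exact ⟨c, by rw [← hc]; simp⟩
    have hfin : (MulAction.orbit (ConjAct X) (y : X)).Finite := Set.toFinite _
    have hle : (MulAction.orbit (ConjAct Y) y).ncard
        ≤ (MulAction.orbit (ConjAct X) (y : X)).ncard := by
      rw [← Set.ncard_image_of_injective _ Subtype.val_injective]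
      exact Set.ncard_le_ncard hsub hfin
    have h1 : Nat.card (Subgroup.centralizer ({(y : X)} : Set X))
        * (Subgroup.centralizer ({(y : X)} : Set X)).index = Nat.card X :=
      Subgroup.card_mul_index _
    have h2 : Nat.card (Subgroup.centralizer ({y} : Set Y))
        * (Subgroup.centralizer ({y} : Set Y)).index = Nat.card Y := Subgroup.card_mul_index _
    rw [ha] at h2
    rw [hb] at h1
    have hbpos : 0 < (MulAction.orbit (ConjAct X) (y : X)).ncard := by
      rw [← hb]; exact Nat.pos_of_ne_zero Subgroup.index_ne_zero_of_finite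
    have hCpos : 0 < Nat.card (Subgroup.centralizer ({y} : Set Y)) := Nat.card_pos
    constructor
    · have : Nat.card (Subgroup.centralizer ({(y : X)} : Set X))
          * (MulAction.orbit (ConjAct X) (y : X)).ncard
          ≤ (Y.index * Nat.card (Subgroup.centralizer ({y} : Set Y)))
            * (MulAction.orbit (ConjAct X) (y : X)).ncard := by
        rw [h1, ← hXY, ← h2]
        calc Y.index * (Nat.card (Subgroup.centralizer ({y} : Set Y))
              * (MulAction.orbit (ConjAct Y) y).ncard)
            = (Y.index * Nat.card (Subgroup.centralizer ({y} : Set Y)))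
              * (MulAction.orbit (ConjAct Y) y).ncard := by ring
          _ ≤ _ := Nat.mul_le_mul_left _ hle
      exact Nat.le_of_mul_le_mul_right this hbpos
    · rintro ⟨g, hg⟩
      have hlt : (MulAction.orbit (ConjAct Y) y).ncard
          < (MulAction.orbit (ConjAct X) (y : X)).ncard := by
        rw [← Set.ncard_image_of_injective _ Subtype.val_injective]
        apply Set.ncard_lt_ncard _ hfin
        refine ⟨hsub, ?_⟩
        intro hcon
        have h3 : g * y * g⁻¹ ∈ MulAction.orbit (ConjAct X) (y : X) := by
          rw [ConjAct.mem_orbit_conjAct, isConj_iff]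
          exact ⟨g⁻¹, by group⟩
        obtain ⟨w, -, hw⟩ := hcon h3
        exact hg (hw ▸ w.2)
      have : Nat.card (Subgroup.centralizer ({(y : X)} : Set X))
          * (MulAction.orbit (ConjAct X) (y : X)).ncard
          < (Y.index * Nat.card (Subgroup.centralizer ({y} : Set Y)))
            * (MulAction.orbit (ConjAct X) (y : X)).ncard := by
        rw [h1, ← hXY, ← h2]
        calc Y.index * (Nat.card (Subgroup.centralizer ({y} : Set Y))
              * (MulAction.orbit (ConjAct Y) y).ncard)
            = (Y.index * Nat.card (Subgroup.centralizer ({y} : Set Y)))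
              * (MulAction.orbit (ConjAct Y) y).ncard := by ring
          _ < _ := Nat.mul_lt_mul_of_pos_left hlt (Nat.mul_pos hm hCpos)
      exact Nat.lt_of_mul_lt_mul_right this
  have hS12 : ∑ x : X, Nat.card (Subgroup.centralizer ({x} : Set X))
      ≤ Y.index * ∑ y : Y, Nat.card (Subgroup.centralizer ({(y : X)} : Set X)) := by
    rw [← hS2, Finset.mul_sum]
    exact Finset.sum_le_sum (fun x _ => hP x)
  have hS23 : ∑ y : Y, Nat.card (Subgroup.centralizer ({(y : X)} : Set X))
      ≤ Y.index * ∑ y : Y, Nat.card (Subgroup.centralizer ({y} : Set Y)) := by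
    rw [Finset.mul_sum]
    exact Finset.sum_le_sum (fun y _ => (hQ y).1)
  refine ⟨?_, ?_, ?_⟩
  · have h := Subgroup.commProb_subgroup_le Y
    rw [commProb_def', commProb_def'] at h
    have hX : (Nat.card X : ℚ) = (Y.index : ℚ) * (Nat.card Y : ℚ) := by exact_mod_cast hXY.symm
    have hYq : (0 : ℚ) < Nat.card Y := by exact_mod_cast hYpos
    have hmq : (0 : ℚ) < Y.index := by exact_mod_cast hm
    rw [hX, div_le_iff₀ hYq] at h
    have e : (Nat.card (ConjClasses X) : ℚ) / (Y.index * Nat.card Y) * (Y.index : ℚ) ^ 2
        * Nat.card Y = Y.index * Nat.card (ConjClasses X) := by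
      field_simp
    rw [e] at h
    exact_mod_cast h
  · have : Nat.card (ConjClasses X) * Nat.card X
        ≤ (Y.index * Nat.card (ConjClasses Y)) * Nat.card X := by
      rw [← hS1]
      calc _ ≤ Y.index * ∑ y : Y, Nat.card (Subgroup.centralizer ({(y : X)} : Set X)) := hS12
        _ ≤ Y.index * (Y.index * ∑ y : Y, Nat.card (Subgroup.centralizer ({y} : Set Y))) :=
          Nat.mul_le_mul_left _ hS23
        _ = _ := by rw [hS3, ← hXY]; ring
    exact Nat.le_of_mul_le_mul_right this hXpos
  · intro hnn
    have hex : ∃ y : Y, ∃ g : X, g * y * g⁻¹ ∉ Y := by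
      by_contra hcon
      push Not at hcon
      exact hnn ⟨fun n hn g => hcon ⟨n, hn⟩ g⟩
    obtain ⟨y₀, hy₀⟩ := hex
    have hS23' : ∑ y : Y, Nat.card (Subgroup.centralizer ({(y : X)} : Set X))
        < Y.index * ∑ y : Y, Nat.card (Subgroup.centralizer ({y} : Set Y)) := by
      rw [Finset.mul_sum]
      exact Finset.sum_lt_sum (fun y _ => (hQ y).1) ⟨y₀, Finset.mem_univ _, (hQ y₀).2 hy₀⟩
    have : Nat.card (ConjClasses X) * Nat.card X
        < (Y.index * Nat.card (ConjClasses Y)) * Nat.card X := by
      rw [← hS1]
      calc _ ≤ Y.index * ∑ y : Y, Nat.card (Subgroup.centralizer ({(y : X)} : Set X)) := hS12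
        _ < Y.index * (Y.index * ∑ y : Y, Nat.card (Subgroup.centralizer ({y} : Set Y))) :=
          Nat.mul_lt_mul_of_pos_left hS23' hm
        _ = _ := by rw [hS3, ← hXY]; ring
    exact Nat.lt_of_mul_lt_mul_right this

end Cfsg.Agent.S4200
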