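import Mathlib
import Cfsg.Statements.S4201

set_option autoImplicit false
open Cfsg

namespace Cfsg.Agent.S4201

open Classical in
noncomputable def pick {X : Type*} [Group X] (N : Subgroup X) [N.Normal] (x : X) (d : X ⧸ N) : X :=
  if h : ∃ y : X, Commute x y ∧ (y : X ⧸ N) = d then h.choose else 1

lemma pick_spec {X : Type*} [Group X] (N : Subgroup X) [N.Normal] (x y : X) (h : Commute x y) :
    Commute x (pick N x (y : X ⧸ N)) ∧ ((pick N x (y : X ⧸ N) : X) : X ⧸ N) = (y : X ⧸ N) := by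
  have hex : ∃ y' : X, Commute x y' ∧ (y' : X ⧸ N) = (y : X ⧸ N) := ⟨y, h, rfl⟩
  unfold pick
  rw [dif_pos hex]
  exact hex.choose_spec

lemma pick_mem {X : Type*} [Group X] (N : Subgroup X) [N.Normal] (x y : X) (h : Commute x y) :
    (pick N x (y : X ⧸ N))⁻¹ * y ∈ N := by
  have h1 := (pick_spec N x y h).2
  rw [← QuotientGroup.eq_one_iff]
  rw [QuotientGroup.mk_mul, QuotientGroup.mk_inv, h1, inv_mul_cancel]

lemma pick_comm {X : Type*} [Group X] (N : Subgroup X) [N.Normal] (x y : X) (h : Commute x y) :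
    Commute x ((pick N x (y : X ⧸ N))⁻¹ * y) :=
  ((pick_spec N x y h).1.inv_right).mul_right h

lemma comm_le {X : Type*} [Group X] [Finite X] (N : Subgroup X) [N.Normal] :
    Nat.card {p : X × X // Commute p.1 p.2} ≤
      Nat.card ({p : (X ⧸ N) × (X ⧸ N) // Commute p.1 p.2} × {p : N × N // Commute p.1 p.2}) := by
  let nn : {p : X × X // Commute p.1 p.2} → X := fun p => (pick N p.1.1 (p.1.2 : X ⧸ N))⁻¹ * p.1.2
  have hnn_mem : ∀ p, nn p ∈ N := fun p => pick_mem N p.1.1 p.1.2 p.2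
  have hnn_comm : ∀ p : {p : X × X // Commute p.1 p.2}, Commute (nn p) p.1.1 :=
    fun p => (pick_comm N p.1.1 p.1.2 p.2).symm
  let mm : {p : X × X // Commute p.1 p.2} → X := fun p => (pick N (nn p) (p.1.1 : X ⧸ N))⁻¹ * p.1.1
  have hmm_mem : ∀ p, mm p ∈ N := fun p => pick_mem N (nn p) p.1.1 (hnn_comm p)
  have hmm_comm : ∀ p, Commute (mm p) (nn p) := fun p => (pick_comm N (nn p) p.1.1 (hnn_comm p)).symm
  let Φ : {p : X × X // Commute p.1 p.2} →
      {p : (X ⧸ N) × (X ⧸ N) // Commute p.1 p.2} × {p : N × N // Commute p.1 p.2} :=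
    fun p => (⟨((p.1.1 : X ⧸ N), (p.1.2 : X ⧸ N)), by
        have := p.2
        show Commute ((p.1.1 : X ⧸ N)) ((p.1.2 : X ⧸ N))
        exact this.map (QuotientGroup.mk' N)⟩,
      ⟨(⟨mm p, hmm_mem p⟩, ⟨nn p, hnn_mem p⟩), by
        show Commute (⟨mm p, hmm_mem p⟩ : N) ⟨nn p, hnn_mem p⟩
        have := hmm_comm p
        apply Subtype.ext
        exact this.eq⟩)
  apply Nat.card_le_card_of_injective Φ
  intro p p' hpp
  have h1 : (p.1.1 : X ⧸ N) = (p'.1.1 : X ⧸ N) := by
    have := congrArg (fun z => z.1.1.1) hpp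
    exact this
  have h2 : (p.1.2 : X ⧸ N) = (p'.1.2 : X ⧸ N) := by
    have := congrArg (fun z => z.1.1.2) hpp
    exact this
  have h3 : nn p = nn p' := by
    have := congrArg (fun z => (z.2.1.2 : X)) hpp
    exact this
  have h4 : mm p = mm p' := by
    have := congrArg (fun z => (z.2.1.1 : X)) hpp
    exact this
  have h5 : p.1.1 = p'.1.1 := by
    have h4' : (pick N (nn p) (p.1.1 : X ⧸ N))⁻¹ * p.1.1 = (pick N (nn p') (p'.1.1 : X ⧸ N))⁻¹ * p'.1.1 := h4
    rw [h3, h1] at h4'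
    exact mul_left_cancel h4'
  have h6 : p.1.2 = p'.1.2 := by
    have h3' : (pick N p.1.1 (p.1.2 : X ⧸ N))⁻¹ * p.1.2 = (pick N p'.1.1 (p'.1.2 : X ⧸ N))⁻¹ * p'.1.2 := h3
    rw [h5, h2] at h3'
    exact mul_left_cancel h3'
  apply Subtype.ext
  exact Prod.ext h5 h6

/-- If N is a normal subgroup of the finite group X then k(X) ≤ k(N)·k(X ⧸ N), where k denotes the number of conjugacy classes. -/
theorem result {X : Type*} [Group X] [Finite X] (N : Subgroup X) [N.Normal] : Nat.card (ConjClasses X) ≤ Nat.card (ConjClasses N) * Nat.card (ConjClasses (X ⧸ N)) := by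
  have h := comm_le N
  rw [Nat.card_prod, card_comm_eq_card_conjClasses_mul_card, card_comm_eq_card_conjClasses_mul_card,
    card_comm_eq_card_conjClasses_mul_card, Subgroup.card_eq_card_quotient_mul_card_subgroup N] at h
  have hpos : 0 < Nat.card (X ⧸ N) * Nat.card N := Nat.mul_pos Nat.card_pos Nat.card_pos
  have h' : Nat.card (ConjClasses X) * (Nat.card (X ⧸ N) * Nat.card N) ≤
      (Nat.card (ConjClasses N) * Nat.card (ConjClasses (X ⧸ N))) * (Nat.card (X ⧸ N) * Nat.card N) := by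
    calc Nat.card (ConjClasses X) * (Nat.card (X ⧸ N) * Nat.card N)
        ≤ Nat.card (ConjClasses (X ⧸ N)) * Nat.card (X ⧸ N) * (Nat.card (ConjClasses N) * Nat.card N) := h
      _ = (Nat.card (ConjClasses N) * Nat.card (ConjClasses (X ⧸ N))) * (Nat.card (X ⧸ N) * Nat.card N) := by ring
  exact Nat.le_of_mul_le_mul_right h' hpos

end Cfsg.Agent.S4201
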