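import Mathlib
import Cfsg.Statements.S4203
import Cfsg.Agent.Lib.Helper1.MaxPrime
import Cfsg.Agent.Lib.Lead.Char8

namespace Cfsg.Agent.S4203

universe u

/-- a number all of whose prime divisors are `2` or `3` is `2 ^ a * 3 ^ b` -/
theorem eq_two_pow_mul_three_pow (n : ℕ) (hn : n ≠ 0)
    (h : ∀ q : ℕ, q.Prime → q ∣ n → q = 2 ∨ q = 3) : ∃ a b : ℕ, n = 2 ^ a * 3 ^ b := by
  refine ⟨n.factorization 2, n.factorization 3, ?_⟩
  have h1 := Nat.prod_factorization_pow_eq_self hn
  have hsub : n.factorization.support ⊆ ({2, 3} : Finset ℕ) := by
    intro q hq
    rw [Nat.support_factorization, Nat.mem_primeFactors] at hq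
    rcases h q hq.1 hq.2.1 with h2 | h2
    · rw [h2]; simp
    · rw [h2]; simp
  rw [Finsupp.prod_of_support_subset _ hsub _ (fun _ _ => pow_zero _),
    Finset.prod_pair (by norm_num)] at h1
  exact h1.symm

theorem aux : ∀ (n : ℕ) (G : Type u) [Group G] [Finite G],
    Nat.card G ≤ n →
    (∀ M : Subgroup G, IsCoatom M → ∃ p : ℕ, p.Prime ∧ (M.index = p ∨ M.index = p ^ 2)) →
    Group.IsSolvable G := by
  intro n
  induction n with
  | zero =>
    intro G _ _ hn
    exact absurd hn (by have := Nat.card_pos (α := G); omega)
  | succ n ih =>
    intro G _ _ hn h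
    by_cases hnt : Nontrivial G
    · have h1 : 1 < Nat.card G := Finite.one_lt_card
      have hne : (Nat.card G).primeFactors.Nonempty := Nat.nonempty_primeFactors.mpr h1
      obtain ⟨p, hp⟩ : ∃ p, p = (Nat.card G).primeFactors.max' hne := ⟨_, rfl⟩
      have hpmem : p ∈ (Nat.card G).primeFactors := by rw [hp]; exact Finset.max'_mem _ _
      have hpp : p.Prime := (Nat.mem_primeFactors.mp hpmem).1
      have hpd : p ∣ Nat.card G := (Nat.mem_primeFactors.mp hpmem).2.1
      have hmax : ∀ q : ℕ, q.Prime → q ∣ Nat.card G → q ≤ p := by
        intro q hq hqd
        rw [hp]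
        exact Finset.le_max' _ _ (Nat.mem_primeFactors.mpr ⟨hq, hqd, (Nat.card_pos).ne'⟩)
      haveI : Fact p.Prime := ⟨hpp⟩
      obtain ⟨P⟩ := (inferInstance : Nonempty (Sylow p G))
      by_cases hPn : (P : Subgroup G).Normal
      · haveI := hPn
        have hcard := Subgroup.card_eq_card_quotient_mul_card_subgroup (P : Subgroup G)
        have hPd : p ∣ Nat.card (P : Subgroup G) := P.dvd_card_of_dvd_card hpd
        have hle : Nat.card (G ⧸ (P : Subgroup G)) ≤ n := by
          have h2 := hpp.two_le
          have h3 := Nat.le_of_dvd Nat.card_pos hPd
          have hpos := Nat.card_pos (α := G ⧸ (P : Subgroup G))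
          nlinarith
        have hq : ∀ Mb : Subgroup (G ⧸ (P : Subgroup G)), IsCoatom Mb →
            ∃ q : ℕ, q.Prime ∧ (Mb.index = q ∨ Mb.index = q ^ 2) := by
          intro Mb hMb
          have h2 := h _ (Cfsg.Agent.Lib.Helper1.isCoatom_comap_mk (P : Subgroup G) Mb hMb)
          rwa [Subgroup.index_comap_of_surjective _ (QuotientGroup.mk'_surjective _)] at h2
        haveI : Group.IsSolvable (G ⧸ (P : Subgroup G)) := ih _ hle hq
        haveI : Group.IsNilpotent (P : Subgroup G) := P.isPGroup'.isNilpotent
        haveI : Group.IsSolvable (P : Subgroup G) := inferInstance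
        refine Group.isSolvable_of_ker_le_range (P : Subgroup G).subtype
          (QuotientGroup.mk' (P : Subgroup G)) ?_
        rw [QuotientGroup.ker_mk', Subgroup.range_subtype]
      · have hN : Subgroup.normalizer ((P : Subgroup G) : Set G) ≠ ⊤ := by
          intro htop
          exact hPn (Subgroup.normalizer_eq_top_iff.mp htop)
        rcases eq_top_or_exists_le_coatom (Subgroup.normalizer ((P : Subgroup G) : Set G))
          with h2 | h2
        · exact absurd h2 hN
        · obtain ⟨M, hM, hle⟩ := h2
          obtain ⟨q, hq, hidx⟩ := h M hM
          have hmod : M.index % p = 1 % p :=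
            Cfsg.Agent.Lib.Helper1.index_modEq_one_of_normalizer_le P M hle
          rw [Nat.mod_eq_of_lt hpp.one_lt] at hmod
          have hqd : q ∣ Nat.card G := by
            rcases hidx with h3 | h3
            · rw [← h3]; exact Subgroup.index_dvd_card M
            · have h4 : q ^ 2 ∣ Nat.card G := by rw [← h3]; exact Subgroup.index_dvd_card M
              exact (dvd_pow_self q (by norm_num)).trans h4
          have hqle := hmax q hq hqd
          -- the only possibility is `q = 2`, `p = 3`
          have hqp : q = 2 ∧ p = 3 := by
            rcases hidx with h3 | h3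
            · rw [h3] at hmod
              rcases eq_or_lt_of_le hqle with heq | hlt
              · rw [heq, Nat.mod_self] at hmod
                exact absurd hmod (by norm_num)
              · rw [Nat.mod_eq_of_lt hlt] at hmod
                rw [hmod] at hq
                exact absurd hq Nat.not_prime_one
            · rw [h3] at hmod
              rcases eq_or_lt_of_le hqle with heq | hlt
              · rw [heq, pow_two, Nat.mul_mod_left] at hmod
                exact absurd hmod (by norm_num)
              · have hq1 : 1 ≤ q ^ 2 := Nat.one_le_pow _ _ hq.pos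
                have h4 : p ∣ q ^ 2 - 1 := by
                  have h5 : 1 ≡ q ^ 2 [MOD p] := by
                    rw [Nat.ModEq, Nat.mod_eq_of_lt hpp.one_lt, hmod]
                  exact (Nat.modEq_iff_dvd' hq1).mp h5
                have h9 : q ^ 2 - 1 = (q - 1) * (q + 1) := by
                  have h10 : 1 ≤ q := hq.pos
                  zify [hq1, h10]
                  ring
                rw [h9] at h4
                rcases (Nat.Prime.dvd_mul hpp).mp h4 with h10 | h10
                · have h11 : 0 < q - 1 := by have := hq.two_le; omega
                  have h12 := Nat.le_of_dvd h11 h10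
                  omega
                · have h12 := Nat.le_of_dvd (by omega) h10
                  have hpq : p = q + 1 := by omega
                  rcases Nat.Prime.eq_two_or_odd' hq with h13 | h13
                  · exact ⟨h13, by omega⟩
                  · rcases Nat.Prime.eq_two_or_odd' hpp with h14 | h14
                    · have := hq.two_le; omega
                    · exfalso
                      rw [hpq] at h14
                      exact (Nat.not_even_iff_odd.mpr h14) (Nat.even_add_one.mpr
                        (Nat.not_even_iff_odd.mpr h13))
          obtain ⟨a, b, hab⟩ := eq_two_pow_mul_three_pow (Nat.card G) Nat.card_pos.ne' (by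
            intro r hr hrd
            have h3 := hmax r hr hrd
            rw [hqp.2] at h3
            have h4 := hr.two_le
            interval_cases r
            · left; rfl
            · right; rfl)
          exact Cfsg.Agent.Lib.Lead.burnside_paqb 2 3 a b Nat.prime_two Nat.prime_three hab
    · rw [not_nontrivial_iff_subsingleton] at hnt
      exact Group.isSolvable_of_comm (fun a b => Subsingleton.elim _ _)

/-- A finite group in which every maximal subgroup has index a prime or the square of a prime is solvable. -/
theorem result {G : Type*} [Group G] [Finite G] (h : ∀ M : Subgroup G, IsCoatom M → ∃ p : ℕ, p.Prime ∧ (M.index = p ∨ M.index = p ^ 2)) : Group.IsSolvable G := by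
  exact aux (Nat.card G) G le_rfl h

end Cfsg.Agent.S4203
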