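import Mathlib
import Cfsg.Statements.S4205

set_option autoImplicit false
open Cfsg

namespace Cfsg.Agent.S4205

theorem aux {G : Type*} [Group G] (H : Subgroup G) (i : ℕ) :
    Subgroup.upperCentralSeries G i ≤ (fun K : Subgroup G => Subgroup.normalizer (K : Set G))^[i] H := by
  induction i with
  | zero => simp
  | succ i ih =>
    rw [Function.iterate_succ_apply']
    intro z hz
    have hz' : z⁻¹ ∈ Subgroup.upperCentralSeries G (i + 1) := inv_mem hz
    rw [Subgroup.mem_upperCentralSeries_succ_iff] at hz hz'
    rw [Subgroup.mem_normalizer_iff]
    intro h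
    constructor
    · intro hh
      have h1 := ih (hz h)
      have : z * h * z⁻¹ = (z * h * z⁻¹ * h⁻¹) * h := by group
      rw [this]
      exact mul_mem h1 hh
    · intro hh
      have h1 := ih (hz' (z * h * z⁻¹))
      have : h = (z⁻¹ * (z * h * z⁻¹) * z⁻¹⁻¹ * (z * h * z⁻¹)⁻¹) * (z * h * z⁻¹) := by group
      rw [this]
      exact mul_mem h1 hh

/-- In a finite group whose upper central series reaches the whole group at step `c` (nilpotent of class at most `c`), starting from any subgroup and taking normalizers `c` times reaches the whole group. -/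
theorem result {G : Type*} [Group G] [Finite G] (c : ℕ) (hG : Subgroup.upperCentralSeries G c = ⊤) (H : Subgroup G) : (fun K : Subgroup G => Subgroup.normalizer (K : Set G))^[c] H = ⊤ := by
  have := aux H c
  rw [hG] at this
  exact top_le_iff.1 this

end Cfsg.Agent.S4205
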