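import Mathlib
import Cfsg.Statements.S4208
import Cfsg.Agent.S0014
import Cfsg.Agent.Lib.Helper7.FreeAct

set_option autoImplicit false
open Cfsg

namespace Cfsg.Agent.S4208



open Cfsg.Agent.Lib.Helper7

section cnt

variable {G : Type*} [Group G] [Finite G] {p : ℕ} [Fact p.Prime]

theorem step (hG : IsPGroup p G) (H : Subgroup G) (hH : frattini G ≤ H) (a : G) (ha : a ∉ H) :
    Nat.card ↥(H ⊔ Subgroup.zpowers a) = p * Nat.card H := by
  obtain ⟨hcomm, hpow⟩ := Cfsg.Agent.Lib.Lead.commutator_le_frattini_and_pow_mem hG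
  haveI hHn : H.Normal := by
    constructor
    intro x hx g
    have h1 : g * x * g⁻¹ * x⁻¹ ∈ H := by
      apply hH
      apply hcomm
      rw [commutator_def]
      exact Subgroup.commutator_mem_commutator (Subgroup.mem_top g) (Subgroup.mem_top x)
    have h2 : g * x * g⁻¹ = (g * x * g⁻¹ * x⁻¹) * x := by group
    rw [h2]
    exact H.mul_mem h1 hx
  have h1 := Cfsg.Agent.Lib.Lead.relIndex_mul_card_of_le (le_sup_left : H ≤ H ⊔ Subgroup.zpowers a)
  rw [Subgroup.relIndex_sup_left] at h1
  have h2 : H.relIndex (Subgroup.zpowers a) = p := by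
    have h3 := Subgroup.relIndex_ker (K := Subgroup.zpowers a) (QuotientGroup.mk' H)
    rw [QuotientGroup.ker_mk'] at h3
    rw [h3, MonoidHom.map_zpowers, Nat.card_zpowers]
    apply orderOf_eq_prime
    · rw [← map_pow]
      exact (QuotientGroup.eq_one_iff _).mpr (hH (hpow a))
    · intro h
      exact ha ((QuotientGroup.eq_one_iff _).mp h)
  rw [h2] at h1
  exact h1.symm

/-- the subgroup generated by the Frattini subgroup and a tuple -/
def HH {k : ℕ} (t : Fin k → G) : Subgroup G := frattini G ⊔ Subgroup.closure (Set.range t)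

omit [Finite G] in
theorem frattini_le_HH {k : ℕ} (t : Fin k → G) : frattini G ≤ HH t := le_sup_left

omit [Finite G] in
theorem HH_cons {k : ℕ} (x : G) (t : Fin k → G) :
    HH (Fin.cons x t : Fin (k + 1) → G) = HH t ⊔ Subgroup.zpowers x := by
  unfold HH
  rw [Fin.range_cons, Set.insert_eq, Subgroup.closure_union, Subgroup.zpowers_eq_closure]
  ac_rfl

theorem HH_bound (hG : IsPGroup p G) (m : ℕ) (hm : Nat.card (frattini G) = p ^ m) :
    ∀ (k : ℕ) (t : Fin k → G), ∃ j ≤ k, Nat.card (HH t) = p ^ (m + j) := by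
  intro k
  induction k with
  | zero =>
    intro t
    refine ⟨0, le_rfl, ?_⟩
    have h1 : HH t = frattini G := by
      unfold HH
      have h2 : Set.range t = ∅ := Set.range_eq_empty t
      rw [h2, Subgroup.closure_empty, sup_bot_eq]
    rw [h1, hm]; rfl
  | succ k ih =>
    intro t
    obtain ⟨j, hj, hc⟩ := ih (Fin.tail t)
    have ht : t = Fin.cons (t 0) (Fin.tail t) := (Fin.cons_self_tail t).symm
    have h1 : HH t = HH (Fin.tail t) ⊔ Subgroup.zpowers (t 0) := by
      conv_lhs => rw [ht]
      exact HH_cons _ _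
    rw [h1]
    by_cases hx : t 0 ∈ HH (Fin.tail t)
    · refine ⟨j, by omega, ?_⟩
      rw [sup_of_le_left (Subgroup.zpowers_le.mpr hx)]; exact hc
    · refine ⟨j + 1, by omega, ?_⟩
      rw [step hG (HH (Fin.tail t)) (frattini_le_HH _) _ hx, hc]; ring

theorem good_cons (hG : IsPGroup p G) (m : ℕ) (hm : Nat.card (frattini G) = p ^ m) (k : ℕ)
    (x : G) (t : Fin k → G) :
    Nat.card (HH (Fin.cons x t : Fin (k + 1) → G)) = p ^ (m + (k + 1))
      ↔ (Nat.card (HH t) = p ^ (m + k) ∧ x ∉ HH t) := by
  have hp := (Fact.out : p.Prime)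
  rw [HH_cons]
  obtain ⟨j, hj, hc⟩ := HH_bound hG m hm k t
  constructor
  · intro h
    by_cases hx : x ∈ HH t
    · rw [sup_of_le_left (Subgroup.zpowers_le.mpr hx), hc] at h
      have h2 := Nat.pow_right_injective hp.two_le h
      omega
    · rw [step hG (HH t) (frattini_le_HH _) _ hx, hc] at h
      have h2 : p ^ (m + j + 1) = p ^ (m + (k + 1)) := by rw [← h]; ring
      have h3 := Nat.pow_right_injective hp.two_le h2
      have hjk : j = k := by omega
      exact ⟨by rw [hc, hjk], hx⟩
  · rintro ⟨h1, hx⟩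
    rw [step hG (HH t) (frattini_le_HH _) _ hx, h1]; ring

theorem count_good (hG : IsPGroup p G) (m n : ℕ) (hm : Nat.card (frattini G) = p ^ m)
    (hn : Nat.card G = p ^ n) : ∀ k : ℕ,
    Nat.card {t : Fin k → G // Nat.card (HH t) = p ^ (m + k)}
      = ∏ i ∈ Finset.range k, (p ^ n - p ^ (m + i)) := by
  intro k
  induction k with
  | zero =>
    rw [Finset.range_zero, Finset.prod_empty, Nat.card_eq_one_iff_unique]
    constructor
    · exact ⟨fun a b => Subtype.ext (Subsingleton.elim _ _)⟩
    · refine ⟨⟨Fin.elim0, ?_⟩⟩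
      obtain ⟨j, hj, hc⟩ := HH_bound hG m hm 0 (Fin.elim0 : Fin 0 → G)
      have h0 : j = 0 := by omega
      rw [hc, h0]
  | succ k ih =>
    classical
    haveI : Fintype G := Fintype.ofFinite G
    haveI : Fintype {t : Fin k → G // Nat.card (HH t) = p ^ (m + k)} := Fintype.ofFinite _
    have e1 : {t : Fin (k + 1) → G // Nat.card (HH t) = p ^ (m + (k + 1))}
        ≃ {y : G × (Fin k → G) // Nat.card (HH y.2) = p ^ (m + k) ∧ y.1 ∉ HH y.2} :=
      (Equiv.subtypeEquiv (Fin.consEquiv (fun _ => G)) (fun y => by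
        show _ ↔ Nat.card (HH (Fin.cons y.1 y.2 : Fin (k + 1) → G)) = _
        exact (good_cons hG m hm k y.1 y.2).symm)).symm
    have e2 : {y : G × (Fin k → G) // Nat.card (HH y.2) = p ^ (m + k) ∧ y.1 ∉ HH y.2}
        ≃ Σ t : {t : Fin k → G // Nat.card (HH t) = p ^ (m + k)}, {x : G // x ∉ HH t.1} :=
      { toFun := fun y => ⟨⟨y.1.2, y.2.1⟩, ⟨y.1.1, y.2.2⟩⟩
        invFun := fun s => ⟨(s.2.1, s.1.1), ⟨s.1.2, s.2.2⟩⟩
        left_inv := fun y => rfl
        right_inv := fun s => rfl }
    rw [Nat.card_congr (e1.trans e2), Nat.card_sigma]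
    have hterm : ∀ t : {t : Fin k → G // Nat.card (HH t) = p ^ (m + k)},
        Nat.card {x : G // x ∉ HH t.1} = p ^ n - p ^ (m + k) := by
      intro t
      rw [Nat.card_eq_fintype_card, Fintype.card_subtype_compl, ← Nat.card_eq_fintype_card,
        ← Nat.card_eq_fintype_card, hn]
      have h2 : Nat.card {x : G // x ∈ HH t.1} = p ^ (m + k) := t.2
      rw [h2]
    rw [Finset.sum_congr rfl (fun t _ => hterm t), Finset.sum_const, Finset.card_univ,
      ← Nat.card_eq_fintype_card, ih, Finset.prod_range_succ, smul_eq_mul]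

end cnt

/-- Let `P` be a group of order `p^n` whose Frattini subgroup has index `p^r`. Then the order of the automorphism group of `P` divides `p^(r(n-r)) · (p^r - 1)(p^r - p) ⋯ (p^r - p^(r-1))`. -/
theorem result {P : Type*} [Group P] [Finite P] {p n r : ℕ} [Fact p.Prime] (hP : Nat.card P = p ^ n) (hr : (frattini P).index = p ^ r) : Nat.card (MulAut P) ∣ p ^ (r * (n - r)) * ∏ i ∈ Finset.range r, (p ^ r - p ^ i) := by
  classical
  have hp := (Fact.out : p.Prime)
  have hPG : IsPGroup p P := IsPGroup.of_card hP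
  have hrn : r ≤ n := by
    have h2 := Subgroup.card_mul_index (frattini P)
    rw [hr, hP] at h2
    have h3 : p ^ r ∣ p ^ n := ⟨_, by rw [← h2, mul_comm]⟩
    exact (Nat.pow_dvd_pow_iff_le_right hp.one_lt).mp h3
  have hΦ : Nat.card (frattini P) = p ^ (n - r) := by
    have h2 := Subgroup.card_mul_index (frattini P)
    rw [hr, hP] at h2
    have h3 : p ^ n = p ^ (n - r) * p ^ r := by rw [← pow_add, Nat.sub_add_cancel hrn]
    rw [h3] at h2
    exact Nat.eq_of_mul_eq_mul_right (pow_pos hp.pos r) h2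
  set m := n - r with hm
  have hmn : m + r = n := by omega
  let S : SubMulAction (MulAut P) (Fin r → P) :=
    { carrier := {t | Subgroup.closure (Set.range t) = ⊤}
      smul_mem' := by
        intro a t ht
        show Subgroup.closure (Set.range (a • t)) = ⊤
        have h1 : Set.range (a • t) = (MulEquiv.toMonoidHom a) '' Set.range t := by
          rw [← Set.range_comp]; rfl
        have h2 := MonoidHom.map_closure (MulEquiv.toMonoidHom a) (Set.range t)
        have ht' : Subgroup.closure (Set.range t) = ⊤ := ht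
        rw [ht'] at h2
        rw [h1, ← h2]
        exact Subgroup.map_top_of_surjective _ (MulEquiv.surjective a) }
  have hfree : ∀ (a : MulAut P) (t : S), a • t = t → a = 1 := by
    intro a t hat
    have hfix : ∀ i, a (t.1 i) = t.1 i := fun i => congrArg (fun s : S => s.1 i) hat
    have hmon : MulEquiv.toMonoidHom a = MonoidHom.id P := by
      apply MonoidHom.eq_of_eqOn_dense t.2
      rintro _ ⟨i, rfl⟩
      exact hfix i
    ext x
    exact DFunLike.congr_fun hmon x
  have hdvd := card_dvd_of_free hfree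
  have hS : Nat.card S = ∏ i ∈ Finset.range r, (p ^ n - p ^ (m + i)) := by
    rw [← count_good hPG m n hΦ hP r]
    apply Nat.card_congr
    apply Equiv.subtypeEquivRight
    intro t
    show Subgroup.closure (Set.range t) = ⊤ ↔ Nat.card (HH t) = p ^ (m + r)
    rw [hmn, ← hP]
    constructor
    · intro h
      unfold HH
      rw [h, sup_top_eq, Subgroup.card_top]
    · intro h
      have h2 : HH t = ⊤ := (Subgroup.card_eq_iff_eq_top (HH t)).mp h
      apply frattini_nongenerating
      rw [sup_comm]; exact h2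
  rw [hS] at hdvd
  have hprod : ∏ i ∈ Finset.range r, (p ^ n - p ^ (m + i))
      = p ^ (r * (n - r)) * ∏ i ∈ Finset.range r, (p ^ r - p ^ i) := by
    have h1 : ∀ i ∈ Finset.range r, p ^ n - p ^ (m + i) = p ^ m * (p ^ r - p ^ i) := by
      intro i _
      rw [Nat.mul_sub, ← pow_add, ← pow_add, hmn]
    rw [Finset.prod_congr rfl h1, Finset.prod_mul_distrib, Finset.prod_const, Finset.card_range,
      ← pow_mul, mul_comm m r]
  rw [hprod] at hdvd
  exact hdvd

end Cfsg.Agent.S4208
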