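import Mathlib
import Cfsg.Statements.S4211
import Cfsg.Agent.Lib.Helper8.GL1
import Cfsg.Agent.Lib.Lead.QuatLift

set_option autoImplicit false
open Cfsg

namespace Cfsg.Agent.S4211



variable {G : Type*} [Group G]

theorem comm_pow (a b : G) (hc : Commute (a * b * a⁻¹ * b⁻¹) a) (k : ℕ) :
    a ^ k * b * (a ^ k)⁻¹ * b⁻¹ = (a * b * a⁻¹ * b⁻¹) ^ k := by
  induction k with
  | zero => simp
  | succ k ih =>
    have e : a ^ (k + 1) * b * (a ^ (k + 1))⁻¹ * b⁻¹ =
        a * (a ^ k * b * (a ^ k)⁻¹ * b⁻¹) * (b * a⁻¹ * b⁻¹) := by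
      rw [pow_succ']; group
    rw [e, ih]
    have h2 : Commute ((a * b * a⁻¹ * b⁻¹) ^ k) a := hc.pow_left k
    calc a * (a * b * a⁻¹ * b⁻¹) ^ k * (b * a⁻¹ * b⁻¹)
        = (a * b * a⁻¹ * b⁻¹) ^ k * a * (b * a⁻¹ * b⁻¹) := by rw [h2.eq]
      _ = (a * b * a⁻¹ * b⁻¹) ^ k * (a * b * a⁻¹ * b⁻¹) := by group
      _ = (a * b * a⁻¹ * b⁻¹) ^ (k + 1) := (pow_succ _ _).symm

theorem min_pair_q8 [Finite G] (hn : ∀ H : Subgroup G, H.Normal) (a b : G) (hab : a * b ≠ b * a)
    (hmin : ∀ a' b' : G, a' * b' ≠ b' * a' → orderOf a + orderOf b ≤ orderOf a' + orderOf b')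
    (hle : orderOf b ≤ orderOf a) :
    orderOf a = 4 ∧ a ^ 2 = b ^ 2 ∧ a * b * a = b := by
  classical
  obtain ⟨c, hc⟩ : ∃ c, c = a * b * a⁻¹ * b⁻¹ := ⟨_, rfl⟩
  have hc1 : c ≠ 1 := by
    intro h
    apply hab
    have : a * b = c * (b * a) := by rw [hc]; group
    rw [this, h, one_mul]
  have hca : c ∈ Subgroup.zpowers a := by
    have h1 : b * a⁻¹ * b⁻¹ ∈ Subgroup.zpowers a :=
      (hn (Subgroup.zpowers a)).conj_mem _ (Subgroup.inv_mem _ (Subgroup.mem_zpowers a)) b
    have : c = a * (b * a⁻¹ * b⁻¹) := by rw [hc]; group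
    rw [this]
    exact Subgroup.mul_mem _ (Subgroup.mem_zpowers a) h1
  have hcb : c ∈ Subgroup.zpowers b := by
    have h1 : a * b * a⁻¹ ∈ Subgroup.zpowers b :=
      (hn (Subgroup.zpowers b)).conj_mem _ (Subgroup.mem_zpowers b) a
    rw [hc]
    exact Subgroup.mul_mem _ h1 (Subgroup.inv_mem _ (Subgroup.mem_zpowers b))
  have hcomma : Commute c a := by
    obtain ⟨k, hk⟩ := Subgroup.mem_zpowers_iff.mp hca
    rw [← hk]
    exact (Commute.refl a).zpow_left k
  have hcommb : Commute c b := by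
    obtain ⟨k, hk⟩ := Subgroup.mem_zpowers_iff.mp hcb
    rw [← hk]
    exact (Commute.refl b).zpow_left k
  have hpa : ∀ k : ℕ, a ^ k * b * (a ^ k)⁻¹ * b⁻¹ = c ^ k := by
    intro k
    rw [hc]
    exact comm_pow a b (hc ▸ hcomma) k
  have hc' : b * a * b⁻¹ * a⁻¹ = c⁻¹ := by rw [hc]; group
  have hpb : ∀ k : ℕ, b ^ k * a * (b ^ k)⁻¹ * a⁻¹ = (c⁻¹) ^ k := by
    intro k
    have := comm_pow b a (by rw [hc']; exact hcommb.inv_left) k
    rw [hc'] at this
    exact this
  have ha_pos : 0 < orderOf a := orderOf_pos a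
  have hb_pos : 0 < orderOf b := orderOf_pos b
  have hqa : ∀ q : ℕ, q.Prime → q ∣ orderOf a → c ^ q = 1 := by
    intro q hq hqa
    by_contra hne
    have hnc : a ^ q * b ≠ b * a ^ q := by
      intro h
      apply hne
      rw [← hpa q, h]; group
    have h1 := hmin (a ^ q) b hnc
    have h2 : orderOf (a ^ q) < orderOf a := by
      rw [orderOf_pow' a hq.ne_zero, Nat.gcd_eq_right hqa]
      exact Nat.div_lt_self ha_pos hq.one_lt
    omega
  have hqb : ∀ q : ℕ, q.Prime → q ∣ orderOf b → c ^ q = 1 := by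
    intro q hq hqb
    by_contra hne
    have hnc : a * b ^ q ≠ b ^ q * a := by
      intro h
      apply hne
      have h3 : (c⁻¹) ^ q = 1 := by rw [← hpb q, ← h]; group
      rw [inv_pow, inv_eq_one] at h3
      exact h3
    have h1 := hmin a (b ^ q) hnc
    have h2 : orderOf (b ^ q) < orderOf b := by
      rw [orderOf_pow' b hq.ne_zero, Nat.gcd_eq_right hqb]
      exact Nat.div_lt_self hb_pos hq.one_lt
    omega
  have ha1 : orderOf a ≠ 1 := by
    intro h
    rw [orderOf_eq_one_iff] at h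
    apply hab; rw [h]; simp
  have hb1 : orderOf b ≠ 1 := by
    intro h
    rw [orderOf_eq_one_iff] at h
    apply hab; rw [h]; simp
  obtain ⟨p, hp, hpa'⟩ := Nat.exists_prime_and_dvd ha1
  haveI : Fact p.Prime := ⟨hp⟩
  have hcp : orderOf c = p := orderOf_eq_prime (hqa p hp hpa') hc1
  have huniq : ∀ q : ℕ, q.Prime → c ^ q = 1 → q = p := by
    intro q hq hcq
    have : p ∣ q := by rw [← hcp]; exact orderOf_dvd_of_pow_eq_one hcq
    exact ((Nat.prime_dvd_prime_iff_eq hp hq).mp this).symm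
  obtain ⟨m, hm⟩ : ∃ m, orderOf a = p ^ m :=
    ⟨_, Nat.eq_prime_pow_of_unique_prime_dvd ha_pos.ne' (fun {d} hd hda => huniq d hd (hqa d hd hda))⟩
  obtain ⟨n, hn'⟩ : ∃ n, orderOf b = p ^ n :=
    ⟨_, Nat.eq_prime_pow_of_unique_prime_dvd hb_pos.ne' (fun {d} hd hdb => huniq d hd (hqb d hd hdb))⟩
  have hm1 : 1 ≤ m := by
    rcases Nat.eq_zero_or_pos m with h | h
    · rw [h, pow_zero] at hm; exact absurd hm ha1
    · exact h
  have hn1 : 1 ≤ n := by
    rcases Nat.eq_zero_or_pos n with h | h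
    · rw [h, pow_zero] at hn'; exact absurd hn' hb1
    · exact h
  have hnm : n ≤ m := by
    rw [hm, hn'] at hle
    exact (Nat.pow_le_pow_iff_right hp.one_lt).mp hle
  have hsub : ∀ (x : G) (k : ℕ), orderOf x = p ^ k → 1 ≤ k → c ∈ Subgroup.zpowers x →
      Subgroup.zpowers c = Subgroup.zpowers (x ^ p ^ (k - 1)) := by
    intro x k hx hk hcx
    have hord : orderOf (x ^ p ^ (k - 1)) = p := by
      rw [orderOf_pow' x (pow_pos hp.pos _).ne', hx,
        Nat.gcd_eq_right (pow_dvd_pow p (Nat.sub_le k 1)), Nat.pow_div (Nat.sub_le k 1) hp.pos]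
      have : k - (k - 1) = 1 := by omega
      rw [this, pow_one]
    apply Subgroup.eq_of_le_of_card_ge
    · rw [Subgroup.zpowers_le]
      obtain ⟨j, hj⟩ := Subgroup.mem_zpowers_iff.mp hcx
      have h1 : x ^ (j * p) = 1 := by
        rw [zpow_mul, hj, zpow_natCast, ← hcp, pow_orderOf_eq_one]
      have h2 : (orderOf x : ℤ) ∣ j * p := orderOf_dvd_iff_zpow_eq_one.mpr h1
      rw [hx] at h2
      have h3 : ((p ^ (k - 1) : ℕ) : ℤ) ∣ j := by
        have e : (p ^ k : ℕ) = p ^ (k - 1) * p := by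
          rw [← pow_succ]; congr 1; omega
        rw [e] at h2
        push_cast at h2 ⊢
        exact Int.dvd_of_mul_dvd_mul_right (by exact_mod_cast hp.ne_zero) h2
      obtain ⟨t, ht⟩ := h3
      rw [← hj, ht, zpow_mul, zpow_natCast]
      exact Subgroup.zpow_mem _ (Subgroup.mem_zpowers _) t
    · rw [Nat.card_zpowers, Nat.card_zpowers, hord, hcp]
  have hza := hsub a m hm hm1 hca
  have hzb := hsub b n hn' hn1 hcb
  have hbN : (b ^ p ^ (n - 1))⁻¹ ∈ Subgroup.zpowers (a ^ p ^ (m - 1)) := by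
    rw [← hza, hzb]
    exact Subgroup.inv_mem _ (Subgroup.mem_zpowers _)
  obtain ⟨u, hu⟩ := mem_powers_iff_mem_zpowers.mpr hbN
  have hu' : (a ^ p ^ (m - 1)) ^ u = (b ^ p ^ (n - 1))⁻¹ := hu
  have hz : (a ^ (u * p ^ (m - n)))⁻¹ * b * a ^ (u * p ^ (m - n)) * b⁻¹ =
      (c ^ (u * p ^ (m - n)))⁻¹ := by
    have h1 := hpa (u * p ^ (m - n))
    have h2 : (a ^ (u * p ^ (m - n)))⁻¹ * b * a ^ (u * p ^ (m - n)) * b⁻¹ =
        (a ^ (u * p ^ (m - n)))⁻¹ *
          (a ^ (u * p ^ (m - n)) * b * (a ^ (u * p ^ (m - n)))⁻¹ * b⁻¹)⁻¹ *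
          a ^ (u * p ^ (m - n)) := by group
    rw [h2, h1]
    have h3 : Commute (c ^ (u * p ^ (m - n)))⁻¹ (a ^ (u * p ^ (m - n))) :=
      ((hcomma.pow_left _).inv_left).pow_right _
    calc (a ^ (u * p ^ (m - n)))⁻¹ * (c ^ (u * p ^ (m - n)))⁻¹ * a ^ (u * p ^ (m - n))
        = (a ^ (u * p ^ (m - n)))⁻¹ * ((c ^ (u * p ^ (m - n)))⁻¹ * a ^ (u * p ^ (m - n))) := by
          group
      _ = (a ^ (u * p ^ (m - n)))⁻¹ * (a ^ (u * p ^ (m - n)) * (c ^ (u * p ^ (m - n)))⁻¹) := by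
          rw [h3.eq]
      _ = (c ^ (u * p ^ (m - n)))⁻¹ := by group
  have hpow := Cfsg.Agent.Lib.Helper8.class2_pow (a ^ (u * p ^ (m - n))) b
    ((c ^ (u * p ^ (m - n)))⁻¹) hz.symm
    (((hcomma.pow_left _).inv_left).pow_right _) ((hcommb.pow_left _).inv_left) (p ^ (n - 1))
  have hxN : (a ^ (u * p ^ (m - n))) ^ p ^ (n - 1) = (b ^ p ^ (n - 1))⁻¹ := by
    rw [← hu', ← pow_mul, ← pow_mul]
    congr 1
    rw [mul_assoc, ← pow_add, mul_comm]
    congr 2
    omega
  rw [hxN, inv_mul_cancel, one_mul] at hpow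
  have hndvd : ¬ p ∣ (u * p ^ (m - n)) * ∑ j ∈ Finset.range (p ^ (n - 1)), j := by
    intro hd
    have h1 : (a ^ (u * p ^ (m - n)) * b) ^ p ^ (n - 1) = 1 := by
      rw [hpow, inv_pow, ← pow_mul, inv_eq_one]
      have hd' : orderOf c ∣ (u * p ^ (m - n)) * ∑ j ∈ Finset.range (p ^ (n - 1)), j := by
        rw [hcp]; exact hd
      exact orderOf_dvd_iff_pow_eq_one.mp hd'
    have h2 : orderOf (a ^ (u * p ^ (m - n)) * b) ∣ p ^ (n - 1) := orderOf_dvd_of_pow_eq_one h1
    have h3 : orderOf (a ^ (u * p ^ (m - n)) * b) ≤ p ^ (n - 1) :=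
      Nat.le_of_dvd (pow_pos hp.pos _) h2
    have h4 : p ^ (n - 1) < orderOf b := by
      rw [hn']; exact Nat.pow_lt_pow_right hp.one_lt (by omega)
    have hnc : a * (a ^ (u * p ^ (m - n)) * b) ≠ (a ^ (u * p ^ (m - n)) * b) * a := by
      intro h
      apply hab
      have hax : a * a ^ (u * p ^ (m - n)) = a ^ (u * p ^ (m - n)) * a :=
        ((Commute.refl a).pow_right _).eq
      have : a ^ (u * p ^ (m - n)) * (a * b) = a ^ (u * p ^ (m - n)) * (b * a) := by
        calc a ^ (u * p ^ (m - n)) * (a * b) = a * (a ^ (u * p ^ (m - n)) * b) := by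
              rw [← mul_assoc, ← hax, mul_assoc]
          _ = a ^ (u * p ^ (m - n)) * b * a := h
          _ = a ^ (u * p ^ (m - n)) * (b * a) := mul_assoc _ _ _
      exact mul_left_cancel this
    have := hmin a (a ^ (u * p ^ (m - n)) * b) hnc
    omega
  have harith : m = n ∧ p = 2 ∧ n = 2 := by
    by_contra hcon
    apply hndvd
    by_cases hmn : m = n
    · have hS := Finset.sum_range_id_mul_two (p ^ (n - 1))
      apply Dvd.dvd.mul_left
      by_cases hn1' : n = 1
      · have : p ^ (n - 1) = 1 := by rw [hn1']; simp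
        rw [this]; simp
      by_cases hp2 : p = 2
      · have hn3 : 3 ≤ n := by
          by_contra h; apply hcon; exact ⟨hmn, hp2, by omega⟩
        have h4 : 4 ∣ p ^ (n - 1) := by
          rw [hp2]
          exact (show (4 : ℕ) = 2 ^ 2 by norm_num) ▸ pow_dvd_pow 2 (by omega)
        have : 4 ∣ (∑ j ∈ Finset.range (p ^ (n - 1)), j) * 2 := by rw [hS]; exact h4.mul_right _
        rw [hp2] at this ⊢
        omega
      · have hpN : p ∣ p ^ (n - 1) := dvd_pow_self p (by omega)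
        have : p ∣ (∑ j ∈ Finset.range (p ^ (n - 1)), j) * 2 := by rw [hS]; exact hpN.mul_right _
        rcases (Nat.Prime.dvd_mul hp).mp this with h | h
        · exact h
        · exact absurd ((Nat.prime_dvd_prime_iff_eq hp Nat.prime_two).mp h) hp2
    · apply Dvd.dvd.mul_right
      apply Dvd.dvd.mul_left
      exact dvd_pow_self p (by omega)
  obtain ⟨hmn, hp2, hn2⟩ := harith
  rw [hmn, hp2, hn2] at hm
  rw [hp2, hn2] at hn'
  rw [hmn, hp2, hn2] at hza
  rw [hp2, hn2] at hzb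
  rw [hp2] at hcp
  have h4 : orderOf a = 4 := by rw [hm]; norm_num
  have key : ∀ x : G, orderOf x = 2 ^ 2 → Subgroup.zpowers c = Subgroup.zpowers (x ^ 2 ^ (2 - 1)) →
      c = x ^ 2 := by
    intro x hx hzx
    have hx2 : orderOf (x ^ 2) = 2 := by
      rw [orderOf_pow' x (by norm_num), hx]; norm_num
    have hmem : c ∈ Subgroup.zpowers (x ^ 2) := by
      have : c ∈ Subgroup.zpowers c := Subgroup.mem_zpowers c
      rw [hzx] at this
      simpa using this
    obtain ⟨j, hj⟩ := mem_powers_iff_mem_zpowers.mpr hmem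
    have hj' : (x ^ 2) ^ j = c := hj
    rw [← pow_mod_orderOf, hx2] at hj'
    rcases Nat.mod_two_eq_zero_or_one j with h | h
    · rw [h, pow_zero] at hj'; exact absurd hj'.symm hc1
    · rw [h, pow_one] at hj'; exact hj'.symm
  have hca2 := key a hm hza
  have hcb2 := key b hn' hzb
  refine ⟨h4, by rw [← hca2, ← hcb2], ?_⟩
  have e : a * b * a * b⁻¹ = c * (b * a ^ 2 * b⁻¹) := by rw [hc]; group
  rw [← hca2] at e
  have e2 : b * c * b⁻¹ = c := by rw [← hcommb.eq]; group
  rw [e2] at e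
  have e3 : c * c = 1 := by rw [← sq, ← hcp, pow_orderOf_eq_one]
  rw [e3] at e
  exact mul_inv_eq_one.mp e


theorem exists_q8 [Finite G] (hn : ∀ H : Subgroup G, H.Normal)
    (hna : ∃ a b : G, a * b ≠ b * a) :
    ∃ a b : G, orderOf a = 4 ∧ a ^ 2 = b ^ 2 ∧ a * b * a = b := by
  classical
  have hex : ∃ n, ∃ a b : G, a * b ≠ b * a ∧ orderOf a + orderOf b = n := by
    obtain ⟨a, b, hab⟩ := hna
    exact ⟨_, a, b, hab, rfl⟩
  obtain ⟨a, b, hab, hsum⟩ := Nat.find_spec hex
  have hmin : ∀ a' b' : G, a' * b' ≠ b' * a' →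
      orderOf a + orderOf b ≤ orderOf a' + orderOf b' := by
    intro a' b' h
    rw [hsum]
    exact Nat.find_min' hex ⟨a', b', h, rfl⟩
  rcases le_total (orderOf b) (orderOf a) with hle | hle
  · exact ⟨a, b, min_pair_q8 hn a b hab hmin hle⟩
  · have h := min_pair_q8 hn b a (fun h => hab h.symm) (by
      intro a' b' h
      have := hmin a' b' h
      omega) hle
    exact ⟨b, a, h⟩

theorem conj_eq_or_inv [Finite G] (hn : ∀ H : Subgroup G, H.Normal) (a x : G)
    (ha : orderOf a = 4) : x * a * x⁻¹ = a ∨ x * a * x⁻¹ = a⁻¹ := by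
  have hmem : x * a * x⁻¹ ∈ Subgroup.zpowers a :=
    (hn (Subgroup.zpowers a)).conj_mem _ (Subgroup.mem_zpowers a) x
  obtain ⟨k, hk⟩ := mem_powers_iff_mem_zpowers.mpr hmem
  have hk0 : a ^ k = x * a * x⁻¹ := hk
  have h4 : a ^ 4 = 1 := by rw [← ha]; exact pow_orderOf_eq_one a
  have hk' : a ^ (k % 4) = x * a * x⁻¹ := by
    rw [← hk0]
    conv_rhs => rw [← Nat.div_add_mod k 4, pow_add, pow_mul, h4, one_pow, one_mul]
  have ha1 : a ≠ 1 := by
    intro h; rw [h, orderOf_one] at ha; omega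
  have ha2 : a ^ 2 ≠ 1 := by
    intro h
    have := orderOf_dvd_of_pow_eq_one h
    rw [ha] at this; omega
  obtain ⟨r, hr⟩ : ∃ r, r = k % 4 := ⟨_, rfl⟩
  have hlt : r < 4 := by omega
  rw [← hr] at hk'
  interval_cases r
  · exfalso; apply ha1
    rw [pow_zero] at hk'
    have : a = x⁻¹ * (x * a * x⁻¹) * x := by group
    rw [this, ← hk']; group
  · left; rw [← hk', pow_one]
  · exfalso; apply ha2
    have e1 : (x * a * x⁻¹) ^ 2 = x * a ^ 2 * x⁻¹ := conj_pow
    rw [← hk', ← pow_mul, h4] at e1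
    have e2 : a ^ 2 = x⁻¹ * (x * a ^ 2 * x⁻¹) * x := by group
    rw [e2, ← e1]; group
  · right; rw [← hk']; exact eq_inv_of_mul_eq_one_left (by rw [← pow_succ]; exact h4)

/-- A finite non-abelian group in which every subgroup is normal is the internal direct product of a subgroup isomorphic to the quaternion group of order `8`, an elementary abelian `2`-subgroup and an abelian subgroup of odd order. -/
theorem result {G : Type*} [Group G] [Finite G] (hna : ¬ IsMulCommutative G) (hn : ∀ H : Subgroup G, H.Normal) : ∃ Q E A : Subgroup G, Nonempty (Q ≃* QuaternionGroup 2) ∧ Cfsg.IsElementaryAbelian 2 E ∧ IsMulCommutative A ∧ Odd (Nat.card A) ∧ E ⊓ A = ⊥ ∧ Q ⊓ (E ⊔ A) = ⊥ ∧ Q ⊔ (E ⊔ A) = ⊤ := by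
  classical
  have hna' : ∃ a b : G, a * b ≠ b * a := by
    by_contra h
    push Not at h
    exact hna ⟨⟨h⟩⟩
  obtain ⟨a, b, ha4, hab2, haba⟩ := exists_q8 hn hna'
  have h4 : a ^ 4 = 1 := by rw [← ha4]; exact pow_orderOf_eq_one a
  have ha2 : a ^ 2 ≠ 1 := by
    intro h
    have := orderOf_dvd_of_pow_eq_one h
    rw [ha4] at this; omega
  have hx : a ^ (2 * 2) = 1 := h4
  have hy : b ^ 2 = a ^ 2 := hab2.symm
  have hinj := Cfsg.Agent.Lib.Lead.quatHom_injective 2 a b hx hy haba ha4 le_rfl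
  obtain ⟨φ, hφ⟩ : ∃ φ, φ = Cfsg.Agent.Lib.Lead.quatHom 2 a b hx hy haba := ⟨_, rfl⟩
  rw [← hφ] at hinj
  have haQ : a ∈ φ.range := by
    refine ⟨QuaternionGroup.a 1, ?_⟩
    rw [hφ, Cfsg.Agent.Lib.Lead.quatHom_a]
    have : (1 : ZMod (2 * 2)).val = 1 := rfl
    rw [this, pow_one]
  have hbQ : b ∈ φ.range := by
    refine ⟨QuaternionGroup.xa 0, ?_⟩
    rw [hφ, Cfsg.Agent.Lib.Lead.quatHom_xa]
    simp
  have hQelt : ∀ q ∈ φ.range, (∃ i : ℕ, q = a ^ i) ∨ (∃ i : ℕ, q = b * a ^ i) := by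
    rintro q ⟨g, rfl⟩
    rw [hφ]
    rcases g with i | i
    · left; exact ⟨i.val, rfl⟩
    · right; exact ⟨i.val, rfl⟩
  have hb4 : b ^ 4 = 1 := by
    have : b ^ 4 = (b ^ 2) ^ 2 := by rw [← pow_mul]
    rw [this, hy, ← pow_mul]; exact h4
  have hbab : b * a * b⁻¹ = a⁻¹ := by
    have h1 : a * b = b * a⁻¹ := eq_mul_inv_of_mul_eq haba
    have h2 : b * a⁻¹ * b⁻¹ = a := by rw [← h1]; group
    have h3 : b * a * b⁻¹ = (b * a⁻¹ * b⁻¹)⁻¹ := by group
    rw [h3, h2]
  have haba' : a * b * a⁻¹ = b⁻¹ := by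
    have h1 : a * b = b * a⁻¹ := eq_mul_inv_of_mul_eq haba
    rw [h1]
    have h2 : b * a⁻¹ * a⁻¹ = b * (a ^ 2)⁻¹ := by group
    rw [h2, ← hy]; group
  have hbord : orderOf b = 4 := by
    haveI : Fact (Nat.Prime 2) := ⟨Nat.prime_two⟩
    have := orderOf_eq_prime_pow (x := b) (p := 2) (n := 1) (by rw [pow_one, hy]; exact ha2)
      (by norm_num; exact hb4)
    rw [this]; norm_num
  have habne : a * b ≠ b * a := by
    intro h
    apply ha2
    have h1 : b * 1 = b * a ^ 2 := by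
      calc b * 1 = b := mul_one b
        _ = a * b * a := haba.symm
        _ = b * a * a := by rw [h]
        _ = b * a ^ 2 := by rw [sq, mul_assoc]
    exact (mul_left_cancel h1).symm
  obtain ⟨C, hCdef⟩ : ∃ C : Subgroup G, C = Subgroup.centralizer ({a, b} : Set G) := ⟨_, rfl⟩
  have hCmem : ∀ x, x ∈ C ↔ (a * x = x * a ∧ b * x = x * b) := by
    intro x
    rw [hCdef, Subgroup.mem_centralizer_iff]
    constructor
    · intro h; exact ⟨h a (by simp), h b (by simp)⟩
    · rintro ⟨h1, h2⟩ y hy'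
      rcases hy' with rfl | rfl
      · exact h1
      · exact h2
  have hcover : ∀ x : G, ∃ q ∈ φ.range, x * q ∈ C := by
    intro x
    have hcx : ∀ (q : G), (x * q) * a * (x * q)⁻¹ = x * (q * a * q⁻¹) * x⁻¹ := by
      intro q; group
    have hcx' : ∀ (q : G), (x * q) * b * (x * q)⁻¹ = x * (q * b * q⁻¹) * x⁻¹ := by
      intro q; group
    have hcomm_of : ∀ y : G, y * a * y⁻¹ = a → y * b * y⁻¹ = b → y ∈ C := by
      intro y h1 h2
      rw [hCmem]
      exact ⟨(mul_inv_eq_iff_eq_mul.mp h1).symm, (mul_inv_eq_iff_eq_mul.mp h2).symm⟩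
    have hinva : x * a⁻¹ * x⁻¹ = (x * a * x⁻¹)⁻¹ := by group
    have hinvb : x * b⁻¹ * x⁻¹ = (x * b * x⁻¹)⁻¹ := by group
    rcases conj_eq_or_inv hn a x ha4 with h1 | h1 <;>
      rcases conj_eq_or_inv hn b x hbord with h2 | h2
    · exact ⟨1, one_mem _, by rw [mul_one]; exact hcomm_of x h1 h2⟩
    · refine ⟨a, haQ, hcomm_of _ ?_ ?_⟩
      · rw [hcx]
        have : a * a * a⁻¹ = a := by group
        rw [this, h1]
      · rw [hcx', haba', hinvb, h2, inv_inv]
    · refine ⟨b, hbQ, hcomm_of _ ?_ ?_⟩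
      · rw [hcx, hbab, hinva, h1, inv_inv]
      · rw [hcx']
        have : b * b * b⁻¹ = b := by group
        rw [this, h2]
    · refine ⟨a * b, mul_mem haQ hbQ, hcomm_of _ ?_ ?_⟩
      · rw [hcx]
        have e1 : a * b * a * (a * b)⁻¹ = a * (b * a * b⁻¹) * a⁻¹ := by group
        rw [e1, hbab]
        have e2 : a * a⁻¹ * a⁻¹ = a⁻¹ := by group
        rw [e2, hinva, h1, inv_inv]
      · rw [hcx']
        have e1 : a * b * b * (a * b)⁻¹ = a * b * a⁻¹ := by group
        rw [e1, haba', hinvb, h2, inv_inv]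
  have hno4 : ∀ x ∈ C, x ^ 4 = 1 → x ^ 2 = 1 := by
    intro x hxC hx4
    by_contra hx2
    obtain ⟨hxa, hxb⟩ := (hCmem x).mp hxC
    have hcomm : Commute a x := hxa
    have hmem : b * (a * x) * b⁻¹ ∈ Subgroup.zpowers (a * x) :=
      (hn (Subgroup.zpowers (a * x))).conj_mem _ (Subgroup.mem_zpowers _) b
    have hconj : b * (a * x) * b⁻¹ = a⁻¹ * x := by
      calc b * (a * x) * b⁻¹ = (b * a * b⁻¹) * (b * x) * b⁻¹ := by group
        _ = a⁻¹ * (x * b) * b⁻¹ := by rw [hbab, hxb]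
        _ = a⁻¹ * x := by group
    rw [hconj] at hmem
    obtain ⟨k, hk⟩ := mem_powers_iff_mem_zpowers.mpr hmem
    have hk0 : (a * x) ^ k = a⁻¹ * x := hk
    have hax4 : (a * x) ^ 4 = 1 := by rw [hcomm.mul_pow, h4, hx4, one_mul]
    have hk' : (a * x) ^ (k % 4) = a⁻¹ * x := by
      rw [← hk0]
      conv_rhs => rw [← Nat.div_add_mod k 4, pow_add, pow_mul, hax4, one_pow, one_mul]
    have hxnea : x ≠ a := by
      intro h; rw [h] at hxb; exact habne hxb.symm
    obtain ⟨r, hr⟩ : ∃ r, r = k % 4 := ⟨_, rfl⟩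
    have hlt : r < 4 := by omega
    rw [← hr] at hk'
    interval_cases r
    · apply hxnea
      rw [pow_zero] at hk'
      exact (inv_mul_eq_one.mp hk'.symm).symm
    · apply ha2
      rw [pow_one] at hk'
      have h1 : a = a⁻¹ := mul_right_cancel hk'
      rw [sq]; nth_rewrite 1 [h1]; exact inv_mul_cancel a
    · apply hxnea
      rw [hcomm.mul_pow] at hk'
      have h1 : a ^ 3 * x = 1 := by
        have : a ^ 3 * x = a * (a ^ 2 * x ^ 2) * x⁻¹ := by group
        rw [this, hk']; group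
      have h2 : a ^ 3 * a = 1 := by rw [← pow_succ]; exact h4
      exact mul_left_cancel (h1.trans h2.symm)
    · apply hx2
      rw [hcomm.mul_pow] at hk'
      have h2 : a ^ 3 = a⁻¹ := eq_inv_of_mul_eq_one_left (by rw [← pow_succ]; exact h4)
      rw [h2] at hk'
      have h3 : x ^ 3 = x := mul_left_cancel hk'
      have h5 : x ^ 2 * x = 1 * x := by rw [← pow_succ, one_mul]; exact h3
      exact mul_right_cancel h5
  have h2pow : ∀ e : ℕ, ∀ y ∈ C, y ^ (2 ^ e) = 1 → y ^ 2 = 1 := by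
    intro e
    induction e with
    | zero => intro y _ h; rw [pow_zero, pow_one] at h; rw [h, one_pow]
    | succ e ih =>
      intro y hyC h
      rcases e with _ | e
      · simpa using h
      · have h1 : (y ^ (2 ^ e)) ^ 4 = 1 := by
          rw [← pow_mul, ← h]; congr 1; ring
        have h2 := hno4 _ (pow_mem hyC _) h1
        rw [← pow_mul, ← pow_succ] at h2
        exact ih y hyC h2
  have hCcomm : ∀ x ∈ C, ∀ y ∈ C, x * y = y * x := by
    by_contra hcon
    push Not at hcon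
    obtain ⟨x, hxC, y, hyC, hxy⟩ := hcon
    have hnC : ∀ H : Subgroup ↥C, H.Normal := by
      intro H
      constructor
      intro h hh g
      have h1 : (g : G) * (h : G) * (g : G)⁻¹ ∈ H.map C.subtype :=
        (hn (H.map C.subtype)).conj_mem _ ⟨h, hh, rfl⟩ g
      obtain ⟨h', hh', he⟩ := h1
      have : h' = g * h * g⁻¹ := Subtype.ext (by simpa using he)
      rw [← this]; exact hh'
    obtain ⟨a', b', ha', -, -⟩ := exists_q8 hnC
      ⟨⟨x, hxC⟩, ⟨y, hyC⟩, fun h => hxy (congrArg Subtype.val h)⟩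
    have h1 : (a' : G) ^ 4 = 1 := by
      have : a' ^ 4 = 1 := by rw [← ha']; exact pow_orderOf_eq_one a'
      exact_mod_cast congrArg Subtype.val this
    have h2 := hno4 _ a'.2 h1
    have h3 : a' ^ 2 = 1 := Subtype.ext (by simpa using h2)
    have := orderOf_dvd_of_pow_eq_one h3
    rw [ha'] at this
    omega
  let T : Subgroup G :=
    { carrier := {x | x ∈ C ∧ x ^ 2 = 1}
      one_mem' := ⟨one_mem C, one_pow 2⟩
      mul_mem' := by
        rintro x y ⟨hx, hx2⟩ ⟨hy, hy2⟩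
        refine ⟨mul_mem hx hy, ?_⟩
        have : Commute x y := hCcomm x hx y hy
        rw [this.mul_pow, hx2, hy2, one_mul]
      inv_mem' := by
        rintro x ⟨hx, hx2⟩
        exact ⟨inv_mem hx, by rw [inv_pow, hx2, inv_one]⟩ }
  let A : Subgroup G :=
    { carrier := {x | x ∈ C ∧ ∃ k, Odd k ∧ x ^ k = 1}
      one_mem' := ⟨one_mem C, 1, odd_one, one_pow 1⟩
      mul_mem' := by
        rintro x y ⟨hx, k, hk, hxk⟩ ⟨hy, l, hl, hyl⟩
        refine ⟨mul_mem hx hy, k * l, hk.mul hl, ?_⟩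
        have : Commute x y := hCcomm x hx y hy
        rw [this.mul_pow, pow_mul, hxk, one_pow, one_mul, mul_comm, pow_mul, hyl, one_pow]
      inv_mem' := by
        rintro x ⟨hx, k, hk, hxk⟩
        exact ⟨inv_mem hx, k, hk, by rw [inv_pow, hxk, inv_one]⟩ }
  have hcT : a ^ 2 ∈ T := by
    refine ⟨(hCmem _).mpr ⟨?_, ?_⟩, ?_⟩
    · exact ((Commute.refl a).pow_right 2).eq
    · rw [← hy]; exact ((Commute.refl b).pow_right 2).eq
    · rw [← pow_mul]; exact h4
  have hfin : {E : Subgroup G | E ≤ T ∧ a ^ 2 ∉ E}.Finite := Set.toFinite _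
  obtain ⟨E, ⟨hET, hcE⟩, hEmax⟩ := Set.exists_max_image _
    (fun E : Subgroup G => Nat.card E) hfin
    ⟨⊥, bot_le, by rw [Subgroup.mem_bot]; exact ha2⟩
  have hTcomm : ∀ x ∈ T, ∀ y ∈ T, x * y = y * x :=
    fun x hx y hy => hCcomm x hx.1 y hy.1
  have hEsplit : ∀ t ∈ T, t ∈ E ∨ t * a ^ 2 ∈ E := by
    intro t htT
    by_contra hcon
    push Not at hcon
    obtain ⟨htE, htcE⟩ := hcon
    have ht2 : t ^ 2 = 1 := htT.2
    have htinv : t⁻¹ = t := by
      rw [inv_eq_iff_eq_inv]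
      exact eq_inv_of_mul_eq_one_left (by rw [← sq]; exact ht2)
    let E' : Subgroup G :=
      { carrier := {x | x ∈ T ∧ (x ∈ E ∨ x * t ∈ E)}
        one_mem' := ⟨one_mem T, Or.inl (one_mem E)⟩
        mul_mem' := by
          rintro x y ⟨hx, hx'⟩ ⟨hy, hy'⟩
          refine ⟨mul_mem hx hy, ?_⟩
          rcases hx' with hx' | hx' <;> rcases hy' with hy' | hy'
          · exact Or.inl (mul_mem hx' hy')
          · right; rw [mul_assoc]; exact mul_mem hx' hy'
          · right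
            have : x * y * t = (x * t) * y := by
              rw [mul_assoc, hTcomm y hy t htT, ← mul_assoc]
            rw [this]; exact mul_mem hx' hy'
          · left
            have : x * y = (x * t) * (y * t) := by
              have h1 : t * (y * t) = y := by
                rw [hTcomm y hy t htT, ← mul_assoc, ← sq, ht2, one_mul]
              rw [mul_assoc, h1]
            rw [this]; exact mul_mem hx' hy'
        inv_mem' := by
          rintro x ⟨hx, hx'⟩
          refine ⟨inv_mem hx, ?_⟩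
          rcases hx' with hx' | hx'
          · exact Or.inl (inv_mem hx')
          · right
            have : x⁻¹ * t = (x * t)⁻¹ := by
              rw [mul_inv_rev, htinv, hTcomm t htT x⁻¹ (inv_mem hx)]
            rw [this]; exact inv_mem hx' }
    have hEE' : E ≤ E' := fun x hx => ⟨hET hx, Or.inl hx⟩
    have htE' : t ∈ E' := ⟨htT, Or.inr (by rw [← sq, ht2]; exact one_mem E)⟩
    have hcE' : a ^ 2 ∈ E' := by
      by_contra hc
      have := hEmax E' ⟨fun x hx => hx.1, hc⟩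
      have heq := Subgroup.eq_of_le_of_card_ge hEE' this
      exact htE (heq ▸ htE')
    rcases hcE'.2 with h | h
    · exact hcE h
    · apply htcE; rw [hTcomm t htT _ hcT]; exact h
  refine ⟨φ.range, E, A, ⟨(MonoidHom.ofInjective hinj).symm⟩, ⟨?_, ?_⟩, ?_, ?_, ?_, ?_, ?_⟩
  · exact ⟨⟨fun x y => Subtype.ext (hCcomm x (hET x.2).1 y (hET y.2).1)⟩⟩
  · intro x hx; exact (hET hx).2
  · exact ⟨⟨fun x y => Subtype.ext (hCcomm x x.2.1 y y.2.1)⟩⟩
  · rw [← Nat.not_even_iff_odd]
    intro heven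
    haveI : Fact (Nat.Prime 2) := ⟨Nat.prime_two⟩
    obtain ⟨x, hx'⟩ := exists_prime_orderOf_dvd_card' 2 heven.two_dvd
    obtain ⟨k, hk, hxk⟩ := x.2.2
    have : orderOf (x : G) ∣ k := orderOf_dvd_of_pow_eq_one hxk
    rw [Subgroup.orderOf_coe, hx'] at this
    exact (Nat.not_even_iff_odd.mpr hk) (even_iff_two_dvd.mpr this)
  · rw [eq_bot_iff]
    rintro x ⟨hxE, hxA⟩
    rw [Subgroup.mem_bot]
    obtain ⟨k, hk, hxk⟩ := hxA.2
    obtain ⟨j, rfl⟩ := hk
    have hx2 := (hET hxE).2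
    rw [pow_succ, pow_mul, hx2, one_pow, one_mul] at hxk
    exact hxk
  · let W : Subgroup G :=
      { carrier := {x | x ∈ C ∧ ∃ k, Odd k ∧ x ^ k ∈ E}
        one_mem' := ⟨one_mem C, 1, odd_one, by rw [one_pow]; exact one_mem E⟩
        mul_mem' := by
          rintro x y ⟨hx, k, hk, hxk⟩ ⟨hy, l, hl, hyl⟩
          refine ⟨mul_mem hx hy, k * l, hk.mul hl, ?_⟩
          have : Commute x y := hCcomm x hx y hy
          rw [this.mul_pow]
          refine mul_mem ?_ ?_
          · rw [pow_mul]; exact pow_mem hxk l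
          · rw [mul_comm, pow_mul]; exact pow_mem hyl k
        inv_mem' := by
          rintro x ⟨hx, k, hk, hxk⟩
          exact ⟨inv_mem hx, k, hk, by rw [inv_pow]; exact inv_mem hxk⟩ }
    have hW : E ⊔ A ≤ W := by
      rw [sup_le_iff]
      constructor
      · intro x hx; exact ⟨(hET hx).1, 1, odd_one, by rw [pow_one]; exact hx⟩
      · rintro x ⟨hxC, k, hk, hxk⟩; exact ⟨hxC, k, hk, by rw [hxk]; exact one_mem E⟩
    rw [eq_bot_iff]
    rintro x ⟨hxQ, hxEA⟩
    rw [Subgroup.mem_bot]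
    obtain ⟨hxC, k, hk, hxk⟩ := hW hxEA
    obtain ⟨hxa, hxb⟩ := (hCmem x).mp hxC
    have hpows : ∀ i : ℕ, a ^ i = 1 ∨ a ^ i = a ∨ a ^ i = a ^ 2 ∨ a ^ i = a ^ 3 := by
      intro i
      have : a ^ i = a ^ (i % 4) := by
        conv_lhs => rw [← Nat.div_add_mod i 4, pow_add, pow_mul, h4, one_pow, one_mul]
      rw [this]
      have hlt : i % 4 < 4 := Nat.mod_lt _ (by norm_num)
      obtain ⟨r, hr⟩ : ∃ r, r = i % 4 := ⟨_, rfl⟩
      rw [← hr] at hlt ⊢
      interval_cases r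
      · left; exact pow_zero a
      · right; left; exact pow_one a
      · right; right; left; rfl
      · right; right; right; rfl
    have hx1c : x = 1 ∨ x = a ^ 2 := by
      rcases hQelt x hxQ with ⟨i, rfl⟩ | ⟨i, rfl⟩
      · rcases hpows i with h | h | h | h
        · left; exact h
        · exfalso; rw [h] at hxb; exact habne hxb.symm
        · right; exact h
        · exfalso
          have h3 : a ^ 3 = a⁻¹ := eq_inv_of_mul_eq_one_left (by rw [← pow_succ]; exact h4)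
          rw [h, h3] at hxb
          apply habne
          have : a * b = a * (b * a⁻¹) * a := by group
          rw [this, hxb]; group
      · exfalso
        apply habne
        have h1 : a * b * a ^ i = b * a * a ^ i := by
          calc a * b * a ^ i = a * (b * a ^ i) := mul_assoc _ _ _
            _ = b * a ^ i * a := hxa
            _ = b * a * a ^ i := by
              rw [mul_assoc, mul_assoc, ((Commute.refl a).pow_left i).eq]
        exact mul_right_cancel h1
    rcases hx1c with h | h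
    · exact h
    · exfalso
      apply hcE
      obtain ⟨j, rfl⟩ := hk
      have e : (a ^ 2) ^ (2 * j + 1) = a ^ 2 := by
        rw [pow_succ, pow_mul, ← pow_mul a 2 2, h4, one_pow, one_mul]
      rw [h, e] at hxk
      exact hxk
  · rw [eq_top_iff]
    intro x _
    have hQle : φ.range ≤ φ.range ⊔ (E ⊔ A) := le_sup_left
    have hEle : E ≤ φ.range ⊔ (E ⊔ A) := le_trans le_sup_left le_sup_right
    have hAle : A ≤ φ.range ⊔ (E ⊔ A) := le_trans le_sup_right le_sup_right
    have hCle : C ≤ φ.range ⊔ (E ⊔ A) := by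
      intro y hyC
      have hT : T ≤ φ.range ⊔ (E ⊔ A) := by
        intro t htT
        rcases hEsplit t htT with h | h
        · exact hEle h
        · have : t = (t * a ^ 2) * (a ^ 2)⁻¹ := by group
          rw [this]
          exact mul_mem (hEle h) (inv_mem (hQle (pow_mem haQ 2)))
      obtain ⟨e, k, hk, hord⟩ := Nat.exists_eq_two_pow_mul_odd (orderOf_pos y).ne'
      have h1 : (y ^ k) ^ (2 ^ e) = 1 := by
        rw [← pow_mul, mul_comm, ← hord]; exact pow_orderOf_eq_one y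
      have h2 := h2pow e _ (pow_mem hyC k) h1
      have hykT : y ^ k ∈ T := ⟨pow_mem hyC k, h2⟩
      have hy2A : y ^ 2 ∈ A :=
        ⟨pow_mem hyC 2, k, hk, by rw [← pow_mul, mul_comm, pow_mul]; exact h2⟩
      obtain ⟨j, hj⟩ := hk
      have : y = y ^ k * ((y ^ 2) ^ j)⁻¹ := by
        rw [hj, ← pow_mul, pow_succ]; group
      rw [this]
      exact mul_mem (hT hykT) (inv_mem (pow_mem (hAle hy2A) j))
    obtain ⟨q, hq, hxq⟩ := hcover x
    have : x = (x * q) * q⁻¹ := by group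
    rw [this]
    exact mul_mem (hCle hxq) (inv_mem (hQle hq))

end Cfsg.Agent.S4211
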