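import Mathlib
import Cfsg.Statements.S4212
import Cfsg.Agent.Lib.Helper7.FrobHall

set_option autoImplicit false
open Cfsg

namespace Cfsg.Agent.S4212



open Finset
open Cfsg.Agent.Lib.Helper7 Cfsg.Agent.Lib.Helper6 Cfsg.Agent.Lib.Lead

/-- Let `G` be a finite group of order `g`, `c` an element whose conjugacy class has `h` elements, and `n` a natural number. Then the number of elements `x` of `G` with `x^n` conjugate to `c` is a multiple of `gcd(hn, g)`. -/
theorem result {G : Type*} [Group G] [Finite G] (c : G) (n : ℕ) : Nat.gcd (Nat.card {y : G // IsConj c y} * n) (Nat.card G) ∣ Nat.card {x : G // IsConj c (x ^ n)} := by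
  classical
  haveI : Fintype G := Fintype.ofFinite G
  set K := Subgroup.centralizer ({c} : Set G) with hK
  have hidx : K.index = Nat.card {y : G // IsConj c y} := index_centralizer_eq c
  have hG : Nat.card G = Nat.card {y : G // IsConj c y} * Nat.card K := by
    rw [← hidx]; exact (Subgroup.index_mul_card K).symm
  by_cases hn : n = 0
  · subst hn
    rw [mul_zero, Nat.gcd_zero_left]
    by_cases hc1 : c = 1
    · have h1 : Nat.card {x : G // IsConj c (x ^ 0)} = Nat.card G := by
        apply Nat.card_congr
        exact Equiv.subtypeUnivEquiv (fun x => by rw [pow_zero, hc1])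
      rw [h1]
    · have h1 : Nat.card {x : G // IsConj c (x ^ 0)} = 0 := by
        rw [Nat.card_eq_zero]
        left
        exact ⟨fun ⟨x, hx⟩ => hc1 (by rw [pow_zero] at hx; exact isConj_one_left.mp hx)⟩
      rw [h1]; exact dvd_zero _
  have hR := FH.root_dvd c n hn
  have hsum : Nat.card {x : G // IsConj c (x ^ n)}
      = Nat.card {y : G // IsConj c y} * Nat.card {x : G // x ^ n = c} := by
    rw [← card_filter_eq_natCard, ← card_filter_eq_natCard, ← card_filter_eq_natCard]
    rw [Finset.card_eq_sum_card_fiberwise (f := fun x => x ^ n)
      (t := univ.filter (fun y : G => IsConj c y))]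
    · have hterm : ∀ y ∈ univ.filter (fun y : G => IsConj c y),
          ((univ.filter (fun x : G => IsConj c (x ^ n))).filter (fun x => x ^ n = y)).card
            = (univ.filter (fun x : G => x ^ n = c)).card := by
        intro y hy
        rw [Finset.mem_filter] at hy
        obtain ⟨g, hg⟩ := isConj_iff.mp hy.2
        rw [← FH.root_conj_card n c g, hg]
        congr 1
        ext x
        simp only [Finset.mem_filter, Finset.mem_univ, true_and]
        constructor
        · exact fun h => h.2
        · intro h
          refine ⟨?_, h⟩
          rw [h]; exact hy.2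
      rw [Finset.sum_congr rfl hterm, Finset.sum_const, smul_eq_mul]
    · intro x hx
      simpa using hx
  rw [hsum, hG, Nat.gcd_mul_left]
  exact Nat.mul_dvd_mul_left _ hR

end Cfsg.Agent.S4212
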