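import Mathlib
import Cfsg.Statements.S4213
import Cfsg.Agent.Lib.Helper6.FrobDiv
import Cfsg.Agent.Lib.Lead.Hall

set_option autoImplicit false
open Cfsg

namespace Cfsg.Agent.S4213



open Cfsg.Agent.Lib.Helper6 Cfsg.Agent.Lib.Lead

universe u

/-- a nontrivial finite solvable group has a nontrivial normal `p`-subgroup of exponent `p` -/
theorem exists_normal_exp_p (G : Type*) [Group G] [Finite G] [Group.IsSolvable G] [Nontrivial G] :
    ∃ p : ℕ, p.Prime ∧ ∃ N : Subgroup G, N.Normal ∧ N ≠ ⊥ ∧ IsPGroup p N ∧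
      ∀ x ∈ N, x ^ p = 1 := by
  obtain ⟨p, hp, M, hMn, hM1, hMp⟩ := exists_normal_pgroup_of_solvable G
  haveI : Fact p.Prime := ⟨hp⟩
  refine ⟨p, hp, ?_⟩
  let N : Subgroup G :=
    { carrier := {x | x ∈ M ∧ (∀ y ∈ M, x * y = y * x) ∧ x ^ p = 1}
      mul_mem' := by
        rintro x x' ⟨h1, h2, h3⟩ ⟨h1', h2', h3'⟩
        refine ⟨M.mul_mem h1 h1', ?_, ?_⟩
        · intro y hy
          rw [mul_assoc, h2' y hy, ← mul_assoc, h2 y hy, mul_assoc]
        · have hc : Commute x x' := h2 x' h1'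
          rw [hc.mul_pow, h3, h3', one_mul]
      one_mem' := ⟨M.one_mem, fun y _ => by rw [one_mul, mul_one], one_pow _⟩
      inv_mem' := by
        rintro x ⟨h1, h2, h3⟩
        refine ⟨M.inv_mem h1, ?_, by rw [inv_pow, h3, inv_one]⟩
        intro y hy
        have h4 := h2 y hy
        calc x⁻¹ * y = x⁻¹ * (y * x) * x⁻¹ := by group
          _ = x⁻¹ * (x * y) * x⁻¹ := by rw [h4]
          _ = y * x⁻¹ := by group }
  have hNmem : ∀ x, x ∈ N ↔ (x ∈ M ∧ (∀ y ∈ M, x * y = y * x) ∧ x ^ p = 1) := fun x => Iff.rfl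
  refine ⟨N, ?_, ?_, ?_, ?_⟩
  · constructor
    intro x hx g
    rw [hNmem] at hx ⊢
    obtain ⟨h1, h2, h3⟩ := hx
    refine ⟨hMn.conj_mem x h1 g, ?_, by rw [conj_pow, h3, mul_one, mul_inv_cancel]⟩
    intro y hy
    have hy' : g⁻¹ * y * g ∈ M := by
      have h4 := hMn.conj_mem y hy g⁻¹
      rwa [inv_inv] at h4
    have h5 := h2 _ hy'
    calc g * x * g⁻¹ * y = g * (x * (g⁻¹ * y * g)) * g⁻¹ := by group
      _ = g * ((g⁻¹ * y * g) * x) * g⁻¹ := by rw [h5]
      _ = y * (g * x * g⁻¹) := by group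
  · haveI : Nontrivial M := (Subgroup.nontrivial_iff_ne_bot M).mpr hM1
    haveI : Nontrivial (Subgroup.center M) := hMp.center_nontrivial
    have hZp : IsPGroup p (Subgroup.center M) := hMp.to_subgroup _
    obtain ⟨k, hk⟩ := IsPGroup.iff_card.mp hZp
    have hk0 : k ≠ 0 := by
      intro h
      rw [h, pow_zero] at hk
      have h1 := Finite.one_lt_card (α := Subgroup.center M)
      omega
    have hdvd : p ∣ Nat.card (Subgroup.center M) := by rw [hk]; exact dvd_pow_self p hk0
    obtain ⟨z, hz⟩ := exists_prime_orderOf_dvd_card' p hdvd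
    intro hbot
    have hzN : ((z : M) : G) ∈ N := by
      rw [hNmem]
      refine ⟨(z : M).2, ?_, ?_⟩
      · intro y hy
        have h1 := Subgroup.mem_center_iff.mp z.2 ⟨y, hy⟩
        exact (congrArg Subtype.val h1).symm
      · have h1 : z ^ p = 1 := by rw [← hz]; exact pow_orderOf_eq_one z
        exact congrArg (fun w : Subgroup.center M => ((w : M) : G)) h1
    rw [hbot, Subgroup.mem_bot] at hzN
    have hz1 : z = 1 := Subtype.ext (Subtype.ext hzN)
    rw [hz1, orderOf_one] at hz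
    exact hp.one_lt.ne hz
  · exact hMp.to_le (fun x hx => hx.1)
  · intro x hx; exact hx.2.2

theorem card_preimage_mk {G : Type*} [Group G] [Finite G] (N : Subgroup G) [N.Normal]
    (T : Set (G ⧸ N)) :
    Nat.card {x : G // (x : G ⧸ N) ∈ T} = Nat.card N * Nat.card T := by
  have e := QuotientGroup.preimageMkEquivSubgroupProdSet N T
  have h1 : Nat.card (QuotientGroup.mk ⁻¹' T : Set G) = Nat.card (N × T) := Nat.card_congr e
  rw [Nat.card_prod] at h1
  exact h1

theorem le_card_roots {H : Type u} [Group H] [Finite H] (m : ℕ) (hm : m ∣ Nat.card H) :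
    m ≤ Nat.card {x : H // x ^ m = 1} := by
  have h1 := frobenius_dvd m hm
  have h2 : 0 < Nat.card {x : H // x ^ m = 1} :=
    Nat.card_pos_iff.mpr ⟨⟨⟨1, one_pow m⟩⟩, inferInstance⟩
  exact Nat.le_of_dvd h2 h1

theorem aux : ∀ (k : ℕ) (G : Type u) [Group G] [Finite G] [Group.IsSolvable G], Nat.card G = k →
    ∀ n, n ∣ Nat.card G → Nat.card {x : G // x ^ n = 1} = n →
    ∃ H : Subgroup G, (H : Set G) = {x : G | x ^ n = 1} := by
  intro k
  induction k using Nat.strong_induction_on with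
  | _ k ih =>
  intro G _ _ _ hk n hn hcount
  rcases subsingleton_or_nontrivial G with hsub | hnt
  · refine ⟨⊤, ?_⟩
    ext x
    simp only [Subgroup.coe_top, Set.mem_univ, Set.mem_ofPred_eq, true_iff]
    rw [Subsingleton.elim x 1, one_pow]
  obtain ⟨p, hp, N, hNn, hN1, hNp, hNexp⟩ := exists_normal_exp_p G
  haveI := hNn
  haveI : Fact p.Prime := ⟨hp⟩
  have hn0 : n ≠ 0 := by
    rintro rfl
    have h1 := Nat.card_pos (α := G)
    rw [zero_dvd_iff] at hn
    omega
  obtain ⟨a, ha⟩ := IsPGroup.iff_card.mp hNp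
  have ha0 : a ≠ 0 := by
    intro h
    rw [h, pow_zero] at ha
    exact hN1 (Subgroup.card_eq_one.mp ha)
  have hGN : Nat.card G = Nat.card (G ⧸ N) * p ^ a := by
    rw [← ha]; exact Subgroup.card_eq_card_quotient_mul_card_subgroup N
  have hlt : Nat.card (G ⧸ N) < k := by
    rw [← hk, hGN]
    have h1 : 1 < p ^ a := Nat.one_lt_pow ha0 hp.one_lt
    have h2 : 0 < Nat.card (G ⧸ N) := Nat.card_pos
    nlinarith
  have hIH := ih (Nat.card (G ⧸ N)) hlt (G ⧸ N) rfl
  have hmk1 : ∀ y : G, ((y : G ⧸ N) = 1) ↔ y ∈ N := fun y => QuotientGroup.eq_one_iff y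
  by_cases hpn : p ∣ n
  · set d := Nat.gcd n (p ^ a) with hd
    have hdpos : 0 < d := Nat.gcd_pos_of_pos_left _ (Nat.pos_of_ne_zero hn0)
    set n' := n / d with hn'
    have hnd : n = n' * d := (Nat.div_mul_cancel (Nat.gcd_dvd_left n (p ^ a))).symm
    have hpd : p ∣ d := Nat.dvd_gcd hpn (dvd_pow_self p ha0)
    have hdle : d ≤ p ^ a := Nat.le_of_dvd (pow_pos hp.pos a) (Nat.gcd_dvd_right n (p ^ a))
    have hn'pos : 0 < n' := by
      rcases Nat.eq_zero_or_pos n' with h | h
      · rw [h, zero_mul] at hnd; exact absurd hnd hn0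
      · exact h
    have hn'dvd : n' ∣ Nat.card (G ⧸ N) := by
      have hcop : Nat.Coprime n' (p ^ a / d) := Nat.coprime_div_gcd_div_gcd hdpos
      have h1 : n' * d ∣ (p ^ a / d) * d * Nat.card (G ⧸ N) := by
        rw [Nat.div_mul_cancel (Nat.gcd_dvd_right n (p ^ a)), ← hnd, mul_comm, ← hGN]; exact hn
      have h2 : n' ∣ (p ^ a / d) * Nat.card (G ⧸ N) := by
        have h3 : n' * d ∣ ((p ^ a / d) * Nat.card (G ⧸ N)) * d := by
          have e : (p ^ a / d) * d * Nat.card (G ⧸ N)
              = ((p ^ a / d) * Nat.card (G ⧸ N)) * d := by ring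
          rw [← e]; exact h1
        exact Nat.dvd_of_mul_dvd_mul_right hdpos h3
      exact hcop.dvd_of_dvd_mul_left h2
    set T : Set (G ⧸ N) := {q | q ^ n' = 1} with hT
    have hTge : n' ≤ Nat.card T := le_card_roots n' hn'dvd
    have hpre : ∀ y : G, (y : G ⧸ N) ∈ T → y ^ n = 1 := by
      intro y hy
      have h1 : ((y ^ n' : G) : G ⧸ N) = 1 := hy
      have h2 : y ^ n' ∈ N := (hmk1 _).mp h1
      have h3 := hNexp _ h2
      obtain ⟨e, he⟩ := hpd
      rw [hnd, he, ← mul_assoc, pow_mul, pow_mul, h3, one_pow]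
    have hcardpre : Nat.card {x : G // (x : G ⧸ N) ∈ T} = p ^ a * Nat.card T := by
      rw [card_preimage_mk, ha]
    have hle : p ^ a * Nat.card T ≤ n := by
      rw [← hcardpre, ← hcount]
      exact Nat.card_le_card_of_injective
        (fun x : {x : G // (x : G ⧸ N) ∈ T} => (⟨x.1, hpre x.1 x.2⟩ : {x : G // x ^ n = 1}))
        (fun x y h => Subtype.ext (congrArg (fun z : {x : G // x ^ n = 1} => z.1) h))
    have hub : n ≤ p ^ a * n' := by
      rw [hnd, mul_comm]; exact Nat.mul_le_mul_right _ hdle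
    have hTeq : Nat.card T = n' := by
      have h3 : p ^ a * Nat.card T ≤ p ^ a * n' := hle.trans hub
      exact Nat.le_antisymm (Nat.le_of_mul_le_mul_left h3 (pow_pos hp.pos a)) hTge
    have hneq : n = p ^ a * n' := by
      apply Nat.le_antisymm hub
      rw [← hTeq]; exact hle
    obtain ⟨Hb, hHb⟩ := hIH n' hn'dvd hTeq
    refine ⟨Hb.comap (QuotientGroup.mk' N), ?_⟩
    have hsub : ((Hb.comap (QuotientGroup.mk' N) : Subgroup G) : Set G) ⊆ {x : G | x ^ n = 1} := by
      intro x hx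
      have hx' : (x : G ⧸ N) ∈ (Hb : Set (G ⧸ N)) := hx
      rw [hHb] at hx'
      exact hpre x hx'
    apply Set.eq_of_subset_of_ncard_le hsub
    rw [← Nat.card_coe_set_eq, ← Nat.card_coe_set_eq]
    have h1 : Nat.card ({x : G | x ^ n = 1} : Set G) = n := hcount
    have h2 : Nat.card ((Hb.comap (QuotientGroup.mk' N) : Subgroup G) : Set G) = p ^ a * n' := by
      have h3 := card_comap_mk N Hb
      have h4 : Nat.card Hb = Nat.card T := by
        apply Nat.card_congr
        exact Equiv.subtypeEquivRight (fun q => by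
          show q ∈ (Hb : Set (G ⧸ N)) ↔ q ∈ T
          rw [hHb])
      rw [h4, hTeq, ha] at h3
      exact h3
    rw [h1, h2, hneq]
  · have hcop : Nat.Coprime (p ^ a) n :=
      Nat.Coprime.pow_left a ((Nat.Prime.coprime_iff_not_dvd hp).mpr hpn)
    have hndvd : n ∣ Nat.card (G ⧸ N) := by
      rw [hGN] at hn
      exact hcop.symm.dvd_of_dvd_mul_right hn
    set T : Set (G ⧸ N) := {q | q ^ n = 1} with hT
    have hTge : n ≤ Nat.card T := le_card_roots n hndvd
    have hlift : ∀ q ∈ T, ∃ x : G, x ^ n = 1 ∧ (x : G ⧸ N) = q := by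
      intro q hq
      obtain ⟨y, rfl⟩ := QuotientGroup.mk_surjective q
      have hq' : ((y : G ⧸ N)) ^ n = 1 := hq
      have hyN : y ^ n ∈ N := (hmk1 _).mp hq'
      have hyp : (y ^ n) ^ p ^ a = 1 := by
        have h1 : (⟨y ^ n, hyN⟩ : N) ^ Nat.card N = 1 := pow_card_eq_one'
        rw [ha] at h1
        exact congrArg Subtype.val h1
      by_cases hn1 : n = 1
      · refine ⟨1, one_pow _, ?_⟩
        rw [hn1, pow_one] at hq'
        rw [hq']; rfl
      · have hn1' : 1 < n := by omega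
        obtain ⟨u, -, hu⟩ := Nat.exists_mul_mod_eq_one_of_coprime hcop hn1'
        refine ⟨y ^ (p ^ a * u), ?_, ?_⟩
        · rw [← pow_mul, mul_comm (p ^ a * u) n, ← mul_assoc, pow_mul, pow_mul, hyp, one_pow]
        · rw [QuotientGroup.mk_pow]
          apply pow_eq_self_of_modEq_one hq'
          unfold Nat.ModEq
          rw [hu]; exact (Nat.mod_eq_of_lt hn1').symm
    have hTle : Nat.card T ≤ n := by
      rw [← hcount]
      apply Nat.card_le_card_of_surjective
        (fun x : {x : G // x ^ n = 1} => (⟨(x.1 : G ⧸ N), by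
          show ((x.1 : G ⧸ N)) ^ n = 1
          rw [← QuotientGroup.mk_pow, x.2]; rfl⟩ : T))
      rintro ⟨q, hq⟩
      obtain ⟨x, hx, hxq⟩ := hlift q hq
      exact ⟨⟨x, hx⟩, Subtype.ext hxq⟩
    have hTeq : Nat.card T = n := Nat.le_antisymm hTle hTge
    obtain ⟨Hb, hHb⟩ := hIH n hndvd hTeq
    set M := Hb.comap (QuotientGroup.mk' N) with hM
    have hNM : N ≤ M := by
      intro x hx
      show (x : G ⧸ N) ∈ Hb
      rw [(hmk1 x).mpr hx]; exact Hb.one_mem
    have hMcard : Nat.card M = p ^ a * n := by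
      have h3 := card_comap_mk N Hb
      have h4 : Nat.card Hb = Nat.card T := by
        apply Nat.card_congr
        exact Equiv.subtypeEquivRight (fun q => by
          show q ∈ (Hb : Set (G ⧸ N)) ↔ q ∈ T
          rw [hHb])
      rw [h4, hTeq, ha] at h3
      exact h3
    haveI : (N.subgroupOf M).Normal := Subgroup.Normal.subgroupOf hNn M
    have hN'card : Nat.card (N.subgroupOf M) = p ^ a := by
      rw [card_subgroupOf_of_le hNM, ha]
    have hN'idx : (N.subgroupOf M).index = n := by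
      have h1 := Subgroup.card_mul_index (N.subgroupOf M)
      rw [hN'card, hMcard] at h1
      exact Nat.eq_of_mul_eq_mul_left (pow_pos hp.pos a) h1
    obtain ⟨Q', hQ'⟩ := Subgroup.exists_right_complement'_of_coprime (N := N.subgroupOf M)
      (by rw [hN'card, hN'idx]; exact hcop)
    have hQ'card : Nat.card Q' = n := by
      have h1 := hQ'.card_mul_card
      rw [hN'card, hMcard] at h1
      exact Nat.eq_of_mul_eq_mul_left (pow_pos hp.pos a) h1
    refine ⟨Q'.map M.subtype, ?_⟩
    have hsub : ((Q'.map M.subtype : Subgroup G) : Set G) ⊆ {x : G | x ^ n = 1} := by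
      rintro _ ⟨q, hq, rfl⟩
      have h1 : (⟨q, hq⟩ : Q') ^ Nat.card Q' = 1 := pow_card_eq_one'
      rw [hQ'card] at h1
      have h2 : q ^ n = 1 := congrArg Subtype.val h1
      show ((q : M) : G) ^ n = 1
      exact_mod_cast congrArg Subtype.val h2
    apply Set.eq_of_subset_of_ncard_le hsub
    rw [← Nat.card_coe_set_eq, ← Nat.card_coe_set_eq]
    have h1 : Nat.card ({x : G | x ^ n = 1} : Set G) = n := hcount
    have h2 : Nat.card ((Q'.map M.subtype : Subgroup G) : Set G) = n := by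
      rw [← hQ'card]
      exact Subgroup.card_map_of_injective M.subtype_injective
    rw [h1, h2]

/-- If `G` is a finite solvable group and `n` divides the order of `G` and exactly `n` elements `x` of `G` satisfy `x^n = 1`, then these elements form a normal subgroup. -/
theorem result {G : Type*} [Group G] [Finite G] [Group.IsSolvable G] (n : ℕ) (hn : n ∣ Nat.card G) (hcount : Nat.card {x : G // x ^ n = 1} = n) : ∃ H : Subgroup G, H.Normal ∧ (H : Set G) = {x : G | x ^ n = 1} := by
  obtain ⟨H, hH⟩ := aux _ G rfl n hn hcount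
  refine ⟨H, ?_, hH⟩
  constructor
  intro x hx g
  have h1 : x ∈ (H : Set G) := hx
  rw [hH] at h1
  have h2 : x ^ n = 1 := h1
  have h3 : g * x * g⁻¹ ∈ (H : Set G) := by
    rw [hH]
    show (g * x * g⁻¹) ^ n = 1
    rw [conj_pow, h2, mul_one, mul_inv_cancel]
  exact h3

end Cfsg.Agent.S4213
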