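import Mathlib
import Cfsg.Statements.S4217
import Cfsg.Agent.S0051

set_option autoImplicit false
open Cfsg

namespace Cfsg.Agent.S4217



section parts
variable {G : Type*} [Group G]

/-- the elements of the abelian subgroup `A` killed by the exponent `n` -/
def tors (A : Subgroup G) (hc : ∀ a ∈ A, ∀ b ∈ A, a * b = b * a) (n : ℕ) : Subgroup G where
  carrier := {a | a ∈ A ∧ a ^ n = 1}
  mul_mem' := by
    rintro a b ⟨ha, ha'⟩ ⟨hb, hb'⟩
    refine ⟨A.mul_mem ha hb, ?_⟩
    have hcm : Commute a b := hc a ha b hb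
    rw [hcm.mul_pow, ha', hb', one_mul]
  one_mem' := ⟨A.one_mem, one_pow n⟩
  inv_mem' := by
    rintro a ⟨ha, ha'⟩
    exact ⟨A.inv_mem ha, by rw [inv_pow, ha', inv_one]⟩

theorem mem_tors (A : Subgroup G) (hc : ∀ a ∈ A, ∀ b ∈ A, a * b = b * a) (n : ℕ) (a : G) :
    a ∈ tors A hc n ↔ a ∈ A ∧ a ^ n = 1 := Iff.rfl

theorem tors_le (A : Subgroup G) (hc : ∀ a ∈ A, ∀ b ∈ A, a * b = b * a) (n : ℕ) :
    tors A hc n ≤ A := fun _ h => h.1

theorem tors_normal (A : Subgroup G) [A.Normal] (hc : ∀ a ∈ A, ∀ b ∈ A, a * b = b * a) (n : ℕ) :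
    (tors A hc n).Normal := by
  constructor
  intro a ha g
  refine ⟨Subgroup.Normal.conj_mem inferInstance a ha.1 g, ?_⟩
  rw [conj_pow, ha.2]
  group

theorem tors_comm (A : Subgroup G) (hc : ∀ a ∈ A, ∀ b ∈ A, a * b = b * a) (n : ℕ) :
    IsMulCommutative (tors A hc n) :=
  ⟨⟨fun a b => Subtype.ext (hc a a.2.1 b b.2.1)⟩⟩

theorem tors_inf (A : Subgroup G) (hc : ∀ a ∈ A, ∀ b ∈ A, a * b = b * a) (m n : ℕ)
    (hmn : Nat.Coprime m n) : tors A hc m ⊓ tors A hc n = ⊥ := by
  rw [eq_bot_iff]
  rintro x ⟨⟨_, h1⟩, ⟨_, h2⟩⟩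
  rw [Subgroup.mem_bot]
  have h3 : orderOf x ∣ m := orderOf_dvd_of_pow_eq_one h1
  have h4 : orderOf x ∣ n := orderOf_dvd_of_pow_eq_one h2
  exact orderOf_eq_one_iff.mp (Nat.eq_one_of_dvd_coprimes hmn h3 h4)

theorem le_tors_sup (A : Subgroup G) (hc : ∀ a ∈ A, ∀ b ∈ A, a * b = b * a) (m n : ℕ)
    (hmn : Nat.Coprime m n) (hA : ∀ a ∈ A, a ^ (m * n) = 1) :
    A ≤ tors A hc m ⊔ tors A hc n := by
  intro a ha
  obtain ⟨x, y, hxy⟩ := Nat.isCoprime_iff_coprime.mpr hmn
  have h1 : a = (a ^ n) ^ y * (a ^ m) ^ x := by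
    rw [← zpow_natCast a n, ← zpow_natCast a m, ← zpow_mul, ← zpow_mul, ← zpow_add]
    have h2 : (n : ℤ) * y + (m : ℤ) * x = 1 := by linarith
    rw [h2, zpow_one]
  rw [h1]
  apply Subgroup.mul_mem_sup
  · refine ⟨A.zpow_mem (A.pow_mem ha n) y, ?_⟩
    rw [← zpow_natCast, ← zpow_mul, mul_comm, zpow_mul, zpow_natCast, ← pow_mul, mul_comm n m,
      hA a ha, one_zpow]
  · refine ⟨A.zpow_mem (A.pow_mem ha m) x, ?_⟩
    rw [← zpow_natCast, ← zpow_mul, mul_comm, zpow_mul, zpow_natCast, ← pow_mul, hA a ha,
      one_zpow]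

end parts

/-- Let `A` be an abelian normal subgroup of the finite group `G`. Then `A` has a complement in `G` if and only if, for every prime `p` dividing the index of `A`, there are a Sylow `p`-subgroup `S` of `G/A` and a subgroup `K` of `G` with `K ∩ A = 1` and `KA` equal to the preimage of `S` (that is, `A` has a complement in the preimage of a Sylow `p`-subgroup of `G/A`). -/
theorem result {G : Type*} [Group G] [Finite G] (A : Subgroup G) [A.Normal] (hA : IsMulCommutative A) : (∃ K : Subgroup G, K.IsComplement' A) ↔ ∀ p : ℕ, p.Prime → p ∣ A.index → ∃ (S : Sylow p (G ⧸ A)) (K : Subgroup G), K ⊓ A = ⊥ ∧ K ⊔ A = (S : Subgroup (G ⧸ A)).comap (QuotientGroup.mk' A) := by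
  classical
  have hc : ∀ a ∈ A, ∀ b ∈ A, a * b = b * a := by
    intro a ha b hb
    exact congrArg Subtype.val (hA.is_comm.comm ⟨a, ha⟩ ⟨b, hb⟩)
  constructor
  · rintro ⟨K, hK⟩ p hp hpA
    haveI : Fact p.Prime := ⟨hp⟩
    let S : Sylow p (G ⧸ A) := default
    refine ⟨S, K ⊓ (S : Subgroup (G ⧸ A)).comap (QuotientGroup.mk' A), ?_, ?_⟩
    · rw [eq_bot_iff]
      rintro x ⟨⟨hxK, _⟩, hxA⟩
      exact Subgroup.disjoint_def.mp hK.disjoint hxK hxA
    · apply le_antisymm
      · apply sup_le inf_le_right
        intro a ha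
        rw [Subgroup.mem_comap]
        have h1 : QuotientGroup.mk' A a = 1 := (QuotientGroup.eq_one_iff a).mpr ha
        rw [h1]; exact Subgroup.one_mem _
      · intro g hg
        obtain ⟨⟨k, a⟩, hka, -⟩ := (Subgroup.isComplement'_def.mp hK).existsUnique g
        have hka' : (k : G) * (a : G) = g := hka
        have hk : (k : G) ∈ (S : Subgroup (G ⧸ A)).comap (QuotientGroup.mk' A) := by
          rw [Subgroup.mem_comap] at hg ⊢
          have ha1 : QuotientGroup.mk' A (a : G) = 1 := (QuotientGroup.eq_one_iff _).mpr a.2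
          have h1 : QuotientGroup.mk' A (k : G) = QuotientGroup.mk' A g := by
            rw [← hka', map_mul, ha1, mul_one]
          rw [h1]; exact hg
        rw [← hka']
        exact Subgroup.mul_mem_sup ⟨k.2, hk⟩ a.2
  · intro h
    have hcardA : ∀ a ∈ A, a ^ Nat.card A = 1 := by
      intro a ha
      have h1 : (⟨a, ha⟩ : A) ^ Nat.card A = 1 := pow_card_eq_one'
      exact congrArg Subtype.val h1
    have hn0 : Nat.card A ≠ 0 := Nat.card_pos.ne'
    -- the two parts for a prime q
    set n := Nat.card A with hn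
    have hsplit : ∀ q : ℕ, q ^ n.factorization q * (n / q ^ n.factorization q) = n :=
      fun q => Nat.ordProj_mul_ordCompl_eq_self n q
    have hcopq : ∀ q : ℕ, q.Prime →
        Nat.Coprime (q ^ n.factorization q) (n / q ^ n.factorization q) :=
      fun q hq => Nat.Coprime.pow_left _ (Nat.coprime_ordCompl hq hn0)
    -- existence of the local data
    have hloc : ∀ q : ℕ, q.Prime → ∃ U K : Subgroup G, K ⊓ A = ⊥ ∧ K ⊔ A = U ∧ ¬ q ∣ U.index := by
      intro q hq
      haveI : Fact q.Prime := ⟨hq⟩
      by_cases hqA : q ∣ A.index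
      · obtain ⟨S, K, hK1, hK2⟩ := h q hq hqA
        refine ⟨_, K, hK1, hK2, ?_⟩
        rw [Subgroup.index_comap_of_surjective _ (QuotientGroup.mk'_surjective A)]
        exact Sylow.not_dvd_index S
      · exact ⟨A, ⊥, bot_inf_eq _, bot_sup_eq _, hqA⟩
    have hM : ∀ q : ℕ, ∃ M : Subgroup G, q.Prime →
        Subgroup.IsComplement' (tors A hc (q ^ n.factorization q)) M := by
      intro q
      by_cases hq : q.Prime
      swap
      · exact ⟨⊥, fun h => absurd h hq⟩
      obtain ⟨U, K, hK1, hK2, hqU⟩ := hloc q hq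
      haveI := tors_normal A hc (q ^ n.factorization q)
      haveI := tors_comm A hc (q ^ n.factorization q)
      haveI := tors_normal A hc (n / q ^ n.factorization q)
      haveI : Fact q.Prime := ⟨hq⟩
      have hAU : A ≤ U := by rw [← hK2]; exact le_sup_right
      have hsupA : tors A hc (q ^ n.factorization q) ⊔ tors A hc (n / q ^ n.factorization q) = A := by
        apply le_antisymm (sup_le (tors_le _ _ _) (tors_le _ _ _))
        apply le_tors_sup A hc _ _ (hcopq q hq)
        intro a ha
        rw [hsplit q]; exact hcardA a ha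
      have hpg : IsPGroup q (tors A hc (q ^ n.factorization q)) := by
        intro x
        refine ⟨n.factorization q, ?_⟩
        apply Subtype.ext
        rw [Subgroup.coe_pow, Subgroup.coe_one]
        exact x.2.2
      obtain ⟨j, hj⟩ := IsPGroup.iff_card.mp hpg
      obtain ⟨M, hMc⟩ := Cfsg.Agent.S0051.result (tors A hc (q ^ n.factorization q)) U
        ((tors_le _ _ _).trans hAU)
        (by
          rw [hj]
          exact Nat.Coprime.pow_left _ ((Nat.Prime.coprime_iff_not_dvd hq).mpr hqU))
        (K ⊔ tors A hc (n / q ^ n.factorization q))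
        (sup_le (by rw [← hK2]; exact le_sup_left) ((tors_le _ _ _).trans hAU))
        (by
          rw [eq_bot_iff]
          rintro x ⟨hx1, hx2⟩
          have hx1' : x ∈ ((K ⊔ tors A hc (n / q ^ n.factorization q) : Subgroup G) : Set G) := hx1
          rw [Subgroup.mul_normal] at hx1'
          obtain ⟨k, hk, b, hb, hkb⟩ := hx1'
          have hkb' : k * b = x := hkb
          subst hkb'
          have hkA : k ∈ A := by
            have h1 : k = (k * b) * b⁻¹ := by group
            rw [h1]
            exact A.mul_mem (tors_le _ _ _ hx2) (A.inv_mem (tors_le _ _ _ hb))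
          have hk1 : k = 1 := by
            have h2 : k ∈ K ⊓ A := ⟨hk, hkA⟩
            rwa [hK1, Subgroup.mem_bot] at h2
          rw [hk1, one_mul] at hx2 ⊢
          have h3 : b ∈ tors A hc (q ^ n.factorization q) ⊓ tors A hc (n / q ^ n.factorization q) :=
            ⟨hx2, hb⟩
          rwa [tors_inf A hc _ _ (hcopq q hq)] at h3)
        (by
          calc tors A hc (q ^ n.factorization q) ⊔ (K ⊔ tors A hc (n / q ^ n.factorization q))
              = K ⊔ (tors A hc (q ^ n.factorization q) ⊔ tors A hc (n / q ^ n.factorization q)) := by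
                rw [sup_left_comm]
            _ = K ⊔ A := by rw [hsupA]
            _ = U := hK2)
      exact ⟨M, fun _ => hMc⟩
    choose M hMc using hM
    -- cross containment
    have hcross : ∀ q q' : ℕ, q.Prime → q'.Prime → q ≠ q' →
        tors A hc (q' ^ n.factorization q') ≤ M q := by
      intro q q' hq hq' hne x hx
      obtain ⟨⟨a, m⟩, ham, -⟩ := (Subgroup.isComplement'_def.mp (hMc q hq)).existsUnique x
      have ham' : (a : G) * (m : G) = x := ham
      have haA : (a : G) ∈ A := tors_le _ _ _ a.2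
      have hxA : x ∈ A := tors_le _ _ _ hx
      have hm : (m : G) = (a : G)⁻¹ * x := by rw [← ham']; group
      have hcm : Commute (a : G)⁻¹ x := hc _ (A.inv_mem haA) _ hxA
      have h1 : (m : G) ^ (q ^ n.factorization q) = x ^ (q ^ n.factorization q) := by
        rw [hm, hcm.mul_pow, inv_pow, a.2.2, inv_one, one_mul]
      have h2 : x ^ (q ^ n.factorization q) ∈ M q := by
        rw [← h1]; exact (M q).pow_mem m.2 _
      have h3 : orderOf x ∣ q' ^ n.factorization q' := orderOf_dvd_of_pow_eq_one hx.2
      have hcop' : Nat.Coprime (q ^ n.factorization q) (orderOf x) := by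
        apply Nat.Coprime.coprime_dvd_right h3
        apply Nat.Coprime.pow
        exact (Nat.coprime_primes hq hq').mpr hne
      obtain ⟨c, hc'⟩ := exists_pow_eq_self_of_coprime hcop'
      rw [← hc']; exact (M q).pow_mem h2 c
    refine ⟨⨅ q ∈ n.primeFactors, M q, ?_⟩
    apply Subgroup.isComplement'_of_disjoint_and_mul_eq_univ
    · rw [Subgroup.disjoint_def]
      intro x hxK hxA
      by_contra hx1
      have hord1 : orderOf x ≠ 1 := fun h => hx1 (orderOf_eq_one_iff.mp h)
      have hq : (orderOf x).minFac.Prime := Nat.minFac_prime hord1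
      have hqd : (orderOf x).minFac ∣ orderOf x := Nat.minFac_dvd _
      have hordA : orderOf x ∣ n := orderOf_dvd_of_pow_eq_one (hcardA x hxA)
      have hqP : (orderOf x).minFac ∈ n.primeFactors :=
        Nat.mem_primeFactors.mpr ⟨hq, hqd.trans hordA, hn0⟩
      have hord0 : orderOf x ≠ 0 := (orderOf_pos x).ne'
      have hy := orderOf_pow_orderOf_div hord0 hqd
      set y := x ^ (orderOf x / (orderOf x).minFac) with hydef
      have hyM : y ∈ M (orderOf x).minFac := by
        rw [Subgroup.mem_iInf] at hxK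
        have h1 := hxK (orderOf x).minFac
        rw [Subgroup.mem_iInf] at h1
        exact (M _).pow_mem (h1 hqP) _
      have hyA : y ∈ tors A hc ((orderOf x).minFac ^ n.factorization (orderOf x).minFac) := by
        refine ⟨A.pow_mem hxA _, ?_⟩
        apply orderOf_dvd_iff_pow_eq_one.mp
        rw [hy]
        apply dvd_pow_self
        exact (Nat.Prime.factorization_pos_of_dvd hq hn0 (hqd.trans hordA)).ne'
      have h2 : y ∈ tors A hc ((orderOf x).minFac ^ n.factorization (orderOf x).minFac) ⊓
          M (orderOf x).minFac := ⟨hyA, hyM⟩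
      rw [(hMc _ hq).disjoint.eq_bot, Subgroup.mem_bot] at h2
      rw [h2, orderOf_one] at hy
      exact hq.one_lt.ne hy
    · rw [Set.eq_univ_iff_forall]
      intro g
      have key : ∀ T : Finset ℕ, T ⊆ n.primeFactors → ∃ a ∈ A, ∀ q ∈ T, g * a⁻¹ ∈ M q := by
        intro T
        induction T using Finset.induction_on with
        | empty => intro _; exact ⟨1, A.one_mem, fun q hq => absurd hq (Finset.notMem_empty q)⟩
        | insert q T hqT ih =>
          intro hsub
          obtain ⟨aT, haT, hT⟩ := ih (fun x hx => hsub (Finset.mem_insert_of_mem hx))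
          have hq : q.Prime := (Nat.mem_primeFactors.mp (hsub (Finset.mem_insert_self q T))).1
          obtain ⟨⟨a, m⟩, ham, -⟩ :=
            (Subgroup.isComplement'_def.mp (hMc q hq)).existsUnique (g * aT⁻¹)
          have ham' : (a : G) * (m : G) = g * aT⁻¹ := ham
          refine ⟨aT * (g⁻¹ * (a : G) * g), ?_, ?_⟩
          · apply A.mul_mem haT
            have h1 := Subgroup.Normal.conj_mem (inferInstance : A.Normal) (a : G)
              (tors_le _ _ _ a.2) g⁻¹
            rwa [inv_inv] at h1
          · intro q' hq'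
            have e1 : g * (aT * (g⁻¹ * (a : G) * g))⁻¹ = (a : G)⁻¹ * (g * aT⁻¹) := by group
            rw [e1]
            rcases Finset.mem_insert.mp hq' with rfl | hq'T
            · rw [← ham']
              have e2 : (a : G)⁻¹ * ((a : G) * (m : G)) = m := by group
              rw [e2]; exact m.2
            · have hq'p : q'.Prime :=
                (Nat.mem_primeFactors.mp (hsub (Finset.mem_insert_of_mem hq'T))).1
              have hne : q' ≠ q := fun h => hqT (h ▸ hq'T)
              apply (M q').mul_mem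
              · exact (M q').inv_mem (hcross q' q hq'p hq hne a.2)
              · exact hT q' hq'T
      obtain ⟨a, haA, ha⟩ := key n.primeFactors (Finset.Subset.refl _)
      refine ⟨g * a⁻¹, ?_, a, haA, by group⟩
      rw [SetLike.mem_coe, Subgroup.mem_iInf]
      intro q
      rw [Subgroup.mem_iInf]
      intro hq
      exact ha q hq

end Cfsg.Agent.S4217
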