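import Mathlib
import Cfsg.Statements.S4219
import Cfsg.Agent.Lib.Helper7.Basic

set_option autoImplicit false
open Cfsg
open scoped Pointwise
open Cfsg.Agent.Lib.Helper7

namespace Cfsg.Agent.S4219

lemma conj_in_subgroup {G : Type*} [Group G] [Finite G] (p : ℕ) [Fact p.Prime]
    (S Q₁ Q₂ : Subgroup G) (h₁ : Q₁ ≤ S) (h₂ : Q₂ ≤ S)
    (c₁ : Nat.card Q₁ = p ^ (Nat.card S).factorization p)
    (c₂ : Nat.card Q₂ = p ^ (Nat.card S).factorization p) :
    ∃ h ∈ S, MulAut.conj h • Q₂ = Q₁ := by
  have e₁ : Nat.card (Q₁.subgroupOf S) = p ^ (Nat.card S).factorization p := by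
    rw [Nat.card_congr (Subgroup.subgroupOfEquivOfLe h₁).toEquiv, c₁]
  have e₂ : Nat.card (Q₂.subgroupOf S) = p ^ (Nat.card S).factorization p := by
    rw [Nat.card_congr (Subgroup.subgroupOfEquivOfLe h₂).toEquiv, c₂]
  obtain ⟨h, hh⟩ := MulAction.exists_smul_eq S (Sylow.ofCard (Q₂.subgroupOf S) e₂)
    (Sylow.ofCard (Q₁.subgroupOf S) e₁)
  refine ⟨h, h.2, ?_⟩
  have hh' : MulAut.conj h • (Q₂.subgroupOf S) = Q₁.subgroupOf S := by
    have := congrArg (fun R : Sylow p S => (R : Subgroup S)) hh
    simpa [Sylow.coe_subgroup_smul] using this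
  ext y
  rw [mem_conj_smul_iff]
  constructor
  · intro hy
    have hyS : y ∈ S := by
      have h3 : (h : G)⁻¹ * y * h ∈ S := h₂ hy
      have h4 : (h : G) * ((h : G)⁻¹ * y * h) * (h : G)⁻¹ ∈ S :=
        S.mul_mem (S.mul_mem h.2 h3) (S.inv_mem h.2)
      have h5 : (h : G) * ((h : G)⁻¹ * y * h) * (h : G)⁻¹ = y := by group
      rwa [h5] at h4
    have h6 : (⟨y, hyS⟩ : S) ∈ MulAut.conj h • (Q₂.subgroupOf S) := by
      rw [mem_conj_smul_iff, Subgroup.mem_subgroupOf]
      simpa using hy
    rw [hh'] at h6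
    exact Subgroup.mem_subgroupOf.1 h6
  · intro hy
    have h6 : (⟨y, h₁ hy⟩ : S) ∈ Q₁.subgroupOf S := Subgroup.mem_subgroupOf.2 hy
    rw [← hh', mem_conj_smul_iff, Subgroup.mem_subgroupOf] at h6
    simpa using h6

/-- Let a finite group `G` act `t`-fold transitively on a finite set, let `H` be the stabilizer of `t` distinct points and `P` a Sylow `p`-subgroup of `H`. Then the normalizer of `P` in `G` is `t`-fold transitive on the fixed points of `P`: any `t` distinct fixed points of `P` can be carried to any other `t` distinct fixed points of `P` by an element normalizing `P`. -/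
theorem result {G : Type*} [Group G] [Finite G] {α : Type*} [Fintype α] [MulAction G α] {t : ℕ} (hG : MulAction.IsMultiplyPretransitive G α t) (x : Fin t ↪ α) {p : ℕ} [Fact p.Prime] (P : Sylow p (MulAction.stabilizer G x)) (a b : Fin t ↪ α) (ha : ∀ i, a i ∈ MulAction.fixedPoints ((P : Subgroup (MulAction.stabilizer G x)).map (MulAction.stabilizer G x).subtype) α) (hb : ∀ i, b i ∈ MulAction.fixedPoints ((P : Subgroup (MulAction.stabilizer G x)).map (MulAction.stabilizer G x).subtype) α) : ∃ g ∈ Subgroup.normalizer ((((P : Subgroup (MulAction.stabilizer G x)).map (MulAction.stabilizer G x).subtype) : Subgroup G) : Set G), g • a = b := by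
  set Q : Subgroup G := (P : Subgroup (MulAction.stabilizer G x)).map (MulAction.stabilizer G x).subtype with hQ
  have hQa : Q ≤ MulAction.stabilizer G a := by
    intro q hq
    rw [MulAction.mem_stabilizer_iff]
    ext i
    rw [Function.Embedding.smul_apply]
    exact ha i ⟨q, hq⟩
  have hQb : Q ≤ MulAction.stabilizer G b := by
    intro q hq
    rw [MulAction.mem_stabilizer_iff]
    ext i
    rw [Function.Embedding.smul_apply]
    exact hb i ⟨q, hq⟩
  obtain ⟨g₁, hg₁⟩ := MulAction.exists_smul_eq G a b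
  obtain ⟨g₂, hg₂⟩ := MulAction.exists_smul_eq G x b
  have hcardS : Nat.card (MulAction.stabilizer G b) = Nat.card (MulAction.stabilizer G x) := by
    rw [← hg₂, MulAction.stabilizer_smul_eq_stabilizer_map_conj]
    exact Subgroup.card_map_of_injective (MulAut.conj g₂).injective
  have hcardQ : Nat.card Q = p ^ (Nat.card (MulAction.stabilizer G b)).factorization p := by
    rw [hcardS, hQ, Subgroup.card_map_of_injective (Subgroup.subtype_injective _)]
    exact P.card_eq_multiplicity
  have hQ2 : MulAut.conj g₁ • Q ≤ MulAction.stabilizer G b := by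
    rw [← hg₁, MulAction.stabilizer_smul_eq_stabilizer_map_conj, map_conj_eq_smul]
    exact Subgroup.pointwise_smul_le_pointwise_smul_iff.2 hQa
  have hcardQ2 : Nat.card (MulAut.conj g₁ • Q : Subgroup G) =
      p ^ (Nat.card (MulAction.stabilizer G b)).factorization p := by
    rw [card_conj_smul, hcardQ]
  obtain ⟨h, hhS, hh⟩ := conj_in_subgroup p (MulAction.stabilizer G b) Q (MulAut.conj g₁ • Q) hQb hQ2
    hcardQ hcardQ2
  refine ⟨h * g₁, ?_, ?_⟩
  · rw [mem_normalizer_iff_smul, map_mul, mul_smul]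
    exact hh
  · rw [mul_smul, hg₁]
    exact hhS

end Cfsg.Agent.S4219
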