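import Mathlib
import Cfsg.Statements.S4223

set_option autoImplicit false
open Cfsg

namespace Cfsg.Agent.S4223



universe u v

def NormalEnd {A : Type*} [Group A] (φ : A →* A) : Prop :=
  ∀ g a : A, φ (g * a * g⁻¹) = g * φ a * g⁻¹

def itr {A : Type*} [Group A] (φ : A →* A) : ℕ → (A →* A)
  | 0 => MonoidHom.id A
  | (k + 1) => (itr φ k).comp φ

theorem itr_succ {A : Type*} [Group A] (φ : A →* A) (k : ℕ) (a : A) :
    itr φ (k + 1) a = itr φ k (φ a) := rfl

theorem itr_add {A : Type*} [Group A] (φ : A →* A) (k l : ℕ) (a : A) :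
    itr φ (k + l) a = itr φ k (itr φ l a) := by
  induction l generalizing a with
  | zero => rfl
  | succ l ih => rw [← add_assoc, itr_succ, ih, itr_succ]

theorem itr_normal {A : Type*} [Group A] (φ : A →* A) (hφ : NormalEnd φ) (k : ℕ) :
    NormalEnd (itr φ k) := by
  induction k with
  | zero => intro g a; rfl
  | succ k ih => intro g a; rw [itr_succ, hφ, ih, itr_succ]

theorem fitting {A : Type*} [Group A] [Finite A]
    (hA : ∀ H K : Subgroup A, H.Normal → K.Normal → H ⊓ K = ⊥ → H ⊔ K = ⊤ → H = ⊥ ∨ K = ⊥)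
    (φ : A →* A) (hφ : NormalEnd φ) : Function.Bijective φ ∨ ∃ n, ∀ a, itr φ n a = 1 := by
  obtain ⟨k, hk⟩ : ∃ k, ∀ l, Nat.card (itr φ (k + 1)).range ≤ Nat.card (itr φ (l + 1)).range :=
    ⟨_, fun l => Function.argmin_le (fun l => Nat.card (itr φ (l + 1)).range) l⟩
  have hRn : (itr φ (k + 1)).range.Normal := ⟨fun x hx g => by
    obtain ⟨a, rfl⟩ := hx
    exact ⟨g * a * g⁻¹, itr_normal φ hφ (k + 1) g a⟩⟩
  have hKn : (itr φ (k + 1)).ker.Normal := inferInstance
  have h2 : (itr φ ((k + 1) + (k + 1))).range = (itr φ (k + 1)).range := by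
    apply Subgroup.eq_of_le_of_card_ge
    · rintro x ⟨a, rfl⟩
      exact ⟨itr φ (k + 1) a, (itr_add φ (k + 1) (k + 1) a).symm⟩
    · exact hk ((k + 1) + k)
  have hsurj : ∀ r ∈ (itr φ (k + 1)).range, ∃ b ∈ (itr φ (k + 1)).range, itr φ (k + 1) b = r := by
    intro r hr
    rw [← h2] at hr
    obtain ⟨a, rfl⟩ := hr
    exact ⟨itr φ (k + 1) a, ⟨a, rfl⟩, (itr_add φ (k + 1) (k + 1) a).symm⟩
  have hinj : ∀ r ∈ (itr φ (k + 1)).range, itr φ (k + 1) r = 1 → r = 1 := by
    let f : (itr φ (k + 1)).range → (itr φ (k + 1)).range := fun r => ⟨itr φ (k + 1) r.1, ⟨r.1, rfl⟩⟩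
    have hfs : Function.Surjective f := by
      intro ⟨r, hr⟩
      obtain ⟨b, hb, hbr⟩ := hsurj r hr
      exact ⟨⟨b, hb⟩, Subtype.ext hbr⟩
    have hfi : Function.Injective f := Finite.injective_iff_surjective.mpr hfs
    intro r hr h1
    have : f ⟨r, hr⟩ = f ⟨1, Subgroup.one_mem _⟩ :=
      Subtype.ext (by show itr φ (k + 1) r = itr φ (k + 1) 1; rw [h1, map_one])
    exact congrArg Subtype.val (hfi this)
  have hinf : (itr φ (k + 1)).ker ⊓ (itr φ (k + 1)).range = ⊥ := by
    rw [eq_bot_iff]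
    intro a ⟨haK, haR⟩
    rw [Subgroup.mem_bot]
    exact hinj a haR (MonoidHom.mem_ker.mp haK)
  have hsup : (itr φ (k + 1)).ker ⊔ (itr φ (k + 1)).range = ⊤ := by
    rw [eq_top_iff]
    intro a _
    obtain ⟨b, hb, hba⟩ := hsurj (itr φ (k + 1) a) ⟨a, rfl⟩
    have h1 : a * b⁻¹ ∈ (itr φ (k + 1)).ker := by
      rw [MonoidHom.mem_ker, map_mul, map_inv, hba, mul_inv_cancel]
    have h3 : a = a * b⁻¹ * b := by group
    rw [h3]
    exact Subgroup.mul_mem _ (Subgroup.mem_sup_left h1) (Subgroup.mem_sup_right hb)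
  rcases hA _ _ hKn hRn hinf hsup with h | h
  · left
    have hφinj : Function.Injective φ := by
      intro a b hab
      have h1 : itr φ (k + 1) a = itr φ (k + 1) b := by
        rw [itr_succ, itr_succ, hab]
      have h2' : a * b⁻¹ ∈ (itr φ (k + 1)).ker := by
        rw [MonoidHom.mem_ker, map_mul, map_inv, h1, mul_inv_cancel]
      rw [h, Subgroup.mem_bot] at h2'
      exact mul_inv_eq_one.mp h2'
    exact ⟨hφinj, Finite.injective_iff_surjective.mp hφinj⟩
  · right
    refine ⟨k + 1, fun a => ?_⟩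
    have : itr φ (k + 1) a ∈ (itr φ (k + 1)).range := ⟨a, rfl⟩
    rw [h, Subgroup.mem_bot] at this
    exact this

theorem sum_lemma {A : Type*} [Group A] [Finite A]
    (hA : ∀ H K : Subgroup A, H.Normal → K.Normal → H ⊓ K = ⊥ → H ⊔ K = ⊤ → H = ⊥ ∨ K = ⊥)
    (φ ψ θ : A →* A) (hφ : NormalEnd φ) (hθ : NormalEnd θ)
    (hθb : Function.Bijective θ) (hsum : ∀ a, θ a = φ a * ψ a) :
    Function.Bijective φ ∨ Function.Bijective ψ := by
  let θe : A ≃* A := MulEquiv.ofBijective θ hθb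
  have hθe : ∀ a, θe a = θ a := fun a => rfl
  let φ' : A →* A := θe.symm.toMonoidHom.comp φ
  have hφ'a : ∀ a, φ' a = θe.symm (φ a) := fun a => rfl
  have hφ' : NormalEnd φ' := by
    intro g a
    rw [hφ'a, hφ'a, hφ]
    apply θe.injective
    rw [MulEquiv.apply_symm_apply, hθe, hθ, ← hθe (θe.symm (φ a)), MulEquiv.apply_symm_apply]
  rcases fitting hA φ' hφ' with h | ⟨n, hn⟩
  · left
    have : (φ : A → A) = θ ∘ φ' := by
      funext a
      show φ a = θe (θe.symm (φ a))
      rw [MulEquiv.apply_symm_apply]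
    rw [this]; exact hθb.comp h
  · right
    have hinj : Function.Injective ψ := by
      rw [injective_iff_map_eq_one]
      intro a ha
      have h1 : θ a = φ a := by rw [hsum, ha, mul_one]
      have h2 : φ' a = a := by
        rw [hφ'a, ← h1, ← hθe, MulEquiv.symm_apply_apply]
      have h3 : ∀ k, itr φ' k a = a := by
        intro k; induction k with
        | zero => rfl
        | succ k ih => rw [itr_succ, h2, ih]
      rw [← h3 n, hn]
    exact ⟨hinj, Finite.injective_iff_surjective.mp hinj⟩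

def eps {n : ℕ} (B : Fin n → Type v) [∀ j, Group (B j)] (s : Finset (Fin n)) :
    (∀ j, B j) →* (∀ j, B j) where
  toFun q := fun j => if j ∈ s then q j else 1
  map_one' := by funext j; simp
  map_mul' p q := by
    funext j
    by_cases h : j ∈ s <;> simp [h]

theorem eps_apply {n : ℕ} (B : Fin n → Type v) [∀ j, Group (B j)] (s : Finset (Fin n))
    (q : ∀ j, B j) (j : Fin n) : eps B s q j = if j ∈ s then q j else 1 := rfl

theorem eps_conj {n : ℕ} (B : Fin n → Type v) [∀ j, Group (B j)] (s : Finset (Fin n))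
    (q x : ∀ j, B j) : eps B s (q * x * q⁻¹) = q * eps B s x * q⁻¹ := by
  funext j
  show (if j ∈ s then (q * x * q⁻¹) j else 1) = q j * (if j ∈ s then x j else 1) * (q j)⁻¹
  by_cases h : j ∈ s
  · rw [if_pos h, if_pos h]; rfl
  · rw [if_neg h, if_neg h, mul_one, mul_inv_cancel]

theorem eps_insert {n : ℕ} (B : Fin n → Type v) [∀ j, Group (B j)] (s : Finset (Fin n))
    (j : Fin n) (hj : j ∉ s) (q : ∀ j, B j) :
    eps B (insert j s) q = eps B {j} q * eps B s q := by
  funext l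
  show (if l ∈ insert j s then q l else 1)
    = (if l ∈ ({j} : Finset (Fin n)) then q l else 1) * (if l ∈ s then q l else 1)
  by_cases h1 : l = j
  · subst h1
    rw [if_pos (Finset.mem_insert_self _ _), if_pos (Finset.mem_singleton_self _), if_neg hj, mul_one]
  · by_cases h2 : l ∈ s
    · rw [if_pos (Finset.mem_insert_of_mem h2), if_neg (by rw [Finset.mem_singleton]; exact h1),
        if_pos h2, one_mul]
    · rw [if_neg (by rw [Finset.mem_insert]; tauto), if_neg (by rw [Finset.mem_singleton]; exact h1),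
        if_neg h2, one_mul]

theorem eps_single {n : ℕ} (B : Fin n → Type v) [∀ j, Group (B j)] (j : Fin n) (q : ∀ j, B j) :
    eps B {j} q = Pi.mulSingle j (q j) := by
  funext l
  show (if l ∈ ({j} : Finset (Fin n)) then q l else 1) = _
  by_cases h1 : l = j
  · subst h1
    rw [if_pos (Finset.mem_singleton_self _), Pi.mulSingle_eq_same]
  · rw [if_neg (by rw [Finset.mem_singleton]; exact h1), Pi.mulSingle_eq_of_ne h1]

noncomputable def phis {m n : ℕ} (A : Fin (m + 1) → Type u) (B : Fin n → Type v)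
    [∀ i, Group (A i)] [∀ j, Group (B j)]
    (e : (∀ i, A i) ≃* (∀ j, B j)) (s : Finset (Fin n)) : A 0 →* A 0 :=
  (Pi.evalMonoidHom A 0).comp (e.symm.toMonoidHom.comp ((eps B s).comp
    (e.toMonoidHom.comp (MonoidHom.mulSingle A 0))))

theorem phis_apply {m n : ℕ} (A : Fin (m + 1) → Type u) (B : Fin n → Type v)
    [∀ i, Group (A i)] [∀ j, Group (B j)]
    (e : (∀ i, A i) ≃* (∀ j, B j)) (s : Finset (Fin n)) (a : A 0) :
    phis A B e s a = (e.symm (eps B s (e (Pi.mulSingle 0 a)))) 0 := rfl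

theorem phis_normal {m n : ℕ} (A : Fin (m + 1) → Type u) (B : Fin n → Type v)
    [∀ i, Group (A i)] [∀ j, Group (B j)]
    (e : (∀ i, A i) ≃* (∀ j, B j)) (s : Finset (Fin n)) : NormalEnd (phis A B e s) := by
  intro g a
  rw [phis_apply, phis_apply]
  have h1 : (Pi.mulSingle 0 (g * a * g⁻¹) : ∀ i, A i)
      = Pi.mulSingle 0 g * Pi.mulSingle 0 a * (Pi.mulSingle 0 g)⁻¹ := by
    rw [← Pi.mulSingle_inv, ← Pi.mulSingle_mul, ← Pi.mulSingle_mul]
  have h2 : e (Pi.mulSingle 0 g * Pi.mulSingle 0 a * (Pi.mulSingle 0 g)⁻¹)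
      = e (Pi.mulSingle 0 g) * e (Pi.mulSingle 0 a) * (e (Pi.mulSingle 0 g))⁻¹ := by
    rw [map_mul, map_mul, map_inv]
  have h3 : ∀ X : ∀ j, B j, e.symm (e (Pi.mulSingle 0 g) * X * (e (Pi.mulSingle 0 g))⁻¹)
      = Pi.mulSingle 0 g * e.symm X * (Pi.mulSingle 0 g)⁻¹ := by
    intro X
    rw [map_mul, map_mul, map_inv, MulEquiv.symm_apply_apply]
  rw [h1, h2, eps_conj, h3]
  show (Pi.mulSingle 0 g : ∀ i, A i) 0 * _ * ((Pi.mulSingle 0 g : ∀ i, A i) 0)⁻¹ = _
  rw [Pi.mulSingle_eq_same]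

theorem phis_insert {m n : ℕ} (A : Fin (m + 1) → Type u) (B : Fin n → Type v)
    [∀ i, Group (A i)] [∀ j, Group (B j)]
    (e : (∀ i, A i) ≃* (∀ j, B j)) (s : Finset (Fin n)) (j : Fin n) (hj : j ∉ s) (a : A 0) :
    phis A B e (insert j s) a = phis A B e {j} a * phis A B e s a := by
  rw [phis_apply, phis_apply, phis_apply, eps_insert B s j hj, map_mul]; rfl

theorem phis_univ {m n : ℕ} (A : Fin (m + 1) → Type u) (B : Fin n → Type v)
    [∀ i, Group (A i)] [∀ j, Group (B j)]
    (e : (∀ i, A i) ≃* (∀ j, B j)) (a : A 0) : phis A B e Finset.univ a = a := by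
  have h : ∀ q : ∀ j, B j, eps B Finset.univ q = q := by
    intro q; funext l
    rw [eps_apply, if_pos (Finset.mem_univ l)]
  rw [phis_apply, h, MulEquiv.symm_apply_apply, Pi.mulSingle_eq_same]

theorem phis_empty {m n : ℕ} (A : Fin (m + 1) → Type u) (B : Fin n → Type v)
    [∀ i, Group (A i)] [∀ j, Group (B j)]
    (e : (∀ i, A i) ≃* (∀ j, B j)) (a : A 0) : phis A B e ∅ a = 1 := by
  have h : ∀ q : ∀ j, B j, eps B ∅ q = 1 := by
    intro q; funext l
    rw [eps_apply, if_neg (Finset.notMem_empty l)]; rfl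
  rw [phis_apply, h, map_one]; rfl

theorem exists_bij {m n : ℕ} (A : Fin (m + 1) → Type u) (B : Fin n → Type v)
    [∀ i, Group (A i)] [∀ j, Group (B j)] [∀ i, Finite (A i)]
    (hA0 : Nontrivial (A 0))
    (hA0' : ∀ H K : Subgroup (A 0), H.Normal → K.Normal → H ⊓ K = ⊥ → H ⊔ K = ⊤ → H = ⊥ ∨ K = ⊥)
    (e : (∀ i, A i) ≃* (∀ j, B j)) : ∃ j, Function.Bijective (phis A B e {j}) := by
  classical
  have key : ∀ s : Finset (Fin n), Function.Bijective (phis A B e s) →
      ∃ j ∈ s, Function.Bijective (phis A B e {j}) := by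
    intro s
    induction s using Finset.induction_on with
    | empty =>
      intro hb
      exfalso
      obtain ⟨a, b, hab⟩ := hA0
      exact hab (hb.1 (by rw [phis_empty, phis_empty]))
    | insert j s hj ih =>
      intro hb
      rcases sum_lemma hA0' (phis A B e {j}) (phis A B e s) (phis A B e (insert j s))
        (phis_normal A B e {j}) (phis_normal A B e (insert j s)) hb (phis_insert A B e s j hj) with h | h
      · exact ⟨j, Finset.mem_insert_self _ _, h⟩
      · obtain ⟨j', hj', h'⟩ := ih h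
        exact ⟨j', Finset.mem_insert_of_mem hj', h'⟩
  have huniv : Function.Bijective (phis A B e Finset.univ) := by
    have : (phis A B e Finset.univ : A 0 → A 0) = id := by funext a; exact phis_univ A B e a
    rw [this]; exact Function.bijective_id
  obtain ⟨j, -, hj⟩ := key Finset.univ huniv
  exact ⟨j, hj⟩

theorem mulSingle_conj {ι : Type*} [DecidableEq ι] {f : ι → Type*} [∀ i, Group (f i)]
    (p : ∀ i, f i) (i : ι) (a : f i) :
    p * Pi.mulSingle i a * p⁻¹ = Pi.mulSingle i (p i * a * (p i)⁻¹) := by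
  funext l
  by_cases hl : l = i
  · subst hl
    simp
  · simp [Pi.mulSingle_eq_of_ne hl]

theorem exchange {m n : ℕ} (A : Fin (m + 1) → Type u) (B : Fin (n + 1) → Type v)
    [∀ i, Group (A i)] [∀ j, Group (B j)] [∀ i, Finite (A i)] [∀ j, Finite (B j)]
    (hA0 : Nontrivial (A 0))
    (hA0' : ∀ H K : Subgroup (A 0), H.Normal → K.Normal → H ⊓ K = ⊥ → H ⊔ K = ⊤ → H = ⊥ ∨ K = ⊥)
    (hB : ∀ j, ∀ H K : Subgroup (B j), H.Normal → K.Normal → H ⊓ K = ⊥ → H ⊔ K = ⊤ → H = ⊥ ∨ K = ⊥)
    (e : (∀ i, A i) ≃* (∀ j, B j)) :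
    ∃ j : Fin (n + 1), Nonempty (A 0 ≃* B j) ∧
      Nonempty ((∀ i : Fin m, A i.succ) ≃* (∀ l : Fin n, B (j.succAbove l))) := by
  classical
  obtain ⟨j, hj⟩ := exists_bij A B hA0 hA0' e
  refine ⟨j, ?_⟩
  let α : A 0 →* B j := (Pi.evalMonoidHom B j).comp (e.toMonoidHom.comp (MonoidHom.mulSingle A 0))
  let β : B j →* A 0 := (Pi.evalMonoidHom A 0).comp (e.symm.toMonoidHom.comp (MonoidHom.mulSingle B j))
  have hα : ∀ a, α a = (e (Pi.mulSingle 0 a)) j := fun a => rfl
  have hβ : ∀ b, β b = (e.symm (Pi.mulSingle j b)) 0 := fun b => rfl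
  have hβα : ∀ a, β (α a) = phis A B e {j} a := by
    intro a
    rw [phis_apply, eps_single, hβ, hα]
  have hinj : ∀ a, β (α a) = 1 → a = 1 := by
    intro a ha
    rw [hβα] at ha
    exact hj.1 (ha.trans (map_one _).symm)
  have hsurj : ∀ b : B j, ∃ a, β (α a) = β b := by
    intro b
    obtain ⟨a, ha⟩ := hj.2 (β b)
    exact ⟨a, (hβα a).trans ha⟩
  have hKn : α.range.Normal := by
    refine ⟨fun x hx b => ?_⟩
    obtain ⟨a, rfl⟩ := hx
    refine ⟨(e.symm (Pi.mulSingle j b)) 0 * a * ((e.symm (Pi.mulSingle j b)) 0)⁻¹, ?_⟩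
    rw [hα, hα, ← mulSingle_conj (e.symm (Pi.mulSingle j b)) 0 a, map_mul, map_mul, map_inv,
      MulEquiv.apply_symm_apply]
    show (Pi.mulSingle j b : ∀ j, B j) j * (e (Pi.mulSingle 0 a)) j * ((Pi.mulSingle j b : ∀ j, B j) j)⁻¹ = _
    rw [Pi.mulSingle_eq_same]
  have hinf : β.ker ⊓ α.range = ⊥ := by
    rw [eq_bot_iff]
    rintro x ⟨hx1, ⟨a, rfl⟩⟩
    rw [Subgroup.mem_bot]
    rw [hinj a (MonoidHom.mem_ker.mp hx1), map_one]
  have hsup : β.ker ⊔ α.range = ⊤ := by
    rw [eq_top_iff]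
    intro b _
    obtain ⟨a, ha⟩ := hsurj b
    have h1 : b * (α a)⁻¹ ∈ β.ker := by rw [MonoidHom.mem_ker, map_mul, map_inv, ha, mul_inv_cancel]
    have h3 : b = b * (α a)⁻¹ * α a := by group
    rw [h3]
    exact Subgroup.mul_mem _ (Subgroup.mem_sup_left h1) (Subgroup.mem_sup_right ⟨a, rfl⟩)
  have hαinj : Function.Injective α := by
    rw [injective_iff_map_eq_one]
    intro a ha
    exact hinj a (by rw [ha, map_one])
  have hβker : β.ker = ⊥ := by
    rcases hB j β.ker α.range inferInstance hKn hinf hsup with h | h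
    · exact h
    · exfalso
      obtain ⟨a, b, hab⟩ := hA0
      apply hab
      apply hαinj
      have h1 : α a ∈ α.range := ⟨a, rfl⟩
      have h2 : α b ∈ α.range := ⟨b, rfl⟩
      rw [h, Subgroup.mem_bot] at h1 h2
      rw [h1, h2]
  have hβinj : Function.Injective β := (MonoidHom.ker_eq_bot_iff β).mp hβker
  have hαsurj : Function.Surjective α := by
    intro b
    obtain ⟨a, ha⟩ := hsurj b
    exact ⟨a, hβinj ha⟩
  let eα : A 0 ≃* B j := MulEquiv.ofBijective α ⟨hαinj, hαsurj⟩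
  refine ⟨⟨eα⟩, ?_⟩
  let ι' : (∀ i : Fin m, A i.succ) →* (∀ i, A i) :=
    { toFun := fun p => Fin.cons 1 p
      map_one' := by
        funext i
        refine Fin.cases ?_ (fun i => ?_) i
        · rfl
        · rfl
      map_mul' := fun p q => by
        funext i
        refine Fin.cases ?_ (fun i => ?_) i
        · show (1 : A 0) = 1 * 1
          rw [one_mul]
        · rfl }
  have hι' : ∀ p, ι' p = Fin.cons 1 p := fun p => rfl
  let ρ : (∀ l, B l) →* (∀ l : Fin n, B (j.succAbove l)) :=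
    { toFun := fun q l => q (j.succAbove l)
      map_one' := rfl
      map_mul' := fun _ _ => rfl }
  let Θ : (∀ i : Fin m, A i.succ) →* (∀ l : Fin n, B (j.succAbove l)) := ρ.comp (e.toMonoidHom.comp ι')
  have hΘ : ∀ p l, Θ p l = (e (ι' p)) (j.succAbove l) := fun p l => rfl
  have hΘinj : Function.Injective Θ := by
    rw [injective_iff_map_eq_one]
    intro p hp
    have hq : ∀ l : Fin n, (e (ι' p)) (j.succAbove l) = 1 := fun l => by
      rw [← hΘ, hp]; rfl
    have hq2 : e (ι' p) = Pi.mulSingle j ((e (ι' p)) j) := by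
      funext l
      by_cases hl : l = j
      · subst hl; rw [Pi.mulSingle_eq_same]
      · obtain ⟨l', rfl⟩ := Fin.exists_succAbove_eq hl
        rw [hq l', Pi.mulSingle_eq_of_ne hl]
    have h1 : β ((e (ι' p)) j) = 1 := by
      rw [hβ, ← hq2, MulEquiv.symm_apply_apply, hι']
      rfl
    have h2 : (e (ι' p)) j = 1 := hβinj (h1.trans (map_one β).symm)
    rw [h2, Pi.mulSingle_one] at hq2
    have h3 : ι' p = 1 := e.injective (hq2.trans (map_one e).symm)
    funext i
    have := congrFun h3 i.succ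
    exact this
  have hcard : Nat.card (∀ l : Fin n, B (j.succAbove l)) ≤ Nat.card (∀ i : Fin m, A i.succ) := by
    have h1 : Nat.card (∀ i, A i) = Nat.card (A 0) * Nat.card (∀ i : Fin m, A i.succ) := by
      rw [← Nat.card_prod]; exact Nat.card_congr (Fin.consEquiv A).symm
    have h2 : Nat.card (∀ l, B l) = Nat.card (B j) * Nat.card (∀ l : Fin n, B (j.succAbove l)) := by
      rw [← Nat.card_prod]; exact Nat.card_congr (Fin.insertNthEquiv B j).symm
    have h3 : Nat.card (∀ i, A i) = Nat.card (∀ l, B l) := Nat.card_congr e.toEquiv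
    have h4 : Nat.card (A 0) = Nat.card (B j) := Nat.card_congr eα.toEquiv
    rw [h1, h2, h4] at h3
    have hpos : 0 < Nat.card (B j) := Nat.card_pos
    exact le_of_eq (Nat.eq_of_mul_eq_mul_left hpos h3).symm
  exact ⟨MulEquiv.ofBijective Θ (hΘinj.bijective_of_nat_card_le hcard)⟩

theorem krs : ∀ (m n : ℕ) (A : Fin m → Type u) (B : Fin n → Type v)
    [∀ i, Group (A i)] [∀ j, Group (B j)] [∀ i, Finite (A i)] [∀ j, Finite (B j)],
    (∀ i, Nontrivial (A i) ∧ ∀ H K : Subgroup (A i), H.Normal → K.Normal → H ⊓ K = ⊥ → H ⊔ K = ⊤ →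
      H = ⊥ ∨ K = ⊥) →
    (∀ j, Nontrivial (B j) ∧ ∀ H K : Subgroup (B j), H.Normal → K.Normal → H ⊓ K = ⊥ → H ⊔ K = ⊤ →
      H = ⊥ ∨ K = ⊥) →
    ((∀ i, A i) ≃* (∀ j, B j)) → ∃ σ : Fin m ≃ Fin n, ∀ i, Nonempty (A i ≃* B (σ i)) := by
  intro m
  induction m with
  | zero =>
    intro n A B _ _ _ _ hA hB e
    cases n with
    | zero => exact ⟨Equiv.refl _, fun i => i.elim0⟩
    | succ n =>
      exfalso
      haveI := (hB 0).1
      obtain ⟨b, hb⟩ := exists_ne (1 : B 0)
      have h1 : e.symm (Pi.mulSingle 0 b) = e.symm 1 := Subsingleton.elim _ _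
      have h2 := e.symm.injective h1
      have h3 := congrFun h2 0
      rw [Pi.mulSingle_eq_same] at h3
      exact hb h3
  | succ m ih =>
    intro n A B _ _ _ _ hA hB e
    cases n with
    | zero =>
      exfalso
      haveI := (hA 0).1
      obtain ⟨a, ha⟩ := exists_ne (1 : A 0)
      have h1 : e (Pi.mulSingle 0 a) = e 1 := Subsingleton.elim _ _
      have h2 := e.injective h1
      have h3 := congrFun h2 0
      rw [Pi.mulSingle_eq_same] at h3
      exact ha h3
    | succ n =>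
      obtain ⟨j, ⟨e0⟩, ⟨e'⟩⟩ := exchange A B (hA 0).1 (hA 0).2 (fun j => (hB j).2) e
      obtain ⟨σ', hσ'⟩ := ih n (fun i => A i.succ) (fun l => B (j.succAbove l))
        (fun i => hA i.succ) (fun l => hB (j.succAbove l)) e'
      let σ : Fin (m + 1) ≃ Fin (n + 1) :=
        (finSuccEquiv m).trans ((Equiv.optionCongr σ').trans (finSuccEquiv' j).symm)
      refine ⟨σ, fun i => ?_⟩
      refine Fin.cases ?_ (fun i => ?_) i
      · have h0 : σ 0 = j := by simp [σ]
        rw [h0]; exact ⟨e0⟩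
      · have h1 : σ i.succ = j.succAbove (σ' i) := by simp [σ]
        rw [h1]; exact hσ' i

/-- If a finite group is isomorphic both to a direct product of `m` directly indecomposable nontrivial groups and to a direct product of `n` such groups (a group is directly indecomposable when it is not the internal direct product of two nontrivial normal subgroups), then `m = n` and the factors are isomorphic in pairs after a suitable matching. -/
theorem result {m n : ℕ} {A : Fin m → Type*} {B : Fin n → Type*} [∀ i, Group (A i)] [∀ j, Group (B j)] [∀ i, Finite (A i)] [∀ j, Finite (B j)] (hA : ∀ i, Nontrivial (A i) ∧ ∀ H K : Subgroup (A i), H.Normal → K.Normal → H ⊓ K = ⊥ → H ⊔ K = ⊤ → H = ⊥ ∨ K = ⊥) (hB : ∀ j, Nontrivial (B j) ∧ ∀ H K : Subgroup (B j), H.Normal → K.Normal → H ⊓ K = ⊥ → H ⊔ K = ⊤ → H = ⊥ ∨ K = ⊥) (e : ((i : Fin m) → A i) ≃* ((j : Fin n) → B j)) : ∃ σ : Fin m ≃ Fin n, ∀ i, Nonempty (A i ≃* B (σ i)) := by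
  exact krs m n A B hA hB e

end Cfsg.Agent.S4223
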