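import Mathlib
import Cfsg.Statements.S4275

set_option autoImplicit false
open Cfsg

namespace Cfsg.Agent.S4275




/-- Let G be a transitive group of permutations of a finite set Ω, let o ∈ Ω, and let α be an automorphism of G. Then α is induced by conjugation by a permutation of Ω normalizing G if and only if the image under α of the stabilizer of o fixes some point of Ω. -/
theorem result {Ω : Type*} [Fintype Ω] (G : Subgroup (Equiv.Perm Ω)) (htr : MulAction.IsPretransitive G Ω) (o : Ω) (α : G ≃* G) : (∃ σ : Equiv.Perm Ω, σ ∈ Subgroup.normalizer (G : Set (Equiv.Perm Ω)) ∧ ∀ g : G, ((α g : G) : Equiv.Perm Ω) = σ * (g : Equiv.Perm Ω) * σ⁻¹) ↔ ∃ ω : Ω, ∀ g ∈ (MulAction.stabilizer G o).map α.toMonoidHom, g • ω = ω := by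
  classical
  have hsm : ∀ (g : G) (a : Ω), g • a = (g : Equiv.Perm Ω) a := fun g a => rfl
  constructor
  · rintro ⟨σ, -, hσ⟩
    refine ⟨σ o, ?_⟩
    intro g hg
    obtain ⟨h, hh, rfl⟩ := Subgroup.mem_map.mp hg
    have hh' : (h : Equiv.Perm Ω) o = o := MulAction.mem_stabilizer_iff.mp hh
    show (α h) • σ o = σ o
    rw [hsm, hσ h]
    simp [hh']
  · rintro ⟨ω, hω⟩
    choose t ht using fun a : Ω => MulAction.exists_smul_eq G o a
    have key : ∀ (g : G) (a : Ω), g • o = a → α g • ω = α (t a) • ω := by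
      intro g a hga
      have h1 : (t a)⁻¹ * g ∈ MulAction.stabilizer G o := by
        rw [MulAction.mem_stabilizer_iff, mul_smul, hga, inv_smul_eq_iff, ht a]
      have h2 : α ((t a)⁻¹ * g) • ω = ω :=
        hω _ (Subgroup.mem_map.mpr ⟨_, h1, rfl⟩)
      rw [map_mul, map_inv, mul_smul, inv_smul_eq_iff] at h2
      exact h2
    let f : Ω → Ω := fun a => α (t a) • ω
    have hf : ∀ g : G, f (g • o) = α g • ω := fun g => (key g _ rfl).symm
    have hsurj : Function.Surjective f := by
      intro b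
      obtain ⟨h, hh⟩ := MulAction.exists_smul_eq G ω b
      obtain ⟨g, rfl⟩ := α.surjective h
      exact ⟨g • o, by rw [hf, hh]⟩
    have hbij : Function.Bijective f := Finite.surjective_iff_bijective.mp hsurj
    let σ : Equiv.Perm Ω := Equiv.ofBijective f hbij
    have hσ : ∀ a, σ a = f a := fun a => rfl
    have hcomm : ∀ (g : G) (a : Ω), σ ((g : Equiv.Perm Ω) a) = (α g : Equiv.Perm Ω) (σ a) := by
      intro g a
      have h1 : (g : Equiv.Perm Ω) a = (g * t a) • o := by
        rw [mul_smul, ht a]; rfl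
      rw [h1, hσ, hf, map_mul, mul_smul, hσ]
      rfl
    have hconj : ∀ g : G, ((α g : G) : Equiv.Perm Ω) = σ * (g : Equiv.Perm Ω) * σ⁻¹ := by
      intro g
      ext a
      have h1 := hcomm g (σ⁻¹ a)
      have h0 : σ (σ⁻¹ a) = a := by simp
      rw [h0] at h1
      rw [Equiv.Perm.mul_apply, Equiv.Perm.mul_apply, h1]
    refine ⟨σ, ?_, hconj⟩
    rw [Subgroup.mem_set_normalizer_iff]
    intro h
    constructor
    · intro hh
      have := hconj ⟨h, hh⟩
      show σ * h * σ⁻¹ ∈ G
      have h2 : σ * h * σ⁻¹ = ((α ⟨h, hh⟩ : G) : Equiv.Perm Ω) := this.symm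
      rw [h2]
      exact (α ⟨h, hh⟩).2
    · intro hh
      obtain ⟨g, hg⟩ := α.surjective ⟨σ * h * σ⁻¹, hh⟩
      have h1 := hconj g
      rw [hg] at h1
      have h2 : σ * h * σ⁻¹ = σ * (g : Equiv.Perm Ω) * σ⁻¹ := h1
      have h3 : h = (g : Equiv.Perm Ω) := by
        have := mul_left_cancel (mul_right_cancel h2)
        exact this
      show h ∈ G
      rw [h3]
      exact g.2

end Cfsg.Agent.S4275
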