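import Mathlib
import Cfsg.Statements.S4283
import Cfsg.Agent.Lib.Lead.Frob2

set_option autoImplicit false
open Cfsg

namespace Cfsg.Agent.S4283



open scoped Pointwise
open Cfsg.Agent.Lib.Lead

theorem cent_index_conj {G : Type*} [Group G] (x c : G) :
    (Subgroup.centralizer ({c⁻¹ * x * c} : Set G)).index
      = (Subgroup.centralizer ({x} : Set G)).index := by
  have h : Subgroup.centralizer ({c⁻¹ * x * c} : Set G)
      = (Subgroup.centralizer ({x} : Set G)).map ((MulAut.conj c⁻¹ : G ≃* G) : G →* G) := by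
    ext g
    rw [Subgroup.mem_map, Subgroup.mem_centralizer_iff]
    constructor
    · intro hg
      refine ⟨c * g * c⁻¹, ?_, ?_⟩
      · rw [Subgroup.mem_centralizer_iff]
        intro y hy
        rw [Set.mem_singleton_iff] at hy
        subst hy
        have h1 := hg _ rfl
        calc y * (c * g * c⁻¹) = c * (c⁻¹ * y * c * g) * c⁻¹ := by group
          _ = c * (g * (c⁻¹ * y * c)) * c⁻¹ := by rw [h1]
          _ = c * g * c⁻¹ * y := by group
      · show (MulAut.conj c⁻¹) (c * g * c⁻¹) = g
        rw [MulAut.conj_apply]; group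
    · rintro ⟨y, hy, rfl⟩ z hz
      rw [Set.mem_singleton_iff] at hz
      subst hz
      rw [Subgroup.mem_centralizer_iff] at hy
      have h1 := hy x rfl
      show c⁻¹ * x * c * ((MulAut.conj c⁻¹) y) = (MulAut.conj c⁻¹) y * (c⁻¹ * x * c)
      rw [MulAut.conj_apply, inv_inv]
      calc c⁻¹ * x * c * (c⁻¹ * y * c) = c⁻¹ * (x * y) * c := by group
        _ = c⁻¹ * (y * x) * c := by rw [h1]
        _ = c⁻¹ * y * c * (c⁻¹ * x * c) := by group
  rw [h, Subgroup.index_map_equiv]

/-- Let G be a finite group with centre Z and let K, H be abelian subgroups of G containing Z such that G/Z is a Frobenius group with complement H/Z and kernel K/Z. Then the conjugacy class sizes of G are exactly 1, [G : K] and [G : H], and these two indices are coprime. (This is the converse half of the characterization of finite groups whose conjugacy class sizes are exactly 1, m and n with m and n coprime.) -/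
theorem result {G : Type*} [Group G] [Finite G] (K H : Subgroup G) (hZK : Subgroup.center G ≤ K) (hZH : Subgroup.center G ≤ H) (hK : IsMulCommutative K) (hH : IsMulCommutative H) (hFrob : Cfsg.IsFrobeniusComplement (H.map (QuotientGroup.mk' (Subgroup.center G)))) (hker : Cfsg.frobeniusKernel (H.map (QuotientGroup.mk' (Subgroup.center G))) = (K.map (QuotientGroup.mk' (Subgroup.center G)) : Set (G ⧸ Subgroup.center G))) : Set.range (fun x : G => (Subgroup.centralizer ({x} : Set G)).index) = ({1, K.index, H.index} : Set ℕ) ∧ K.index.Coprime H.index := by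
  classical
  set Z := Subgroup.center G with hZ
  set π := QuotientGroup.mk' Z with hπ
  set Hb := H.map π with hHb
  set Kb := K.map π with hKb
  have hπsurj : Function.Surjective π := QuotientGroup.mk'_surjective Z
  have hone : ∀ g : G, π g = 1 ↔ g ∈ Z := fun g => QuotientGroup.eq_one_iff g
  have hmemH : ∀ g : G, π g ∈ Hb ↔ g ∈ H := by
    intro g
    constructor
    · rintro ⟨h, hh, hhg⟩
      have h1 : h⁻¹ * g ∈ Z := QuotientGroup.eq.mp hhg
      have h2 := H.mul_mem hh (hZH h1)
      rwa [mul_inv_cancel_left] at h2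
    · intro hg; exact ⟨g, hg, rfl⟩
  have hmemK : ∀ g : G, π g ∈ Kb ↔ g ∈ K := by
    intro g
    constructor
    · rintro ⟨h, hh, hhg⟩
      have h1 : h⁻¹ * g ∈ Z := QuotientGroup.eq.mp hhg
      have h2 := K.mul_mem hh (hZK h1)
      rwa [mul_inv_cancel_left] at h2
    · intro hg; exact ⟨g, hg, rfl⟩
  have hkermem : ∀ g : G, g ∈ K ↔ (π g = 1 ∨ ∀ c : G ⧸ Z, c⁻¹ * π g * c ∉ Hb) := by
    intro g
    rw [← hmemK, ← frob_mem_kernel_iff, hker]
    rfl
  have hcentral : ∀ z ∈ Z, ∀ y : G, y * z = z * y := fun z hz => Subgroup.mem_center_iff.mp hz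
  -- Z is closed under conjugation
  have hZconj : ∀ (g c : G), c⁻¹ * g * c ∈ Z → g ∈ Z := by
    intro g c h
    have h1 := Z.normal_of_characteristic.conj_mem _ h c
    have e : c * (c⁻¹ * g * c) * c⁻¹ = g := by group
    rwa [e] at h1
  -- K is closed under conjugation
  have hKconj : ∀ (x c : G), x ∈ K → c⁻¹ * x * c ∈ K := by
    intro x c hx
    rw [hkermem] at hx ⊢
    rcases hx with h | h
    · left
      rw [map_mul, map_mul, h, mul_one, ← map_mul, inv_mul_cancel, map_one]
    · right
      intro d
      have h1 := h (π c * d)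
      have e : (π c * d)⁻¹ * π x * (π c * d) = d⁻¹ * π (c⁻¹ * x * c) * d := by
        rw [map_mul, map_mul, map_inv]; group
      rwa [e] at h1
  -- Fact A
  have factA : ∀ x ∈ K, x ∉ Z → ∀ g ∈ H, g ∉ Z → g * x ≠ x * g := by
    intro x hxK hxZ g hgH hgZ hcomm
    have h1 : (π x)⁻¹ * π g * π x ∈ Hb := by
      have e : (π x)⁻¹ * π g * π x = π g := by
        rw [← map_inv, ← map_mul, ← map_mul, mul_assoc, hcomm, inv_mul_cancel_left]
      rw [e]; exact (hmemH g).mpr hgH
    have h2 : π x ∈ Hb := frob_TI Hb hFrob (π x) (π g) ((hmemH g).mpr hgH)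
      (fun h => hgZ ((hone g).mp h)) h1
    rcases (hkermem x).mp hxK with h3 | h3
    · exact hxZ ((hone x).mp h3)
    · apply h3 1
      rw [inv_one, one_mul, mul_one]; exact h2
  -- centralizers of elements of K outside Z
  have hcK : ∀ x ∈ K, x ∉ Z → Subgroup.centralizer ({x} : Set G) = K := by
    intro x hxK hxZ
    apply le_antisymm
    · intro g hg
      rw [Subgroup.mem_centralizer_iff] at hg
      have hgx : x * g = g * x := hg x rfl
      by_contra hgK
      have h1 := (hkermem g).not.mp hgK
      push Not at h1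
      obtain ⟨hg1, cb, hcb⟩ := h1
      obtain ⟨c, rfl⟩ := hπsurj cb
      have h2 : c⁻¹ * g * c ∈ H := by
        rw [← hmemH, map_mul, map_mul, map_inv]; exact hcb
      have h3 : c⁻¹ * g * c ∉ Z := fun h => hg1 ((hone g).mpr (hZconj g c h))
      have h4 : c⁻¹ * x * c ∈ K := hKconj x c hxK
      have h5 : c⁻¹ * x * c ∉ Z := fun h => hxZ (hZconj x c h)
      apply factA _ h4 h5 _ h2 h3
      calc c⁻¹ * g * c * (c⁻¹ * x * c) = c⁻¹ * (g * x) * c := by group
        _ = c⁻¹ * (x * g) * c := by rw [hgx]
        _ = c⁻¹ * x * c * (c⁻¹ * g * c) := by group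
    · intro g hg
      rw [Subgroup.mem_centralizer_iff]
      intro y hy
      rw [Set.mem_singleton_iff] at hy
      subst hy
      exact congrArg Subtype.val (hK.is_comm.comm ⟨y, hxK⟩ ⟨g, hg⟩)
  -- centralizers of elements of H outside Z
  have hcH : ∀ x ∈ H, x ∉ Z → Subgroup.centralizer ({x} : Set G) = H := by
    intro x hxH hxZ
    apply le_antisymm
    · intro g hg
      rw [Subgroup.mem_centralizer_iff] at hg
      have hgx : x * g = g * x := hg x rfl
      have h1 : (π g)⁻¹ * π x * π g ∈ Hb := by
        have e : (π g)⁻¹ * π x * π g = π x := by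
          rw [← map_inv, ← map_mul, ← map_mul, mul_assoc, hgx, inv_mul_cancel_left]
        rw [e]; exact (hmemH x).mpr hxH
      have h2 : π g ∈ Hb := frob_TI Hb hFrob (π g) (π x) ((hmemH x).mpr hxH)
        (fun h => hxZ ((hone x).mp h)) h1
      exact (hmemH g).mp h2
    · intro g hg
      rw [Subgroup.mem_centralizer_iff]
      intro y hy
      rw [Set.mem_singleton_iff] at hy
      subst hy
      exact congrArg Subtype.val (hH.is_comm.comm ⟨y, hxH⟩ ⟨g, hg⟩)
  -- existence of elements
  have hexK : ∃ x ∈ K, x ∉ Z := by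
    by_contra hcon
    push Not at hcon
    have h1 : Cfsg.frobeniusKernel Hb = ({1} : Set (G ⧸ Z)) := by
      rw [hker]
      ext y
      constructor
      · rintro ⟨k, hk, rfl⟩
        exact (hone k).mpr (hcon k hk)
      · intro hy
        rw [Set.mem_singleton_iff] at hy
        rw [hy]; exact Kb.one_mem
    have h2 := frob_kernel_card Hb hFrob
    rw [h1] at h2
    have h3 : Hb.index = 1 := by
      rw [← h2]; simp
    exact hFrob.2.1 (Subgroup.index_eq_one.mp h3)
  have hexH : ∃ x ∈ H, x ∉ Z := by
    obtain ⟨⟨y, hy⟩, hy0⟩ := (Subgroup.ne_bot_iff_exists_ne_one (H := Hb)).mp hFrob.1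
    have hy1 : y ≠ 1 := fun h => hy0 (Subtype.ext h)
    obtain ⟨x, rfl⟩ := hπsurj y
    exact ⟨x, (hmemH x).mp hy, fun h => hy1 ((hone x).mpr h)⟩
  refine ⟨?_, ?_⟩
  · ext n
    simp only [Set.mem_range, Set.mem_insert_iff, Set.mem_singleton_iff]
    constructor
    · rintro ⟨x, rfl⟩
      by_cases hxZ : x ∈ Z
      · left
        have : Subgroup.centralizer ({x} : Set G) = ⊤ := by
          rw [eq_top_iff]
          intro g _
          rw [Subgroup.mem_centralizer_iff]
          intro y hy
          rw [Set.mem_singleton_iff] at hy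
          subst hy
          exact (hcentral y hxZ g).symm
        rw [this, Subgroup.index_top]
      · by_cases hxK : x ∈ K
        · right; left
          rw [hcK x hxK hxZ]
        · right; right
          have h1 := (hkermem x).not.mp hxK
          push Not at h1
          obtain ⟨hx1, cb, hcb⟩ := h1
          obtain ⟨c, rfl⟩ := hπsurj cb
          have h2 : c⁻¹ * x * c ∈ H := by
            rw [← hmemH, map_mul, map_mul, map_inv]; exact hcb
          have h3 : c⁻¹ * x * c ∉ Z := fun h => hxZ (hZconj x c h)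
          rw [← cent_index_conj x c, hcH _ h2 h3]
    · rintro (h | h | h)
      · refine ⟨1, ?_⟩
        rw [h]
        have : Subgroup.centralizer ({(1 : G)} : Set G) = ⊤ := by
          rw [eq_top_iff]
          intro g _
          rw [Subgroup.mem_centralizer_iff]
          intro y hy
          rw [Set.mem_singleton_iff] at hy
          subst hy
          rw [one_mul, mul_one]
        rw [this, Subgroup.index_top]
      · obtain ⟨x, hxK, hxZ⟩ := hexK
        exact ⟨x, by rw [hcK x hxK hxZ, h]⟩
      · obtain ⟨x, hxH, hxZ⟩ := hexH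
        exact ⟨x, by rw [hcH x hxH hxZ, h]⟩
  · have hkerπ : π.ker = Z := QuotientGroup.ker_mk' Z
    have hKi : Kb.index = K.index := Subgroup.index_map_eq K hπsurj (by rw [hkerπ]; exact hZK)
    have hHi : Hb.index = H.index := Subgroup.index_map_eq H hπsurj (by rw [hkerπ]; exact hZH)
    have hcardK : Nat.card Kb = Hb.index := by
      rw [← frob_kernel_card Hb hFrob, hker]; rfl
    have h1 : Kb.index * Nat.card Kb = Nat.card (G ⧸ Z) := Subgroup.index_mul_card Kb
    have h2 : Hb.index * Nat.card Hb = Nat.card (G ⧸ Z) := Subgroup.index_mul_card Hb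
    have hidx0 : Hb.index ≠ 0 := Subgroup.index_ne_zero_of_finite
    have h3 : Kb.index = Nat.card Hb := by
      rw [hcardK, ← h2, mul_comm] at h1
      exact Nat.eq_of_mul_eq_mul_left (Nat.pos_of_ne_zero hidx0) h1
    obtain ⟨q, hq⟩ := frob_index_mod Hb hFrob
    rw [← hKi, ← hHi, h3, hq]
    rw [Nat.coprime_comm, Nat.Coprime, Nat.gcd_comm, Nat.gcd_add_mul_left_right]
    simp

end Cfsg.Agent.S4283
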