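import Mathlib
import Cfsg.Statements.S4293
import Cfsg.Agent.Lib.Helper7.FrobFree

set_option autoImplicit false
open Cfsg

namespace Cfsg.Agent.S4293



section
universe u
variable {D : Type u} [DivisionRing D] (H : Subgroup Dˣ) (p : ℕ)

/-- the integral span of the group inside the division ring -/
def N : Submodule ℤ D := Submodule.span ℤ (Set.range (fun h : H => ((h : Dˣ) : D)))

theorem one_mem_N : (1 : D) ∈ N H := Submodule.subset_span ⟨1, by simp⟩

theorem mul_mem_N (h : H) {x : D} (hx : x ∈ N H) : ((h : Dˣ) : D) * x ∈ N H := by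
  unfold N at hx ⊢
  induction hx using Submodule.span_induction with
  | mem x hx =>
    obtain ⟨h', rfl⟩ := hx
    exact Submodule.subset_span ⟨h * h', by simp⟩
  | zero => simp
  | add x y _ _ hx hy => rw [mul_add]; exact add_mem hx hy
  | smul a x _ hx => rw [mul_smul_comm]; exact Submodule.smul_mem _ a hx

/-- left multiplication by a group element on the span -/
def Lh (h : H) : ↥(N H) →ₗ[ℤ] ↥(N H) where
  toFun x := ⟨((h : Dˣ) : D) * x.1, mul_mem_N H h x.2⟩
  map_add' x y := Subtype.ext (mul_add _ _ _)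
  map_smul' a x := Subtype.ext (mul_smul_comm _ _ _)

theorem Lh_val (h : H) (x : ↥(N H)) : (Lh H h x).1 = ((h : Dˣ) : D) * x.1 := rfl

/-- the multiples of `p` in the span -/
def P : Submodule ℤ ↥(N H) := LinearMap.range ((p : ℤ) • (LinearMap.id : ↥(N H) →ₗ[ℤ] ↥(N H)))

theorem mem_P (x : ↥(N H)) : x ∈ P H p ↔ ∃ y : ↥(N H), (p : ℤ) • y = x := by
  unfold P
  rw [LinearMap.mem_range]
  rfl

theorem Lh_le (h : H) : P H p ≤ (P H p).comap (Lh H h) := by
  intro x hx
  rw [Submodule.mem_comap, mem_P]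
  rw [mem_P] at hx
  obtain ⟨y, rfl⟩ := hx
  exact ⟨Lh H h y, (map_smul _ _ _).symm⟩

/-- the finite module -/
abbrev V : Type u := ↥(N H) ⧸ P H p

/-- the action on the finite module -/
def act : DistribMulAction H (V H p) where
  smul h v := Submodule.mapQ (P H p) (P H p) (Lh H h) (Lh_le H p h) v
  one_smul v := by
    obtain ⟨x, rfl⟩ := Submodule.Quotient.mk_surjective _ v
    show Submodule.mapQ (P H p) (P H p) (Lh H 1) (Lh_le H p 1) (Submodule.Quotient.mk x) = _
    rw [Submodule.mapQ_apply]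
    congr 1
    apply Subtype.ext
    rw [Lh_val]
    simp
  mul_smul h h' v := by
    obtain ⟨x, rfl⟩ := Submodule.Quotient.mk_surjective _ v
    show Submodule.mapQ (P H p) (P H p) (Lh H (h * h')) (Lh_le H p (h * h'))
        (Submodule.Quotient.mk x) =
      Submodule.mapQ (P H p) (P H p) (Lh H h) (Lh_le H p h)
        (Submodule.mapQ (P H p) (P H p) (Lh H h') (Lh_le H p h') (Submodule.Quotient.mk x))
    rw [Submodule.mapQ_apply, Submodule.mapQ_apply, Submodule.mapQ_apply]
    congr 1
    apply Subtype.ext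
    rw [Lh_val, Lh_val, Lh_val, Subgroup.coe_mul, Units.val_mul, mul_assoc]
  smul_zero h := map_zero _
  smul_add h v w := map_add _ _ _

theorem act_mk (h : H) (x : ↥(N H)) :
    (act H p).smul h (Submodule.Quotient.mk x) = Submodule.Quotient.mk (Lh H h x) :=
  Submodule.mapQ_apply _ _ _ _

theorem finite_V (hp : p ≠ 0) [Finite H] : Finite (V H p) := by
  haveI : Module.Finite ℤ ↥(N H) := Module.Finite.span_of_finite ℤ (Set.finite_range _)
  apply Module.finite_of_fg_torsion
  intro v
  obtain ⟨x, rfl⟩ := Submodule.Quotient.mk_surjective _ v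
  refine ⟨⟨(p : ℤ), mem_nonZeroDivisors_of_ne_zero (by exact_mod_cast hp)⟩, ?_⟩
  show (p : ℤ) • (Submodule.Quotient.mk x : V H p) = 0
  rw [← Submodule.Quotient.mk_smul, Submodule.Quotient.mk_eq_zero, mem_P]
  exact ⟨x, rfl⟩

theorem nontrivial_V_of_char (hp : (p : D) = 0) : Nontrivial (V H p) := by
  rw [Submodule.Quotient.nontrivial_iff]
  intro h
  have h1 : (⟨1, one_mem_N H⟩ : ↥(N H)) ∈ P H p := by rw [h]; exact Submodule.mem_top
  rw [mem_P] at h1
  obtain ⟨y, hy⟩ := h1
  have h2 := congrArg Subtype.val hy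
  simp only [Submodule.coe_smul] at h2
  rw [zsmul_eq_mul, Int.cast_natCast, hp, zero_mul] at h2
  exact zero_ne_one h2

theorem nontrivial_V_of_charZero [CharZero D] [Finite H] (hp : p.Prime) : Nontrivial (V H p) := by
  rw [Submodule.Quotient.nontrivial_iff]
  intro h
  have hle : N H ≤ (Ideal.span {(p : ℤ)}) • N H := by
    intro n hn
    have h1 : (⟨n, hn⟩ : ↥(N H)) ∈ P H p := by rw [h]; exact Submodule.mem_top
    rw [mem_P] at h1
    obtain ⟨y, hy⟩ := h1
    have h2 := congrArg Subtype.val hy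
    simp only [Submodule.coe_smul] at h2
    rw [← h2]
    exact Submodule.smul_mem_smul (Ideal.mem_span_singleton_self _) y.2
  have hfg : (N H).FG := Submodule.fg_span (Set.finite_range _)
  obtain ⟨r, hr1, hr2⟩ :=
    Submodule.exists_sub_one_mem_and_smul_eq_zero_of_fg_of_le_smul _ (N H) hfg hle
  have h3 := hr2 1 (one_mem_N H)
  rw [zsmul_eq_mul, mul_one] at h3
  have h4 : r = 0 := by exact_mod_cast h3
  rw [h4, zero_sub, Ideal.mem_span_singleton] at hr1
  have h5 : (p : ℤ) ∣ 1 := (dvd_neg.mp hr1)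
  have h6 : p ∣ 1 := by exact_mod_cast h5
  exact hp.one_lt.ne' (Nat.dvd_one.mp h6)

theorem geom_id (d : D) (n : ℕ) :
    (∑ k ∈ Finset.range n, (k : D) * d ^ k) * (d - 1) =
      (n : D) * d ^ n - d * ∑ k ∈ Finset.range n, d ^ k := by
  induction n with
  | zero => simp
  | succ n ih =>
    rw [Finset.sum_range_succ, Finset.sum_range_succ, add_mul, ih]
    have h1 : (n : D) * d ^ n * (d - 1) = (n : D) * d ^ (n + 1) - (n : D) * d ^ n := by
      rw [mul_sub, mul_one, mul_assoc, ← pow_succ]
    have h2 : d * (∑ k ∈ Finset.range n, d ^ k + d ^ n) =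
        d * ∑ k ∈ Finset.range n, d ^ k + d ^ (n + 1) := by
      rw [mul_add, ← pow_succ']
    rw [h1, h2]
    push_cast
    rw [add_mul, one_mul]
    abel

theorem sum_mem_N {ι : Type*} (s : Finset ι) (f : ι → D) (hf : ∀ i ∈ s, f i ∈ N H) :
    ∑ i ∈ s, f i ∈ N H := Submodule.sum_mem _ hf

theorem free_of_char (hp : (p : D) = 0) (h : H) (hh : h ≠ 1) (x : ↥(N H))
    (hx : Lh H h x - x ∈ P H p) : x ∈ P H p := by
  rw [mem_P] at hx
  obtain ⟨y, hy⟩ := hx
  have h2 := congrArg Subtype.val hy
  simp only [Submodule.coe_smul, Submodule.coe_sub, Lh_val] at h2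
  rw [zsmul_eq_mul, Int.cast_natCast, hp, zero_mul] at h2
  have h3 : (((h : Dˣ) : D) - 1) * x.1 = 0 := by rw [sub_mul, one_mul]; exact h2.symm
  have h4 : ((h : Dˣ) : D) - 1 ≠ 0 := by
    intro h5
    apply hh
    apply Subtype.ext
    apply Units.ext
    rw [sub_eq_zero] at h5
    rw [h5]; rfl
  have h6 : x.1 = 0 := by
    rcases mul_eq_zero.mp h3 with h7 | h7
    · exact absurd h7 h4
    · exact h7
  have h7 : x = 0 := Subtype.ext h6
  rw [h7]; exact Submodule.zero_mem _

theorem free_of_charZero [Finite H] (hp : p.Prime) (hlt : Nat.card H < p) (h : H)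
    (hh : h ≠ 1) (x : ↥(N H)) (hx : Lh H h x - x ∈ P H p) : x ∈ P H p := by
  rw [mem_P] at hx ⊢
  obtain ⟨y, hy⟩ := hx
  have h2 := congrArg Subtype.val hy
  simp only [Submodule.coe_smul, Submodule.coe_sub, Lh_val] at h2
  set d : D := ((h : Dˣ) : D) with hd
  set m := orderOf h with hm
  have hm0 : 0 < m := orderOf_pos h
  have hdm : d ^ m = 1 := by
    have h3 : h ^ m = 1 := pow_orderOf_eq_one h
    have h4 := congrArg (fun z : H => ((z : Dˣ) : D)) h3
    simpa using h4
  have hd1 : d - 1 ≠ 0 := by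
    intro h5
    apply hh
    apply Subtype.ext
    apply Units.ext
    rw [sub_eq_zero] at h5
    rw [← hd, h5]; rfl
  have hG : ∑ k ∈ Finset.range m, d ^ k = 0 := by
    have h3 := mul_geom_sum d m
    rw [hdm, sub_self] at h3
    rcases mul_eq_zero.mp h3 with h4 | h4
    · exact absurd h4 hd1
    · exact h4
  set u : D := ∑ k ∈ Finset.range m, (k : D) * d ^ k with hu
  have hud : u * (d - 1) = (m : D) := by
    rw [hu, geom_id, hG, hdm, mul_zero, sub_zero, mul_one]
  have huy : u * y.1 ∈ N H := by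
    rw [hu, Finset.sum_mul]
    apply sum_mem_N
    intro k _
    have h3 : d ^ k * y.1 ∈ N H := by
      have h4 : d ^ k = (((h ^ k : H) : Dˣ) : D) := by simp [hd]
      rw [h4]
      exact mul_mem_N H _ y.2
    have h5 : (k : D) * d ^ k * y.1 = (k : ℤ) • (d ^ k * y.1) := by
      rw [zsmul_eq_mul, Int.cast_natCast, mul_assoc]
    rw [h5]
    exact Submodule.smul_mem _ _ h3
  have hmx : (m : ℤ) • x.1 = (p : ℤ) • (u * y.1) := by
    rw [zsmul_eq_mul, Int.cast_natCast, ← hud, mul_assoc, sub_mul, one_mul, ← h2, mul_smul_comm]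
  have hcop : Nat.Coprime m p := by
    rw [Nat.coprime_comm]
    apply (Nat.Prime.coprime_iff_not_dvd hp).mpr
    intro hdvd
    have h3 := Nat.le_of_dvd hm0 hdvd
    have h4 : m ≤ Nat.card H := orderOf_le_card
    omega
  obtain ⟨a, b, hab⟩ := (Nat.isCoprime_iff_coprime.mpr hcop)
  refine ⟨a • ⟨u * y.1, huy⟩ + b • x, ?_⟩
  apply Subtype.ext
  simp only [Submodule.coe_smul, Submodule.coe_add]
  calc (p : ℤ) • (a • (u * y.1) + b • x.1)
      = a • ((p : ℤ) • (u * y.1)) + (b * (p : ℤ)) • x.1 := by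
        rw [smul_add, smul_comm (p : ℤ) a, smul_smul (p : ℤ) b, mul_comm (p : ℤ) b]
    _ = a • ((m : ℤ) • x.1) + (b * (p : ℤ)) • x.1 := by rw [hmx]
    _ = (a * (m : ℤ) + b * (p : ℤ)) • x.1 := by rw [add_smul, smul_smul]
    _ = x.1 := by rw [hab, one_smul]

end

/-- A nontrivial finite subgroup of the multiplicative group of a division ring occurs as a Frobenius complement of some finite Frobenius group. -/
theorem result {D : Type*} [DivisionRing D] (H : Subgroup Dˣ) [Finite H] (hH : H ≠ ⊥) :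
    ∃ (L : Type) (_ : Group L) (_ : Finite L) (C : Subgroup L), Cfsg.IsFrobeniusComplement C ∧ Nonempty (H ≃* C) := by
  classical
  haveI : Nontrivial H := (Subgroup.nontrivial_iff_ne_bot H).mpr hH
  obtain ⟨c, hc⟩ := CharP.exists D
  rcases CharP.char_is_prime_or_zero D c with hcp | hc0
  · -- positive characteristic
    have hpD : (c : D) = 0 := CharP.cast_eq_zero D c
    letI := act H c
    haveI := finite_V H c hcp.ne_zero
    haveI := nontrivial_V_of_char H c hpD
    have hfree : ∀ h : H, h ≠ 1 → ∀ v : V H c, h • v = v → v = 0 := by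
      intro h hh v hv
      obtain ⟨x, rfl⟩ := Submodule.Quotient.mk_surjective _ v
      have hv' : (act H c).smul h (Submodule.Quotient.mk x) = Submodule.Quotient.mk x := hv
      rw [act_mk, Submodule.Quotient.eq] at hv'
      rw [Submodule.Quotient.mk_eq_zero]
      exact free_of_char H c hpD h hh x hv'
    exact Cfsg.Agent.Lib.Helper7.FF.exists_frob_of_distrib hfree
  · subst hc0
    haveI : CharZero D := CharP.charP_to_charZero D
    obtain ⟨p, hp1, hp⟩ := Nat.exists_infinite_primes (Nat.card H + 1)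
    letI := act H p
    haveI := finite_V H p hp.ne_zero
    haveI := nontrivial_V_of_charZero H p hp
    have hfree : ∀ h : H, h ≠ 1 → ∀ v : V H p, h • v = v → v = 0 := by
      intro h hh v hv
      obtain ⟨x, rfl⟩ := Submodule.Quotient.mk_surjective _ v
      have hv' : (act H p).smul h (Submodule.Quotient.mk x) = Submodule.Quotient.mk x := hv
      rw [act_mk, Submodule.Quotient.eq] at hv'
      rw [Submodule.Quotient.mk_eq_zero]
      exact free_of_charZero H p hp (by omega) h hh x hv'
    exact Cfsg.Agent.Lib.Helper7.FF.exists_frob_of_distrib hfree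

end Cfsg.Agent.S4293
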