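import Mathlib
import Cfsg.Statements.S4295
import Cfsg.Agent.Lib.Helper7.FrobFree2
import Cfsg.Agent.Lib.Helper7.QuatSq
import Cfsg.Agent.Lib.Lead.QuatLift

set_option autoImplicit false
open Cfsg

namespace Cfsg.Agent.S4295



open QuaternionGroup

/-- a finite module of order `k * k` with a free action of the quaternion group -/
def HasMod (k : ℕ) : Prop :=
  ∃ (A : Type) (_ : AddCommGroup A) (_ : Finite A) (_ : DistribMulAction (QuaternionGroup 2) A),
    Nat.card A = k * k ∧ ∀ h : QuaternionGroup 2, h ≠ 1 → ∀ x : A, h • x = x → x = 0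

theorem hasMod_one : HasMod 1 := by
  refine ⟨PUnit, inferInstance, inferInstance,
    { smul := fun _ x => x
      one_smul := fun _ => rfl
      mul_smul := fun _ _ _ => rfl
      smul_zero := fun _ => rfl
      smul_add := fun _ _ _ => rfl }, ?_, ?_⟩
  · simp
  · intro h _ x _
    rfl

theorem hasMod_mul (k l : ℕ) (hk : HasMod k) (hl : HasMod l) : HasMod (k * l) := by
  obtain ⟨A, iA, fA, dA, cA, hA⟩ := hk
  obtain ⟨B, iB, fB, dB, cB, hB⟩ := hl
  refine ⟨A × B, inferInstance, inferInstance, inferInstance, ?_, ?_⟩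
  · rw [Nat.card_prod, cA, cB]; ring
  · intro h hh x hx
    exact Prod.ext (hA h hh x.1 (congrArg Prod.fst hx)) (hB h hh x.2 (congrArg Prod.snd hx))

theorem quat_cases : ∀ h : QuaternionGroup 2, h ≠ 1 → h = a 2 ∨ h * h = a 2 := by
  decide

theorem hasMod_prime (p : ℕ) (hp : p.Prime) (hodd : Odd p) : HasMod p := by
  haveI : Fact p.Prime := ⟨hp⟩
  obtain ⟨c, d, hcd⟩ := ZMod.sq_add_sq p (-1)
  let X : AddMonoid.End (ZMod p × ZMod p) :=
    AddMonoidHom.mk' (fun w => (c * w.1 + d * w.2, d * w.1 - c * w.2))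
      (fun w w' => by ext <;> simp only [Prod.fst_add, Prod.snd_add] <;> ring)
  let Y : AddMonoid.End (ZMod p × ZMod p) :=
    AddMonoidHom.mk' (fun w => (-w.2, w.1))
      (fun w w' => by ext <;> simp only [Prod.fst_add, Prod.snd_add] <;> ring)
  have hXw : ∀ w : ZMod p × ZMod p, X w = (c * w.1 + d * w.2, d * w.1 - c * w.2) := fun w => rfl
  have hYw : ∀ w : ZMod p × ZMod p, Y w = (-w.2, w.1) := fun w => rfl
  have hXXw : ∀ w : ZMod p × ZMod p, X (X w) = -w := by
    intro w
    rw [hXw, hXw]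
    ext
    · show c * (c * w.1 + d * w.2) + d * (d * w.1 - c * w.2) = -w.1
      linear_combination w.1 * hcd
    · show d * (c * w.1 + d * w.2) - c * (d * w.1 - c * w.2) = -w.2
      linear_combination w.2 * hcd
  have hYYw : ∀ w : ZMod p × ZMod p, Y (Y w) = -w := by
    intro w
    rw [hYw, hYw]
    rfl
  have hXYXw : ∀ w : ZMod p × ZMod p, X (Y (X w)) = Y w := by
    intro w
    rw [hXw, hYw, hXw, hYw]
    ext
    · show c * (-(d * w.1 - c * w.2)) + d * (c * w.1 + d * w.2) = -w.2
      linear_combination w.2 * hcd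
    · show d * (-(d * w.1 - c * w.2)) - c * (c * w.1 + d * w.2) = w.1
      linear_combination (-w.1) * hcd
  have hX4 : X * (X * X * X) = 1 := by
    apply AddMonoidHom.ext
    intro w
    show X (X (X (X w))) = w
    rw [hXXw, hXXw, neg_neg]
  have hX4' : (X * X * X) * X = 1 := by
    apply AddMonoidHom.ext
    intro w
    show X (X (X (X w))) = w
    rw [hXXw, hXXw, neg_neg]
  have hY4 : Y * (Y * Y * Y) = 1 := by
    apply AddMonoidHom.ext
    intro w
    show Y (Y (Y (Y w))) = w
    rw [hYYw, hYYw, neg_neg]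
  have hY4' : (Y * Y * Y) * Y = 1 := by
    apply AddMonoidHom.ext
    intro w
    show Y (Y (Y (Y w))) = w
    rw [hYYw, hYYw, neg_neg]
  let xu : (AddMonoid.End (ZMod p × ZMod p))ˣ := ⟨X, X * X * X, hX4, hX4'⟩
  let yu : (AddMonoid.End (ZMod p × ZMod p))ˣ := ⟨Y, Y * Y * Y, hY4, hY4'⟩
  have hx : xu ^ (2 * 2) = 1 := by
    apply Units.ext
    rw [Units.val_pow_eq_pow_val, Units.val_one]
    show X ^ (2 * 2) = 1
    have h4 : X ^ (2 * 2) = X * (X * X * X) := by
      rw [show (2 * 2 : ℕ) = 4 from rfl]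
      simp only [pow_succ, pow_zero, one_mul, mul_assoc]
    rw [h4, hX4]
  have hy : yu ^ 2 = xu ^ 2 := by
    apply Units.ext
    rw [Units.val_pow_eq_pow_val, Units.val_pow_eq_pow_val]
    show Y ^ 2 = X ^ 2
    rw [sq, sq]
    apply AddMonoidHom.ext
    intro w
    show Y (Y w) = X (X w)
    rw [hYYw, hXXw]
  have hxy : xu * yu * xu = yu := by
    apply Units.ext
    rw [Units.val_mul, Units.val_mul]
    show X * Y * X = Y
    apply AddMonoidHom.ext
    intro w
    exact hXYXw w
  let φ : QuaternionGroup 2 →* (AddMonoid.End (ZMod p × ZMod p))ˣ :=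
    Cfsg.Agent.Lib.Lead.quatHom 2 xu yu hx hy hxy
  have htwo : (2 : ZMod p) ≠ 0 := by
    intro h
    have h1 : ((2 : ℕ) : ZMod p) = 0 := by exact_mod_cast h
    rw [ZMod.natCast_eq_zero_iff] at h1
    have h2 := (Nat.prime_dvd_prime_iff_eq hp Nat.prime_two).mp h1
    rw [h2] at hodd
    exact absurd hodd (by decide)
  have hkey : ∀ w : ZMod p × ZMod p, ((φ (a 2) : (AddMonoid.End (ZMod p × ZMod p))ˣ) :
      AddMonoid.End (ZMod p × ZMod p)) w = -w := by
    intro w
    have h1 : φ (a 2) = xu ^ 2 := by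
      show Cfsg.Agent.Lib.Lead.quatHom 2 xu yu hx hy hxy (a 2) = xu ^ 2
      rw [Cfsg.Agent.Lib.Lead.quatHom_a]
      rfl
    rw [h1, Units.val_pow_eq_pow_val]
    show (X ^ 2) w = -w
    rw [sq]
    exact hXXw w
  have hfree0 : ∀ h : QuaternionGroup 2, h ≠ 1 → ∀ w : ZMod p × ZMod p,
      ((φ h : (AddMonoid.End (ZMod p × ZMod p))ˣ) : AddMonoid.End (ZMod p × ZMod p)) w = w →
      w = 0 := by
    intro h hh w hw
    have h2 : ((φ (a 2) : (AddMonoid.End (ZMod p × ZMod p))ˣ) :
        AddMonoid.End (ZMod p × ZMod p)) w = w := by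
      rcases quat_cases h hh with h1 | h1
      · rw [← h1]; exact hw
      · rw [← h1, map_mul, Units.val_mul]
        show ((φ h : (AddMonoid.End (ZMod p × ZMod p))ˣ) : AddMonoid.End (ZMod p × ZMod p))
          (((φ h : (AddMonoid.End (ZMod p × ZMod p))ˣ) : AddMonoid.End (ZMod p × ZMod p)) w) = w
        rw [hw, hw]
    rw [hkey] at h2
    have h3 : ∀ z : ZMod p, -z = z → z = 0 := by
      intro z hz
      have h4 : 2 * z = 0 := by linear_combination -hz
      rcases mul_eq_zero.mp h4 with h5 | h5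
      · exact absurd h5 htwo
      · exact h5
    exact Prod.ext (h3 w.1 (congrArg Prod.fst h2)) (h3 w.2 (congrArg Prod.snd h2))
  refine ⟨ZMod p × ZMod p, inferInstance, inferInstance,
    DistribMulAction.compHom (ZMod p × ZMod p) φ, ?_, ?_⟩
  · rw [Nat.card_prod, Nat.card_zmod]
  · intro h hh w hw
    exact hfree0 h hh w hw

theorem hasMod_odd : ∀ k : ℕ, Odd k → HasMod k := by
  intro k
  induction k using Nat.recOnMul with
  | zero => intro h; exact absurd h (by decide)
  | one => intro _; exact hasMod_one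
  | prime p hp => intro h; exact hasMod_prime p hp h
  | mul a b iha ihb =>
    intro h
    obtain ⟨ha, hb⟩ := Nat.odd_mul.mp h
    exact hasMod_mul a b (iha ha) (ihb hb)

/-- For a natural number m the following are equivalent: (a) some finite group has a Frobenius complement isomorphic to the quaternion group of order 8 whose Frobenius kernel (the identity together with the elements lying in no conjugate of the complement) has exactly m elements; (b) m is an odd perfect square greater than 1. -/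
theorem result (m : ℕ) :
    (∃ (L : Type) (_ : Group L) (_ : Finite L) (H : Subgroup L), Cfsg.IsFrobeniusComplement H ∧
        Nonempty (H ≃* QuaternionGroup 2) ∧ Nat.card (Cfsg.frobeniusKernel H) = m) ↔
    (Odd m ∧ IsSquare m ∧ 1 < m) := by
  constructor
  · rintro ⟨L, iG, iF, H, hF, ⟨e⟩, hm⟩
    have hi : ((e.symm (a 1) : H) : L) ∈ H := (e.symm (a 1)).2
    have hj : ((e.symm (xa 0) : H) : L) ∈ H := (e.symm (xa 0)).2
    have r1 : (a 1 : QuaternionGroup 2) * a 1 = xa 0 * xa 0 := by decide
    have r2 : (a 1 : QuaternionGroup 2) * a 1 ≠ 1 := by decide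
    have r3 : ((a 1 : QuaternionGroup 2) * a 1) * (a 1 * a 1) = 1 := by decide
    have r4 : (a 1 : QuaternionGroup 2) * xa 0 = (a 1 * a 1) * (xa 0 * a 1) := by decide
    have key := Cfsg.Agent.Lib.Helper7.QS.frob_sq H hF _ _ hi hj
      (by
        have := congrArg (fun z => ((e.symm z : H) : L)) r1
        simpa only [map_mul, Subgroup.coe_mul] using this)
      (by
        intro h
        apply r2
        apply e.symm.injective
        apply Subtype.ext
        rw [map_mul, Subgroup.coe_mul, h, map_one]; rfl)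
      (by
        have := congrArg (fun z => ((e.symm z : H) : L)) r3
        simpa only [map_mul, Subgroup.coe_mul, map_one, Subgroup.coe_one] using this)
      (by
        have := congrArg (fun z => ((e.symm z : H) : L)) r4
        simpa only [map_mul, Subgroup.coe_mul] using this)
    rw [hm] at key
    refine ⟨key.1, key.2, ?_⟩
    have h1 := Cfsg.Agent.Lib.Helper7.FK.card_frobeniusKernel H hF
    rw [hm] at h1
    have h2 : H.index ≠ 1 := fun h => hF.2.1 (Subgroup.index_eq_one.mp h)
    have h3 : H.index ≠ 0 := Subgroup.index_ne_zero_of_finite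
    omega
  · rintro ⟨hodd, ⟨k, rfl⟩, hlt⟩
    have hk : Odd k := (Nat.odd_mul.mp hodd).1
    obtain ⟨A, iA, fA, dA, cA, hA⟩ := hasMod_odd k hk
    haveI : Nontrivial A := by
      rw [← Finite.one_lt_card_iff_nontrivial, cA]; exact hlt
    obtain ⟨L, iG, iF, C, hC, ⟨e⟩, hidx⟩ :=
      Cfsg.Agent.Lib.Helper7.FF.exists_frob_of_distrib_index hA
    refine ⟨L, iG, iF, C, hC, ⟨e.symm⟩, ?_⟩
    rw [Cfsg.Agent.Lib.Helper7.FK.card_frobeniusKernel C hC, hidx, cA]

end Cfsg.Agent.S4295
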