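import Mathlib
import Cfsg.Statements.S4296
import Cfsg.Agent.Lib.Helper7.QuatSq
import Cfsg.Agent.Lib.Helper7.FrobKer
import Cfsg.Agent.Lib.Lead.Frob5
import Cfsg.Agent.S0016

set_option autoImplicit false
open Cfsg

namespace Cfsg.Agent.S4296



open scoped Pointwise

section norm
variable {G A : Type*} [Group G] [CommGroup A] [MulDistribMulAction G A]

theorem norm_fixed (p : ℕ) [Fact p.Prime] (g : G) (hg : g ^ p = 1) (x : A) :
    g • (∏ k : ZMod p, (g ^ k.val) • x) = ∏ k : ZMod p, (g ^ k.val) • x := by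
  rw [Finset.smul_prod']
  have h1 : ∀ k : ZMod p, g • (g ^ k.val) • x = (g ^ (k + 1).val) • x := by
    intro k
    rw [← mul_smul, ← pow_succ', ZMod.val_add, ZMod.val_one, ← pow_eq_pow_mod _ hg]
  simp_rw [h1]
  exact Equiv.prod_comp (Equiv.addRight (1 : ZMod p)) (fun k => (g ^ k.val) • x)

theorem norm_eq_one (p : ℕ) [Fact p.Prime] (g : G) (hg : g ^ p = 1)
    (hfix : ∀ x : A, g • x = x → x = 1) (x : A) : ∏ k : ZMod p, (g ^ k.val) • x = 1 :=
  hfix _ (norm_fixed p g hg x)

theorem all_one [Finite A] (p : ℕ) [Fact p.Prime] (hcop : (Nat.card A).Coprime p) (z h : G)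
    (hcomm : Commute z h) (hzp : z ^ p = 1) (hhp : h ^ p = 1)
    (hfz : ∀ x : A, z • x = x → x = 1) (hfa : ∀ a : ℕ, ∀ x : A, (z ^ a * h) • x = x → x = 1)
    (x : A) : x = 1 := by
  have h1 : ∀ a : ZMod p, ∏ k : ZMod p, ((z ^ a.val * h) ^ k.val) • x = 1 := by
    intro a
    apply norm_eq_one p _ _ (hfa a.val)
    rw [(hcomm.pow_left a.val).mul_pow, ← pow_mul, mul_comm a.val p, pow_mul, hzp, one_pow, hhp,
      one_mul]
  have h2 : ∏ a : ZMod p, ∏ k : ZMod p, ((z ^ a.val * h) ^ k.val) • x = 1 :=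
    Finset.prod_eq_one (fun a _ => h1 a)
  rw [Finset.prod_comm] at h2
  have h3 : ∀ k : ZMod p, k ≠ 0 → ∏ a : ZMod p, ((z ^ a.val * h) ^ k.val) • x = 1 := by
    intro k hk
    have e1 : ∀ a : ZMod p, ((z ^ a.val * h) ^ k.val) • x =
        (z ^ (a * k).val) • ((h ^ k.val) • x) := by
      intro a
      rw [(hcomm.pow_left a.val).mul_pow, mul_smul, ← pow_mul, ZMod.val_mul,
        ← pow_eq_pow_mod _ hzp]
    simp_rw [e1]
    exact (Equiv.prod_comp (Equiv.mulRight₀ k hk)
      (fun b => (z ^ b.val) • ((h ^ k.val) • x))).trans (norm_eq_one p z hzp hfz _)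
  rw [Fintype.prod_eq_single 0 (fun k hk => h3 k hk)] at h2
  simp only [ZMod.val_zero, pow_zero, one_smul, Finset.prod_const, Finset.card_univ,
    ZMod.card] at h2
  have h4 : orderOf x ∣ p := orderOf_dvd_of_pow_eq_one h2
  have h5 : orderOf x ∣ Nat.card A := orderOf_dvd_natCard x
  have h6 : orderOf x = 1 := Nat.eq_one_of_dvd_coprimes hcop h5 h4
  exact orderOf_eq_one_iff.mp h6

end norm

section conj
variable {L : Type*} [Group L]

open scoped IsMulCommutative

/-- conjugation action of a subgroup of the normalizer on the center -/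
def centAct (E Q : Subgroup L) (hEQ : E ≤ Subgroup.normalizer (Q : Set L)) :
    MulDistribMulAction E (Subgroup.center Q) where
  smul e v := ⟨⟨(e : L) * ((v : Q) : L) * (e : L)⁻¹,
      (Subgroup.mem_normalizer_iff.mp (hEQ e.2) _).mp (v : Q).2⟩, by
    rw [Subgroup.mem_center_iff]
    intro y
    apply Subtype.ext
    show (y : L) * ((e : L) * ((v : Q) : L) * (e : L)⁻¹) =
      ((e : L) * ((v : Q) : L) * (e : L)⁻¹) * (y : L)
    have hy : (e : L)⁻¹ * (y : L) * (e : L) ∈ Q := by
      have h1 := (Subgroup.mem_normalizer_iff.mp ((Subgroup.normalizer (Q : Set L)).inv_mem (hEQ e.2)) (y : L)).mp y.2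
      rwa [inv_inv] at h1
    have hv := Subgroup.mem_center_iff.mp v.2 ⟨_, hy⟩
    have hv' : (e : L)⁻¹ * (y : L) * (e : L) * ((v : Q) : L) =
        ((v : Q) : L) * ((e : L)⁻¹ * (y : L) * (e : L)) := congrArg Subtype.val hv
    calc (y : L) * ((e : L) * ((v : Q) : L) * (e : L)⁻¹)
        = (e : L) * (((e : L)⁻¹ * (y : L) * (e : L)) * ((v : Q) : L)) * (e : L)⁻¹ := by group
      _ = (e : L) * (((v : Q) : L) * ((e : L)⁻¹ * (y : L) * (e : L))) * (e : L)⁻¹ := by rw [hv']
      _ = ((e : L) * ((v : Q) : L) * (e : L)⁻¹) * (y : L) := by group⟩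
  one_smul v := by
    apply Subtype.ext; apply Subtype.ext
    show ((1 : E) : L) * ((v : Q) : L) * ((1 : E) : L)⁻¹ = ((v : Q) : L)
    rw [Subgroup.coe_one]; group
  mul_smul e e' v := by
    apply Subtype.ext; apply Subtype.ext
    show ((e * e' : E) : L) * ((v : Q) : L) * ((e * e' : E) : L)⁻¹ =
      (e : L) * ((e' : L) * ((v : Q) : L) * (e' : L)⁻¹) * (e : L)⁻¹
    rw [Subgroup.coe_mul]; group
  smul_mul e v w := by
    apply Subtype.ext; apply Subtype.ext
    show (e : L) * (((v * w : Subgroup.center Q) : Q) : L) * (e : L)⁻¹ =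
      ((e : L) * ((v : Q) : L) * (e : L)⁻¹) * ((e : L) * ((w : Q) : L) * (e : L)⁻¹)
    rw [Subgroup.coe_mul, Subgroup.coe_mul]; group
  smul_one e := by
    apply Subtype.ext; apply Subtype.ext
    show (e : L) * (((1 : Subgroup.center Q) : Q) : L) * (e : L)⁻¹ = ((1 : Q) : L)
    rw [Subgroup.coe_one, Subgroup.coe_one]; group

theorem centAct_val (E Q : Subgroup L) (hEQ : E ≤ Subgroup.normalizer (Q : Set L)) (e : E) (v : Subgroup.center Q) :
    ((((centAct E Q hEQ).smul e v : Subgroup.center Q) : Q) : L) =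
      (e : L) * ((v : Q) : L) * (e : L)⁻¹ := rfl

theorem no_rank_two [Finite L] (H : Subgroup L) (hF : Cfsg.IsFrobeniusComplement H) (p : ℕ)
    [Fact p.Prime] (E : Subgroup L) (hE : IsPGroup p E) (hEH : E ≤ H) (z h : L) (hz : z ∈ E)
    (hh : h ∈ E) (hcomm : z * h = h * z) (hzp : z ^ p = 1) (hhp : h ^ p = 1) (hz1 : z ≠ 1)
    (hind : ∀ a : ℕ, z ^ a * h ≠ 1) : False := by
  classical
  obtain ⟨N, hNK, hNn, hNc⟩ := Cfsg.Agent.Lib.Lead.frobenius_kernel_subgroup H hF
  have hcardNH : Nat.card N * Nat.card H = Nat.card L := hNc.card_mul_card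
  have hNidx : N.index = Nat.card H := by
    have h1 := Subgroup.card_mul_index N
    exact Nat.eq_of_mul_eq_mul_left Nat.card_pos (h1.trans hcardNH.symm)
  have hNcard : Nat.card N = H.index := by
    have h1 := Cfsg.Agent.Lib.Helper7.FK.card_frobeniusKernel H hF
    rw [← h1, ← hNK]; rfl
  obtain ⟨k, hk⟩ := Cfsg.Agent.Lib.Lead.frob_index_mod H hF
  have hcop : (Nat.card N).Coprime (Nat.card H) := by
    rw [hNcard, hk]
    apply Nat.Coprime.symm
    rw [Nat.coprime_iff_gcd_eq_one]
    have h1 : Nat.gcd (Nat.card H) (1 + Nat.card H * k) ∣ 1 := by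
      have h2 := Nat.gcd_dvd_left (Nat.card H) (1 + Nat.card H * k)
      have h3 := Nat.gcd_dvd_right (Nat.card H) (1 + Nat.card H * k)
      have h4 : Nat.gcd (Nat.card H) (1 + Nat.card H * k) ∣ Nat.card H * k := h2.mul_right k
      exact (Nat.dvd_add_left h4).mp h3
    exact Nat.dvd_one.mp h1
  have hfree : ∀ g ∈ H, g ≠ 1 → ∀ x ∈ N, g * x * g⁻¹ = x → x = 1 := by
    intro g hg hg1 x hx hfix
    by_contra hx1
    have hxH : x ∉ H := fun hxH => hx1 (Subgroup.disjoint_def.mp hNc.disjoint hx hxH)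
    have h1 := hF.2.2 x hxH
    have h2 : g ∈ H ⊓ MulAut.conj x • H := by
      refine ⟨hg, ?_⟩
      show g ∈ MulAut.conj x • H
      rw [Subgroup.mem_smul_pointwise_iff_exists]
      refine ⟨g, hg, ?_⟩
      rw [MulAut.smul_def, MulAut.conj_apply]
      calc x * g * x⁻¹ = (g * x * g⁻¹) * g * x⁻¹ := by rw [hfix]
        _ = g := by group
    rw [h1, Subgroup.mem_bot] at h2
    exact hg1 h2
  have hN1 : Nat.card N ≠ 1 := by
    rw [hNcard]
    exact fun h => hF.2.1 (Subgroup.index_eq_one.mp h)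
  have hq : (Nat.card N).minFac.Prime := Nat.minFac_prime hN1
  haveI : Fact (Nat.card N).minFac.Prime := ⟨hq⟩
  have hqN : (Nat.card N).minFac ∣ Nat.card N := Nat.minFac_dvd _
  have hqH : ¬ (Nat.card N).minFac ∣ Nat.card H := fun hd =>
    hq.one_lt.ne' (Nat.eq_one_of_dvd_coprimes hcop hqN hd)
  have hzord : orderOf z = p := orderOf_eq_prime hzp hz1
  have hpH : p ∣ Nat.card H := by
    rw [← hzord]; exact Subgroup.orderOf_dvd_natCard H (hEH hz)
  have hpN : ¬ p ∣ Nat.card N := fun hd =>
    (Fact.out : p.Prime).one_lt.ne' (Nat.eq_one_of_dvd_coprimes hcop hd hpH)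
  have hQN : ∀ Q : Sylow (Nat.card N).minFac L, (Q : Subgroup L) ≤ N := by
    intro Q x hx
    have h1 : x ^ N.index ∈ N := Subgroup.pow_index_mem N x
    obtain ⟨m, hm⟩ := Q.isPGroup' ⟨x, hx⟩
    have hm' : x ^ ((Nat.card N).minFac ^ m) = 1 := by
      have := congrArg Subtype.val hm
      simpa using this
    have hord : orderOf x ∣ (Nat.card N).minFac ^ m := orderOf_dvd_of_pow_eq_one hm'
    have hcop' : Nat.Coprime N.index (orderOf x) := by
      rw [hNidx]
      apply Nat.Coprime.coprime_dvd_right hord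
      apply Nat.Coprime.pow_right
      exact (Nat.Coprime.symm ((Nat.Prime.coprime_iff_not_dvd hq).mpr hqH))
    obtain ⟨c, hc⟩ := exists_pow_eq_self_of_coprime hcop'
    rw [← hc]; exact N.pow_mem h1 c
  let Q0 : Sylow (Nat.card N).minFac L := default
  have hsup : (Subgroup.normalizer ((Q0 : Subgroup L) : Set L)) ⊔ N = ⊤ := Sylow.normalizer_sup_eq_top' Q0 (hQN Q0)
  have hidx : (Subgroup.normalizer ((Q0 : Subgroup L) : Set L)).index ∣ Nat.card N := by
    have h1 : N.relIndex ((Subgroup.normalizer ((Q0 : Subgroup L) : Set L)) ⊔ N) =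
        N.relIndex (Subgroup.normalizer ((Q0 : Subgroup L) : Set L)) := Subgroup.relIndex_sup_right _ _
    rw [hsup, Subgroup.relIndex_top_right, hNidx] at h1
    have h2 : Nat.card H ∣ Nat.card (Subgroup.normalizer ((Q0 : Subgroup L) : Set L)) := by
      rw [h1]; exact Subgroup.relIndex_dvd_card _ _
    obtain ⟨c, hc⟩ := h2
    have h3 := Subgroup.card_mul_index (Subgroup.normalizer ((Q0 : Subgroup L) : Set L))
    rw [hc, ← hcardNH] at h3
    refine ⟨c, ?_⟩
    have hHpos : 0 < Nat.card H := Nat.card_pos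
    apply Nat.eq_of_mul_eq_mul_left hHpos
    linarith
  have hfixp : ¬ p ∣ Nat.card (Sylow (Nat.card N).minFac L) := by
    rw [Sylow.card_eq_index_normalizer Q0]
    intro hd
    exact hpN (hd.trans hidx)
  obtain ⟨Q, hQ⟩ := hE.nonempty_fixed_point_of_prime_not_dvd_card
    (Sylow (Nat.card N).minFac L) hfixp
  have hEQ : E ≤ Subgroup.normalizer ((Q : Subgroup L) : Set L) := by
    intro e he
    have h1 := MulAction.mem_fixedPoints.mp hQ ⟨e, he⟩
    exact Sylow.smul_eq_iff_mem_normalizer.mp h1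
  haveI : Nontrivial (Q : Subgroup L) := by
    rw [Subgroup.nontrivial_iff_ne_bot]
    apply Sylow.ne_bot_of_dvd_card
    rw [← hcardNH]
    exact hqN.mul_right _
  haveI : Nontrivial (Subgroup.center (Q : Subgroup L)) := Q.isPGroup'.center_nontrivial
  obtain ⟨v, hv⟩ := exists_ne (1 : Subgroup.center (Q : Subgroup L))
  letI := centAct E (Q : Subgroup L) hEQ
  have hcopA : (Nat.card (Subgroup.center (Q : Subgroup L))).Coprime p := by
    apply Nat.Coprime.symm
    apply (Nat.Prime.coprime_iff_not_dvd (Fact.out : p.Prime)).mpr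
    intro hd
    apply hpN
    have h1 : Nat.card (Subgroup.center (Q : Subgroup L)) ∣ Nat.card (Q : Subgroup L) :=
      Subgroup.card_subgroup_dvd_card _
    have h2 : Nat.card (Q : Subgroup L) ∣ Nat.card N := Subgroup.card_dvd_of_le (hQN Q)
    exact hd.trans (h1.trans h2)
  have hfreeA : ∀ g : E, (g : L) ≠ 1 → ∀ x : Subgroup.center (Q : Subgroup L), g • x = x →
      x = 1 := by
    intro g hg x hx
    have h1 : (g : L) * ((x : (Q : Subgroup L)) : L) * (g : L)⁻¹ = ((x : (Q : Subgroup L)) : L) := by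
      have h2 := congrArg (fun y : Subgroup.center (Q : Subgroup L) => ((y : (Q : Subgroup L)) : L)) hx
      exact h2
    have h3 := hfree g (hEH g.2) hg _ (hQN Q (x : (Q : Subgroup L)).2) h1
    apply Subtype.ext; apply Subtype.ext
    exact h3
  have hall := all_one (G := E) (A := Subgroup.center (Q : Subgroup L)) p hcopA ⟨z, hz⟩ ⟨h, hh⟩
    (Subtype.ext hcomm) (Subtype.ext (by simpa using hzp)) (Subtype.ext (by simpa using hhp))
    (hfreeA ⟨z, hz⟩ hz1)
    (fun a => hfreeA (⟨z, hz⟩ ^ a * ⟨h, hh⟩) (by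
      rw [Subgroup.coe_mul, Subgroup.coe_pow]
      exact hind a)) v
  exact hv hall

end conj

theorem quat_rel (n : ℕ) :
    let i : QuaternionGroup (2 ^ (n + 1)) := QuaternionGroup.a ((2 ^ n : ℕ) : ZMod (2 * 2 ^ (n + 1)))
    let j : QuaternionGroup (2 ^ (n + 1)) := QuaternionGroup.xa 0
    i * i = j * j ∧ i * i ≠ 1 ∧ (i * i) * (i * i) = 1 ∧ i * j = (i * i) * (j * i) := by
  intro i j
  have hii : i * i = QuaternionGroup.a ((2 ^ (n + 1) : ℕ) : ZMod (2 * 2 ^ (n + 1))) := by
    show QuaternionGroup.a _ * QuaternionGroup.a _ = _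
    rw [QuaternionGroup.a_mul_a]
    congr 1
    push_cast
    ring
  refine ⟨?_, ?_, ?_, ?_⟩
  · rw [hii]
    show _ = QuaternionGroup.xa 0 * QuaternionGroup.xa 0
    rw [QuaternionGroup.xa_mul_xa]
    congr 1
    push_cast
    ring
  · rw [hii, QuaternionGroup.one_def]
    intro h
    have h1 : ((2 ^ (n + 1) : ℕ) : ZMod (2 * 2 ^ (n + 1))) = 0 := by
      injection h
    rw [ZMod.natCast_eq_zero_iff] at h1
    have h2 := Nat.le_of_dvd (by positivity) h1
    have h3 : 0 < 2 ^ (n + 1) := by positivity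
    omega
  · rw [hii, QuaternionGroup.a_mul_a, QuaternionGroup.one_def]
    congr 1
    have h1 : ((2 * 2 ^ (n + 1) : ℕ) : ZMod (2 * 2 ^ (n + 1))) = 0 := ZMod.natCast_self _
    rw [← h1]
    push_cast
    ring
  · rw [hii]
    show QuaternionGroup.a _ * QuaternionGroup.xa 0 =
      QuaternionGroup.a _ * (QuaternionGroup.xa 0 * QuaternionGroup.a _)
    rw [QuaternionGroup.a_mul_xa, QuaternionGroup.xa_mul_a, QuaternionGroup.a_mul_xa]
    congr 1
    push_cast
    ring

/-- Let H be a Frobenius complement in a finite group, and suppose some Sylow subgroup of H is not cyclic. Then the number of elements of the Frobenius kernel (the identity together with the elements lying in no conjugate of H) is an odd perfect square. -/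
theorem result {L : Type*} [Group L] [Finite L] (H : Subgroup L) (hF : Cfsg.IsFrobeniusComplement H)
    (hZ : ∃ (p : ℕ) (_ : Fact p.Prime) (P : Sylow p H), ¬ IsCyclic P) :
    Odd (Nat.card (Cfsg.frobeniusKernel H)) ∧ IsSquare (Nat.card (Cfsg.frobeniusKernel H)) := by
  classical
  obtain ⟨p, hp, P, hPnc⟩ := hZ
  haveI := hp
  have hE : IsPGroup p ((P : Subgroup H).map H.subtype) := P.isPGroup'.map H.subtype
  have hEH : (P : Subgroup H).map H.subtype ≤ H := by
    rintro _ ⟨x, _, rfl⟩
    exact x.2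
  have hmemE : ∀ x : (P : Subgroup H), ((x : H) : L) ∈ (P : Subgroup H).map H.subtype :=
    fun x => ⟨(x : H), x.2, rfl⟩
  have huniq : ∀ A B : Subgroup (P : Subgroup H), Nat.card A = p → Nat.card B = p → A = B := by
    by_contra hcon
    push Not at hcon
    obtain ⟨A, B, hA, hB, hAB⟩ := hcon
    haveI : Nontrivial (P : Subgroup H) := by
      have h1 : 1 < Nat.card A := by rw [hA]; exact hp.out.one_lt
      haveI : Nontrivial A := Finite.one_lt_card_iff_nontrivial.mp h1
      obtain ⟨a, ha⟩ := exists_ne (1 : A)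
      exact ⟨⟨(a : (P : Subgroup H)), 1, fun h => ha (Subtype.ext h)⟩⟩
    haveI : Nontrivial (Subgroup.center (P : Subgroup H)) := P.isPGroup'.center_nontrivial
    have hpdvd : p ∣ Nat.card (Subgroup.center (P : Subgroup H)) := by
      obtain ⟨k, hk⟩ := IsPGroup.iff_card.mp (P.isPGroup'.to_subgroup (Subgroup.center (P : Subgroup H)))
      have h1 : 1 < Nat.card (Subgroup.center (P : Subgroup H)) := Finite.one_lt_card
      rw [hk] at h1 ⊢
      have hk0 : k ≠ 0 := by
        rintro rfl
        simp at h1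
      exact dvd_pow_self p hk0
    obtain ⟨z0, hz0⟩ := exists_prime_orderOf_dvd_card' p hpdvd
    have hzord : orderOf (z0 : (P : Subgroup H)) = p := by rw [Subgroup.orderOf_coe]; exact hz0
    have hzc : ∀ y : (P : Subgroup H), y * (z0 : (P : Subgroup H)) = (z0 : (P : Subgroup H)) * y :=
      Subgroup.mem_center_iff.mp z0.2
    obtain ⟨C, hC, hCz⟩ : ∃ C : Subgroup (P : Subgroup H), Nat.card C = p ∧
        C ≠ Subgroup.zpowers (z0 : (P : Subgroup H)) := by
      by_cases h1 : A = Subgroup.zpowers (z0 : (P : Subgroup H))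
      · exact ⟨B, hB, fun h2 => hAB (h1.trans h2.symm)⟩
      · exact ⟨A, hA, h1⟩
    have hC1 : 1 < Nat.card C := by rw [hC]; exact hp.out.one_lt
    haveI : Nontrivial C := Finite.one_lt_card_iff_nontrivial.mp hC1
    obtain ⟨h0, hh0⟩ := exists_ne (1 : C)
    have hh1 : (h0 : (P : Subgroup H)) ≠ 1 := fun h => hh0 (Subtype.ext h)
    have hhp : (h0 : (P : Subgroup H)) ^ p = 1 := by
      have h1 : h0 ^ Nat.card C = 1 := pow_card_eq_one'
      rw [hC] at h1
      have h2 := congrArg Subtype.val h1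
      simpa using h2
    have hhord : orderOf (h0 : (P : Subgroup H)) = p := orderOf_eq_prime hhp hh1
    have hCeq : Subgroup.zpowers (h0 : (P : Subgroup H)) = C := by
      apply Subgroup.eq_of_le_of_card_ge
      · rw [Subgroup.zpowers_le]; exact h0.2
      · rw [Nat.card_zpowers, hhord, hC]
    have hind : ∀ a : ℕ, (z0 : (P : Subgroup H)) ^ a * (h0 : (P : Subgroup H)) ≠ 1 := by
      intro a ha
      have hhz : (h0 : (P : Subgroup H)) ∈ Subgroup.zpowers (z0 : (P : Subgroup H)) := by
        have h1 : (h0 : (P : Subgroup H)) = ((z0 : (P : Subgroup H)) ^ a)⁻¹ :=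
          eq_inv_of_mul_eq_one_right ha
        rw [h1]
        exact Subgroup.inv_mem _ (Subgroup.pow_mem _ (Subgroup.mem_zpowers _) a)
      apply hCz
      rw [← hCeq]
      apply Subgroup.eq_of_le_of_card_ge
      · rw [Subgroup.zpowers_le]; exact hhz
      · rw [Nat.card_zpowers, Nat.card_zpowers, hhord, hzord]
    apply no_rank_two H hF p _ hE hEH
      (((z0 : (P : Subgroup H)) : H) : L) (((h0 : (P : Subgroup H)) : H) : L) (hmemE _) (hmemE _)
    · have h1 := hzc (h0 : (P : Subgroup H))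
      have h2 := congrArg (fun y : (P : Subgroup H) => ((y : H) : L)) h1
      simp only [Subgroup.coe_mul] at h2
      exact h2.symm
    · have h1 : (z0 : (P : Subgroup H)) ^ p = 1 := by
        have h3 := pow_orderOf_eq_one (z0 : (P : Subgroup H))
        rwa [hzord] at h3
      have h2 := congrArg (fun y : (P : Subgroup H) => ((y : H) : L)) h1
      simpa using h2
    · have h2 := congrArg (fun y : (P : Subgroup H) => ((y : H) : L)) hhp
      simpa using h2
    · intro h
      have h1 : (z0 : (P : Subgroup H)) = 1 := by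
        apply Subtype.ext; apply Subtype.ext; exact h
      rw [h1, orderOf_one] at hzord
      exact hp.out.one_lt.ne hzord
    · intro a ha
      apply hind a
      apply Subtype.ext; apply Subtype.ext
      simpa using ha
  rcases Cfsg.Agent.S0016.result p P.isPGroup' huniq with hcyc | ⟨hp2, n, ⟨e⟩⟩
  · exact absurd hcyc hPnc
  · rcases Nat.eq_zero_or_pos n with hn0 | hnpos
    · exfalso
      apply hPnc
      subst hn0
      haveI : IsCyclic (QuaternionGroup (2 ^ 0)) := QuaternionGroup.quaternionGroup_one_isCyclic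
      exact isCyclic_of_surjective e.symm.toMonoidHom e.symm.surjective
    · obtain ⟨n', rfl⟩ : ∃ n', n = n' + 1 := ⟨n - 1, by omega⟩
      obtain ⟨r1, r2, r3, r4⟩ := quat_rel n'
      refine Cfsg.Agent.Lib.Helper7.QS.frob_sq H hF
        (((e.symm (QuaternionGroup.a ((2 ^ n' : ℕ) : ZMod (2 * 2 ^ (n' + 1)))) : (P : Subgroup H)) : H) : L)
        (((e.symm (QuaternionGroup.xa 0) : (P : Subgroup H)) : H) : L)
        (Subtype.property _) (Subtype.property _) ?_ ?_ ?_ ?_
      · have := congrArg (fun y => (((e.symm y : (P : Subgroup H)) : H) : L)) r1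
        simpa only [map_mul, Subgroup.coe_mul] using this
      · intro h
        apply r2
        apply e.symm.injective
        apply Subtype.ext; apply Subtype.ext
        rw [map_mul, Subgroup.coe_mul, Subgroup.coe_mul, h, map_one]; rfl
      · have := congrArg (fun y => (((e.symm y : (P : Subgroup H)) : H) : L)) r3
        simpa only [map_mul, Subgroup.coe_mul, map_one, Subgroup.coe_one] using this
      · have := congrArg (fun y => (((e.symm y : (P : Subgroup H)) : H) : L)) r4
        simpa only [map_mul, Subgroup.coe_mul] using this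

end Cfsg.Agent.S4296
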