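import Mathlib
import Cfsg.Statements.S4297
import Cfsg.Agent.Lib.Helper7.FrobFree
import Cfsg.Agent.Lib.Lead.QuatLift

set_option autoImplicit false
open Cfsg

namespace Cfsg.Agent.S4297



open QuaternionGroup

section
variable {n p : ℕ} (E : ZMod (2 * n) → ZMod p)

/-- the action of the dicyclic group on the plane -/
def smulQ : QuaternionGroup n → ZMod p × ZMod p → ZMod p × ZMod p
  | a i, w => (E i * w.1, E (-i) * w.2)
  | xa i, w => (-(E (-i) * w.2), E i * w.1)

theorem smulQ_a (i : ZMod (2 * n)) (w : ZMod p × ZMod p) :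
    smulQ E (a i) w = (E i * w.1, E (-i) * w.2) := rfl

theorem smulQ_xa (i : ZMod (2 * n)) (w : ZMod p × ZMod p) :
    smulQ E (xa i) w = (-(E (-i) * w.2), E i * w.1) := rfl

/-- the distributive action -/
def actQ (hadd : ∀ i j, E (i + j) = E i * E j) (h0 : E 0 = 1) (hn : E (n : ZMod (2 * n)) = -1) :
    DistribMulAction (QuaternionGroup n) (ZMod p × ZMod p) where
  smul := smulQ E
  one_smul := by
    rintro ⟨u, v⟩
    show smulQ E (a 0) (u, v) = (u, v)
    rw [smulQ_a, neg_zero, h0, one_mul, one_mul]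
  mul_smul := by
    have hneg : E (-(n : ZMod (2 * n))) = -1 := by
      have h1 : E (n : ZMod (2 * n)) * E (-(n : ZMod (2 * n))) = 1 := by
        rw [← hadd, add_neg_cancel, h0]
      rw [hn] at h1
      linear_combination -h1
    rintro (i | i) (j | j) ⟨u, v⟩
    · show smulQ E (a (i + j)) (u, v) = smulQ E (a i) (smulQ E (a j) (u, v))
      simp only [smulQ_a]
      rw [neg_add, hadd, hadd]
      ext <;> simp only [] <;> ring
    · show smulQ E (xa (j - i)) (u, v) = smulQ E (a i) (smulQ E (xa j) (u, v))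
      simp only [smulQ_a, smulQ_xa]
      have e1 : -(j - i) = i + (-j) := by ring
      have e2 : j - i = (-i) + j := by ring
      rw [e1, e2, hadd, hadd]
      ext <;> simp only [] <;> ring
    · show smulQ E (xa (i + j)) (u, v) = smulQ E (xa i) (smulQ E (a j) (u, v))
      simp only [smulQ_a, smulQ_xa]
      rw [neg_add, hadd, hadd]
      ext <;> simp only [] <;> ring
    · show smulQ E (a (n + j - i)) (u, v) = smulQ E (xa i) (smulQ E (xa j) (u, v))
      simp only [smulQ_a, smulQ_xa]
      have e1 : -((n : ZMod (2 * n)) + j - i) = -(n : ZMod (2 * n)) + (i + (-j)) := by ring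
      have e2 : (n : ZMod (2 * n)) + j - i = (n : ZMod (2 * n)) + ((-i) + j) := by ring
      rw [e1, e2, hadd, hadd, hadd, hadd, hn, hneg]
      ext <;> simp only [] <;> ring
  smul_zero := by
    rintro (i | i)
    · show smulQ E (a i) 0 = 0
      rw [smulQ_a]; simp
    · show smulQ E (xa i) 0 = 0
      rw [smulQ_xa]; simp
  smul_add := by
    rintro (i | i) ⟨u, v⟩ ⟨u', v'⟩
    · show smulQ E (a i) ((u, v) + (u', v')) = smulQ E (a i) (u, v) + smulQ E (a i) (u', v')
      simp only [smulQ_a, Prod.mk_add_mk]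
      ext <;> simp only [] <;> ring
    · show smulQ E (xa i) ((u, v) + (u', v')) = smulQ E (xa i) (u, v) + smulQ E (xa i) (u', v')
      simp only [smulQ_xa, Prod.mk_add_mk]
      ext <;> simp only [] <;> ring

end

/-- For every n ≥ 2 the dicyclic group of order 4n (generated by an element a of order 2n and an element x with x² = aⁿ and x a x⁻¹ = a⁻¹) occurs as a Frobenius complement of some finite Frobenius group. -/
theorem result (n : ℕ) (hn : 2 ≤ n) :
    ∃ (L : Type) (_ : Group L) (_ : Finite L) (H : Subgroup L), Cfsg.IsFrobeniusComplement H ∧ Nonempty (H ≃* QuaternionGroup n) := by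
  haveI : NeZero n := ⟨by omega⟩
  haveI : NeZero (2 * n) := ⟨by omega⟩
  obtain ⟨p, hp, hp2, hmod⟩ := Nat.exists_prime_gt_modEq_one (k := 2 * n) 2 (by omega)
  haveI : Fact p.Prime := ⟨hp⟩
  have hdvd : 2 * n ∣ p - 1 := (Nat.modEq_iff_dvd' hp.one_lt.le).1 hmod.symm
  obtain ⟨k, hk⟩ := hdvd
  obtain ⟨g, hg⟩ := IsCyclic.exists_ofOrder_eq_natCard (α := (ZMod p)ˣ)
  have hcard : Nat.card (ZMod p)ˣ = p - 1 := by
    rw [Nat.card_eq_fintype_card, ZMod.card_units]
  have hk0 : k ≠ 0 := by
    rintro rfl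
    rw [mul_zero] at hk
    omega
  have hord : orderOf (g ^ k) = 2 * n := by
    rw [orderOf_pow_of_dvd hk0 (by rw [hg, hcard, hk]; exact dvd_mul_left k _), hg, hcard, hk,
      Nat.mul_div_cancel _ (Nat.pos_of_ne_zero hk0)]
  set ζ : (ZMod p)ˣ := g ^ k with hζdef
  have hζ : ζ ^ (2 * n) = 1 := by rw [← hord]; exact pow_orderOf_eq_one ζ
  let E : ZMod (2 * n) → ZMod p := fun i => ((Cfsg.Agent.Lib.Lead.quatE n ζ i : (ZMod p)ˣ) : ZMod p)
  have hadd : ∀ i j, E (i + j) = E i * E j := by
    intro i j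
    show ((Cfsg.Agent.Lib.Lead.quatE n ζ (i + j) : (ZMod p)ˣ) : ZMod p) = _
    rw [Cfsg.Agent.Lib.Lead.quatE_add n ζ hζ, Units.val_mul]
  have h0 : E 0 = 1 := by
    show ((Cfsg.Agent.Lib.Lead.quatE n ζ 0 : (ZMod p)ˣ) : ZMod p) = _
    rw [Cfsg.Agent.Lib.Lead.quatE_zero, Units.val_one]
  have hζn : ((ζ ^ n : (ZMod p)ˣ) : ZMod p) = -1 := by
    have h1 : ((ζ ^ n : (ZMod p)ˣ) : ZMod p) ^ 2 = 1 := by
      rw [← Units.val_pow_eq_pow_val, ← pow_mul, mul_comm, hζ, Units.val_one]
    rw [sq] at h1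
    rcases mul_self_eq_one_iff.mp h1 with h | h
    · exfalso
      have h2 : ζ ^ n = 1 := Units.ext (by rw [h, Units.val_one])
      have h3 := orderOf_dvd_of_pow_eq_one h2
      rw [hord] at h3
      have := Nat.le_of_dvd (by omega) h3
      omega
    · exact h
  have hn' : E (n : ZMod (2 * n)) = -1 := by
    show ((Cfsg.Agent.Lib.Lead.quatE n ζ ((n : ℕ) : ZMod (2 * n)) : (ZMod p)ˣ) : ZMod p) = _
    rw [Cfsg.Agent.Lib.Lead.quatE_n n ζ hζ]; exact hζn
  have hinj : ∀ i, E i = 1 → i = 0 := by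
    intro i hi
    have h1 : ζ ^ i.val = 1 := Units.ext (by rw [Units.val_one]; exact hi)
    have h2 := orderOf_dvd_of_pow_eq_one h1
    rw [hord] at h2
    have h3 : i.val < 2 * n := ZMod.val_lt i
    have h4 : i.val = 0 := Nat.eq_zero_of_dvd_of_lt h2 h3
    exact (ZMod.val_eq_zero i).mp h4
  have htwo : (2 : ZMod p) ≠ 0 := by
    intro h
    have h1 : ((2 : ℕ) : ZMod p) = 0 := by exact_mod_cast h
    rw [ZMod.natCast_eq_zero_iff] at h1
    have := Nat.le_of_dvd (by norm_num) h1
    omega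
  letI := actQ E hadd h0 hn'
  have hfree : ∀ h : QuaternionGroup n, h ≠ 1 → ∀ x : ZMod p × ZMod p, h • x = x → x = 0 := by
    rintro (i | i) hh ⟨u, v⟩ hx
    · have hx' : smulQ E (a i) (u, v) = (u, v) := hx
      rw [smulQ_a] at hx'
      have hi : i ≠ 0 := by
        rintro rfl
        exact hh rfl
      have h1 : E i ≠ 1 := fun h => hi (hinj i h)
      have h2 : E (-i) ≠ 1 := fun h => hi (neg_eq_zero.mp (hinj _ h))
      have hu := congrArg Prod.fst hx'
      have hv := congrArg Prod.snd hx'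
      simp only at hu hv
      have hu' : (E i - 1) * u = 0 := by rw [sub_mul, hu, one_mul, sub_self]
      have hv' : (E (-i) - 1) * v = 0 := by rw [sub_mul, hv, one_mul, sub_self]
      rcases mul_eq_zero.mp hu' with h | h
      · exact absurd (sub_eq_zero.mp h) h1
      rcases mul_eq_zero.mp hv' with h' | h'
      · exact absurd (sub_eq_zero.mp h') h2
      rw [h, h']; rfl
    · have hx' : smulQ E (xa i) (u, v) = (u, v) := hx
      rw [smulQ_xa] at hx'
      have hu := congrArg Prod.fst hx'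
      have hv := congrArg Prod.snd hx'
      simp only at hu hv
      have h1 : E i * E (-i) = 1 := by rw [← hadd, add_neg_cancel, h0]
      have h2 : 2 * v = 0 := by
        have : v = -v := by
          calc v = E i * u := hv.symm
            _ = E i * (-(E (-i) * v)) := by rw [hu]
            _ = -(E i * E (-i)) * v := by ring
            _ = -v := by rw [h1]; ring
        linear_combination this
      have hv0 : v = 0 := by
        rcases mul_eq_zero.mp h2 with h | h
        · exact absurd h htwo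
        · exact h
      have hu0 : u = 0 := by rw [← hu, hv0]; ring
      rw [hu0, hv0]; rfl
  obtain ⟨L, iG, iF, C, hC, ⟨e⟩⟩ := Cfsg.Agent.Lib.Helper7.FF.exists_frob_of_distrib hfree
  exact ⟨L, iG, iF, C, hC, ⟨e.symm⟩⟩

end Cfsg.Agent.S4297
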