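import Mathlib
import Cfsg.Statements.S4298
import Cfsg.Agent.Lib.Helper7.FrobFree

set_option autoImplicit false
open Cfsg

namespace Cfsg.Agent.S4298



/-- the lookup table of an embedding into the two by two matrices over the field with 5 elements -/
def tbl : List (ZMod 5 × ZMod 5 × ZMod 5 × ZMod 5) :=
  [(1, 0, 0, 1), (1, 0, 0, 1), (1, 0, 0, 1), (1, 0, 0, 1), (1, 0, 0, 1), (1, 0, 0, 1), (1, 0, 0, 1), (1, 0, 0, 1), (1, 0, 0, 1), (1, 0, 0, 1), (1, 0, 0, 1), (1, 0, 0, 1), (1, 0, 0, 1), (1, 0, 0, 1), (1, 0, 0, 1), (0, 4, 1, 0), (2, 4, 3, 4), (3, 2, 1, 1), (1, 0, 0, 1), (1, 0, 0, 1), (1, 0, 0, 1), (0, 1, 4, 0), (2, 3, 4, 4), (3, 1, 2, 1), (1, 0, 0, 1), (1, 0, 0, 1), (1, 0, 0, 1), (1, 0, 0, 1), (1, 0, 0, 1), (1, 0, 0, 1), (1, 0, 0, 1), (1, 2, 1, 3), (1, 0, 0, 1), (1, 0, 0, 1), (3, 3, 4, 1), (1, 0, 0, 1), (1, 0, 0, 1), (1, 1, 2, 3), (1, 0, 0, 1), (1, 0, 0, 1), (1, 0, 0, 1), (0, 2,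 2, 0), (4, 2, 1, 2), (1, 0, 0, 1), (1, 0, 0, 1), (1, 0, 0, 1), (3, 4, 3, 1), (1, 0, 0, 1), (4, 1, 2, 2), (1, 0, 0, 1), (1, 0, 0, 1), (1, 0, 0, 1), (1, 0, 0, 1), (3, 0, 0, 2), (1, 0, 0, 1), (1, 0, 0, 1), (4, 0, 0, 4), (1, 0, 0, 1), (1, 0, 0, 1), (2, 2, 1, 4), (1, 0, 0, 1), (1, 0, 0, 1), (4, 3, 4, 2), (1, 0, 0, 1), (1, 0, 0, 1), (2, 1, 2, 4), (1, 0, 0, 1), (2, 0, 0, 3), (1, 0, 0, 1), (1, 4, 3, 3), (1, 0, 0, 1), (1, 0, 0, 1), (1, 0, 0, 1), (1, 0, 0, 1), (4, 4, 3, 2), (1, 3, 4, 3), (1, 0, 0, 1), (1, 0, 0, 1), (1, 0, 0, 1), (0, 3, 3, 0), (1, 0, 0, 1)]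

/-- the table as a function of the four entries -/
def F (a b c d : ZMod 3) : ZMod 5 × ZMod 5 × ZMod 5 × ZMod 5 :=
  tbl.getD (27 * a.val + 9 * b.val + 3 * c.val + d.val) (1, 0, 0, 1)

/-- two by two matrix product on quadruples -/
def mulT (x y : ZMod 5 × ZMod 5 × ZMod 5 × ZMod 5) : ZMod 5 × ZMod 5 × ZMod 5 × ZMod 5 :=
  (x.1 * y.1 + x.2.1 * y.2.2.1, x.1 * y.2.1 + x.2.1 * y.2.2.2,
    x.2.2.1 * y.1 + x.2.2.2 * y.2.2.1, x.2.2.1 * y.2.1 + x.2.2.2 * y.2.2.2)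

/-- a quadruple acting on the plane -/
def actT (x : ZMod 5 × ZMod 5 × ZMod 5 × ZMod 5) (w : ZMod 5 × ZMod 5) : ZMod 5 × ZMod 5 :=
  (x.1 * w.1 + x.2.1 * w.2, x.2.2.1 * w.1 + x.2.2.2 * w.2)

set_option maxRecDepth 1000000 in
theorem key_mul : ∀ a b c d a' b' c' d' : ZMod 3, a * d - b * c = 1 → a' * d' - b' * c' = 1 →
    F (a * a' + b * c') (a * b' + b * d') (c * a' + d * c') (c * b' + d * d') =
      mulT (F a b c d) (F a' b' c' d') := by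
  decide +kernel

set_option maxRecDepth 1000000 in
theorem key_free : ∀ a b c d : ZMod 3, a * d - b * c = 1 →
    ¬ (a = 1 ∧ b = 0 ∧ c = 0 ∧ d = 1) → ∀ u v : ZMod 5, actT (F a b c d) (u, v) = (u, v) →
      u = 0 ∧ v = 0 := by
  decide +kernel

theorem actT_mulT (x y : ZMod 5 × ZMod 5 × ZMod 5 × ZMod 5) (w : ZMod 5 × ZMod 5) :
    actT (mulT x y) w = actT x (actT y w) := by
  unfold actT mulT
  ext <;> simp only [] <;> ring

/-- the table value of a matrix -/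
def FS (g : Matrix.SpecialLinearGroup (Fin 2) (ZMod 3)) : ZMod 5 × ZMod 5 × ZMod 5 × ZMod 5 :=
  F (g.1 0 0) (g.1 0 1) (g.1 1 0) (g.1 1 1)

theorem det_eq (g : Matrix.SpecialLinearGroup (Fin 2) (ZMod 3)) :
    g.1 0 0 * g.1 1 1 - g.1 0 1 * g.1 1 0 = 1 := by
  have := g.2
  rwa [Matrix.det_fin_two] at this

theorem FS_mul (g h : Matrix.SpecialLinearGroup (Fin 2) (ZMod 3)) :
    FS (g * h) = mulT (FS g) (FS h) := by
  unfold FS
  rw [← key_mul _ _ _ _ _ _ _ _ (det_eq g) (det_eq h)]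
  simp only [Matrix.SpecialLinearGroup.coe_mul, Matrix.mul_apply, Fin.sum_univ_two]

theorem FS_one : FS 1 = (1, 0, 0, 1) := by
  unfold FS
  simp only [Matrix.SpecialLinearGroup.coe_one, Matrix.one_apply_eq, ne_eq, zero_ne_one,
    not_false_eq_true, Matrix.one_apply_ne, one_ne_zero]
  decide

/-- the distributive action of the matrix group on the plane over the field with 5 elements -/
def actS : DistribMulAction (Matrix.SpecialLinearGroup (Fin 2) (ZMod 3)) (ZMod 5 × ZMod 5) where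
  smul g w := actT (FS g) w
  one_smul := by
    rintro ⟨u, v⟩
    show actT (FS 1) (u, v) = (u, v)
    rw [FS_one]
    unfold actT
    ext <;> simp
  mul_smul := by
    intro g h w
    show actT (FS (g * h)) w = actT (FS g) (actT (FS h) w)
    rw [FS_mul, actT_mulT]
  smul_zero := by
    intro g
    show actT (FS g) 0 = 0
    unfold actT
    ext <;> simp
  smul_add := by
    intro g w w'
    show actT (FS g) (w + w') = actT (FS g) w + actT (FS g) w'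
    unfold actT
    ext <;> simp only [Prod.fst_add, Prod.snd_add] <;> ring

/-- The group SL(2,3) of order 24 (the binary tetrahedral group) occurs as a Frobenius complement of some finite Frobenius group. -/
theorem result :
    ∃ (L : Type) (_ : Group L) (_ : Finite L) (H : Subgroup L), Cfsg.IsFrobeniusComplement H ∧ Nonempty (H ≃* Matrix.SpecialLinearGroup (Fin 2) (ZMod 3)) := by
  letI := actS
  haveI : Fact (Nat.Prime 5) := ⟨by norm_num⟩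
  haveI : Nontrivial (Matrix.SpecialLinearGroup (Fin 2) (ZMod 3)) := by
    refine ⟨⟨⟨!![1, 1; 0, 1], by rw [Matrix.det_fin_two]; decide⟩, 1, ?_⟩⟩
    intro h
    have h1 := congrArg (fun g : Matrix.SpecialLinearGroup (Fin 2) (ZMod 3) => g.1 0 1) h
    revert h1
    simp
  have hfree : ∀ h : Matrix.SpecialLinearGroup (Fin 2) (ZMod 3), h ≠ 1 →
      ∀ x : ZMod 5 × ZMod 5, h • x = x → x = 0 := by
    rintro g hg ⟨u, v⟩ hx
    have hx' : actT (FS g) (u, v) = (u, v) := hx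
    have hne : ¬ (g.1 0 0 = 1 ∧ g.1 0 1 = 0 ∧ g.1 1 0 = 0 ∧ g.1 1 1 = 1) := by
      rintro ⟨h1, h2, h3, h4⟩
      apply hg
      apply Matrix.SpecialLinearGroup.ext
      intro i j
      fin_cases i <;> fin_cases j <;> simp [h1, h2, h3, h4]
    obtain ⟨hu, hv⟩ := key_free _ _ _ _ (det_eq g) hne u v hx'
    rw [hu, hv]; rfl
  obtain ⟨L, iG, iF, C, hC, ⟨e⟩⟩ := Cfsg.Agent.Lib.Helper7.FF.exists_frob_of_distrib hfree
  exact ⟨L, iG, iF, C, hC, ⟨e.symm⟩⟩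

end Cfsg.Agent.S4298
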