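import Mathlib
import Cfsg.Statements.S4299
import Cfsg.Agent.Lib.Helper7.Basic

set_option autoImplicit false
open Cfsg
open scoped Pointwise

namespace Cfsg.Agent.S4299

/-- The affine group `ZMod p ⋊ U` for a subgroup `U` of the units. -/
structure Aff (p : ℕ) (U : Subgroup (ZMod p)ˣ) : Type where
  tr : ZMod p
  mu : U

variable {p : ℕ} {U : Subgroup (ZMod p)ˣ}

lemma Aff.ext_iff' (x y : Aff p U) : x = y ↔ x.tr = y.tr ∧ x.mu = y.mu := by
  constructor
  · rintro rfl; exact ⟨rfl, rfl⟩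
  · rintro ⟨h1, h2⟩
    cases x; cases y
    simp only at h1 h2
    subst h1; subst h2; rfl

instance Aff.instMul : Mul (Aff p U) := ⟨fun x y => ⟨x.tr + ((x.mu : (ZMod p)ˣ) : ZMod p) * y.tr, x.mu * y.mu⟩⟩
instance Aff.instOne : One (Aff p U) := ⟨⟨0, 1⟩⟩
instance Aff.instInv : Inv (Aff p U) := ⟨fun x => ⟨-(((x.mu⁻¹ : U) : (ZMod p)ˣ) : ZMod p) * x.tr, x.mu⁻¹⟩⟩

lemma Aff.mul_tr (x y : Aff p U) : (x * y).tr = x.tr + ((x.mu : (ZMod p)ˣ) : ZMod p) * y.tr := rfl
lemma Aff.mul_mu (x y : Aff p U) : (x * y).mu = x.mu * y.mu := rfl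
lemma Aff.one_tr : (1 : Aff p U).tr = 0 := rfl
lemma Aff.one_mu : (1 : Aff p U).mu = 1 := rfl
lemma Aff.inv_tr (x : Aff p U) : (x⁻¹).tr = -(((x.mu⁻¹ : U) : (ZMod p)ˣ) : ZMod p) * x.tr := rfl
lemma Aff.inv_mu (x : Aff p U) : (x⁻¹).mu = x.mu⁻¹ := rfl

instance Aff.instGroup : Group (Aff p U) :=
  Group.ofLeftAxioms
    (by
      intro a b c
      rw [Aff.ext_iff']
      refine ⟨?_, ?_⟩
      · simp only [Aff.mul_tr, Aff.mul_mu, Subgroup.coe_mul, Units.val_mul]
        ring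
      · simp only [Aff.mul_mu, mul_assoc])
    (by
      intro a
      rw [Aff.ext_iff']
      refine ⟨?_, ?_⟩
      · simp only [Aff.mul_tr, Aff.one_tr, Aff.one_mu, Subgroup.coe_one, Units.val_one]
        ring
      · simp only [Aff.mul_mu, Aff.one_mu, one_mul])
    (by
      intro a
      rw [Aff.ext_iff']
      refine ⟨?_, ?_⟩
      · simp only [Aff.mul_tr, Aff.inv_tr, Aff.inv_mu, Aff.one_tr]
        ring
      · simp only [Aff.mul_mu, Aff.inv_mu, Aff.one_mu, inv_mul_cancel])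

/-- The complement `{(0, u)}`. -/
def compl (p : ℕ) (U : Subgroup (ZMod p)ˣ) : Subgroup (Aff p U) where
  carrier := {x | x.tr = 0}
  mul_mem' := by
    intro a b ha hb
    simp only [Set.mem_ofPred_eq] at ha hb ⊢
    rw [Aff.mul_tr, ha, hb, mul_zero, add_zero]
  one_mem' := rfl
  inv_mem' := by
    intro a ha
    simp only [Set.mem_ofPred_eq] at ha ⊢
    rw [Aff.inv_tr, ha, mul_zero]

lemma mem_compl (x : Aff p U) : x ∈ compl p U ↔ x.tr = 0 := Iff.rfl

def complEquiv (p : ℕ) (U : Subgroup (ZMod p)ˣ) : compl p U ≃* U where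
  toFun x := x.1.mu
  invFun u := ⟨⟨0, u⟩, rfl⟩
  left_inv := by
    intro x
    apply Subtype.ext
    rw [Aff.ext_iff']
    exact ⟨x.2.symm, rfl⟩
  right_inv := by
    intro u
    rfl
  map_mul' := by
    intro x y
    rfl

lemma frob [Fact p.Prime] (hU : U ≠ ⊥) : Cfsg.IsFrobeniusComplement (compl p U) := by
  refine ⟨?_, ?_, ?_⟩
  · intro h
    apply hU
    rw [eq_bot_iff]
    intro u hu
    have hmem : (⟨0, ⟨u, hu⟩⟩ : Aff p U) ∈ compl p U := rfl
    rw [h, Subgroup.mem_bot, Aff.ext_iff'] at hmem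
    have h2 : (⟨u, hu⟩ : U) = 1 := hmem.2
    rw [Subgroup.mem_bot]
    exact congrArg Subtype.val h2
  · intro h
    have hmem : (⟨1, 1⟩ : Aff p U) ∈ compl p U := by rw [h]; exact Subgroup.mem_top _
    rw [mem_compl] at hmem
    exact one_ne_zero hmem
  · intro g hg
    rw [eq_bot_iff]
    intro x hx
    rw [Subgroup.mem_inf, Cfsg.Agent.Lib.Helper7.mem_conj_smul_iff, mem_compl, mem_compl] at hx
    obtain ⟨hx0, hx1⟩ := hx
    rw [mem_compl] at hg
    rw [Aff.mul_tr, Aff.mul_tr, Aff.inv_tr, Aff.inv_mu, hx0, mul_zero, add_zero, Aff.mul_mu,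
      Aff.inv_mu, Subgroup.coe_mul, Units.val_mul] at hx1
    have h3 : (((g.mu⁻¹ : U) : (ZMod p)ˣ) : ZMod p) * ((((x.mu : (ZMod p)ˣ) : ZMod p) - 1) * g.tr) = 0 := by
      rw [← hx1]; ring
    have h4 : (((g.mu⁻¹ : U) : (ZMod p)ˣ) : ZMod p) ≠ 0 := Units.ne_zero _
    have h5 : (((x.mu : (ZMod p)ˣ) : ZMod p) - 1) * g.tr = 0 := by
      rcases mul_eq_zero.1 h3 with h | h
      · exact absurd h h4
      · exact h
    have h6 : ((x.mu : (ZMod p)ˣ) : ZMod p) - 1 = 0 := by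
      rcases mul_eq_zero.1 h5 with h | h
      · exact h
      · exact absurd h hg
    have h7 : ((x.mu : (ZMod p)ˣ) : ZMod p) = 1 := sub_eq_zero.1 h6
    have h8 : (x.mu : (ZMod p)ˣ) = 1 := Units.ext h7
    have h9 : x.mu = 1 := Subtype.ext h8
    rw [Subgroup.mem_bot, Aff.ext_iff']
    exact ⟨hx0, h9⟩

instance Aff.instFinite [Fact p.Prime] : Finite (Aff p U) := by
  haveI : NeZero p := ⟨(Fact.out : p.Prime).ne_zero⟩
  apply Finite.of_injective (fun x : Aff p U => (x.tr, x.mu))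
  intro x y h
  rw [Aff.ext_iff']
  exact ⟨congrArg Prod.fst h, congrArg Prod.snd h⟩

/-- Every nontrivial finite cyclic group occurs as a Frobenius complement of some finite Frobenius group. -/
theorem result {C : Type*} [Group C] [Finite C] [IsCyclic C] [Nontrivial C] :
    ∃ (L : Type) (_ : Group L) (_ : Finite L) (H : Subgroup L), Cfsg.IsFrobeniusComplement H ∧ Nonempty (C ≃* H) := by
  have hn0 : Nat.card C ≠ 0 := Nat.card_pos.ne'
  have hn1 : 1 < Nat.card C := Finite.one_lt_card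
  obtain ⟨p, hp, _, hmod⟩ := Nat.exists_prime_gt_modEq_one (k := Nat.card C) 0 hn0
  haveI : Fact p.Prime := ⟨hp⟩
  have hdvd : Nat.card C ∣ p - 1 := (Nat.modEq_iff_dvd' hp.one_lt.le).1 hmod.symm
  obtain ⟨k, hk⟩ := hdvd
  obtain ⟨g, hg⟩ := IsCyclic.exists_ofOrder_eq_natCard (α := (ZMod p)ˣ)
  have hcard : Nat.card (ZMod p)ˣ = p - 1 := by
    rw [Nat.card_eq_fintype_card, ZMod.card_units]
  have hp1 : 0 < p - 1 := Nat.sub_pos_of_lt hp.one_lt
  have hk0 : k ≠ 0 := by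
    rintro rfl
    rw [mul_zero] at hk
    omega
  have hord : orderOf (g ^ k) = Nat.card C := by
    rw [orderOf_pow_of_dvd hk0 (by rw [hg, hcard, hk]; exact dvd_mul_left k _), hg, hcard, hk,
      Nat.mul_div_cancel _ (Nat.pos_of_ne_zero hk0)]
  have hUcard : Nat.card (Subgroup.zpowers (g ^ k)) = Nat.card C := by
    rw [Nat.card_zpowers, hord]
  have hU : Subgroup.zpowers (g ^ k) ≠ ⊥ := by
    intro h
    rw [h, Subgroup.card_bot] at hUcard
    omega
  refine ⟨Aff p (Subgroup.zpowers (g ^ k)), inferInstance, inferInstance,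
    compl p (Subgroup.zpowers (g ^ k)), frob hU, ⟨?_⟩⟩
  exact (mulEquivOfCyclicCardEq hUcard.symm).trans (complEquiv p _).symm

end Cfsg.Agent.S4299
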