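import Mathlib
import Cfsg.Statements.S4300

set_option autoImplicit false
open Cfsg

namespace Cfsg.Agent.S4300

/-- Let G act faithfully and primitively on a set X, and suppose the stabilizer of some point is a simple group. Then either G is simple, or G has a normal subgroup, neither trivial nor the whole group, that acts regularly on X (transitively with trivial point stabilizers). -/
theorem result {G : Type*} [Group G] {X : Type*} [MulAction G X] [FaithfulSMul G X]
    (hprim : MulAction.IsPreprimitive G X) (x : X) (hsimple : IsSimpleGroup (MulAction.stabilizer G x)) :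
    IsSimpleGroup G ∨ ∃ N : Subgroup G, N.Normal ∧ N ≠ ⊥ ∧ N ≠ ⊤ ∧
      MulAction.IsPretransitive N X ∧ ∀ y : X, MulAction.stabilizer N y = ⊥ := by
  have hnt : Nontrivial G := by
    obtain ⟨a, b, hab⟩ := hsimple.toNontrivial
    exact ⟨a, b, fun h => hab (Subtype.ext h)⟩
  by_cases h : ∀ N : Subgroup G, N.Normal → N = ⊥ ∨ N = ⊤
  · left
    exact ⟨fun N hN => h N hN⟩
  · right
    push Not at h
    obtain ⟨N, hN, hN0, hN1⟩ := h
    have htrans : MulAction.IsPretransitive N X := by
      apply MulAction.IsQuasiPreprimitive.isPretransitive_of_normal (G := G)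
      intro hfix
      apply hN0
      rw [eq_bot_iff]
      intro n hn
      rw [Subgroup.mem_bot]
      apply FaithfulSMul.eq_of_smul_eq_smul (α := X)
      intro a
      have ha : a ∈ MulAction.fixedPoints N X := by rw [hfix]; trivial
      have := ha ⟨n, hn⟩
      rw [one_smul]
      exact this
    refine ⟨N, hN, hN0, hN1, htrans, ?_⟩
    have hnorm : (N.subgroupOf (MulAction.stabilizer G x)).Normal := Subgroup.normal_subgroupOf
    rcases hnorm.eq_bot_or_eq_top with h0 | h1
    · rw [Subgroup.subgroupOf_eq_bot, Subgroup.disjoint_def] at h0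
      intro y
      rw [eq_bot_iff]
      rintro ⟨n, hn⟩ hmem
      rw [MulAction.mem_stabilizer_iff] at hmem
      have hmem' : n • y = y := hmem
      obtain ⟨g, rfl⟩ := MulAction.exists_smul_eq G x y
      have h2 : g⁻¹ * n * g ∈ N := by
        have := hN.conj_mem n hn g⁻¹
        simpa using this
      have h3 : g⁻¹ * n * g ∈ MulAction.stabilizer G x := by
        rw [MulAction.mem_stabilizer_iff, mul_smul, mul_smul, hmem', inv_smul_smul]
      have h4 := h0 h2 h3
      rw [Subgroup.mem_bot]
      apply Subtype.ext
      show n = 1
      have : n = g * (g⁻¹ * n * g) * g⁻¹ := by group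
      rw [this, h4]; group
    · exfalso
      rw [Subgroup.subgroupOf_eq_top] at h1
      apply hN1
      rw [eq_top_iff]
      intro g _
      obtain ⟨n, hn⟩ := MulAction.exists_smul_eq N x (g • x)
      have hn' : (n : G) • x = g • x := hn
      have h2 : (n : G)⁻¹ * g ∈ MulAction.stabilizer G x := by
        rw [MulAction.mem_stabilizer_iff, mul_smul, ← hn', inv_smul_smul]
      have h3 := N.mul_mem n.2 (h1 h2)
      simpa using h3

end Cfsg.Agent.S4300
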