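import Mathlib
import Cfsg.Statements.S4301

set_option autoImplicit false
open Cfsg

namespace Cfsg.Agent.S4301



theorem exists_emb2 {X : Type*} {k : ℕ} (hk : 2 ≤ k) (e : Fin k ↪ X) (p q : X) (hpq : p ≠ q) :
    ∃ a : Fin k ↪ X, a ⟨0, by omega⟩ = p ∧ a ⟨1, by omega⟩ = q := by
  classical
  let e1 : Fin k ↪ X := e.trans (Equiv.swap (e ⟨0, by omega⟩) p).toEmbedding
  have h1 : e1 ⟨0, by omega⟩ = p := by
    show Equiv.swap (e ⟨0, by omega⟩) p (e ⟨0, by omega⟩) = p
    exact Equiv.swap_apply_left _ _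
  let e2 : Fin k ↪ X := e1.trans (Equiv.swap (e1 ⟨1, by omega⟩) q).toEmbedding
  refine ⟨e2, ?_, ?_⟩
  · show Equiv.swap (e1 ⟨1, by omega⟩) q (e1 ⟨0, by omega⟩) = p
    rw [h1]
    apply Equiv.swap_apply_of_ne_of_ne
    · intro h
      rw [← h1] at h
      have := e1.injective h
      simp [Fin.ext_iff] at this
    · exact hpq
  · show Equiv.swap (e1 ⟨1, by omega⟩) q (e1 ⟨1, by omega⟩) = q
    exact Equiv.swap_apply_left _ _

/-- One-point extension of a multiply transitive group. Let X be a set and G a group of permutations of Option X (the set X with one extra point ∗ = none) all of whose elements fix ∗, such that G is k-transitive on the points of X for some k ≥ 2, X having at least k points. Suppose a permutation h of Option X and an element g of G satisfy: h interchanges ∗ with a point x of X and fixes a point y of X; g interchanges x and y; (g h)³ and h² lie in G; and for every f in G fixing x, the product h f h lies in G and fixes x. Then an element of the group generated by G and h fixes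 ∗ exactly when it lies in G, and that group acts (k+1)-transitively on Option X. -/
theorem result {X : Type*} (G : Subgroup (Equiv.Perm (Option X))) (hfix : ∀ f ∈ G, f none = none)
    (k : ℕ) (hk : 2 ≤ k) (hkX : Nonempty (Fin k ↪ X))
    (htrans : ∀ a b : Fin k ↪ X, ∃ f ∈ G, ∀ i, f (some (a i)) = some (b i))
    (h g : Equiv.Perm (Option X)) (hg : g ∈ G) (x y : X)
    (h1 : h none = some x) (h2 : h (some x) = none) (h3 : h (some y) = some y)
    (h4 : g (some x) = some y) (h5 : g (some y) = some x)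
    (h6 : (g * h) ^ 3 ∈ G) (h7 : h ^ 2 ∈ G)
    (h8 : ∀ f ∈ G, f (some x) = some x → h * f * h ∈ G ∧ (h * f * h) (some x) = some x) :
    (∀ f ∈ Subgroup.closure ((G : Set (Equiv.Perm (Option X))) ∪ {h}), f none = none ↔ f ∈ G) ∧
      MulAction.IsMultiplyPretransitive (Subgroup.closure ((G : Set (Equiv.Perm (Option X))) ∪ {h})) (Option X) (k + 1) := by
  classical
  obtain ⟨e⟩ := hkX
  have hxy : x ≠ y := by
    intro h; rw [h] at h2; rw [h2] at h3; exact absurd h3.symm (Option.some_ne_none y)
  have hsome : ∀ f ∈ G, ∀ z : X, ∃ w : X, f (some z) = some w := by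
    intro f hf z
    have : f (some z) ≠ none := by
      intro h
      rw [← hfix f hf] at h
      exact absurd (f.injective h) (Option.some_ne_none z)
    exact Option.ne_none_iff_exists'.mp this
  have h2t : ∀ z : X, z ≠ x → ∃ f ∈ G, f (some x) = some x ∧ f (some y) = some z := by
    intro z hz
    obtain ⟨a, ha0, ha1⟩ := exists_emb2 hk e x y hxy
    obtain ⟨b, hb0, hb1⟩ := exists_emb2 hk e x z (Ne.symm hz)
    obtain ⟨f, hf, hfa⟩ := htrans a b
    refine ⟨f, hf, ?_, ?_⟩
    · have := hfa ⟨0, by omega⟩; rw [ha0, hb0] at this; exact this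
    · have := hfa ⟨1, by omega⟩; rw [ha1, hb1] at this; exact this
  have h1t : ∀ z : X, ∃ f ∈ G, f (some z) = some x := by
    intro z
    by_cases hz : z = x
    · exact ⟨1, G.one_mem, by rw [hz]; rfl⟩
    · obtain ⟨f, hf, hfx, hfy⟩ := h2t z hz
      refine ⟨(f * g)⁻¹, G.inv_mem (G.mul_mem hf hg), ?_⟩
      rw [Equiv.Perm.inv_eq_iff_eq, Equiv.Perm.mul_apply, h4, hfy]
  have hdec : ∀ f ∈ G, f (some x) ≠ some x → ∃ f1 ∈ G, ∃ f2 ∈ G, f1 (some x) = some x ∧
      f2 (some x) = some x ∧ f = f1 * g * f2 := by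
    intro f hf hfx
    obtain ⟨z, hz⟩ := hsome f hf x
    have hzx : z ≠ x := by intro h; rw [h] at hz; exact hfx hz
    obtain ⟨f1, hf1, hf1x, hf1y⟩ := h2t z hzx
    refine ⟨f1, hf1, (f1 * g)⁻¹ * f, G.mul_mem (G.inv_mem (G.mul_mem hf1 hg)) hf, hf1x, ?_, by group⟩
    rw [Equiv.Perm.mul_apply, hz, Equiv.Perm.inv_eq_iff_eq, Equiv.Perm.mul_apply, h4, hf1y]
  set s : Equiv.Perm (Option X) := (h ^ 2)⁻¹ with hs
  have hsG : s ∈ G := G.inv_mem h7
  set t : Equiv.Perm (Option X) := (g * h) ^ 3 with ht
  let S : Equiv.Perm (Option X) → Prop := fun f => f ∈ G ∨ ∃ f1 ∈ G, ∃ f2 ∈ G, f = f1 * h * f2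
  have SG : ∀ a f, S a → f ∈ G → S (a * f) := by
    intro a f ha hf
    rcases ha with ha | ⟨f1, hf1, f2, hf2, rfl⟩
    · exact Or.inl (G.mul_mem ha hf)
    · exact Or.inr ⟨f1, hf1, f2 * f, G.mul_mem hf2 hf, by group⟩
  have GS : ∀ a f, f ∈ G → S a → S (f * a) := by
    intro a f hf ha
    rcases ha with ha | ⟨f1, hf1, f2, hf2, rfl⟩
    · exact Or.inl (G.mul_mem hf ha)
    · exact Or.inr ⟨f * f1, G.mul_mem hf hf1, f2, hf2, by group⟩
  have hfh : ∀ f ∈ G, S (h * f * h) := by
    intro f hf
    by_cases hfx : f (some x) = some x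
    · exact Or.inl (h8 f hf hfx).1
    · obtain ⟨f1, hf1, f2, hf2, hf1x, hf2x, rfl⟩ := hdec f hf hfx
      right
      refine ⟨h * f1 * h * s * g⁻¹ * t * s, ?_, g⁻¹ * s * (h * f2 * h), ?_, ?_⟩
      · exact G.mul_mem (G.mul_mem (G.mul_mem (G.mul_mem (h8 f1 hf1 hf1x).1 hsG) (G.inv_mem hg)) h6) hsG
      · exact G.mul_mem (G.mul_mem (G.inv_mem hg) hsG) (h8 f2 hf2 hf2x).1
      · have ht3 : t = g * h * (g * h) * (g * h) := by rw [ht, pow_succ, pow_succ, pow_one]
        rw [hs, ht3]; group
  have Sh : ∀ a, S a → S (a * h) := by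
    intro a ha
    rcases ha with ha | ⟨f1, hf1, f2, hf2, rfl⟩
    · exact Or.inr ⟨a, ha, 1, G.one_mem, by group⟩
    · have := GS _ f1 hf1 (hfh f2 hf2)
      have e : f1 * h * f2 * h = f1 * (h * f2 * h) := by group
      rw [e]; exact this
  have Smul : ∀ a b, S a → S b → S (a * b) := by
    intro a b ha hb
    rcases hb with hb | ⟨f1, hf1, f2, hf2, rfl⟩
    · exact SG a b ha hb
    · have := SG _ f2 (Sh _ (SG a f1 ha hf1)) hf2
      have e : a * (f1 * h * f2) = a * f1 * h * f2 := by group
      rw [e]; exact this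
  have Sinv : ∀ a, S a → S a⁻¹ := by
    intro a ha
    rcases ha with ha | ⟨f1, hf1, f2, hf2, rfl⟩
    · exact Or.inl (G.inv_mem ha)
    · exact Or.inr ⟨f2⁻¹, G.inv_mem hf2, s * f1⁻¹, G.mul_mem hsG (G.inv_mem hf1), by rw [hs]; group⟩
  have hS : ∀ f ∈ Subgroup.closure ((G : Set (Equiv.Perm (Option X))) ∪ {h}), S f := by
    intro f hf
    induction hf using Subgroup.closure_induction with
    | mem f hf =>
      rcases hf with hf | hf
      · exact Or.inl hf
      · rw [Set.mem_singleton_iff] at hf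
        exact Or.inr ⟨1, G.one_mem, 1, G.one_mem, by rw [hf]; group⟩
    | one => exact Or.inl G.one_mem
    | mul a b _ _ ha hb => exact Smul a b ha hb
    | inv a _ ha => exact Sinv a ha
  have hGle : G ≤ Subgroup.closure ((G : Set (Equiv.Perm (Option X))) ∪ {h}) :=
    fun f hf => Subgroup.subset_closure (Or.inl hf)
  have hhmem : h ∈ Subgroup.closure ((G : Set (Equiv.Perm (Option X))) ∪ {h}) :=
    Subgroup.subset_closure (Or.inr rfl)
  constructor
  · intro f hf
    constructor
    · intro hnone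
      rcases hS f hf with hfG | ⟨f1, hf1, f2, hf2, rfl⟩
      · exact hfG
      · exfalso
        rw [Equiv.Perm.mul_apply, Equiv.Perm.mul_apply, hfix f2 hf2, h1] at hnone
        rw [← hfix f1 hf1] at hnone
        exact absurd (f1.injective hnone) (Option.some_ne_none x)
    · exact hfix f
  · set Gs := Subgroup.closure ((G : Set (Equiv.Perm (Option X))) ∪ {h}) with hGs
    have hto : ∀ p : Option X, ∃ u ∈ Gs, u p = none := by
      intro p
      cases p with
      | none => exact ⟨1, Gs.one_mem, rfl⟩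
      | some z =>
        obtain ⟨f, hf, hfz⟩ := h1t z
        exact ⟨h * f, Gs.mul_mem hhmem (hGle hf), by rw [Equiv.Perm.mul_apply, hfz, h2]⟩
    have key : ∀ a b : Fin (k + 1) ↪ Option X, a (Fin.last k) = none → b (Fin.last k) = none →
        ∃ f ∈ G, ∀ i, f (a i) = b i := by
      intro a b ha hb
      have hA : ∀ i : Fin k, ∃ z : X, a i.castSucc = some z := by
        intro i
        apply Option.ne_none_iff_exists'.mp
        intro h'
        rw [← ha] at h'
        have := a.injective h'
        exact (Fin.castSucc_lt_last i).ne this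
      have hB : ∀ i : Fin k, ∃ z : X, b i.castSucc = some z := by
        intro i
        apply Option.ne_none_iff_exists'.mp
        intro h'
        rw [← hb] at h'
        have := b.injective h'
        exact (Fin.castSucc_lt_last i).ne this
      choose a' ha' using hA
      choose b' hb' using hB
      have hainj : Function.Injective a' := by
        intro i j hij
        have : a i.castSucc = a j.castSucc := by rw [ha', ha', hij]
        exact Fin.castSucc_injective _ (a.injective this)
      have hbinj : Function.Injective b' := by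
        intro i j hij
        have : b i.castSucc = b j.castSucc := by rw [hb', hb', hij]
        exact Fin.castSucc_injective _ (b.injective this)
      obtain ⟨f, hf, hfab⟩ := htrans ⟨a', hainj⟩ ⟨b', hbinj⟩
      refine ⟨f, hf, ?_⟩
      intro i
      induction i using Fin.lastCases with
      | last => rw [ha, hb]; exact hfix f hf
      | cast j => rw [ha', hb']; exact hfab j
    refine ⟨fun a b => ?_⟩
    obtain ⟨ua, hua, hua'⟩ := hto (a (Fin.last k))
    obtain ⟨ub, hub, hub'⟩ := hto (b (Fin.last k))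
    let a1 : Fin (k + 1) ↪ Option X := a.trans ua.toEmbedding
    let b1 : Fin (k + 1) ↪ Option X := b.trans ub.toEmbedding
    obtain ⟨f, hf, hfab⟩ := key a1 b1 hua' hub'
    refine ⟨⟨ub⁻¹ * f * ua, Gs.mul_mem (Gs.mul_mem (Gs.inv_mem hub) (hGle hf)) hua⟩, ?_⟩
    refine Function.Embedding.ext (fun i => ?_)
    show (ub⁻¹ * f * ua) (a i) = b i
    rw [Equiv.Perm.mul_apply, Equiv.Perm.mul_apply, Equiv.Perm.inv_eq_iff_eq]
    exact hfab i

end Cfsg.Agent.S4301
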