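import Mathlib
import Cfsg.Statements.S4309

set_option autoImplicit false
open Cfsg

namespace Cfsg.Agent.S4309

theorem relIndex_normal_dvd_index {Γ : Type*} [Group Γ] [Finite Γ] (M N : Subgroup Γ) [N.Normal] :
    M.relIndex N ∣ M.index := by
  have h1 : (M ⊓ N).relIndex N * N.index = (M ⊓ N).index := Subgroup.relIndex_mul_index inf_le_right
  have h2 : (M ⊓ N).relIndex M * M.index = (M ⊓ N).index := Subgroup.relIndex_mul_index inf_le_left
  rw [Subgroup.inf_relIndex_right] at h1
  rw [Subgroup.inf_relIndex_left] at h2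
  obtain ⟨t, ht⟩ := Subgroup.relIndex_dvd_index_of_normal (H := N) (K := M)
  have h0 : 0 < N.relIndex M :=
    Nat.pos_of_ne_zero (Subgroup.index_ne_zero_of_finite (H := N.subgroupOf M))
  refine ⟨t, ?_⟩
  apply Nat.eq_of_mul_eq_mul_left h0
  rw [h2, ← h1, ht]
  ring

/-- Let `π` be a set of primes, `G` a finite group with a Hall `π`-subgroup `H` (every prime divisor of the order of `H` lies in `π` and no prime of `π` divides its index), and `A` a normal subgroup of `G`. Then `H ∩ A` is a Hall `π`-subgroup of `A` and the image of `H` in `G/A` is a Hall `π`-subgroup of `G/A`. -/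
theorem result {G : Type*} [Group G] [Finite G] (π : Set ℕ)
    (H A : Subgroup G) [A.Normal] (hH : Cfsg.IsPiHall π H) :
    Cfsg.IsPiHall π ((H ⊓ A).subgroupOf A) ∧ Cfsg.IsPiHall π (H.map (QuotientGroup.mk' A)) := by
  obtain ⟨h1, h2⟩ := hH
  refine ⟨⟨?_, ?_⟩, ⟨?_, ?_⟩⟩
  · intro p hp hdvd
    apply h1 p hp
    have e : ((H ⊓ A).subgroupOf A) ≃* (H ⊓ A : Subgroup G) :=
      Subgroup.subgroupOfEquivOfLe inf_le_right
    rw [Nat.card_congr e.toEquiv] at hdvd
    exact hdvd.trans (Subgroup.card_dvd_of_le inf_le_left)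
  · intro p hp hpπ hdvd
    apply h2 p hp hpπ
    have : ((H ⊓ A).subgroupOf A).index = H.relIndex A := by
      show (H ⊓ A).relIndex A = H.relIndex A
      exact Subgroup.inf_relIndex_right H A
    rw [this] at hdvd
    exact hdvd.trans (relIndex_normal_dvd_index H A)
  · intro p hp hdvd
    exact h1 p hp (hdvd.trans (Subgroup.card_map_dvd H (QuotientGroup.mk' A)))
  · intro p hp hpπ hdvd
    apply h2 p hp hpπ
    exact hdvd.trans (Subgroup.index_map_dvd H (QuotientGroup.mk'_surjective A))

end Cfsg.Agent.S4309
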