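import Mathlib
import Cfsg.Statements.S4421

set_option autoImplicit false
open scoped Pointwise
open Cfsg

namespace Cfsg.Agent.S4421

theorem map_conj_eq_smul {G : Type*} [Group G] (K : Subgroup G) (g : G) :
    K.map (MulAut.conj g).toMonoidHom = MulAut.conj g • K := rfl

theorem mem_normalizer_iff_smul {G : Type*} [Group G] (K : Subgroup G) (g : G) :
    g ∈ Subgroup.normalizer (K : Set G) ↔ MulAut.conj g • K = K := by
  rw [Subgroup.mem_normalizer_iff_map_conj_eq]; rfl

/-- A factorization of a normalizer from two-step control of fusion. Let `G` be a finite group and `A ≤ S ≤ H` subgroups of `G` such that: (i) `S` controls the `G`-fusion of `A` in the sense that every `G`-conjugate of `A` lying in `S` is an `S`-conjugate of `A`; (ii) `H` controls the `G`-fusion of `S` in the same sense; (iii) every conjugate of `S` by an element of the normalizer of `A` lies in `H`. Then `N_G(A) = N_H(A) · (N_G(S) ∩ N_G(A))`: every element of the normalizer of `A` is a product of an element of `H` normalizing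 `A` and an element normalizing both `S` and `A`. -/
theorem result {G : Type*} [Group G] [Finite G] (A S H : Subgroup G)
    (hAS : A ≤ S) (hSH : S ≤ H)
    (h1 : ∀ g : G, A.map (MulAut.conj g).toMonoidHom ≤ S → ∃ s ∈ S, A.map (MulAut.conj g).toMonoidHom = A.map (MulAut.conj s).toMonoidHom)
    (h2 : ∀ g : G, S.map (MulAut.conj g).toMonoidHom ≤ H → ∃ y ∈ H, S.map (MulAut.conj g).toMonoidHom = S.map (MulAut.conj y).toMonoidHom)
    (h3 : ∀ x ∈ Subgroup.normalizer (A : Set G), S.map (MulAut.conj x).toMonoidHom ≤ H) :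
    ∀ x ∈ Subgroup.normalizer (A : Set G), ∃ y ∈ H ⊓ Subgroup.normalizer (A : Set G),
      ∃ z ∈ Subgroup.normalizer (S : Set G) ⊓ Subgroup.normalizer (A : Set G), x = y * z := by
  intro x hx
  simp only [map_conj_eq_smul] at h1 h2 h3
  have hxA : MulAut.conj x • A = A := (mem_normalizer_iff_smul A x).1 hx
  obtain ⟨y, hyH, hy⟩ := h2 x (h3 x hx)
  have hwS : MulAut.conj (y⁻¹ * x) • S = S := by
    rw [map_mul, mul_smul, hy, ← mul_smul, ← map_mul, inv_mul_cancel, map_one, one_smul]
  have hyA : MulAut.conj y⁻¹ • A ≤ S := by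
    have : A ≤ MulAut.conj y • S := by
      rw [← hy, ← hxA]
      intro a ha
      obtain ⟨b, hb, rfl⟩ := ha
      exact ⟨b, hAS hb, rfl⟩
    rw [map_inv, ← Subgroup.subset_pointwise_smul_iff]
    exact this
  obtain ⟨s, hsS, hs⟩ := h1 y⁻¹ hyA
  have hysA : MulAut.conj (y * s) • A = A := by
    rw [map_mul, mul_smul, ← hs, ← mul_smul, ← map_mul, mul_inv_cancel, map_one, one_smul]
  have hysA' : y * s ∈ Subgroup.normalizer (A : Set G) := (mem_normalizer_iff_smul A _).2 hysA
  refine ⟨y * s, ⟨H.mul_mem hyH (hSH hsS), hysA'⟩, (y * s)⁻¹ * x, ⟨?_, ?_⟩, by group⟩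
  · have : (y * s)⁻¹ * x = s⁻¹ * (y⁻¹ * x) := by group
    rw [this]
    exact Subgroup.mul_mem _ (Subgroup.inv_mem _ (Subgroup.le_normalizer hsS))
      ((mem_normalizer_iff_smul S _).2 hwS)
  · exact Subgroup.mul_mem _ (Subgroup.inv_mem _ hysA') hx

end Cfsg.Agent.S4421
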