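import Mathlib
import Cfsg.Statements.S4422

set_option autoImplicit false
open Cfsg

namespace Cfsg.Agent.S4422

theorem prime_case (q e p : ℕ) (he : 1 ≤ e) (hp : p.Prime)
    (hm : p ∣ q ^ e - 1) (hcop : ∀ i : ℕ, 1 ≤ i → i < e → Nat.Coprime p (q ^ i - 1)) (hq : 1 ≤ q) :
    p ≡ 1 [MOD e] := by
  have : Fact p.Prime := ⟨hp⟩
  have hpow : ∀ i : ℕ, p ∣ q ^ i - 1 ↔ (q : ZMod p) ^ i = 1 := by
    intro i
    have h1 : 1 ≤ q ^ i := Nat.one_le_pow _ _ hq
    rw [← ZMod.natCast_eq_zero_iff, Nat.cast_sub h1, sub_eq_zero]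
    simp
  have h1 : (q : ZMod p) ^ e = 1 := (hpow e).1 hm
  have hd : orderOf (q : ZMod p) ∣ e := orderOf_dvd_of_pow_eq_one h1
  have hd0 : orderOf (q : ZMod p) ≠ 0 := by
    intro h0
    rw [h0] at hd
    have := Nat.eq_zero_of_zero_dvd hd
    omega
  have hde : orderOf (q : ZMod p) = e := by
    by_contra hne
    have hlt : orderOf (q : ZMod p) < e :=
      lt_of_le_of_ne (Nat.le_of_dvd (by omega) hd) hne
    have h2 := hcop _ (Nat.pos_of_ne_zero hd0) hlt
    have h3 : p ∣ q ^ orderOf (q : ZMod p) - 1 := (hpow _).2 (pow_orderOf_eq_one _)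
    have h4 : p ∣ Nat.gcd p (q ^ orderOf (q : ZMod p) - 1) := Nat.dvd_gcd dvd_rfl h3
    rw [h2] at h4
    exact hp.one_lt.ne' (Nat.dvd_one.1 h4)
  have hq0 : (q : ZMod p) ≠ 0 := by
    intro h0
    rw [h0, zero_pow (by omega)] at h1
    exact zero_ne_one h1
  have h5 : e ∣ p - 1 := by
    rw [← hde]
    exact ZMod.orderOf_dvd_card_sub_one hq0
  obtain ⟨k, hk⟩ := h5
  have hp1 : p = 1 + e * k := by
    have := hp.one_lt
    generalize e * k = t at hk
    omega
  rw [hp1]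
  exact Nat.add_mul_mod_self_left 1 e k

theorem aux (q e : ℕ) (hq : 2 ≤ q) (he : 1 ≤ e) : ∀ m : ℕ, m ∣ q ^ e - 1 →
    (∀ i : ℕ, 1 ≤ i → i < e → Nat.Coprime m (q ^ i - 1)) → m ≡ 1 [MOD e] := by
  intro m
  induction m using Nat.strong_induction_on with
  | _ m ih =>
    intro hm hcop
    have hpos : 0 < q ^ e - 1 := by
      have : 2 ^ e ≤ q ^ e := Nat.pow_le_pow_left hq e
      have : 2 ≤ 2 ^ e := by
        calc 2 = 2 ^ 1 := by norm_num
          _ ≤ 2 ^ e := Nat.pow_le_pow_right (by norm_num) he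
      omega
    have hm0 : m ≠ 0 := by
      rintro rfl
      exact hpos.ne' (Nat.eq_zero_of_zero_dvd hm)
    by_cases hm1 : m = 1
    · rw [hm1]
    · obtain ⟨p, hp, m', hm'⟩ : ∃ p : ℕ, p.Prime ∧ ∃ m' : ℕ, m = p * m' :=
        ⟨m.minFac, Nat.minFac_prime hm1, Nat.minFac_dvd m⟩
      have hpdvd : p ∣ m := ⟨m', hm'⟩
      have hm'dvd : m' ∣ m := ⟨p, by rw [hm']; ring⟩
      have hm'lt : m' < m := by
        have h2 := hp.two_le
        have h3 : m' ≠ 0 := by
          rintro rfl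
          simp at hm'
          exact hm0 hm'
        have h4 : 0 < m' := Nat.pos_of_ne_zero h3
        rw [hm']
        nlinarith
      have h1 := ih m' hm'lt (hm'dvd.trans hm)
        (fun i hi1 hi2 => Nat.Coprime.coprime_dvd_left hm'dvd (hcop i hi1 hi2))
      have h2 := prime_case q e p he hp (hpdvd.trans hm)
        (fun i hi1 hi2 => Nat.Coprime.coprime_dvd_left hpdvd (hcop i hi1 hi2)) (by omega)
      have := Nat.ModEq.mul h2 h1
      rw [← hm'] at this
      simpa using this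

/-- Primitive divisors of `q^e - 1` are congruent to 1 modulo `e`. Let `q ≥ 2` and `e ≥ 1` be natural numbers and let `m` be a divisor of `q^e - 1` that is coprime to `q^i - 1` for every `1 ≤ i < e` (so `m` divides the primitive part of `q^e - 1`, the largest such divisor). Then `m ≡ 1 (mod e)`. -/
theorem result (q e m : ℕ) (hq : 2 ≤ q) (he : 1 ≤ e)
    (hm : m ∣ q ^ e - 1) (hcop : ∀ i : ℕ, 1 ≤ i → i < e → Nat.Coprime m (q ^ i - 1)) :
    m % e = 1 % e := by
  exact aux q e hq he m hm hcop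

end Cfsg.Agent.S4422
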