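import Mathlib
import Cfsg.Statements.S4447
import Cfsg.Agent.Lib.Helper7.Clifford
import Cfsg.Agent.Lib.Lead.Glauberman
import Cfsg.Agent.Lib.Lead.Char13
import Cfsg.Agent.Lib.Lead.Char15

set_option autoImplicit false
open Cfsg

namespace Cfsg.Agent.S4447



open Cfsg.Agent.Lib.Lead Cfsg.Agent.Lib.Helper7.Cliff

variable {Γ : Type*} [Group Γ]

/-- the action of the normalizer of `N` on the irreducible characters of `N` -/
noncomputable def nact (N : Subgroup Γ) (x : Subgroup.normalizer (N : Set Γ))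
    (θ : Cfsg.IrrCharacter N) : Cfsg.IrrCharacter N :=
  ⟨fun n => θ.1 (x⁻¹ • n),
    isIrrCharacter_comp_surj (MulDistribMulAction.toMulAut _ _ x⁻¹ : N ≃* N).toMonoidHom
      (MulEquiv.surjective _) θ.2⟩

theorem nact_apply (N : Subgroup Γ) (x : Subgroup.normalizer (N : Set Γ))
    (θ : Cfsg.IrrCharacter N) (n : N) : (nact N x θ).1 n = θ.1 (x⁻¹ • n) := rfl

theorem nact_one (N : Subgroup Γ) (θ : Cfsg.IrrCharacter N) : nact N 1 θ = θ := by
  apply Subtype.ext
  funext n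
  rw [nact_apply, inv_one, one_smul]

theorem nact_mul (N : Subgroup Γ) (x y : Subgroup.normalizer (N : Set Γ))
    (θ : Cfsg.IrrCharacter N) : nact N (x * y) θ = nact N x (nact N y θ) := by
  apply Subtype.ext
  funext n
  rw [nact_apply, nact_apply, nact_apply, mul_inv_rev, mul_smul]

theorem nact_mem (N : Subgroup Γ) (x : Subgroup.normalizer (N : Set Γ)) (hx : (x : Γ) ∈ N)
    (θ : Cfsg.IrrCharacter N) : nact N x θ = θ := by
  apply Subtype.ext
  funext n
  rw [nact_apply]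
  have hcf := isClassFunction_of_irr θ
  have h1 := hcf n ⟨(x : Γ)⁻¹, inv_mem hx⟩
  rw [← h1]
  congr 1

/-- the induced action of the quotient -/
noncomputable def qact (N : Subgroup Γ)
    (q : (Subgroup.normalizer (N : Set Γ)) ⧸ N.subgroupOf (Subgroup.normalizer (N : Set Γ)))
    (θ : Cfsg.IrrCharacter N) : Cfsg.IrrCharacter N :=
  nact N (Quotient.out q) θ

theorem qact_mk (N : Subgroup Γ) (x : Subgroup.normalizer (N : Set Γ))
    (θ : Cfsg.IrrCharacter N) :
    qact N (x : (Subgroup.normalizer (N : Set Γ)) ⧸ N.subgroupOf (Subgroup.normalizer (N : Set Γ))) θ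
      = nact N x θ := by
  unfold qact
  obtain ⟨h, hh⟩ := QuotientGroup.mk_out_eq_mul (N.subgroupOf (Subgroup.normalizer (N : Set Γ))) x
  rw [hh, nact_mul]
  congr 1
  exact nact_mem N _ (Subgroup.mem_subgroupOf.mp h.2) θ

theorem isAct_qact (N : Subgroup Γ) : IsAct (qact N) := by
  constructor
  · intro θ
    have := qact_mk N 1 θ
    rw [nact_one] at this
    exact this
  · intro g h θ
    obtain ⟨x, rfl⟩ := QuotientGroup.mk_surjective g
    obtain ⟨y, rfl⟩ := QuotientGroup.mk_surjective h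
    rw [← QuotientGroup.mk_mul, qact_mk, qact_mk, qact_mk, nact_mul]

theorem inner_nact (N : Subgroup Γ) [Fintype N] (r : N → ℂ)
    (x : Subgroup.normalizer (N : Set Γ)) (hr : ∀ n : N, r (x • n) = r n)
    (θ : Cfsg.IrrCharacter N) :
    Cfsg.classInner r (nact N x θ).1 = Cfsg.classInner r θ.1 := by
  unfold Cfsg.classInner
  congr 1
  apply Fintype.sum_equiv (MulDistribMulAction.toMulAut _ _ x⁻¹ : N ≃* N).toEquiv
  intro n
  rw [nact_apply]
  have h1 := hr (x⁻¹ • n)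
  rw [smul_inv_smul] at h1
  show r n * _ = r (x⁻¹ • n) * _
  rw [h1]
  rfl

theorem cliff_sub (G N : Subgroup Γ) [Fintype G] [Fintype N] (hNG : N ≤ G)
    [hNn : (N.subgroupOf G).Normal] (hGle : G ≤ Subgroup.normalizer (N : Set Γ))
    (χ : Cfsg.IrrCharacter G) (θ ψ : Cfsg.IrrCharacter N)
    (hθ : Cfsg.classInner (fun n : N => (χ : G → ℂ) ⟨n, hNG n.2⟩) θ.1 ≠ 0)
    (hψ : Cfsg.classInner (fun n : N => (χ : G → ℂ) ⟨n, hNG n.2⟩) ψ.1 ≠ 0) :
    ∃ x : G, ψ = nact N (Subgroup.inclusion hGle x) θ := by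
  classical
  haveI : Fintype ↥(N.subgroupOf G) := Fintype.ofFinite _
  let e : ↥(N.subgroupOf G) ≃* ↥N := Subgroup.subgroupOfEquivOfLe hNG
  have htr : ∀ φ : Cfsg.IrrCharacter N,
      Cfsg.classInner (fun h : ↥(N.subgroupOf G) => χ.1 h) (fun m => φ.1 (e m))
        = Cfsg.classInner (fun n : N => (χ : G → ℂ) ⟨n, hNG n.2⟩) φ.1 := by
    intro φ
    unfold Cfsg.classInner
    congr 1
    · rw [Nat.card_congr e.toEquiv]
    · apply Fintype.sum_equiv e.toEquiv
      intro m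
      rfl
  let θ' : Cfsg.IrrCharacter ↥(N.subgroupOf G) :=
    ⟨fun m => θ.1 (e m), isIrrCharacter_comp_surj e.toMonoidHom e.surjective θ.2⟩
  let ψ' : Cfsg.IrrCharacter ↥(N.subgroupOf G) :=
    ⟨fun m => ψ.1 (e m), isIrrCharacter_comp_surj e.toMonoidHom e.surjective ψ.2⟩
  obtain ⟨x, hx⟩ := exists_conj_of_constituents (N.subgroupOf G) χ θ' ψ'
    (by rw [htr θ]; exact hθ) (by rw [htr ψ]; exact hψ)
  refine ⟨x⁻¹, ?_⟩
  apply Subtype.ext
  funext n
  rw [nact_apply]
  have h1 := congrFun hx (e.symm n)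
  rw [conjFun_apply] at h1
  have h2 : ψ'.1 (e.symm n) = ψ.1 n := by
    show ψ.1 (e (e.symm n)) = ψ.1 n
    rw [MulEquiv.apply_symm_apply]
  rw [← h2, h1]
  show θ.1 (e _) = _
  refine congrArg θ.1 (Subtype.ext ?_)
  show (x : Γ) * ((e.symm n : ↥(N.subgroupOf G)) : Γ) * ((x : G)⁻¹ : G) = _
  have h3 : (((e.symm n : ↥(N.subgroupOf G)) : G) : Γ) = (n : Γ) := by
    have := congrArg (fun z : N => (z : Γ)) (e.apply_symm_apply n)
    exact this
  rw [h3]
  simp
  rfl

/-- Inside a finite group Γ let S normalise G and also normalise a normal subgroup N of G, with the order of S coprime to the index of N in G and S or G/N solvable. Then for every S-invariant irreducible character χ of G, the restriction of χ to N has an S-invariant irreducible constituent. -/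
theorem result {Γ : Type*} [Group Γ] [Fintype Γ] (G S N : Subgroup Γ) [Fintype G] [Fintype N] (hnorm : ∀ s ∈ S, ∀ g ∈ G, s * g * s⁻¹ ∈ G) (hNG : N ≤ G) [hNn : (N.subgroupOf G).Normal] (hNS : ∀ s ∈ S, ∀ n ∈ N, s * n * s⁻¹ ∈ N) (hcop : (N.relIndex G).Coprime (Nat.card S)) (hsolv : Group.IsSolvable S ∨ Group.IsSolvable (G ⧸ N.subgroupOf G)) (χ : Cfsg.IrrCharacter G) (hinv : (∀ s ∈ S, ∀ g g' : G, (g' : Γ) = s * g * s⁻¹ → (χ : G → ℂ) g' = (χ : G → ℂ) g)) : ∃ θ : Cfsg.IrrCharacter N, Cfsg.classInner (fun n : N => (χ : G → ℂ) ⟨n, hNG n.2⟩) (θ : N → ℂ) ≠ 0 ∧ (∀ s ∈ S, ∀ g g' : N, (g' : Γ) = s * g * s⁻¹ → (θ : N → ℂ) g' = (θ : N → ℂ) g) := by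
  classical
  have hGle : G ≤ Subgroup.normalizer (N : Set Γ) :=
    (Subgroup.normal_subgroupOf_iff_le_normalizer hNG).mp hNn
  have hSle : S ≤ Subgroup.normalizer (N : Set Γ) := by
    intro s hs
    rw [Subgroup.mem_normalizer_iff]
    intro n
    constructor
    · intro hn; exact hNS s hs n hn
    · intro hn
      have := hNS s⁻¹ (inv_mem hs) _ hn
      have e : s⁻¹ * (s * n * s⁻¹) * s⁻¹⁻¹ = n := by group
      rw [e] at this
      exact this
  obtain ⟨πG, hπG⟩ : ∃ πG : ↥G →* (Subgroup.normalizer (N : Set Γ)) ⧸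
      N.subgroupOf (Subgroup.normalizer (N : Set Γ)),
      πG = (QuotientGroup.mk' _).comp (Subgroup.inclusion hGle) := ⟨_, rfl⟩
  obtain ⟨πS, hπS⟩ : ∃ πS : ↥S →* (Subgroup.normalizer (N : Set Γ)) ⧸
      N.subgroupOf (Subgroup.normalizer (N : Set Γ)),
      πS = (QuotientGroup.mk' _).comp (Subgroup.inclusion hSle) := ⟨_, rfl⟩
  have hπGact : ∀ (x : G) (θ : Cfsg.IrrCharacter N),
      qact N (πG x) θ = nact N (Subgroup.inclusion hGle x) θ := by
    intro x θ; rw [hπG]; exact qact_mk N _ θ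
  have hπSact : ∀ (s : S) (θ : Cfsg.IrrCharacter N),
      qact N (πS s) θ = nact N (Subgroup.inclusion hSle s) θ := by
    intro s θ; rw [hπS]; exact qact_mk N _ θ
  -- conjugation of the image of G by the image of S
  have hconjK : ∀ (s : S) (g : G), ∃ g' : G, πS s * πG g * (πS s)⁻¹ = πG g' := by
    intro s g
    refine ⟨⟨(s : Γ) * g * (s : Γ)⁻¹, hnorm s s.2 g g.2⟩, ?_⟩
    rw [hπG, hπS]
    show (QuotientGroup.mk' _) _ * (QuotientGroup.mk' _) _ * ((QuotientGroup.mk' _) _)⁻¹ =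
      (QuotientGroup.mk' _) _
    rw [← map_inv, ← map_mul, ← map_mul]
    congr 1
  have hAK : πS.range ≤ Subgroup.normalizer (πG.range : Set _) := by
    rintro a ⟨s, rfl⟩
    rw [Subgroup.mem_normalizer_iff]
    intro h
    constructor
    · rintro ⟨g, rfl⟩
      obtain ⟨g', hg'⟩ := hconjK s g
      rw [hg']; exact ⟨g', rfl⟩
    · rintro ⟨g, hg⟩
      obtain ⟨g', hg'⟩ := hconjK s⁻¹ g
      refine ⟨g', ?_⟩
      rw [← hg', hg, map_inv]
      group
  -- the quotient map from G/N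
  have hkerG : N.subgroupOf G ≤ πG.rangeRestrict.ker := by
    intro x hx
    rw [MonoidHom.mem_ker]
    apply Subtype.ext
    show πG x = 1
    rw [hπG]
    show (QuotientGroup.mk' _) (Subgroup.inclusion hGle x) = 1
    rw [QuotientGroup.mk'_apply, QuotientGroup.eq_one_iff]
    exact Subgroup.mem_subgroupOf.mpr (Subgroup.mem_subgroupOf.mp hx)
  have hliftsurj : Function.Surjective (QuotientGroup.lift (N.subgroupOf G) πG.rangeRestrict hkerG) := by
    intro k
    obtain ⟨g, hg⟩ := πG.rangeRestrict_surjective k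
    exact ⟨(g : ↥G ⧸ N.subgroupOf G), by rw [QuotientGroup.lift_mk]; exact hg⟩
  have hKdvd : Nat.card πG.range ∣ N.relIndex G := by
    have := Subgroup.card_dvd_of_surjective _ hliftsurj
    rw [← Subgroup.index_eq_card] at this
    exact this
  have hAdvd : Nat.card πS.range ∣ Nat.card S := Subgroup.card_range_dvd πS
  have hcop' : (Nat.card πS.range).Coprime (Nat.card πG.range) :=
    Nat.Coprime.coprime_dvd_right hKdvd (Nat.Coprime.coprime_dvd_left hAdvd hcop.symm)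
  have hsolv' : Group.IsSolvable πS.range ∨ Group.IsSolvable πG.range := by
    rcases hsolv with h | h
    · left
      exact solvable_of_surjective πS.rangeRestrict_surjective
    · right
      exact solvable_of_surjective hliftsurj
  -- a constituent
  obtain ⟨r, hr⟩ : ∃ r : N → ℂ, r = fun n : N => (χ : G → ℂ) ⟨n, hNG n.2⟩ := ⟨_, rfl⟩
  have hrcf : Cfsg.IsClassFunction N r := by
    intro g h
    rw [hr]
    exact Cfsg.Agent.Lib.Lead.isClassFunction_of_irr χ ⟨g, hNG g.2⟩ ⟨h, hNG h.2⟩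
  have hr0 : r ≠ 0 := by
    intro h0
    have := congrFun h0 1
    rw [hr] at this
    exact Cfsg.Agent.Lib.Lead.irr_deg_ne_zero χ this
  obtain ⟨θ₀, hθ₀⟩ := Cfsg.Agent.Lib.Helper7.Cliff.exists_constituent r hrcf hr0
  have hrG : ∀ (x : G) (n : N), r (Subgroup.inclusion hGle x • n) = r n := by
    intro x n
    rw [hr]
    exact Cfsg.Agent.Lib.Lead.isClassFunction_of_irr χ ⟨n, hNG n.2⟩ x
  have hrS : ∀ (s : S) (n : N), r (Subgroup.inclusion hSle s • n) = r n := by
    intro s n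
    rw [hr]
    exact hinv s s.2 ⟨n, hNG n.2⟩ _ rfl
  have horb : ∀ a ∈ πS.range, ∃ k ∈ πG.range, qact N a θ₀ = qact N k θ₀ := by
    rintro a ⟨s, rfl⟩
    rw [hπSact]
    have h1 : Cfsg.classInner r (nact N (Subgroup.inclusion hSle s) θ₀).1 ≠ 0 := by
      rw [inner_nact N r _ (hrS s)]; exact hθ₀
    rw [hr] at h1 hθ₀
    obtain ⟨x, hx⟩ := cliff_sub G N hNG hGle χ θ₀ _ hθ₀ h1
    exact ⟨πG x, ⟨x, rfl⟩, by rw [hπGact, hx]⟩
  obtain ⟨k, ⟨x, rfl⟩, hfix⟩ := Cfsg.Agent.Lib.Lead.glauberman_exists (isAct_qact N)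
    πS.range πG.range hAK hcop' hsolv' θ₀ horb
  rw [hπGact] at hfix
  refine ⟨nact N (Subgroup.inclusion hGle x) θ₀, ?_, ?_⟩
  · have := inner_nact N r _ (hrG x) θ₀
    rw [hr] at this hθ₀
    rw [this]; exact hθ₀
  · intro s hs g g' hgg'
    have h1 := hfix (πS ⟨s⁻¹, inv_mem hs⟩) ⟨_, rfl⟩
    rw [hπSact] at h1
    have h2 := congrArg (fun φ : Cfsg.IrrCharacter N => φ.1 g) h1
    beta_reduce at h2
    rw [nact_apply] at h2
    rw [← h2]
    refine congrArg _ (Subtype.ext ?_)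
    rw [hgg']
    show _ = ((Subgroup.inclusion hSle ⟨s⁻¹, inv_mem hs⟩)⁻¹ : Subgroup.normalizer (N : Set Γ)).1 * (g : Γ) * (((Subgroup.inclusion hSle ⟨s⁻¹, inv_mem hs⟩)⁻¹ : Subgroup.normalizer (N : Set Γ)).1)⁻¹
    simp

end Cfsg.Agent.S4447
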