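import Mathlib
import Cfsg.Statements.S4474
import Cfsg.Agent.Lib.Helper7.FS
import Cfsg.Agent.S0868
import Cfsg.Agent.Lib.Lead.Char14

set_option autoImplicit false
open Cfsg

namespace Cfsg.Agent.S4474

open scoped ComplexConjugate
open Cfsg.Agent.Lib Cfsg.Agent.Lib.Lead
open Cfsg.Agent.Lib.Helper7.FS
open Matrix
open scoped ComplexOrder

/-- entrywise complex conjugate -/
noncomputable def cj {n : ℕ} (A : Mat n) : Mat n := A.map (starRingEnd ℂ)

theorem cj_mul {n : ℕ} (A B : Mat n) : cj (A * B) = cj A * cj B := Matrix.map_mul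

theorem cj_one {n : ℕ} : cj (1 : Mat n) = 1 := Matrix.map_one _ (map_zero _) (map_one _)

theorem cj_cj {n : ℕ} (A : Mat n) : cj (cj A) = A := by
  ext i j; simp [cj]

theorem cj_smul {n : ℕ} (c : ℂ) (A : Mat n) : cj (c • A) = (starRingEnd ℂ c) • cj A := by
  ext i j; simp [cj]

theorem cj_add {n : ℕ} (A B : Mat n) : cj (A + B) = cj A + cj B := by
  ext i j; simp [cj]

theorem cj_transpose {n : ℕ} (A : Mat n) : cj Aᵀ = Aᴴ := by
  ext i j; simp [cj, Matrix.conjTranspose]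

theorem cj_conjTranspose {n : ℕ} (A : Mat n) : cj Aᴴ = Aᵀ := by
  ext i j; simp [cj, Matrix.conjTranspose]

section rs

variable {G : Type*} [Group G] [Fintype G] {n : ℕ} (ρ : Representation ℂ G (Fin n → ℂ))

/-- an invariant positive definite Hermitian form -/
theorem herm_form : ∃ P : Mat n, P.PosDef ∧ ∀ g : G, (X ρ g)ᴴ * P * X ρ g = P := by
  classical
  refine ⟨∑ h : G, (X ρ h)ᴴ * X ρ h, ?_, ?_⟩
  · apply Matrix.posDef_sum Finset.univ_nonempty
    intro h _
    apply Matrix.PosDef.conjTranspose_mul_self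
    apply (Matrix.mulVec_injective_iff_isUnit).mpr
    exact ⟨⟨X ρ h, X ρ h⁻¹, X_mul_inv ρ h, X_inv_mul ρ h⟩, rfl⟩
  · intro g
    rw [Finset.mul_sum, Finset.sum_mul]
    refine Fintype.sum_equiv (Equiv.mulRight g) _ _ (fun h => ?_)
    show (X ρ g)ᴴ * ((X ρ h)ᴴ * X ρ h) * X ρ g = (X ρ (h * g))ᴴ * X ρ (h * g)
    rw [X_mul, Matrix.conjTranspose_mul]
    simp only [mul_assoc]

/-- the real structure attached to a symmetric invariant form -/
theorem real_structure (hirr : ρ.IsIrreducible) (M : Mat n) (hMu : IsUnit M) (hMs : Mᵀ = M)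
    (hM : ∀ g : G, (X ρ g)ᵀ * M * X ρ g = M) :
    ∃ S T : Mat n, S * T = 1 ∧ T * S = 1 ∧ ∀ g : G, cj (T * X ρ g * S) = T * X ρ g * S := by
  classical
  haveI := hirr
  haveI hnt : Nontrivial (Fin n → ℂ) := ((irr_iff ρ).mp hirr).1
  have hn : 0 < n := by
    have := Module.finrank_pos (R := ℂ) (M := Fin n → ℂ)
    rwa [Module.finrank_fin_fun] at this
  have h1 : ∀ g : G, M * X ρ g = (X ρ g⁻¹)ᵀ * M := by
    intro g
    calc M * X ρ g = ((X ρ g⁻¹)ᵀ * (X ρ g)ᵀ) * M * X ρ g := by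
          rw [← Matrix.transpose_mul, X_mul_inv, Matrix.transpose_one, one_mul]
      _ = (X ρ g⁻¹)ᵀ * ((X ρ g)ᵀ * M * X ρ g) := by simp only [mul_assoc]
      _ = (X ρ g⁻¹)ᵀ * M := by rw [hM g]
  obtain ⟨P, hPpd, hPinv⟩ := herm_form ρ
  have hPu : IsUnit P.det := (Matrix.isUnit_iff_isUnit_det P).mp hPpd.isUnit
  have hPh : Pᴴ = P := hPpd.isHermitian
  obtain ⟨Pi, hPPi, hPiP⟩ : ∃ Pi : Mat n, P * Pi = 1 ∧ Pi * P = 1 :=
    ⟨P⁻¹, Matrix.mul_nonsing_inv P hPu, Matrix.nonsing_inv_mul P hPu⟩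
  have h2 : ∀ g : G, Pi * (X ρ g⁻¹)ᴴ = X ρ g * Pi := by
    intro g
    have h3 : (X ρ g⁻¹)ᴴ * P = P * X ρ g := by
      calc (X ρ g⁻¹)ᴴ * P = (X ρ g⁻¹)ᴴ * P * (X ρ g⁻¹ * X ρ g) := by rw [X_inv_mul, mul_one]
        _ = ((X ρ g⁻¹)ᴴ * P * X ρ g⁻¹) * X ρ g := by simp only [mul_assoc]
        _ = P * X ρ g := by rw [hPinv g⁻¹]
    calc Pi * (X ρ g⁻¹)ᴴ = Pi * (X ρ g⁻¹)ᴴ * (P * Pi) := by rw [hPPi, mul_one]
      _ = Pi * ((X ρ g⁻¹)ᴴ * P) * Pi := by simp only [mul_assoc]
      _ = Pi * (P * X ρ g) * Pi := by rw [h3]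
      _ = (Pi * P) * X ρ g * Pi := by simp only [mul_assoc]
      _ = X ρ g * Pi := by rw [hPiP, one_mul]
  have hcjM : cj M = Mᴴ := by rw [← cj_transpose, hMs]
  obtain ⟨A, hA⟩ : ∃ A : Mat n, A = Pi * Mᴴ := ⟨_, rfl⟩
  have h4 : ∀ g : G, A * cj (X ρ g) = X ρ g * A := by
    intro g
    have h5 : Mᴴ * cj (X ρ g) = (X ρ g⁻¹)ᴴ * Mᴴ := by
      have := congrArg cj (h1 g)
      rw [cj_mul, cj_mul, cj_transpose, hcjM] at this
      exact this
    calc A * cj (X ρ g) = Pi * (Mᴴ * cj (X ρ g)) := by rw [hA, mul_assoc]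
      _ = Pi * ((X ρ g⁻¹)ᴴ * Mᴴ) := by rw [h5]
      _ = (Pi * (X ρ g⁻¹)ᴴ) * Mᴴ := by rw [mul_assoc]
      _ = X ρ g * Pi * Mᴴ := by rw [h2 g]
      _ = X ρ g * A := by rw [hA, mul_assoc]
  have h5 : ∀ g : G, (A * cj A) * X ρ g = X ρ g * (A * cj A) := by
    intro g
    have h6 : cj A * X ρ g = cj (X ρ g) * cj A := by
      have := congrArg cj (h4 g)
      rw [cj_mul, cj_mul, cj_cj] at this
      exact this
    calc A * cj A * X ρ g = A * (cj A * X ρ g) := by rw [mul_assoc]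
      _ = A * (cj (X ρ g) * cj A) := by rw [h6]
      _ = (A * cj (X ρ g)) * cj A := by rw [mul_assoc]
      _ = X ρ g * A * cj A := by rw [h4 g]
      _ = X ρ g * (A * cj A) := by rw [mul_assoc]
  obtain ⟨c, hc⟩ : ∃ c : ℂ, A * cj A = c • (1 : Mat n) := by
    obtain ⟨c, hc⟩ := Cfsg.Agent.S0868.schur_scalar ρ (Matrix.toLin' (A * cj A)) (by
      intro g v
      have h7 : ρ g = Matrix.toLin' (X ρ g) := by unfold X; rw [Matrix.toLin'_toMatrix']
      rw [h7, ← LinearMap.comp_apply, ← Matrix.toLin'_mul, ← LinearMap.comp_apply,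
        ← Matrix.toLin'_mul, h5 g])
    refine ⟨c, ?_⟩
    have h8 := congrArg LinearMap.toMatrix' hc
    rw [LinearMap.toMatrix'_toLin', map_smul, LinearMap.toMatrix'_one] at h8
    exact h8
  -- positivity of `c`
  have hcjP : cj P = Pᵀ := by
    have := cj_conjTranspose P
    rwa [hPh] at this
  have hcjPi : (Pᵀ)⁻¹ = cj Pi := by
    apply Matrix.inv_eq_right_inv
    rw [← hcjP, ← cj_mul, hPPi, cj_one]
  have hcjA : cj A = cj Pi * M := by
    rw [hA, cj_mul, cj_conjTranspose, hMs]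
  have hN : Mᴴ * cj Pi * M = c • P := by
    have h9 : P * (A * cj A) = c • P := by rw [hc, Matrix.mul_smul, mul_one]
    rw [← h9, hcjA, hA]
    calc Mᴴ * cj Pi * M = (P * Pi) * Mᴴ * cj Pi * M := by rw [hPPi, one_mul]
      _ = P * (Pi * Mᴴ * (cj Pi * M)) := by simp only [mul_assoc]
  have hNpd : (c • P).PosDef := by
    rw [← hN, ← hcjPi]
    exact Matrix.PosDef.conjTranspose_mul_mul_same hPpd.transpose.inv
      ((Matrix.mulVec_injective_iff_isUnit).mpr hMu)
  have hp := Complex.pos_iff.mp (hPpd.diag_pos (i := (⟨0, hn⟩ : Fin n)))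
  have hcp := Complex.pos_iff.mp (hNpd.diag_pos (i := (⟨0, hn⟩ : Fin n)))
  rw [Matrix.smul_apply, smul_eq_mul, Complex.mul_re, Complex.mul_im, ← hp.2, mul_zero, sub_zero,
    mul_zero, zero_add] at hcp
  have hcim : c.im = 0 := by
    have h10 := hcp.2
    rcases mul_eq_zero.mp h10.symm with h | h
    · exact h
    · exact absurd h hp.1.ne'
  have hcre : 0 < c.re := by
    by_contra hneg
    push Not at hneg
    nlinarith [hp.1, hcp.1]
  obtain ⟨s, hs0, hs2⟩ : ∃ s : ℝ, 0 < s ∧ s * s = c.re :=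
    ⟨Real.sqrt c.re, Real.sqrt_pos.mpr hcre, Real.mul_self_sqrt hcre.le⟩
  have hcs : c = ((s * s : ℝ) : ℂ) := by
    apply Complex.ext
    · rw [Complex.ofReal_re, hs2]
    · rw [Complex.ofReal_im, hcim]
  obtain ⟨A', hA'⟩ : ∃ A' : Mat n, A' = ((s⁻¹ : ℝ) : ℂ) • A := ⟨_, rfl⟩
  have hA'1 : A' * cj A' = 1 := by
    rw [hA', cj_smul, Complex.conj_ofReal, smul_mul_smul_comm, hc, smul_smul, hcs]
    have h11 : ((s⁻¹ : ℝ) : ℂ) * ((s⁻¹ : ℝ) : ℂ) * ((s * s : ℝ) : ℂ) = 1 := by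
      rw [← Complex.ofReal_mul, ← Complex.ofReal_mul]
      have : s⁻¹ * s⁻¹ * (s * s) = 1 := by field_simp
      rw [this, Complex.ofReal_one]
    rw [h11, one_smul]
  have hA'4 : ∀ g : G, A' * cj (X ρ g) = X ρ g * A' := by
    intro g
    rw [hA', Matrix.smul_mul, h4 g, Matrix.mul_smul]
  -- Hilbert 90
  have hex : ∃ k : ℕ, ((1 + Complex.I * (k : ℂ)) • (1 : Mat n)
      + (1 - Complex.I * (k : ℂ)) • A').det ≠ 0 := by
    by_contra hcon
    push Not at hcon
    obtain ⟨Mp, hMp⟩ : ∃ Mp : Matrix (Fin n) (Fin n) (Polynomial ℂ),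
        Mp = (Polynomial.C 1 + Polynomial.C Complex.I * Polynomial.X)
            • (1 : Matrix (Fin n) (Fin n) (Polynomial ℂ))
          + (Polynomial.C 1 - Polynomial.C Complex.I * Polynomial.X) • A'.map Polynomial.C :=
      ⟨_, rfl⟩
    have heval : ∀ t : ℂ, Polynomial.eval t Mp.det
        = ((1 + Complex.I * t) • (1 : Mat n) + (1 - Complex.I * t) • A').det := by
      intro t
      have h9 := RingHom.map_det (Polynomial.evalRingHom t) Mp
      rw [Polynomial.coe_evalRingHom] at h9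
      rw [h9]
      congr 1
      ext i j
      rw [hMp]
      by_cases hij : i = j
      · simp [Matrix.add_apply, Matrix.smul_apply, Matrix.one_apply, Matrix.map_apply, hij]
      · simp [Matrix.add_apply, Matrix.smul_apply, Matrix.one_apply, Matrix.map_apply, hij]
    have hzero : Mp.det = 0 := by
      apply Polynomial.eq_zero_of_infinite_isRoot
      apply Set.Infinite.mono _ (Set.infinite_range_of_injective (Nat.cast_injective (R := ℂ)))
      rintro _ ⟨k, rfl⟩
      show Polynomial.IsRoot Mp.det (k : ℂ)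
      rw [Polynomial.IsRoot.def, heval]
      exact hcon k
    have h10 := heval (-Complex.I)
    rw [hzero, Polynomial.eval_zero] at h10
    have h11 : (1 + Complex.I * -Complex.I) = 2 := by rw [mul_neg, Complex.I_mul_I]; norm_num
    have h12 : (1 - Complex.I * -Complex.I) = 0 := by rw [mul_neg, Complex.I_mul_I]; norm_num
    rw [h11, h12, zero_smul, add_zero, Matrix.det_smul, Matrix.det_one, mul_one] at h10
    exact (pow_ne_zero _ (two_ne_zero)) h10.symm
  obtain ⟨k, hk⟩ := hex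
  obtain ⟨θ, hθ⟩ : ∃ θ : ℂ, θ = 1 + Complex.I * (k : ℂ) := ⟨_, rfl⟩
  have hθc : starRingEnd ℂ θ = 1 - Complex.I * (k : ℂ) := by
    rw [hθ, map_add, map_one, map_mul, Complex.conj_I, Complex.conj_natCast]
    ring
  obtain ⟨S, hSdef⟩ : ∃ S : Mat n, S = θ • (1 : Mat n) + (starRingEnd ℂ θ) • A' := ⟨_, rfl⟩
  have hS : A' * cj S = S := by
    rw [hSdef, cj_add, cj_smul, cj_smul, cj_one, Complex.conj_conj, mul_add, Matrix.mul_smul,
      mul_one, Matrix.mul_smul, hA'1, add_comm]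
  have hSu : IsUnit S.det := by
    rw [hSdef, hθc, hθ]
    exact isUnit_iff_ne_zero.mpr hk
  have hST : S * S⁻¹ = 1 := Matrix.mul_nonsing_inv S hSu
  have hTS : S⁻¹ * S = 1 := Matrix.nonsing_inv_mul S hSu
  refine ⟨S, S⁻¹, hST, hTS, fun g => ?_⟩
  have hcST : cj S * cj S⁻¹ = 1 := by rw [← cj_mul, hST, cj_one]
  have h13 : S * cj (S⁻¹ * X ρ g * S) = X ρ g * S := by
    calc S * cj (S⁻¹ * X ρ g * S) = A' * cj S * (cj S⁻¹ * cj (X ρ g) * cj S) := by
          rw [hS, cj_mul, cj_mul]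
      _ = A' * (cj S * cj S⁻¹) * cj (X ρ g) * cj S := by simp only [mul_assoc]
      _ = A' * cj (X ρ g) * cj S := by rw [hcST, mul_one]
      _ = X ρ g * (A' * cj S) := by rw [hA'4 g, mul_assoc]
      _ = X ρ g * S := by rw [hS]
  calc cj (S⁻¹ * X ρ g * S) = (S⁻¹ * S) * cj (S⁻¹ * X ρ g * S) := by rw [hTS, one_mul]
    _ = S⁻¹ * (S * cj (S⁻¹ * X ρ g * S)) := by rw [mul_assoc]
    _ = S⁻¹ * (X ρ g * S) := by rw [h13]
    _ = S⁻¹ * X ρ g * S := by rw [mul_assoc]

end rs

/-- a multiplicative family of matrices with real entries gives a real representation -/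
theorem real_rep_of_real_mats {G : Type*} [Group G] {n : ℕ} (Yc : G → Mat n) (h1 : Yc 1 = 1)
    (hmul : ∀ g h : G, Yc (g * h) = Yc g * Yc h) (hreal : ∀ g : G, cj (Yc g) = Yc g) :
    ∃ ρr : Representation ℝ G (Fin n → ℝ),
      ∀ g : G, ((LinearMap.trace ℝ (Fin n → ℝ) (ρr g) : ℝ) : ℂ) = (Yc g).trace := by
  classical
  obtain ⟨Y, hYdef⟩ : ∃ Y : G → Matrix (Fin n) (Fin n) ℝ, Y = fun g => (Yc g).map Complex.re :=
    ⟨_, rfl⟩
  have hY : ∀ g : G, (Y g).map Complex.ofRealHom = Yc g := by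
    intro g
    ext i j
    have := congrFun (congrFun (hreal g) i) j
    simp only [cj, Matrix.map_apply] at this
    rw [hYdef]
    simp only [Matrix.map_apply, Complex.ofRealHom_eq_coe]
    exact Complex.conj_eq_iff_re.mp this
  have hinj : Function.Injective
      (fun B : Matrix (Fin n) (Fin n) ℝ => B.map Complex.ofRealHom) :=
    Matrix.map_injective Complex.ofRealHom.injective
  have hY1 : Y 1 = 1 := by
    apply hinj
    show (Y 1).map Complex.ofRealHom = (1 : Matrix (Fin n) (Fin n) ℝ).map Complex.ofRealHom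
    rw [hY, h1, Matrix.map_one _ (map_zero _) (map_one _)]
  have hYmul : ∀ g h : G, Y (g * h) = Y g * Y h := by
    intro g h
    apply hinj
    show (Y (g * h)).map Complex.ofRealHom = (Y g * Y h).map Complex.ofRealHom
    rw [hY, hmul, Matrix.map_mul, hY, hY]
  refine ⟨{ toFun := fun g => Matrix.toLin' (Y g)
            map_one' := by rw [hY1, Matrix.toLin'_one]; rfl
            map_mul' := fun g h => by rw [hYmul, Matrix.toLin'_mul]; rfl }, fun g => ?_⟩
  show ((LinearMap.trace ℝ (Fin n → ℝ) (Matrix.toLin' (Y g)) : ℝ) : ℂ) = _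
  rw [LinearMap.trace_eq_matrix_trace ℝ (Pi.basisFun ℝ (Fin n)), LinearMap.toMatrix_eq_toMatrix',
    LinearMap.toMatrix'_toLin', ← hY g]
  simp [Matrix.trace]

/-- a real representation affording an irreducible character forces indicator `+1` -/
theorem fs_of_real {G : Type*} [Group G] [Fintype G] (χ : Cfsg.IrrCharacter G) (n : ℕ)
    (ρr : Representation ℝ G (Fin n → ℝ))
    (h : ∀ g : G, ((LinearMap.trace ℝ (Fin n → ℝ) (ρr g) : ℝ) : ℂ) = χ.1 g) :
    (Nat.card G : ℂ)⁻¹ * ∑ s : G, χ.1 (s * s) = 1 := by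
  classical
  obtain ⟨Y, hYdef⟩ : ∃ Y : G → Matrix (Fin n) (Fin n) ℝ,
      Y = fun g => LinearMap.toMatrix' (ρr g) := ⟨_, rfl⟩
  have hY1 : Y 1 = 1 := by
    rw [hYdef]
    show LinearMap.toMatrix' (ρr 1) = 1
    rw [map_one, LinearMap.toMatrix'_one]
  have hYmul : ∀ g h : G, Y (g * h) = Y g * Y h := by
    intro g h
    rw [hYdef]
    show LinearMap.toMatrix' (ρr (g * h)) = LinearMap.toMatrix' (ρr g) * LinearMap.toMatrix' (ρr h)
    rw [map_mul, Module.End.mul_eq_comp, LinearMap.toMatrix'_comp]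
  have htr : ∀ g : G, (((Y g).trace : ℝ) : ℂ) = χ.1 g := by
    intro g
    rw [← h g, LinearMap.trace_eq_matrix_trace ℝ (Pi.basisFun ℝ (Fin n)),
      LinearMap.toMatrix_eq_toMatrix', hYdef]
  obtain ⟨ρc, hρc⟩ : ∃ ρc : Representation ℂ G (Fin n → ℂ),
      ∀ g : G, ρc g = Matrix.toLin' ((Y g).map Complex.ofRealHom) := by
    refine ⟨{ toFun := fun g => Matrix.toLin' ((Y g).map Complex.ofRealHom)
              map_one' := by
                rw [hY1, Matrix.map_one _ (map_zero _) (map_one _), Matrix.toLin'_one]; rfl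
              map_mul' := fun g h => by
                rw [hYmul, Matrix.map_mul, Matrix.toLin'_mul]; rfl }, fun g => rfl⟩
  have hX : ∀ g : G, X ρc g = (Y g).map Complex.ofRealHom := by
    intro g
    unfold X
    rw [hρc, LinearMap.toMatrix'_toLin']
  have hchar : ∀ g : G, ρc.character g = χ.1 g := by
    intro g
    rw [← X_trace, hX, ← htr g]
    simp [Matrix.trace]
  obtain ⟨a, b, h1, h2, -, h4, -⟩ := fs_main ρc
  have hreal : ∀ g : G, (starRingEnd ℂ) (χ.1 g) = χ.1 g := fun g => by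
    rw [← htr g, Complex.conj_ofReal]
  have hab : a + b = 1 := by
    have h6 := irr_inner_self χ
    unfold Cfsg.classInner at h6
    have h7 : ∑ g : G, ρc.character g ^ 2 = ∑ g : G, χ.1 g * (starRingEnd ℂ) (χ.1 g) :=
      Finset.sum_congr rfl (fun g _ => by rw [hchar, hreal, sq])
    rw [h7, h6] at h1
    exact_mod_cast h1
  have hdeg : 0 < n := by
    rcases Nat.eq_zero_or_pos n with h0 | h0
    · exfalso
      subst h0
      have h8 := htr 1
      have h9 : ((Y 1).trace : ℝ) = 0 := by simp [Matrix.trace]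
      rw [h9, Complex.ofReal_zero] at h8
      exact irr_deg_ne_zero χ h8.symm
    · exact h0
  have ha : a ≠ 0 := by
    intro ha0
    obtain ⟨Mr, hMr⟩ : ∃ Mr : Matrix (Fin n) (Fin n) ℝ, Mr = ∑ h : G, (Y h)ᵀ * Y h := ⟨_, rfl⟩
    have hMrinv : ∀ g : G, (Y g)ᵀ * Mr * Y g = Mr := by
      intro g
      rw [hMr, Finset.mul_sum, Finset.sum_mul]
      refine Fintype.sum_equiv (Equiv.mulRight g) _ _ (fun h => ?_)
      show (Y g)ᵀ * ((Y h)ᵀ * Y h) * Y g = (Y (h * g))ᵀ * Y (h * g)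
      rw [hYmul, Matrix.transpose_mul]
      simp only [mul_assoc]
    have hMrT : Mrᵀ = Mr := by
      rw [hMr, Matrix.transpose_sum]
      refine Finset.sum_congr rfl (fun h _ => ?_)
      rw [Matrix.transpose_mul, Matrix.transpose_transpose]
    have hMinv : ∀ g : G, (X ρc g)ᵀ * Mr.map Complex.ofRealHom * X ρc g
        = Mr.map Complex.ofRealHom := by
      intro g
      rw [hX, ← Matrix.transpose_map, ← Matrix.map_mul, ← Matrix.map_mul, hMrinv g]
    have h8 := h4 ha0 (Mr.map Complex.ofRealHom) hMinv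
    rw [← Matrix.transpose_map, hMrT] at h8
    have h9 := congrFun (congrFun h8 (⟨0, hdeg⟩ : Fin n)) (⟨0, hdeg⟩ : Fin n)
    rw [Matrix.neg_apply, Matrix.map_apply, Complex.ofRealHom_eq_coe] at h9
    have h10 : Mr ⟨0, hdeg⟩ ⟨0, hdeg⟩ = 0 := by
      have h11 : ((Mr ⟨0, hdeg⟩ ⟨0, hdeg⟩ : ℝ) : ℂ) = 0 := by
        have : (2 : ℂ) * ((Mr ⟨0, hdeg⟩ ⟨0, hdeg⟩ : ℝ) : ℂ) = 0 := by
          rw [two_mul]
          nth_rewrite 1 [h9]
          rw [neg_add_cancel]
        rcases mul_eq_zero.mp this with h | h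
        · exact absurd h two_ne_zero
        · exact h
      exact_mod_cast h11
    have h12 : (1 : ℝ) ≤ Mr ⟨0, hdeg⟩ ⟨0, hdeg⟩ := by
      rw [hMr, Matrix.sum_apply]
      have h13 : ∀ h ∈ (Finset.univ : Finset G),
          0 ≤ ((Y h)ᵀ * Y h) (⟨0, hdeg⟩ : Fin n) (⟨0, hdeg⟩ : Fin n) := by
        intro h _
        rw [Matrix.mul_apply]
        apply Finset.sum_nonneg
        intro k _
        rw [Matrix.transpose_apply]
        exact mul_self_nonneg _
      have h14 := Finset.single_le_sum h13 (Finset.mem_univ (1 : G))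
      rw [hY1, Matrix.transpose_one, one_mul, Matrix.one_apply_eq] at h14
      exact h14
    rw [h10] at h12
    linarith
  have hab' : a = 1 ∧ b = 0 := by omega
  have h2' : (Nat.card G : ℂ)⁻¹ * ∑ s : G, χ.1 (s * s) = (a : ℂ) - b := by
    rw [h2]
    congr 1
    exact Finset.sum_congr rfl (fun g _ => (hchar (g * g)).symm)
  rw [h2', hab'.1, hab'.2]
  norm_num

/-- Let χ be an irreducible character of the finite group G. Then the Frobenius–Schur indicator of χ (the average over s ∈ G of χ(s²)) equals 1 if and only if χ is afforded by a real representation: there is a representation of G on a real coordinate space whose trace function, viewed in ℂ, is χ. -/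
theorem result {G : Type*} [Group G] [Fintype G] (χ : Cfsg.IrrCharacter G) : ((Nat.card G : ℂ)⁻¹ * ∑ s : G, (χ : G → ℂ) (s * s)) = 1 ↔ ∃ (n : ℕ) (ρ : Representation ℝ G (Fin n → ℝ)), ∀ g : G, ((LinearMap.trace ℝ (Fin n → ℝ) (ρ g) : ℝ) : ℂ) = (χ : G → ℂ) g := by
    classical
  constructor
  · intro hν
    obtain ⟨n, ρ, hρ, hρχ⟩ := χ.2
    have hrealχ : ∀ g : G, ((χ : G → ℂ) g).im = 0 := by
      by_contra hnr
      have h0 := (Cfsg.Agent.Lib.Helper7.FS.fs_cases χ).2 hnr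
      rw [hν] at h0
      exact one_ne_zero h0
    obtain ⟨a, b, h1, h2, -, h4, -, h6⟩ := fs_irr ρ hρ
    rw [hρχ] at h1 h2
    have hab := h2 hrealχ
    have hab2 : (a : ℂ) - b = 1 := by rw [h1]; exact hν
    have hab3 : a = 1 ∧ b = 0 := by
      have h7 : ((a : ℤ) : ℂ) - ((b : ℤ) : ℂ) = ((1 : ℤ) : ℂ) := by push_cast; exact hab2
      have h8 : (a : ℤ) - (b : ℤ) = 1 := by exact_mod_cast h7
      omega
    obtain ⟨M, hM0, hM⟩ := h6 (by omega)
    have hMs : Mᵀ = M := h4 hab3.2 M hM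
    have hMu : IsUnit M := by
      have h1' : ∀ g : G, M * X ρ g = (X ρ g⁻¹)ᵀ * M := by
        intro g
        calc M * X ρ g = ((X ρ g⁻¹)ᵀ * (X ρ g)ᵀ) * M * X ρ g := by
              rw [← Matrix.transpose_mul, X_mul_inv, Matrix.transpose_one, one_mul]
          _ = (X ρ g⁻¹)ᵀ * ((X ρ g)ᵀ * M * X ρ g) := by simp only [mul_assoc]
          _ = (X ρ g⁻¹)ᵀ * M := by rw [hM g]
      have hU : ∀ g : G, ∀ v ∈ LinearMap.ker (Matrix.toLin' M),
          ρ g v ∈ LinearMap.ker (Matrix.toLin' M) := by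
        intro g v hv
        rw [LinearMap.mem_ker] at hv ⊢
        have h2' : ρ g v = Matrix.toLin' (X ρ g) v := by unfold X; rw [Matrix.toLin'_toMatrix']
        rw [h2', ← LinearMap.comp_apply, ← Matrix.toLin'_mul, h1' g, Matrix.toLin'_mul,
          LinearMap.comp_apply, hv, map_zero]
      rcases ((irr_iff ρ).mp hρ).2 _ hU with h | h
      · exact (Matrix.mulVec_injective_iff_isUnit).mp (LinearMap.ker_eq_bot.mp h)
      · exfalso
        apply hM0
        have h2' : Matrix.toLin' M = 0 := LinearMap.ker_eq_top.mp h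
        have h3 := congrArg LinearMap.toMatrix' h2'
        rw [LinearMap.toMatrix'_toLin'] at h3
        rw [h3]; simp
    obtain ⟨S, T, hST, hTS, hreal⟩ := real_structure ρ hρ M hMu hMs hM
    obtain ⟨ρr, hρr⟩ := real_rep_of_real_mats (fun g => T * X ρ g * S)
      (by show T * X ρ 1 * S = 1; rw [X_one, mul_one, hTS])
      (fun g h => by
        show T * X ρ (g * h) * S = T * X ρ g * S * (T * X ρ h * S)
        calc T * X ρ (g * h) * S = T * X ρ g * (1 : Mat n) * X ρ h * S := by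
              rw [X_mul, mul_one]; simp only [mul_assoc]
          _ = T * X ρ g * (S * T) * X ρ h * S := by rw [hST]
          _ = T * X ρ g * S * (T * X ρ h * S) := by simp only [mul_assoc])
      hreal
    refine ⟨n, ρr, fun g => ?_⟩
    rw [hρr g, Matrix.trace_mul_comm, ← mul_assoc, hST, one_mul, X_trace, hρχ]
  · rintro ⟨n, ρr, h⟩
    exact fs_of_real χ n ρr h


end Cfsg.Agent.S4474
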