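import Mathlib
import Cfsg.Statements.S4476
import Cfsg.Agent.Lib.Helper7.FS

namespace Cfsg.Agent.S4476

open Cfsg.Agent.Lib.Lead Cfsg.Agent.Lib.Helper7

/-- Let G be a finite group of even order g with exactly t involutions, and put α = (g − 1)/t (a rational number). Then (a) some non-identity element x of G has at most α² conjugates; and (b) some non-principal real-valued irreducible character of G has degree at most α. -/
theorem result {G : Type*} [Group G] [Fintype G] (heven : Even (Nat.card G)) (t : ℕ) (ht : Nat.card {x : G // orderOf x = 2} = t) : (∃ x : G, x ≠ 1 ∧ ((Subgroup.centralizer ({x} : Set G)).index : ℚ) ≤ (((Nat.card G : ℚ) - 1) / t) ^ 2) ∧ ∃ χ : Cfsg.IrrCharacter G, (χ : G → ℂ) ≠ (fun _ => 1) ∧ (∀ g : G, ((χ : G → ℂ) g).im = 0) ∧ (Cfsg.charDegree (χ : G → ℂ) : ℚ) ≤ ((Nat.card G : ℚ) - 1) / t := by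
  classical
  haveI : Fintype (Cfsg.IrrCharacter G) := Fintype.ofFinite _
  set g : ℕ := Nat.card G with hg
  have ht1 : 1 ≤ t := by
    obtain ⟨x, hx⟩ := exists_prime_orderOf_dvd_card' 2 heven.two_dvd
    rw [← ht]
    haveI : Nonempty {x : G // orderOf x = 2} := ⟨⟨x, hx⟩⟩
    exact Nat.card_pos
  have hg2 : 2 ≤ g := by
    have h1 : 0 < g := Nat.card_pos
    obtain ⟨m, hm⟩ := heven
    omega
  have hd : ∀ χ : Cfsg.IrrCharacter G,
      0 < Cfsg.charDegree χ.1 ∧ χ.1 1 = (Cfsg.charDegree χ.1 : ℂ) := by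
    intro χ
    obtain ⟨n, hn, hχ⟩ := irr_one_eq_nat χ
    have : Cfsg.charDegree χ.1 = n := by
      unfold Cfsg.charDegree; rw [hχ]; simp
    rw [this]; exact ⟨hn, hχ⟩
  set d : Cfsg.IrrCharacter G → ℝ := fun χ => (Cfsg.charDegree χ.1 : ℝ) with hddef
  set ν : Cfsg.IrrCharacter G → ℂ := fun χ => (Nat.card G : ℂ)⁻¹ * ∑ s : G, χ.1 (s * s) with hν
  set r : Cfsg.IrrCharacter G → ℝ := fun χ => (ν χ).re with hr
  have hr1 : ∀ χ, r χ ≤ 1 := by
    intro χ
    by_cases hreal : ∀ g : G, (χ.1 g).im = 0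
    · rcases (FS.fs_cases χ).1 hreal with h | h
      · simp only [hr, hν]; rw [h]; simp
      · simp only [hr, hν]; rw [h]; simp
    · have h := (FS.fs_cases χ).2 hreal
      simp only [hr, hν]; rw [h]; simp
  have hr0 : ∀ χ, (¬ ∀ g : G, (χ.1 g).im = 0) → r χ = 0 := by
    intro χ hreal
    have h := (FS.fs_cases χ).2 hreal
    simp only [hr, hν]; rw [h]; simp
  have hcount : Nat.card {x : G // x * x = 1} = 1 + t := by
    rw [← ht, Nat.card_eq_fintype_card, Nat.card_eq_fintype_card, Fintype.card_subtype,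
      Fintype.card_subtype]
    have : (Finset.univ.filter (fun x : G => x * x = 1))
        = insert 1 (Finset.univ.filter (fun x : G => orderOf x = 2)) := by
      ext x
      simp only [Finset.mem_filter, Finset.mem_univ, true_and, Finset.mem_insert]
      haveI : Fact (Nat.Prime 2) := ⟨Nat.prime_two⟩
      rw [orderOf_eq_prime_iff]
      constructor
      · intro h
        by_cases hx : x = 1
        · left; exact hx
        · right; exact ⟨by rw [pow_two]; exact h, hx⟩
      · rintro (h | h)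
        · rw [h, one_mul]
        · rw [← pow_two]; exact h.1
    rw [this, Finset.card_insert_of_notMem, add_comm]
    simp
  have hsum : ∑ χ : Cfsg.IrrCharacter G, d χ * r χ = 1 + (t : ℝ) := by
    have h := FS.sum_fs (G := G)
    rw [hcount] at h
    have h2 := congrArg Complex.re h
    rw [Complex.re_sum] at h2
    simp only [Nat.cast_add, Nat.cast_one, Complex.add_re, Complex.one_re, Complex.natCast_re] at h2
    rw [← h2]
    apply Finset.sum_congr rfl
    intro χ _
    rw [(hd χ).2]
    simp [hr, hν, hddef]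
  set χ₀ : Cfsg.IrrCharacter G := irrOne G with hχ₀
  have hχ₀1 : ∀ x, χ₀.1 x = 1 := fun x => rfl
  have hd0 : d χ₀ = 1 := by
    have := (hd χ₀).2
    rw [hχ₀1] at this
    simp only [hddef]
    exact_mod_cast this.symm
  have hcard : (Nat.card G : ℂ) ≠ 0 := by exact_mod_cast Nat.card_pos.ne'
  have hr0' : r χ₀ = 1 := by
    simp only [hr, hν, hχ₀1]
    rw [Finset.sum_const, Finset.card_univ, ← Nat.card_eq_fintype_card, nsmul_eq_mul, mul_one,
      inv_mul_cancel₀ hcard]
    simp
  have hsum' : ∑ χ ∈ Finset.univ.erase χ₀, d χ * r χ = t := by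
    have := Finset.add_sum_erase Finset.univ (fun χ => d χ * r χ) (Finset.mem_univ χ₀)
    rw [hsum, hd0, hr0', one_mul] at this
    linarith
  have hsq : ∑ χ : Cfsg.IrrCharacter G, d χ ^ 2 = (g : ℝ) := by
    have h := sum_deg_sq (G := G)
    rw [finsum_eq_sum_of_fintype] at h
    have h2 := congrArg Complex.re h
    rw [Complex.re_sum] at h2
    simp only [Complex.natCast_re] at h2
    rw [hg, ← h2]
    apply Finset.sum_congr rfl
    intro χ _
    rw [(hd χ).2]
    simp only [hddef]
    norm_cast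
  have hsq' : ∑ χ ∈ Finset.univ.erase χ₀, d χ ^ 2 = (g : ℝ) - 1 := by
    have := Finset.add_sum_erase Finset.univ (fun χ => d χ ^ 2) (Finset.mem_univ χ₀)
    rw [hsq, hd0] at this
    linarith
  have hdpos : ∀ χ, 0 < d χ := fun χ => by
    simp only [hddef]; exact_mod_cast (hd χ).1
  have htR : (1 : ℝ) ≤ t := by exact_mod_cast ht1
  have hgR : (2 : ℝ) ≤ g := by exact_mod_cast hg2
  set α : ℝ := ((g : ℝ) - 1) / t with hα
  have hαpos : 0 < α := by
    rw [hα]; apply div_pos <;> linarith
  have hαt : α * t = (g : ℝ) - 1 := by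
    rw [hα]; field_simp
  -- part (b)
  have partb : ∃ χ : Cfsg.IrrCharacter G, χ.1 ≠ (fun _ => 1) ∧ (∀ g : G, (χ.1 g).im = 0) ∧
      d χ ≤ α := by
    by_contra hcon
    push Not at hcon
    set R := (Finset.univ.erase χ₀).filter (fun χ => ∀ g : G, (χ.1 g).im = 0) with hR
    have h1 : (t : ℝ) ≤ ∑ χ ∈ R, d χ := by
      rw [← hsum', hR, Finset.sum_filter]
      apply Finset.sum_le_sum
      intro χ _
      split_ifs with hreal
      · have := hr1 χ
        have := hdpos χ
        nlinarith
      · rw [hr0 χ hreal, mul_zero]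
    have hRne : R.Nonempty := by
      by_contra hemp
      rw [Finset.not_nonempty_iff_eq_empty] at hemp
      rw [hemp, Finset.sum_empty] at h1
      linarith
    have h2 : ∑ χ ∈ R, α * d χ < ∑ χ ∈ R, d χ ^ 2 := by
      apply Finset.sum_lt_sum_of_nonempty hRne
      intro χ hχ
      rw [hR, Finset.mem_filter, Finset.mem_erase] at hχ
      have hne : χ.1 ≠ (fun _ => 1) := by
        intro h
        apply hχ.1.1
        exact Subtype.ext h
      have := hcon χ hne hχ.2
      have := hdpos χ
      nlinarith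
    have h3 : ∑ χ ∈ R, d χ ^ 2 ≤ (g : ℝ) - 1 := by
      rw [← hsq']
      apply Finset.sum_le_sum_of_subset_of_nonneg (Finset.filter_subset _ _)
      intro χ _ _
      positivity
    rw [← Finset.mul_sum] at h2
    have h4 : α * t ≤ α * ∑ χ ∈ R, d χ := mul_le_mul_of_nonneg_left h1 hαpos.le
    linarith
  -- part (a)
  have parta : ∃ x : G, x ≠ 1 ∧ ((Subgroup.centralizer ({x} : Set G)).index : ℝ) ≤ α ^ 2 := by
    by_contra hcon
    push Not at hcon
    set k := Fintype.card (Cfsg.IrrCharacter G) with hk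
    have hk1 : 1 ≤ k := Fintype.card_pos_iff.mpr ⟨χ₀⟩
    have h1 : (t : ℝ) ≤ ∑ χ ∈ Finset.univ.erase χ₀, d χ := by
      rw [← hsum']
      apply Finset.sum_le_sum
      intro χ _
      have := hr1 χ
      have := hdpos χ
      nlinarith
    have h2 : (∑ χ ∈ Finset.univ.erase χ₀, d χ) ^ 2 ≤ ((k : ℝ) - 1) * ((g : ℝ) - 1) := by
      have := sq_sum_le_card_mul_sum_sq (s := Finset.univ.erase χ₀) (f := d)
      rw [hsq', Finset.card_erase_of_mem (Finset.mem_univ _), Finset.card_univ, ← hk,
        Nat.cast_sub hk1, Nat.cast_one] at this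
      exact this
    have h3 : (t : ℝ) ^ 2 ≤ ((k : ℝ) - 1) * ((g : ℝ) - 1) := by
      have h0 : (0 : ℝ) ≤ t := by linarith
      exact le_trans (pow_le_pow_left₀ h0 h1 2) h2
    have h4 : ∑ x : G, (Nat.card (Subgroup.centralizer ({x} : Set G)) : ℝ) = (k : ℝ) * g := by
      have hC : ∑ x : G, (Nat.card (Subgroup.centralizer ({x} : Set G)) : ℂ)
          = (k : ℂ) * (g : ℂ) := by
        have e1 : ∀ x : G, (Nat.card (Subgroup.centralizer ({x} : Set G)) : ℂ)
            = ∑ χ : Cfsg.IrrCharacter G, χ.1 x * (starRingEnd ℂ) (χ.1 x) := by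
          intro x
          rw [col_orth' x x, if_pos (IsConj.refl x)]
        simp only [e1]
        rw [Finset.sum_comm]
        have e2 : ∀ χ : Cfsg.IrrCharacter G,
            ∑ x : G, χ.1 x * (starRingEnd ℂ) (χ.1 x) = (g : ℂ) := by
          intro χ
          have h := irr_inner_self χ
          unfold Cfsg.classInner at h
          rw [hg]
          calc ∑ x : G, χ.1 x * (starRingEnd ℂ) (χ.1 x)
              = (Nat.card G : ℂ) * ((Nat.card G : ℂ)⁻¹ *
                  ∑ x : G, χ.1 x * (starRingEnd ℂ) (χ.1 x)) := by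
                rw [← mul_assoc, mul_inv_cancel₀ hcard, one_mul]
            _ = (Nat.card G : ℂ) := by rw [h, mul_one]
        simp only [e2]
        rw [Finset.sum_const, Finset.card_univ, nsmul_eq_mul]
      exact_mod_cast hC
    have h5 : ∀ x : G, x ≠ 1 →
        (Nat.card (Subgroup.centralizer ({x} : Set G)) : ℝ) * α ^ 2 < g := by
      intro x hx
      have hci := Subgroup.card_mul_index (Subgroup.centralizer ({x} : Set G))
      have h51 := hcon x hx
      have hpos : (0 : ℝ) < Nat.card (Subgroup.centralizer ({x} : Set G)) := by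
        exact_mod_cast Nat.card_pos
      have h52 : (Nat.card (Subgroup.centralizer ({x} : Set G)) : ℝ) *
          ((Subgroup.centralizer ({x} : Set G)).index : ℝ) = g := by exact_mod_cast hci
      rw [← h52]
      exact mul_lt_mul_of_pos_left h51 hpos
    have h6 : (Nat.card (Subgroup.centralizer ({(1 : G)} : Set G)) : ℝ) = g := by
      have : Subgroup.centralizer ({(1 : G)} : Set G) = ⊤ := by
        rw [Subgroup.centralizer_eq_top_iff_subset]
        intro x hx
        rw [Set.mem_singleton_iff] at hx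
        rw [hx]
        exact Subgroup.one_mem _
      rw [this, Subgroup.card_top]
    have h7 : ∑ x ∈ Finset.univ.erase (1 : G),
        (Nat.card (Subgroup.centralizer ({x} : Set G)) : ℝ) * α ^ 2
        < ∑ x ∈ Finset.univ.erase (1 : G), (g : ℝ) := by
      apply Finset.sum_lt_sum_of_nonempty
      · rw [← Finset.card_pos, Finset.card_erase_of_mem (Finset.mem_univ _), Finset.card_univ,
          ← Nat.card_eq_fintype_card]
        omega
      · intro x hx
        exact h5 x (Finset.ne_of_mem_erase hx)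
    rw [← Finset.sum_mul, Finset.sum_const, Finset.card_erase_of_mem (Finset.mem_univ _),
      Finset.card_univ, ← Nat.card_eq_fintype_card, nsmul_eq_mul,
      Nat.cast_sub (by omega : 1 ≤ Nat.card G), Nat.cast_one] at h7
    have h8 := Finset.add_sum_erase Finset.univ
      (fun x : G => (Nat.card (Subgroup.centralizer ({x} : Set G)) : ℝ)) (Finset.mem_univ 1)
    rw [h4, h6] at h8
    have h9 : ∑ x ∈ Finset.univ.erase (1 : G),
        (Nat.card (Subgroup.centralizer ({x} : Set G)) : ℝ) = ((k : ℝ) - 1) * g := by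
      linarith
    rw [h9] at h7
    -- h7 : (k - 1) * g * α^2 < (g - 1) * g
    have hα2 : α ^ 2 * (t : ℝ) ^ 2 = ((g : ℝ) - 1) ^ 2 := by
      rw [← mul_pow, hαt]
    have ht2 : (0 : ℝ) < (t : ℝ) ^ 2 := by positivity
    have h10 := mul_lt_mul_of_pos_right h7 ht2
    have h11 : ((k : ℝ) - 1) * g * α ^ 2 * (t : ℝ) ^ 2 = ((k : ℝ) - 1) * g * ((g : ℝ) - 1) ^ 2 := by
      rw [mul_assoc, hα2]
    rw [h11] at h10
    have hgg : (0 : ℝ) < ((g : ℝ) - 1) * g := by
      apply mul_pos <;> linarith
    have h12 : ((g : ℝ) - 1) * g * (t : ℝ) ^ 2 ≤ ((g : ℝ) - 1) * g * (((k : ℝ) - 1) * ((g : ℝ) - 1)) :=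
      mul_le_mul_of_nonneg_left h3 hgg.le
    nlinarith
  constructor
  · obtain ⟨x, hx1, hx2⟩ := parta
    refine ⟨x, hx1, ?_⟩
    have : (((Subgroup.centralizer ({x} : Set G)).index : ℚ) : ℝ) ≤
        (((((Nat.card G : ℚ) - 1) / t) ^ 2 : ℚ) : ℝ) := by
      push_cast
      exact hx2
    exact_mod_cast this
  · obtain ⟨χ, h1, h2, h3⟩ := partb
    refine ⟨χ, h1, h2, ?_⟩
    have : ((Cfsg.charDegree (χ : G → ℂ) : ℚ) : ℝ) ≤ ((((Nat.card G : ℚ) - 1) / t : ℚ) : ℝ) := by
      push_cast
      exact h3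
    exact_mod_cast this

end Cfsg.Agent.S4476
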