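import Mathlib
import Cfsg.Statements.S4477
import Mathlib
import Cfsg.Agent.Lib.Helper7.FS
import Cfsg.Agent.Lib.Helper7.LinTwist
import Cfsg.Agent.Lib.Helper7.ClassProd
import Cfsg.Agent.Lib.Lead.Char10
import Cfsg.Agent.Lib.Lead.Char13
import Cfsg.Agent.Lib.Lead.Char14
import Cfsg.Agent.Lib.Lead.PFrat
import Cfsg.Agent.S0014

set_option autoImplicit false
open Cfsg

namespace Cfsg.Agent.S4477



open Cfsg.Agent.Lib.Lead Cfsg.Agent.Lib.Helper7
open scoped commutatorElement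

section inv

/-- the non-fixed points of an involution on a finset are even in number -/
theorem even_card_nonfixed {α : Type*} [DecidableEq α] (Y : Finset α) (f : α → α)
    (hmem : ∀ a ∈ Y, f a ∈ Y) (hinv : ∀ a ∈ Y, f (f a) = a) :
    Even (Y.filter (fun a => ¬ f a = a)).card := by
  have h : ∑ x ∈ Y.filter (fun a => ¬ f a = a), (1 : ZMod 2) = 0 := by
    apply Finset.sum_involution (fun a _ => f a)
    · intro a _; decide
    · intro a ha _; exact (Finset.mem_filter.mp ha).2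
    · intro a ha
      rw [Finset.mem_filter] at ha ⊢
      refine ⟨hmem a ha.1, ?_⟩
      rw [hinv a ha.1]
      exact fun h => ha.2 h.symm
    · intro a ha
      exact hinv a (Finset.mem_filter.mp ha).1
  rw [Finset.sum_const, nsmul_eq_mul, mul_one] at h
  exact ZMod.natCast_eq_zero_iff_even.mp h

theorem card_mod_two_fixed {α : Type*} [DecidableEq α] (Y : Finset α) (f : α → α)
    (hmem : ∀ a ∈ Y, f a ∈ Y) (hinv : ∀ a ∈ Y, f (f a) = a) :
    Y.card % 2 = (Y.filter (fun a => f a = a)).card % 2 := by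
  have h1 := Finset.card_filter_add_card_filter_not (s := Y) (fun a => f a = a)
  obtain ⟨k, hk⟩ := even_card_nonfixed Y f hmem hinv
  omega

end inv

section lin

variable {G : Type*} [Group G] [Finite G]

/-- twist of an irreducible character by a linear character -/
noncomputable def tw (μ : Cfsg.IrrCharacter G) (h1 : μ.1 1 = 1) (χ : Cfsg.IrrCharacter G) :
    Cfsg.IrrCharacter G :=
  ⟨μ.1 * χ.1, LT.irr_linear_twist μ χ h1⟩

theorem tw_val (μ : Cfsg.IrrCharacter G) (h1 : μ.1 1 = 1) (χ : Cfsg.IrrCharacter G) :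
    (tw μ h1 χ).1 = μ.1 * χ.1 := rfl

theorem tw_eq_iff (μ : Cfsg.IrrCharacter G) (h1 : μ.1 1 = 1) (χ : Cfsg.IrrCharacter G) :
    tw μ h1 χ = χ ↔ μ.1 * χ.1 = χ.1 := Subtype.ext_iff

/-- real-valued irreducible characters -/
def IsReal (χ : Cfsg.IrrCharacter G) : Prop := ∀ g : G, (χ.1 g).im = 0

theorem real_linear_sq (μ : Cfsg.IrrCharacter G) (h1 : μ.1 1 = 1) (hr : IsReal μ) (g : G) :
    μ.1 g * μ.1 g = 1 := by
  have h := LT.linear_mul_conj μ h1 g
  rwa [Complex.conj_eq_iff_im.mpr (hr g)] at h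

theorem real_linear_cases (μ : Cfsg.IrrCharacter G) (h1 : μ.1 1 = 1) (hr : IsReal μ) (g : G) :
    μ.1 g = 1 ∨ μ.1 g = -1 :=
  mul_self_eq_one_iff.mp (real_linear_sq μ h1 hr g)

theorem linear_ne_zero (μ : Cfsg.IrrCharacter G) (h1 : μ.1 1 = 1) (g : G) : μ.1 g ≠ 0 := by
  intro h
  have := LT.linear_mul_conj μ h1 g
  rw [h, zero_mul] at this
  exact zero_ne_one this

theorem tw_tw_real (μ : Cfsg.IrrCharacter G) (h1 : μ.1 1 = 1) (hr : IsReal μ)
    (χ : Cfsg.IrrCharacter G) : tw μ h1 (tw μ h1 χ) = χ := by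
  apply Subtype.ext
  funext g
  show μ.1 g * (μ.1 g * χ.1 g) = χ.1 g
  rw [← mul_assoc, real_linear_sq μ h1 hr g, one_mul]

theorem tw_one (μ : Cfsg.IrrCharacter G) (h1 : μ.1 1 = 1) (χ : Cfsg.IrrCharacter G) :
    (tw μ h1 χ).1 1 = χ.1 1 := by
  show μ.1 1 * χ.1 1 = χ.1 1
  rw [h1, one_mul]

theorem tw_real (μ : Cfsg.IrrCharacter G) (h1 : μ.1 1 = 1) (hr : IsReal μ)
    (χ : Cfsg.IrrCharacter G) (hχ : IsReal χ) : IsReal (tw μ h1 χ) := by
  intro g
  show (μ.1 g * χ.1 g).im = 0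
  rw [Complex.mul_im, hr g, hχ g]
  ring

/-- the trivial character -/
noncomputable def triv (G : Type*) [Group G] : Cfsg.IrrCharacter G :=
  ⟨fun _ => 1, isIrrCharacter_one⟩

/-- powers of a linear character -/
noncomputable def lpow (μ : Cfsg.IrrCharacter G) (h1 : μ.1 1 = 1) : ℕ → Cfsg.IrrCharacter G
  | 0 => triv G
  | (j + 1) => tw μ h1 (lpow μ h1 j)

theorem lpow_apply (μ : Cfsg.IrrCharacter G) (h1 : μ.1 1 = 1) (j : ℕ) (g : G) :
    (lpow μ h1 j).1 g = μ.1 g ^ j := by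
  induction j with
  | zero => rfl
  | succ j ih =>
    show μ.1 g * (lpow μ h1 j).1 g = _
    rw [ih, pow_succ']

theorem lpow_one (μ : Cfsg.IrrCharacter G) (h1 : μ.1 1 = 1) (j : ℕ) :
    (lpow μ h1 j).1 1 = 1 := by
  rw [lpow_apply, h1, one_pow]

theorem linear_pow (μ : Cfsg.IrrCharacter G) (h1 : μ.1 1 = 1) (j : ℕ) (g : G) :
    μ.1 (g ^ j) = μ.1 g ^ j := by
  induction j with
  | zero => rw [pow_zero, pow_zero, h1]
  | succ j ih => rw [pow_succ, irr_linear_mul μ h1, ih, pow_succ]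

end lin

section partA

variable {G : Type*} [Group G] [Fintype G]

/-- the Frobenius–Schur indicator -/
noncomputable def nu (χ : Cfsg.IrrCharacter G) : ℂ :=
  (Nat.card G : ℂ)⁻¹ * ∑ s : G, (χ : G → ℂ) (s * s)

theorem nu_real_linear (μ : Cfsg.IrrCharacter G) (h1 : μ.1 1 = 1) (hr : IsReal μ) : nu μ = 1 := by
  unfold nu
  have h : ∀ s : G, (μ : G → ℂ) (s * s) = 1 := fun s => by
    rw [irr_linear_mul μ h1]; exact real_linear_sq μ h1 hr s
  simp only [h, Finset.sum_const, Finset.card_univ, nsmul_eq_mul, mul_one]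
  rw [Nat.card_eq_fintype_card]
  exact inv_mul_cancel₀ (by exact_mod_cast Fintype.card_ne_zero)

open Classical in
/-- the contribution mod 4 of a character to the involution count -/
noncomputable def wt (χ : Cfsg.IrrCharacter G) : ℤ :=
  (if χ.1 1 = 1 ∧ IsReal χ then 1 else 0) + 2 * (if χ.1 1 = 2 ∧ IsReal χ then 1 else 0)

theorem exists_int (hG : IsPGroup 2 G) (χ : Cfsg.IrrCharacter G) :
    ∃ z : ℤ, χ.1 1 * nu χ = (z : ℂ) ∧ (4 : ℤ) ∣ z - wt χ := by
  classical
  obtain ⟨n, hn1, hndvd, hnpos⟩ := irr_deg_dvd_card χ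
  haveI : Fact (Nat.Prime 2) := ⟨Nat.prime_two⟩
  obtain ⟨m, hm⟩ := IsPGroup.iff_card.mp hG
  rw [hm] at hndvd
  obtain ⟨k, -, rfl⟩ := (Nat.dvd_prime_pow Nat.prime_two).mp hndvd
  by_cases hr : IsReal χ
  · have hν := (FS.fs_cases χ).1 hr
    have e1 : (χ.1 1 = 1 ∧ IsReal χ) ↔ k = 0 := by
      rw [hn1]
      constructor
      · rintro ⟨h, -⟩
        have h' : (2 ^ k : ℕ) = 2 ^ 0 := by exact_mod_cast h
        exact Nat.pow_right_injective le_rfl h'
      · rintro rfl; exact ⟨by norm_num, hr⟩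
    have e2 : (χ.1 1 = 2 ∧ IsReal χ) ↔ k = 1 := by
      rw [hn1]
      constructor
      · rintro ⟨h, -⟩
        have h' : (2 ^ k : ℕ) = 2 ^ 1 := by exact_mod_cast h
        exact Nat.pow_right_injective le_rfl h'
      · rintro rfl; exact ⟨by norm_num, hr⟩
    have hw : wt χ = (if k = 0 then 1 else 0) + 2 * (if k = 1 then 1 else 0) := by
      unfold wt
      simp only [e1, e2]
    rcases hν with h | h
    · refine ⟨((2 ^ k : ℕ) : ℤ), ?_, ?_⟩
      · unfold nu; rw [h, hn1]; push_cast; ring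
      · rw [hw]
        rcases Nat.lt_or_ge k 2 with h2 | h2
        · interval_cases k <;> simp
        · obtain ⟨j, rfl⟩ : ∃ j, k = j + 2 := ⟨k - 2, by omega⟩
          have h3 : ¬ (j + 2 = 0) := by omega
          have h4 : ¬ (j + 2 = 1) := by omega
          simp only [h3, h4, if_false]
          push_cast
          exact ⟨2 ^ j, by ring⟩
    · refine ⟨-((2 ^ k : ℕ) : ℤ), ?_, ?_⟩
      · unfold nu; rw [h, hn1]; push_cast; ring
      · rw [hw]
        rcases Nat.lt_or_ge k 2 with h2 | h2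
        · interval_cases k
          · exfalso
            have h5 := nu_real_linear χ (by rw [hn1]; norm_num) hr
            unfold nu at h5
            rw [h] at h5
            norm_num at h5
          · simp
        · obtain ⟨j, rfl⟩ : ∃ j, k = j + 2 := ⟨k - 2, by omega⟩
          have h3 : ¬ (j + 2 = 0) := by omega
          have h4 : ¬ (j + 2 = 1) := by omega
          simp only [h3, h4, if_false]
          push_cast
          exact ⟨-2 ^ j, by ring⟩
  · have hν := (FS.fs_cases χ).2 hr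
    refine ⟨0, ?_, ?_⟩
    · unfold nu; rw [hν]; simp
    · have : wt χ = 0 := by unfold wt; simp [hr]
      rw [this]; simp

open Classical in
theorem fs_congr (hG : IsPGroup 2 G) [Fintype (Cfsg.IrrCharacter G)] :
    (4 : ℤ) ∣ (Nat.card {g : G // g * g = 1} : ℤ) -
      (((Finset.univ.filter (fun χ : Cfsg.IrrCharacter G => χ.1 1 = 1 ∧ IsReal χ)).card : ℤ) +
        2 * ((Finset.univ.filter (fun χ : Cfsg.IrrCharacter G => χ.1 1 = 2 ∧ IsReal χ)).card : ℤ)) := by
  choose z hz1 hz2 using exists_int hG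
  have hsum := FS.sum_fs (G := G)
  have h1 : ∑ χ : Cfsg.IrrCharacter G, ((z χ : ℤ) : ℂ) = (Nat.card {g : G // g * g = 1} : ℂ) := by
    rw [← hsum]
    apply Finset.sum_congr rfl
    intro χ _
    exact (hz1 χ).symm
  have h2 : ∑ χ : Cfsg.IrrCharacter G, z χ = (Nat.card {g : G // g * g = 1} : ℤ) := by
    have : ((∑ χ : Cfsg.IrrCharacter G, z χ : ℤ) : ℂ) = ((Nat.card {g : G // g * g = 1} : ℤ) : ℂ) := by
      push_cast; exact h1
    exact_mod_cast this
  have h3 : ∑ χ : Cfsg.IrrCharacter G, wt χ =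
      ((Finset.univ.filter (fun χ : Cfsg.IrrCharacter G => χ.1 1 = 1 ∧ IsReal χ)).card : ℤ) +
        2 * ((Finset.univ.filter (fun χ : Cfsg.IrrCharacter G => χ.1 1 = 2 ∧ IsReal χ)).card : ℤ) := by
    unfold wt
    rw [Finset.sum_add_distrib, ← Finset.mul_sum, Finset.sum_boole, Finset.sum_boole]
  rw [← h2, ← h3, ← Finset.sum_sub_distrib]
  exact Finset.dvd_sum (fun χ _ => hz2 χ)

end partA

open Classical in
theorem fs_congr' {G : Type*} [Group G] [Fintype G] (hG : IsPGroup 2 G)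
    [Fintype (Cfsg.IrrCharacter G)] :
    ∃ L R : Finset (Cfsg.IrrCharacter G), (∀ χ, χ ∈ L ↔ (χ.1 1 = 1 ∧ IsReal χ)) ∧
      (∀ χ, χ ∈ R ↔ (χ.1 1 = 2 ∧ IsReal χ)) ∧
      (4 : ℤ) ∣ (Nat.card {g : G // g * g = 1} : ℤ) - ((L.card : ℤ) + 2 * (R.card : ℤ)) :=
  ⟨_, _, fun χ => by simp, fun χ => by simp, fs_congr hG⟩

section partC

variable {G : Type*} [Group G] [Finite G]

theorem four_le (hG : IsPGroup 2 G) (hnc : ¬ IsCyclic G) (L : Finset (Cfsg.IrrCharacter G))
    (hL : ∀ χ, χ ∈ L ↔ (χ.1 1 = 1 ∧ IsReal χ)) : 4 ≤ L.card := by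
  classical
  haveI : Fintype G := Fintype.ofFinite G
  haveI : Fact (Nat.Prime 2) := ⟨Nat.prime_two⟩
  obtain ⟨hcomm, hpow⟩ := commutator_le_frattini_and_pow_mem hG
  obtain ⟨m, hm⟩ := IsPGroup.iff_card.mp hG
  have hidx : (frattini G).index ∣ 2 ^ m := hm ▸ Subgroup.index_dvd_card _
  obtain ⟨n, -, hn⟩ := (Nat.dvd_prime_pow Nat.prime_two).mp hidx
  have hn2 : 2 ≤ n := by
    by_contra hlt
    push Not at hlt
    apply hnc
    obtain ⟨T, -, hTcard, hT⟩ := (Cfsg.Agent.S0014.result 2 n hG hn).1 Finset.univ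
      (by rw [Finset.coe_univ, Subgroup.closure_univ])
    rcases Nat.lt_or_ge n 1 with h0 | h1
    · have hT0 : T = ∅ := Finset.card_eq_zero.mp (by omega)
      rw [hT0, Finset.coe_empty, Subgroup.closure_empty] at hT
      haveI : Subsingleton G := by
        constructor; intro a b
        have ha : a ∈ (⊥ : Subgroup G) := by rw [hT]; trivial
        have hb : b ∈ (⊥ : Subgroup G) := by rw [hT]; trivial
        rw [Subgroup.mem_bot] at ha hb; rw [ha, hb]
      infer_instance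
    · have h1' : T.card = 1 := by omega
      obtain ⟨x, rfl⟩ := Finset.card_eq_one.mp h1'
      rw [Finset.coe_singleton, ← Subgroup.zpowers_eq_closure] at hT
      exact isCyclic_iff_exists_zpowers_eq_top.mpr ⟨x, hT⟩
  have hQcard : Nat.card (G ⧸ frattini G) = 2 ^ n := by
    rw [← Subgroup.index_eq_card]; exact hn
  have hQcomm : ∀ a b : G ⧸ frattini G, a * b = b * a := by
    intro a b
    induction a using QuotientGroup.induction_on with
    | H x =>
    induction b using QuotientGroup.induction_on with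
    | H y =>
    rw [← QuotientGroup.mk_mul, ← QuotientGroup.mk_mul, QuotientGroup.eq]
    apply hcomm
    have : (x * y)⁻¹ * (y * x) = ⁅y⁻¹, x⁻¹⁆ := by rw [commutatorElement_def]; group
    rw [this]
    exact Subgroup.commutator_mem_commutator (Subgroup.mem_top _) (Subgroup.mem_top _)
  have hQsq : ∀ a : G ⧸ frattini G, a * a = 1 := by
    intro a
    induction a using QuotientGroup.induction_on with
    | H x =>
    rw [← QuotientGroup.mk_mul, QuotientGroup.eq_one_iff, ← sq]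
    exact hpow x
  have hlin : Nat.card {ψ : Cfsg.IrrCharacter (G ⧸ frattini G) // ψ.1 1 = 1} = 2 ^ n := by
    rw [card_linear_char, ← hQcard]
    have : commutator (G ⧸ frattini G) = ⊥ := by
      rw [commutator_def, Subgroup.commutator_eq_bot_iff_le_centralizer]
      intro a _
      rw [Subgroup.mem_centralizer_iff]
      intro b _
      exact hQcomm b a
    rw [this, Subgroup.index_bot]
  have hinfl : ∀ ψ : {ψ : Cfsg.IrrCharacter (G ⧸ frattini G) // ψ.1 1 = 1},
      (⟨fun g => ψ.1.1 (QuotientGroup.mk' (frattini G) g),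
        isIrrCharacter_comp_surj (QuotientGroup.mk' (frattini G))
          (QuotientGroup.mk'_surjective _) ψ.1.2⟩ : Cfsg.IrrCharacter G) ∈ L := by
    intro ψ
    rw [hL]
    refine ⟨?_, ?_⟩
    · show ψ.1.1 (QuotientGroup.mk' (frattini G) 1) = 1
      rw [map_one]; exact ψ.2
    · intro g
      show (ψ.1.1 (QuotientGroup.mk' (frattini G) g)).im = 0
      have h1 : ψ.1.1 (QuotientGroup.mk' (frattini G) g) *
          ψ.1.1 (QuotientGroup.mk' (frattini G) g) = 1 := by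
        rw [← irr_linear_mul ψ.1 ψ.2, hQsq]; exact ψ.2
      rcases mul_self_eq_one_iff.mp h1 with h | h <;> rw [h] <;> simp
  let F : {ψ : Cfsg.IrrCharacter (G ⧸ frattini G) // ψ.1 1 = 1} → L := fun ψ => ⟨_, hinfl ψ⟩
  have hF : Function.Injective F := by
    intro ψ₁ ψ₂ h
    have h1 := congrArg (fun x : L => (x : Cfsg.IrrCharacter G).1) h
    apply Subtype.ext; apply Subtype.ext
    funext q
    obtain ⟨g, rfl⟩ := QuotientGroup.mk'_surjective (frattini G) q
    exact congrFun h1 g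
  have hcard := Nat.card_le_card_of_injective F hF
  rw [hlin, Nat.card_eq_fintype_card, Fintype.card_coe] at hcard
  calc 4 = 2 ^ 2 := by norm_num
    _ ≤ 2 ^ n := Nat.pow_le_pow_right (by norm_num) hn2
    _ ≤ L.card := hcard

theorem ne_triv (μ : Cfsg.IrrCharacter G) (h1 : μ.1 1 = 1) (hr : IsReal μ) (h : μ ≠ triv G) :
    ∃ g : G, μ.1 g = -1 := by
  by_contra hcon
  push Not at hcon
  apply h
  apply Subtype.ext
  funext g
  rcases real_linear_cases μ h1 hr g with h2 | h2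
  · exact h2
  · exact absurd h2 (hcon g)

theorem four_dvd (L : Finset (Cfsg.IrrCharacter G))
    (hL : ∀ χ, χ ∈ L ↔ (χ.1 1 = 1 ∧ IsReal χ)) (h3 : 3 ≤ L.card) : 4 ∣ L.card := by
  classical
  have htrivL : triv G ∈ L := by
    rw [hL]; exact ⟨rfl, fun g => by show (1 : ℂ).im = 0; simp⟩
  obtain ⟨l₁, hl₁L, hl₁ne⟩ := Finset.exists_mem_ne (by omega : 1 < L.card) (triv G)
  obtain ⟨hl₁1, hl₁r⟩ := (hL l₁).mp hl₁L
  obtain ⟨g₁, hg₁⟩ := ne_triv l₁ hl₁1 hl₁r hl₁ne
  have hsplit := Finset.card_filter_add_card_filter_not (s := L) (fun χ => χ.1 g₁ = 1)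
  have htwL : ∀ χ ∈ L, tw l₁ hl₁1 χ ∈ L := by
    intro χ hχ
    obtain ⟨hχ1, hχr⟩ := (hL χ).mp hχ
    exact (hL _).mpr ⟨by rw [tw_one]; exact hχ1, tw_real l₁ hl₁1 hl₁r χ hχr⟩
  have heq : (L.filter (fun χ => χ.1 g₁ = 1)).card = (L.filter (fun χ => ¬ χ.1 g₁ = 1)).card := by
    apply Finset.card_nbij' (tw l₁ hl₁1) (tw l₁ hl₁1)
    · intro χ hχ
      rw [Finset.mem_coe, Finset.mem_filter] at hχ ⊢
      refine ⟨htwL χ hχ.1, ?_⟩
      show ¬ l₁.1 g₁ * χ.1 g₁ = 1
      rw [hg₁, hχ.2]; norm_num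
    · intro χ hχ
      rw [Finset.mem_coe, Finset.mem_filter] at hχ ⊢
      refine ⟨htwL χ hχ.1, ?_⟩
      show l₁.1 g₁ * χ.1 g₁ = 1
      obtain ⟨hχ1, hχr⟩ := (hL χ).mp hχ.1
      rcases real_linear_cases χ hχ1 hχr g₁ with h | h
      · exact absurd h hχ.2
      · rw [hg₁, h]; norm_num
    · intro χ _; exact tw_tw_real l₁ hl₁1 hl₁r χ
    · intro χ _; exact tw_tw_real l₁ hl₁1 hl₁r χ
  set Lp := L.filter (fun χ => χ.1 g₁ = 1) with hLp
  have htrivLp : triv G ∈ Lp := by
    rw [hLp, Finset.mem_filter]; exact ⟨htrivL, rfl⟩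
  obtain ⟨l₃, hl₃Lp, hl₃ne⟩ := Finset.exists_mem_ne (by omega : 1 < Lp.card) (triv G)
  have hl₃L : l₃ ∈ L := (Finset.mem_filter.mp hl₃Lp).1
  obtain ⟨hl₃1, hl₃r⟩ := (hL l₃).mp hl₃L
  obtain ⟨g₃, hg₃⟩ := ne_triv l₃ hl₃1 hl₃r hl₃ne
  have h1 := card_mod_two_fixed Lp (tw l₃ hl₃1) (by
    intro χ hχ
    rw [hLp, Finset.mem_filter] at hχ ⊢
    obtain ⟨hχ1, hχr⟩ := (hL χ).mp hχ.1
    refine ⟨(hL _).mpr ⟨by rw [tw_one]; exact hχ1, tw_real l₃ hl₃1 hl₃r χ hχr⟩, ?_⟩
    show l₃.1 g₁ * χ.1 g₁ = 1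
    rw [(Finset.mem_filter.mp hl₃Lp).2, hχ.2, one_mul]) (fun χ _ => tw_tw_real l₃ hl₃1 hl₃r χ)
  have hempty : Lp.filter (fun χ => tw l₃ hl₃1 χ = χ) = ∅ := by
    rw [Finset.filter_eq_empty_iff]
    intro χ hχ hfix
    rw [hLp, Finset.mem_filter] at hχ
    obtain ⟨hχ1, hχr⟩ := (hL χ).mp hχ.1
    have h2 := congrFun (congrArg Subtype.val hfix) g₃
    rw [tw_val, Pi.mul_apply, hg₃] at h2
    have h3 : χ.1 g₃ = 0 := by linear_combination (-1 / 2 : ℂ) * h2
    exact linear_ne_zero χ hχ1 g₃ h3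
  rw [hempty, Finset.card_empty] at h1
  omega

end partC

section partD

variable {G : Type*} [Group G] [Finite G]

theorem fixed_parity (L R : Finset (Cfsg.IrrCharacter G))
    (hL : ∀ χ, χ ∈ L ↔ (χ.1 1 = 1 ∧ IsReal χ)) (hR : ∀ χ, χ ∈ R ↔ (χ.1 1 = 2 ∧ IsReal χ))
    [DecidableEq (Cfsg.IrrCharacter G)] [DecidableEq (G → ℂ)] :
    ∀ S : Finset (Cfsg.IrrCharacter G), S ⊆ L →
      (R.filter (fun χ => ∀ l ∈ S, l.1 * χ.1 = χ.1)).card % 2 = R.card % 2 := by
  intro S
  induction S using Finset.induction_on with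
  | empty => intro _; simp
  | insert a S ha ih =>
    intro hsub
    have haL := hsub (Finset.mem_insert_self a S)
    obtain ⟨ha1, har⟩ := (hL a).mp haL
    have hS : S ⊆ L := fun x hx => hsub (Finset.mem_insert_of_mem hx)
    rw [← ih hS]
    have e : R.filter (fun χ => ∀ l ∈ insert a S, l.1 * χ.1 = χ.1) =
        (R.filter (fun χ => ∀ l ∈ S, l.1 * χ.1 = χ.1)).filter (fun χ => tw a ha1 χ = χ) := by
      ext χ
      simp only [Finset.mem_filter, Finset.forall_mem_insert, tw_eq_iff]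
      tauto
    rw [e]
    symm
    apply card_mod_two_fixed
    · intro χ hχ
      rw [Finset.mem_filter] at hχ ⊢
      obtain ⟨hχR, hχS⟩ := hχ
      obtain ⟨hχ2, hχr⟩ := (hR χ).mp hχR
      refine ⟨(hR _).mpr ⟨by rw [tw_one]; exact hχ2, tw_real a ha1 har χ hχr⟩, ?_⟩
      intro l hl
      rw [tw_val, mul_left_comm, hχS l hl]
    · intro χ _
      exact tw_tw_real a ha1 har χ

theorem fixed_parity' (L R : Finset (Cfsg.IrrCharacter G))
    (hL : ∀ χ, χ ∈ L ↔ (χ.1 1 = 1 ∧ IsReal χ)) (hR : ∀ χ, χ ∈ R ↔ (χ.1 1 = 2 ∧ IsReal χ))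
    (S : Finset (Cfsg.IrrCharacter G)) (hS : S ⊆ L) :
    ∃ F : Finset (Cfsg.IrrCharacter G), (∀ χ, χ ∈ F ↔ (χ ∈ R ∧ ∀ l ∈ S, l.1 * χ.1 = χ.1)) ∧
      F.card % 2 = R.card % 2 := by
  classical
  exact ⟨R.filter (fun χ => ∀ l ∈ S, l.1 * χ.1 = χ.1), fun χ => Finset.mem_filter,
    fixed_parity L R hL hR S hS⟩

theorem stab_card_le [Fintype (Cfsg.IrrCharacter G)] (χ : Cfsg.IrrCharacter G) (hχ : χ.1 1 = 2)
    (S : Finset (Cfsg.IrrCharacter G)) (hS : ∀ l ∈ S, l.1 1 = 1 ∧ l.1 * χ.1 = χ.1) :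
    S.card ≤ 4 := by
  classical
  haveI : Fintype G := Fintype.ofFinite G
  have hΘ : Cfsg.IsCharacter G (χ.1 * fun g => (starRingEnd ℂ) (χ.1 g)) :=
    isCharacter_mul (isCharacter_of_irr χ.2) (isCharacter_conj (isCharacter_of_irr χ.2))
  obtain ⟨m, hm⟩ := isCharacter_decomp hΘ
  have hmul : ∀ l ∈ S, m l = 1 := by
    intro l hl
    obtain ⟨hl1, hlχ⟩ := hS l hl
    have h1 := classInner_nat_comb (fun ψ => (m ψ : ℂ)) l
    rw [← hm] at h1
    have h2 : Cfsg.classInner (χ.1 * fun g => (starRingEnd ℂ) (χ.1 g)) l.1 =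
        Cfsg.classInner χ.1 χ.1 := by
      unfold Cfsg.classInner
      congr 1
      apply Finset.sum_congr rfl
      intro g _
      have h3 : χ.1 g = l.1 g * χ.1 g := by rw [← Pi.mul_apply, hlχ]
      have h3' : (starRingEnd ℂ) (χ.1 g) = (starRingEnd ℂ) (l.1 g) * (starRingEnd ℂ) (χ.1 g) := by
        rw [← map_mul, ← h3]
      simp only [Pi.mul_apply]
      calc χ.1 g * (starRingEnd ℂ) (χ.1 g) * (starRingEnd ℂ) (l.1 g)
          = χ.1 g * ((starRingEnd ℂ) (l.1 g) * (starRingEnd ℂ) (χ.1 g)) := by ring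
        _ = χ.1 g * (starRingEnd ℂ) (χ.1 g) := by rw [← h3']
    rw [h2, irr_inner_self] at h1
    exact_mod_cast h1.symm
  choose n hn using (fun ψ : Cfsg.IrrCharacter G => irr_deg_dvd_card ψ)
  have h4 : (∑ ψ : Cfsg.IrrCharacter G, m ψ * n ψ : ℕ) = 4 := by
    have h5 := congrFun hm 1
    simp only [Pi.mul_apply, Finset.sum_apply, Pi.smul_apply, smul_eq_mul] at h5
    rw [hχ] at h5
    have h6 : ((∑ ψ : Cfsg.IrrCharacter G, m ψ * n ψ : ℕ) : ℂ) = 4 := by
      push_cast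
      have h7 : (4 : ℂ) = 2 * (starRingEnd ℂ) 2 := by
        rw [map_ofNat]; norm_num
      rw [h7, h5]
      apply Finset.sum_congr rfl
      intro ψ _
      rw [(hn ψ).1]
    exact_mod_cast h6
  calc S.card = ∑ l ∈ S, 1 := by simp
    _ ≤ ∑ l ∈ S, m l * n l := by
        apply Finset.sum_le_sum
        intro l hl
        rw [hmul l hl, one_mul]
        exact (hn l).2.2
    _ ≤ ∑ ψ : Cfsg.IrrCharacter G, m ψ * n ψ := Finset.sum_le_sum_of_subset (Finset.subset_univ S)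
    _ = 4 := h4

end partD

/-- Let G be a finite 2-group whose number of involutions is congruent to 1 modulo 4. Then G is cyclic or its commutator subgroup has index 4. -/
theorem result {G : Type*} [Group G] [Finite G] (hG : IsPGroup 2 G) (ht : Nat.card {x : G // orderOf x = 2} % 4 = 1) : IsCyclic G ∨ (commutator G).index = 4 := by
  classical
  by_cases hc : IsCyclic G
  · left; exact hc
  right
  haveI : Fintype G := Fintype.ofFinite G
  haveI : Fintype (Cfsg.IrrCharacter G) := Fintype.ofFinite _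
  obtain ⟨L, R, hL, hR, hdvd⟩ := fs_congr' hG
  have hT : Nat.card {g : G // g * g = 1} = Nat.card {x : G // orderOf x = 2} + 1 := by
    rw [Nat.card_eq_fintype_card, Nat.card_eq_fintype_card, Fintype.card_subtype,
      Fintype.card_subtype]
    have e : Finset.univ.filter (fun g : G => g * g = 1) =
        insert 1 (Finset.univ.filter (fun x : G => orderOf x = 2)) := by
      ext g
      simp only [Finset.mem_filter, Finset.mem_univ, true_and, Finset.mem_insert]
      constructor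
      · intro h
        by_cases h1 : g = 1
        · left; exact h1
        · right
          haveI : Fact (Nat.Prime 2) := ⟨Nat.prime_two⟩
          exact orderOf_eq_prime (by rw [sq]; exact h) h1
      · rintro (rfl | h)
        · simp
        · rw [← sq, ← h]; exact pow_orderOf_eq_one g
    rw [e, Finset.card_insert_of_notMem]
    simp
  have h4le := four_le hG hc L hL
  have h4L : 4 ∣ L.card := four_dvd L hL (by omega)
  have hRodd : R.card % 2 = 1 := by
    obtain ⟨a, ha⟩ := hdvd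
    obtain ⟨c, hc'⟩ := h4L
    rw [hT] at ha
    push_cast at ha
    omega
  obtain ⟨F, hF, hFpar⟩ := fixed_parity' L R hL hR L (Finset.Subset.refl L)
  have hFodd : F.card % 2 = 1 := by
    rw [hFpar]; exact hRodd
  have hstab : ∀ χ ∈ F, ∀ μ : Cfsg.IrrCharacter G, μ.1 1 = 1 → μ.1 * χ.1 = χ.1 → μ ∈ L := by
    intro χ hχ μ hμ1 hμχ
    rw [hF] at hχ
    obtain ⟨hχR, hχL⟩ := hχ
    have hχ2 := ((hR χ).mp hχR).1
    by_contra hμL
    have hle := stab_card_le χ hχ2 (insert μ L) (by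
      intro l hl
      rcases Finset.mem_insert.mp hl with rfl | hl
      · exact ⟨hμ1, hμχ⟩
      · exact ⟨((hL l).mp hl).1, hχL l hl⟩)
    rw [Finset.card_insert_of_notMem hμL] at hle
    omega
  have hLcard : L.card = 4 := by
    have hFne : F.Nonempty := by
      rw [Finset.nonempty_iff_ne_empty]
      intro h
      rw [h] at hFodd
      simp at hFodd
    obtain ⟨χ, hχ⟩ := hFne
    rw [hF] at hχ
    have hle := stab_card_le χ ((hR χ).mp hχ.1).1 L
      (fun l hl => ⟨((hL l).mp hl).1, hχ.2 l hl⟩)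
    omega
  have hall : ∀ μ : Cfsg.IrrCharacter G, μ.1 1 = 1 → IsReal μ := by
    intro μ hμ1
    by_contra hμr
    obtain ⟨m, hm⟩ := IsPGroup.iff_card.mp hG
    have hPm : IsReal (lpow μ hμ1 (2 ^ m)) := by
      intro g
      rw [lpow_apply, ← linear_pow μ hμ1, ← hm, pow_card_eq_one', hμ1]
      simp
    have hex : ∃ k, IsReal (lpow μ hμ1 (2 ^ k)) := ⟨m, hPm⟩
    have hk0 : Nat.find hex ≠ 0 := by
      intro h0
      have h1 := Nat.find_spec hex
      rw [h0] at h1
      apply hμr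
      intro g
      have h2 := h1 g
      rwa [lpow_apply, pow_zero, pow_one] at h2
    obtain ⟨j, hj⟩ : ∃ j, Nat.find hex = j + 1 := ⟨Nat.find hex - 1, by omega⟩
    have hjnr : ¬ IsReal (lpow μ hμ1 (2 ^ j)) := Nat.find_min hex (by omega)
    have hkr : IsReal (lpow μ hμ1 (2 ^ (j + 1))) := by rw [← hj]; exact Nat.find_spec hex
    have hμ'1 : (lpow μ hμ1 (2 ^ j)).1 1 = 1 := lpow_one μ hμ1 _
    have hνL : lpow μ hμ1 (2 ^ (j + 1)) ∈ L := (hL _).mpr ⟨lpow_one μ hμ1 _, hkr⟩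
    have hsq : ∀ g, (lpow μ hμ1 (2 ^ j)).1 g * (lpow μ hμ1 (2 ^ j)).1 g =
        (lpow μ hμ1 (2 ^ (j + 1))).1 g := by
      intro g
      rw [lpow_apply, lpow_apply, ← pow_add, pow_succ, mul_two]
    have h1 := card_mod_two_fixed F (tw (lpow μ hμ1 (2 ^ j)) hμ'1) (by
      intro χ hχ
      have hχ' := hχ
      rw [hF] at hχ' ⊢
      obtain ⟨hχR, hχL⟩ := hχ'
      obtain ⟨hχ2, hχr⟩ := (hR χ).mp hχR
      have hνχ := hχL _ hνL
      refine ⟨(hR _).mpr ⟨by rw [tw_one]; exact hχ2, ?_⟩, ?_⟩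
      · intro g
        show ((lpow μ hμ1 (2 ^ j)).1 g * χ.1 g).im = 0
        by_cases h0 : χ.1 g = 0
        · rw [h0, mul_zero]; simp
        · have h2 : (lpow μ hμ1 (2 ^ (j + 1))).1 g * χ.1 g = χ.1 g := by
            rw [← Pi.mul_apply, hνχ]
          have h3 : (lpow μ hμ1 (2 ^ (j + 1))).1 g = 1 := by
            have : ((lpow μ hμ1 (2 ^ (j + 1))).1 g - 1) * χ.1 g = 0 := by
              rw [sub_mul, h2, one_mul, sub_self]
            rcases mul_eq_zero.mp this with h | h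
            · exact sub_eq_zero.mp h
            · exact absurd h h0
          rw [← hsq g] at h3
          rcases mul_self_eq_one_iff.mp h3 with h | h
          · rw [h, one_mul]; exact hχr g
          · rw [h, Complex.mul_im]; simp [hχr g]
      · intro l hl
        rw [tw_val, mul_left_comm, hχL l hl]) (by
      intro χ hχ
      rw [hF] at hχ
      have hνχ := hχ.2 _ hνL
      apply Subtype.ext
      funext g
      show (lpow μ hμ1 (2 ^ j)).1 g * ((lpow μ hμ1 (2 ^ j)).1 g * χ.1 g) = χ.1 g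
      rw [← mul_assoc, hsq g, ← Pi.mul_apply, hνχ])
    have hempty : F.filter (fun χ => tw (lpow μ hμ1 (2 ^ j)) hμ'1 χ = χ) = ∅ := by
      rw [Finset.filter_eq_empty_iff]
      intro χ hχ hfix
      rw [tw_eq_iff] at hfix
      have h2 := hstab χ hχ _ hμ'1 hfix
      exact hjnr ((hL _).mp h2).2
    rw [hempty, Finset.card_empty] at h1
    omega
  rw [← card_linear_char, Nat.card_eq_fintype_card, Fintype.card_subtype, ← hLcard]
  congr 1
  ext χ
  rw [Finset.mem_filter, hL]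
  constructor
  · rintro ⟨-, h⟩; exact ⟨h, hall χ h⟩
  · rintro ⟨h, -⟩; exact ⟨Finset.mem_univ _, h⟩

end Cfsg.Agent.S4477
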