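import Mathlib
import Cfsg.Statements.S4636
import Cfsg.Agent.Lib.Helper7.Basic

set_option autoImplicit false
open scoped Pointwise
open Cfsg Cfsg.Agent.Lib.Helper7

namespace Cfsg.Agent.S4636

theorem key {G : Type*} [Group G] [Finite G] (p : ℕ) [Fact p.Prime] (P : Subgroup G)
    (hP : IsPGroup p P) (hcyc : IsCyclic P) (Z : Subgroup G) (hZ : Z ≤ P) (hZcard : Nat.card Z = p)
    (R : Subgroup G) (hR : R ≤ P) (hR1 : R ≠ ⊥) : Z ≤ R := by
  have hRp : IsPGroup p R := hP.to_le hR
  obtain ⟨n, hn⟩ := IsPGroup.iff_card.1 hRp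
  have hn0 : n ≠ 0 := by
    rintro rfl
    apply hR1
    rw [pow_zero] at hn
    exact Subgroup.card_eq_one.1 hn
  have hdvd : p ∣ Nat.card R := by rw [hn]; exact dvd_pow_self p hn0
  obtain ⟨x, hx⟩ := exists_prime_orderOf_dvd_card' (G := R) p hdvd
  have hxR : Subgroup.zpowers (x : G) ≤ R := by
    rw [Subgroup.zpowers_le]; exact x.2
  have hcard : Nat.card (Subgroup.zpowers (x : G)) = Nat.card Z := by
    rw [Nat.card_zpowers, Subgroup.orderOf_coe, hx, hZcard]
  have := eq_of_card_eq_of_le_cyclic P _ _ hcyc (hxR.trans hR) hZ hcard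
  rw [← this]; exact hxR

/-- Let P be a nontrivial cyclic p-subgroup of the finite group G and Z its subgroup of order p. For every x outside N_G(Z), P meets its conjugate xPx⁻¹ trivially; consequently N_G(Q) ≤ N_G(Z) for every nontrivial subgroup Q of P. -/
theorem result {G : Type*} [Group G] [Finite G] (p : ℕ) [Fact p.Prime] (P : Subgroup G) (hP : IsPGroup p P) (hP1 : P ≠ ⊥) (hcyc : IsCyclic P) (Z : Subgroup G) (hZ : Z ≤ P) (hZcard : Nat.card Z = p) : (∀ x : G, x ∉ Subgroup.normalizer (Z : Set G) → P ⊓ MulAut.conj x • P = ⊥) ∧ ∀ Q : Subgroup G, Q ≤ P → Q ≠ ⊥ → Subgroup.normalizer (Q : Set G) ≤ Subgroup.normalizer (Z : Set G) := by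
  have partA : ∀ x : G, x ∉ Subgroup.normalizer (Z : Set G) → P ⊓ MulAut.conj x • P = ⊥ := by
    intro x hx
    by_contra hne
    apply hx
    rw [mem_normalizer_iff_smul]
    have h1 : Z ≤ P ⊓ MulAut.conj x • P := key p P hP hcyc Z hZ hZcard _ inf_le_left hne
    have h2 : Z ≤ (MulAut.conj x)⁻¹ • (P ⊓ MulAut.conj x • P) := by
      apply key p P hP hcyc Z hZ hZcard
      · rw [← Subgroup.subset_pointwise_smul_iff]
        exact inf_le_right
      · intro h
        apply hne
        have := congrArg (fun K => MulAut.conj x • K) h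
        simpa using this
    have h3 : MulAut.conj x • Z ≤ P ⊓ MulAut.conj x • P := by
      rw [Subgroup.subset_pointwise_smul_iff] at h2
      simpa using h2
    exact eq_of_card_eq_of_le_cyclic P _ _ hcyc (h3.trans inf_le_left) hZ
      (card_conj_smul _ _)
  refine ⟨partA, ?_⟩
  intro Q hQ hQ1 g hg
  by_contra hgZ
  have h := partA g hgZ
  apply hQ1
  rw [eq_bot_iff, ← h]
  refine le_inf hQ ?_
  rw [mem_normalizer_iff_smul] at hg
  rw [← hg]
  exact Subgroup.pointwise_smul_le_pointwise_smul_iff.2 hQ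

end Cfsg.Agent.S4636
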