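import Mathlib
import Cfsg.Statements.S4665

set_option autoImplicit false
open Cfsg

namespace Cfsg.Agent.S4665

theorem sum_char_subgroup {G : Type*} [Group G] [Fintype G] (P : Subgroup G) [Fintype P] (m : ℕ)
    (ρ : Representation ℂ G (Fin m → ℂ)) :
    ∃ d : ℕ, ∑ x : P, ρ.character (x : G) = (Nat.card P : ℂ) * d := by
  classical
  let σ : Representation ℂ P (Fin m → ℂ) := ρ.comp P.subtype
  have hne : (Nat.card P : ℂ) ≠ 0 := by
    exact_mod_cast Nat.card_pos.ne'
  haveI : Invertible (Nat.card P : ℂ) := invertibleOfNonzero hne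
  have h := Representation.card_inv_mul_sum_char_eq_finrank σ
  refine ⟨Module.finrank ℂ (Representation.invariants σ), ?_⟩
  rw [← h, ← mul_assoc, mul_inv_cancel₀ hne, one_mul]
  rfl

theorem char_zero_of_one {G : Type*} [Group G] (ψ : G → ℂ) (hψ : Cfsg.IsIrrCharacter G ψ)
    (h1 : ψ 1 = 0) (g : G) : ψ g = 0 := by
  obtain ⟨m, ρ, -, rfl⟩ := hψ
  rw [Representation.char_one] at h1
  have hm : m = 0 := by
    have : Module.finrank ℂ (Fin m → ℂ) = m := by simp
    rw [this] at h1
    exact_mod_cast h1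
  subst hm
  have : ρ g = 0 := Subsingleton.elim _ _
  unfold Representation.character
  rw [this, map_zero]

theorem sum_irr_subgroup {G : Type*} [Group G] [Fintype G] (P : Subgroup G) [Fintype P] (ψ : G → ℂ)
    (hψ : Cfsg.IsIrrCharacter G ψ) :
    ∃ d : ℕ, ∑ x : P, ψ (x : G) = (Nat.card P : ℂ) * d := by
  obtain ⟨m, ρ, -, rfl⟩ := hψ
  exact sum_char_subgroup P m ρ

/-- Let B be a p-block of the finite group G and χ an integer combination of the irreducible characters in B. If the function agreeing with χ on the p-regular elements and vanishing on the p-singular elements is again an integer combination of the irreducible characters in B, then the full power of p dividing the order of G divides χ(1). -/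
theorem result {G : Type*} [Group G] [Fintype G] (p : ℕ) [Fact p.Prime] (M : Ideal Cfsg.AlgInt) (hM : Cfsg.IsPModular p M) (B : Set (Cfsg.IrrCharacter G)) (hB : Cfsg.IsPBlock M B) (χ : G → ℂ) (hχ : (∃ n : Cfsg.IrrCharacter G → ℤ, ∀ g : G, χ g = ∑ᶠ ψ ∈ B, (n ψ : ℂ) * (ψ : G → ℂ) g)) (h0 : (∃ n : Cfsg.IrrCharacter G → ℤ, ∀ g : G, Cfsg.pRegularPart p χ g = ∑ᶠ ψ ∈ B, (n ψ : ℂ) * (ψ : G → ℂ) g)) : ∃ k : ℤ, χ 1 = (p ^ (Nat.card G).factorization p : ℂ) * k := by
  classical
  obtain ⟨n, hn⟩ := h0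
  have hp : p.Prime := Fact.out
  obtain ⟨P'⟩ : Nonempty (Sylow p G) := inferInstance
  have hPcard' : Nat.card P' = p ^ (Nat.card G).factorization p := Sylow.card_eq_multiplicity P'
  have hPp : IsPGroup p (P' : Subgroup G) := P'.2
  obtain ⟨P, hPeq⟩ : ∃ P : Subgroup G, P = (P' : Subgroup G) := ⟨_, rfl⟩
  have hPcard : Nat.card P = p ^ (Nat.card G).factorization p := by rw [hPeq]; exact hPcard'
  rw [← hPeq] at hPp
  clear hPeq hPcard' P'
  haveI : Fintype P := Fintype.ofFinite _
  have hθ1 : Cfsg.pRegularPart p χ 1 = χ 1 := by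
    unfold Cfsg.pRegularPart Cfsg.IsPRegular
    rw [if_pos]
    rw [orderOf_one]
    exact hp.one_lt.ne' ∘ Nat.dvd_one.mp
  have hθP : ∀ x : P, (x : G) ≠ 1 → Cfsg.pRegularPart p χ (x : G) = 0 := by
    intro x hx
    unfold Cfsg.pRegularPart Cfsg.IsPRegular
    rw [if_neg]
    push Not
    obtain ⟨k, hk⟩ := hPp x
    have hord : orderOf (x : G) ∣ p ^ k := by
      apply orderOf_dvd_of_pow_eq_one
      have := congrArg (Subtype.val) hk
      simpa using this
    obtain ⟨i, hi, hi2⟩ := (Nat.dvd_prime_pow hp).mp hord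
    rcases Nat.eq_zero_or_pos i with rfl | hpos
    · apply absurd _ hx
      simpa using hi2
    · rw [hi2]; exact dvd_pow_self p hpos.ne'
  set T : Set (Cfsg.IrrCharacter G) := {ψ | ψ ∈ B ∧ n ψ ≠ 0 ∧ (ψ : G → ℂ) 1 ≠ 0} with hT
  have hsupp : ∀ g : G, B ∩ Function.support (fun ψ : Cfsg.IrrCharacter G => (n ψ : ℂ) * (ψ : G → ℂ) g) ⊆ T := by
    intro g ψ hψ
    obtain ⟨hψB, hψs⟩ := hψ
    rw [Function.mem_support] at hψs
    refine ⟨hψB, ?_, ?_⟩
    · rintro h0
      apply hψs
      rw [h0]; simp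
    · intro h1
      apply hψs
      rw [char_zero_of_one _ ψ.2 h1 g, mul_zero]
  by_cases hfin : T.Finite
  · have hsum : ∀ g : G, Cfsg.pRegularPart p χ g = ∑ ψ ∈ hfin.toFinset, (n ψ : ℂ) * (ψ : G → ℂ) g := by
      intro g
      rw [hn g]
      apply finsum_mem_eq_sum_of_subset
      · intro ψ hψ
        simpa using hsupp g hψ
      · intro ψ hψ
        have : ψ ∈ T := by simpa using hψ
        exact this.1
    have hd : ∀ ψ : Cfsg.IrrCharacter G, ∃ d : ℕ, ∑ x : P, (ψ : G → ℂ) (x : G) = (Nat.card P : ℂ) * d :=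
      fun ψ => sum_irr_subgroup P ψ ψ.2
    choose d hd using hd
    have hsumP : ∑ x : P, Cfsg.pRegularPart p χ (x : G) = χ 1 := by
      rw [Finset.sum_eq_single (1 : P)]
      · simpa using hθ1
      · intro x _ hx
        apply hθP
        intro h
        apply hx
        exact Subtype.ext h
      · intro h; exact absurd (Finset.mem_univ _) h
    refine ⟨∑ ψ ∈ hfin.toFinset, n ψ * (d ψ : ℤ), ?_⟩
    rw [← hsumP]
    simp_rw [hsum]
    rw [Finset.sum_comm]
    simp_rw [← Finset.mul_sum, hd]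
    rw [hPcard]
    push_cast
    rw [Finset.mul_sum]
    apply Finset.sum_congr rfl
    intro ψ _
    ring
  · refine ⟨0, ?_⟩
    rw [← hθ1, hn 1]
    simp only [Int.cast_zero, mul_zero]
    apply finsum_mem_eq_zero_of_infinite
    have : T ⊆ B ∩ Function.support (fun ψ : Cfsg.IrrCharacter G => (n ψ : ℂ) * (ψ : G → ℂ) 1) := by
      intro ψ hψ
      refine ⟨hψ.1, ?_⟩
      rw [Function.mem_support]
      exact mul_ne_zero (by exact_mod_cast hψ.2.1) hψ.2.2
    exact Set.Infinite.mono this hfin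

end Cfsg.Agent.S4665
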