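import Cfsg.Statements.S5080
import Cfsg.Agent.Lib.Helper8.PCore

set_option autoImplicit false
open Cfsg

namespace Cfsg.Agent.S5080

/-- In a saturated fusion system over a finite p-group, every essential subgroup is radical (it is centric and fully normalized by definition, so it is centric-radical and fully normalized). -/
theorem result {Ω : Type*} [Group Ω] {S : Subgroup Ω} [Finite S] (p : ℕ) [Fact p.Prime] (hS : IsPGroup p S) (F : Cfsg.FusionSystem S) (hF : F.IsSaturated p) (P : Subgroup Ω) (hP : F.IsEssential p P) : F.IsRadical p P := by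
  obtain ⟨hcen, hfn, hnorm, E, hdiv, hEtop, P₀, hP₀⟩ := hP
  have hPS : P ≤ S := hcen.1
  refine ⟨hPS, ?_⟩
  have hfinP : Finite P := Finite.of_injective (Subgroup.inclusion hPS) (Subgroup.inclusion_injective _)
  have hInn : Inn P ≤ F.autGroup P := by
    rintro _ ⟨y, rfl⟩
    apply Subgroup.subset_closure
    show P.subtype.comp (MulAut.conj y).toMonoidHom ∈ F.Hom P
    have h0 := F.conj_mem hPS (hPS y.2)
    have h1 : P.subtype.comp (MulAut.conj y).toMonoidHom = conjHom P (y : Ω) := by
      ext x
      rfl
    rw [h1]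
    exact h0
  have hPp : IsPGroup p P := hS.to_le hPS
  have hIp : IsPGroup p ((Inn P).subgroupOf (F.autGroup P)) := by
    have h1 : IsPGroup p (Inn P) :=
      hPp.of_surjective (MulAut.conj : P →* MulAut P).rangeRestrict
        (MonoidHom.rangeRestrict_surjective _)
    exact h1.comap_subtype
  have hle1 : (Inn P).subgroupOf (F.autGroup P) ≤ pCore p (F.autGroup P) :=
    Cfsg.Agent.Lib.Helper8.le_pCore hnorm hIp
  have hle2 : pCore p (F.autGroup P) ≤ (Inn P).subgroupOf (F.autGroup P) := by
    by_contra hcon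
    have hOn : ((pCore p (F.autGroup P)).map
        (QuotientGroup.mk' ((Inn P).subgroupOf (F.autGroup P)))).Normal :=
      (Cfsg.Agent.Lib.Helper8.pCore_normal p _).map _ (QuotientGroup.mk'_surjective _)
    have hOp : IsPGroup p ((pCore p (F.autGroup P)).map
        (QuotientGroup.mk' ((Inn P).subgroupOf (F.autGroup P)))) :=
      (Cfsg.Agent.Lib.Helper8.pCore_isPGroup p _).map _
    have hOne : (pCore p (F.autGroup P)).map
        (QuotientGroup.mk' ((Inn P).subgroupOf (F.autGroup P))) ≠ ⊥ := by
      intro h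
      apply hcon
      intro x hx
      have h2 : QuotientGroup.mk' ((Inn P).subgroupOf (F.autGroup P)) x ∈
          (pCore p (F.autGroup P)).map (QuotientGroup.mk' ((Inn P).subgroupOf (F.autGroup P))) :=
        ⟨x, hx, rfl⟩
      rw [h, Subgroup.mem_bot] at h2
      exact (QuotientGroup.eq_one_iff x).mp h2
    have hOP₀ := hOp.le_sylow_of_normal P₀
    have hnt : Nontrivial ((pCore p (F.autGroup P)).map
        (QuotientGroup.mk' ((Inn P).subgroupOf (F.autGroup P)))) :=
      (Subgroup.nontrivial_iff_ne_bot _).mpr hOne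
    have hrank := Cfsg.Agent.Lib.Helper8.not_pRankLE_zero hOp
    have hnorm_top := Subgroup.normalizer_eq_top_iff.mpr hOn
    have hle : (⊤ : Subgroup (F.autGroup P ⧸ (Inn P).subgroupOf (F.autGroup P))) ≤
        kGeneratedCore p 1 (P₀ : Subgroup _) := by
      rw [← hnorm_top]
      unfold kGeneratedCore
      have hrank' : ¬ PRankLE p (1 - 1) ((pCore p (F.autGroup P)).map
          (QuotientGroup.mk' ((Inn P).subgroupOf (F.autGroup P)))) := hrank
      exact le_iSup_of_le ⟨_, hOP₀, hrank'⟩ le_rfl
    exact hEtop (top_le_iff.mp (hle.trans hP₀))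
  have heq := le_antisymm hle2 hle1
  rw [heq, Subgroup.map_subgroupOf_eq_of_le hInn]

end Cfsg.Agent.S5080
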