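import Cfsg.Statements.S5084
import Cfsg.Agent.Lib.Helper8.CentralSub

set_option autoImplicit false
open Cfsg

namespace Cfsg.Agent.S5084

open Cfsg.Agent.Lib.Helper8 in
theorem aux {Ω : Type*} [Group Ω] {S : Subgroup Ω} [Finite S] (p : ℕ) [Fact p.Prime] (hS : IsPGroup p S) (F : Cfsg.FusionSystem S) (hF : F.IsSaturated p) (Q : Subgroup Ω) (hQ : Q ≤ S) (h : ∀ x ∈ Q, ∀ y : Ω, F.IsConjElt x y → y = x) : F.IsCentral Q := by
  have hZ : ∀ q ∈ Q, ∀ s ∈ S, s * q * s⁻¹ = q := by
    intro q hq s hs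
    apply h q hq
    exact ⟨conjHom _ s, F.conj_mem ((Subgroup.zpowers_le).mpr (hQ hq)) hs, rfl⟩
  have hle : F ≤ centSubsys F Q hQ hZ := by
    apply alperin_ind_centric hS F hF
    intro R hfa hrec hcen _ α hα
    have hQR : Q ≤ R := by
      intro q hq
      apply hcen.2 R (fs_isConj_refl F hcen.1)
      refine ⟨hQ hq, ?_⟩
      show q ∈ Subgroup.centralizer (R : Set Ω)
      rw [Subgroup.mem_centralizer_iff]
      intro r hr
      have h1 := hZ q hq r (hcen.1 hr)
      calc r * q = (r * q * r⁻¹) * r := by group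
        _ = q * r := by rw [h1]
    have hle : R ⊔ Q ≤ R := sup_le le_rfl hQR
    refine ⟨hα, (R.subtype.comp α.toMonoidHom).comp (Subgroup.inclusion hle), fs_restrict F hle hα, fun x => rfl, ?_⟩
    intro q
    apply h q q.2
    exact ⟨(R.subtype.comp α.toMonoidHom).comp (Subgroup.inclusion ((Subgroup.zpowers_le).mpr (hQR q.2))), fs_restrict F _ hα, rfl⟩
  refine ⟨hQ, fun P φ hφ => ?_⟩
  exact (hle P hφ).2

/-- In a saturated fusion system over a finite p-group S, a subgroup Q is central in the system if and only if Q ≤ S and no element of Q is conjugate in the system to any element other than itself. -/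
theorem result {Ω : Type*} [Group Ω] {S : Subgroup Ω} [Finite S] (p : ℕ) [Fact p.Prime] (hS : IsPGroup p S) (F : Cfsg.FusionSystem S) (hF : F.IsSaturated p) (Q : Subgroup Ω) : F.IsCentral Q ↔ (Q ≤ S ∧ ∀ x ∈ Q, ∀ y : Ω, F.IsConjElt x y → y = x) := by
  constructor
  · intro hc
    refine ⟨hc.1, ?_⟩
    rintro x hx y ⟨φ, hφ, rfl⟩
    obtain ⟨ψ, hψ, he, hf⟩ := hc.2 _ φ hφ
    rw [← he]
    exact hf ⟨x, hx⟩
  · rintro ⟨hQ, h⟩
    exact aux p hS F hF Q hQ h

end Cfsg.Agent.S5084
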