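import Cfsg.Statements.S5087
import Cfsg.Agent.Lib.Helper8.EssRad
import Cfsg.Agent.S5082

set_option autoImplicit false
open Cfsg

namespace Cfsg.Agent.S5087

open Cfsg.Agent.Lib.Helper8 in
theorem aux {Ω : Type*} [Group Ω] {S : Subgroup Ω} [Finite S] (p : ℕ) [Fact p.Prime] (hS : IsPGroup p S) (F : Cfsg.FusionSystem S) (hF : F.IsSaturated p) (Q : Subgroup Ω) : F.IsNormal Q ↔ ∀ P : Subgroup Ω, (P = S ∨ F.IsEssential p P) → (Q ≤ P ∧ ∀ α ∈ F.autGroup P, (Q.subgroupOf P).map α.toMonoidHom = Q.subgroupOf P) := by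
  constructor
  · intro hQ P hP
    have hsc := sc_of_normal F hQ
    have hPS : P ≤ S := by
      rcases hP with rfl | h
      · exact le_rfl
      · exact h.1.1
    have hQP : Q ≤ P := by
      rcases hP with rfl | h
      · exact hQ.1
      · exact normal_le_cr hS F hQ h.1 (radical_of_essential hS F h)
    refine ⟨hQP, fun α hα => ?_⟩
    haveI : Finite P := finite_of_le hPS
    apply map_aut_subgroupOf_eq
    intro x hx
    have h1 := (mem_autGroup_iff F hPS α).mp hα
    have h2 := fs_restrict F hQP h1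
    exact hsc.2 Q le_rfl _ h2 ⟨x, hx⟩
  · intro h
    have hQS : Q ≤ S := (h S (Or.inl rfl)).1
    haveI : Finite Q := finite_of_le hQS
    have hQn : ∀ s ∈ S, ∀ q ∈ Q, s * q * s⁻¹ ∈ Q := by
      intro s hs q hq
      have hmem : MulAut.conj (⟨s, hs⟩ : S) ∈ F.autGroup S := inn_le_autGroup F le_rfl ⟨⟨s, hs⟩, rfl⟩
      have h1 := (h S (Or.inl rfl)).2 _ hmem
      have h2 : (MulAut.conj (⟨s, hs⟩ : S)).toMonoidHom ⟨q, hQS hq⟩ ∈
          (Q.subgroupOf S).map (MulAut.conj (⟨s, hs⟩ : S)).toMonoidHom := ⟨_, hq, rfl⟩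
      rw [h1] at h2
      exact h2
    apply isNormal_of_le_normSubsys F Q hQS hQn
    apply Cfsg.Agent.S5082.result p hS F hF
    intro P hP α hα
    have hPS : P ≤ S := by
      rcases hP with rfl | h
      · exact le_rfl
      · exact h.1.1
    obtain ⟨hQP, hinv⟩ := h P hP
    rw [mem_autGroup_iff _ hPS]
    apply mem_normSubsys_of_le F Q hQS hQn hQP ((mem_autGroup_iff F hPS α).mp hα)
    intro x hx
    have h2 : α.toMonoidHom x ∈ (Q.subgroupOf P).map α.toMonoidHom := ⟨x, hx, rfl⟩
    rw [hinv α hα] at h2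
    exact h2

/-- In a saturated fusion system over a finite p-group S, a subgroup Q is normal in the system if and only if every subgroup P that equals S or is essential contains Q and every element of Aut_F(P) maps Q onto itself. -/
theorem result {Ω : Type*} [Group Ω] {S : Subgroup Ω} [Finite S] (p : ℕ) [Fact p.Prime] (hS : IsPGroup p S) (F : Cfsg.FusionSystem S) (hF : F.IsSaturated p) (Q : Subgroup Ω) : F.IsNormal Q ↔ ∀ P : Subgroup Ω, (P = S ∨ F.IsEssential p P) → (Q ≤ P ∧ ∀ α ∈ F.autGroup P, (Q.subgroupOf P).map α.toMonoidHom = Q.subgroupOf P) := by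
  exact aux p hS F hF Q

end Cfsg.Agent.S5087
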