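import Cfsg.Statements.S5088
import Cfsg.Agent.Lib.Helper8.Series

set_option autoImplicit false
open Cfsg

namespace Cfsg.Agent.S5088

/-- In a saturated fusion system over a finite p-group, a subgroup Q is normal in the system if and only if there is a chain of subgroups 1 = Q₀ ≤ Q₁ ≤ ⋯ ≤ Qₙ = Q such that each Qᵢ with i ≥ 1 is strongly closed in the system and [Q, Qᵢ] ≤ Qᵢ₋₁. -/
theorem result {Ω : Type*} [Group Ω] {S : Subgroup Ω} [Finite S] (p : ℕ) [Fact p.Prime] (hS : IsPGroup p S) (F : Cfsg.FusionSystem S) (hF : F.IsSaturated p) (Q : Subgroup Ω) : F.IsNormal Q ↔ ∃ (n : ℕ) (Qs : Fin (n + 1) → Subgroup Ω), Qs 0 = ⊥ ∧ Qs (Fin.last n) = Q ∧ Monotone Qs ∧ ∀ i : Fin n, F.StronglyClosed (Qs i.succ) ∧ ⁅Q, Qs i.succ⁆ ≤ Qs (Fin.castSucc i) := by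
  open Cfsg.Agent.Lib.Helper8 in
  constructor
  · intro hQ
    obtain ⟨n, C, h0, hl, hmono, hcomm, hnorm⟩ := ucs_data hS F hQ
    refine ⟨n, C, h0, hl, hmono, fun i => ⟨sc_of_normal F (hnorm _), ?_⟩⟩
    rw [Subgroup.commutator_comm]
    exact hcomm i
  · rintro ⟨n, Qs, h0, hl, hmono, h⟩
    have hsc : F.StronglyClosed Q := by
      rcases Nat.eq_zero_or_pos n with rfl | hpos
      · have e : Q = ⊥ := by
          rw [← hl]
          exact h0
        rw [e]
        exact sc_of_normal F (fs_normal_bot F)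
      · obtain ⟨k, rfl⟩ := Nat.exists_eq_succ_of_ne_zero hpos.ne'
        have h1 := (h (Fin.last k)).1
        rw [← hl]
        exact h1
    apply normal_of_series hS F hF hsc n (fun i => if h : i ≤ n then Qs ⟨i, by omega⟩ else ⊥)
    · show (if h : 0 ≤ n then Qs ⟨0, by omega⟩ else ⊥) = ⊥
      rw [dif_pos (Nat.zero_le n)]
      exact h0
    · show (if h : n ≤ n then Qs ⟨n, by omega⟩ else ⊥) = Q
      rw [dif_pos le_rfl]
      exact hl
    · intro i hi
      show (if h : i ≤ n then Qs ⟨i, by omega⟩ else ⊥) ≤ (if h : i + 1 ≤ n then Qs ⟨i + 1, by omega⟩ else ⊥)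
      rw [dif_pos hi.le, dif_pos (Nat.succ_le_of_lt hi)]
      exact hmono (Fin.mk_le_mk.mpr (Nat.le_succ i))
    · intro i hi
      show ⁅(if h : i + 1 ≤ n then Qs ⟨i + 1, by omega⟩ else ⊥), Q⁆ ≤ (if h : i ≤ n then Qs ⟨i, by omega⟩ else ⊥)
      rw [dif_pos hi.le, dif_pos (Nat.succ_le_of_lt hi), Subgroup.commutator_comm]
      exact (h ⟨i, hi⟩).2
    · intro i hi
      show F.WeaklyClosed (if h : i ≤ n then Qs ⟨i, by omega⟩ else ⊥)
      rw [dif_pos hi.le]
      rcases Nat.eq_zero_or_pos i with rfl | hpos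
      · have e : Qs ⟨0, by omega⟩ = ⊥ := h0
        rw [e]
        exact wc_bot F
      · obtain ⟨k, rfl⟩ := Nat.exists_eq_succ_of_ne_zero hpos.ne'
        exact wc_of_sc F (h ⟨k, by omega⟩).1

end Cfsg.Agent.S5088
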