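import Cfsg.Statements.S5089
import Cfsg.Agent.Lib.Helper8.Chain
import Cfsg.Agent.S5085

set_option autoImplicit false
open Cfsg

namespace Cfsg.Agent.S5089

open Cfsg.Agent.Lib.Helper8 in
theorem aux1 {Ω : Type*} [Group Ω] {S : Subgroup Ω} [Finite S] (p : ℕ) [Fact p.Prime] (hS : IsPGroup p S) (F : Cfsg.FusionSystem S) (hF : F.IsSaturated p) (Q : Subgroup Ω) (hc : IsMulCommutative Q) (hsc : F.StronglyClosed Q) : F.IsNormal Q := by
  apply normal_of_sc_of_le_cr hS F hF hsc
  intro U _ hUc hUr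
  have hUS := hUc.1
  apply chain_le_cr hS F hUc hUr hsc.1 (sc_conj_mem F hsc) 2 (fun i => [S, Q, ⊥].getD i ⊥)
  · exact hUS
  · intro α _ m _ _ x hx
    have hx' : (x : Ω) ∈ (⊥ : Subgroup Ω) := hx
    have h1 : x = 1 := Subtype.ext (Subgroup.mem_bot.mp hx')
    rw [h1, map_one]
  · intro i hi β hβ x hx
    have hβ' := (mem_autGroup_iff F hUS β).mp hβ
    interval_cases i
    · exact hUS (β x).2
    · exact sc_map_mem F hsc hβ' x hx
    · have hx' : (x : Ω) ∈ (⊥ : Subgroup Ω) := hx
      have h1 : x = 1 := Subtype.ext (Subgroup.mem_bot.mp hx')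
      rw [h1, map_one]
      exact Subgroup.one_mem _
  · intro t ht htN i hi x hxU hx
    interval_cases i
    · show x⁻¹ * (t * x * t⁻¹) ∈ Q
      have h1 := sc_conj_mem F hsc x⁻¹ (S.inv_mem (hUS hxU)) t ht
      have e : x⁻¹ * (t * x * t⁻¹) = (x⁻¹ * t * x⁻¹⁻¹) * t⁻¹ := by group
      rw [e]
      exact Q.mul_mem h1 (Q.inv_mem ht)
    · show x⁻¹ * (t * x * t⁻¹) ∈ (⊥ : Subgroup Ω)
      have hxQ : x ∈ Q := hx
      have h2 : t * x = x * t := congrArg Subtype.val (mul_comm' (⟨t, ht⟩ : Q) ⟨x, hxQ⟩)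
      rw [h2, Subgroup.mem_bot]
      group

open Cfsg.Agent.Lib.Helper8 in
theorem aux2 {Ω : Type*} [Group Ω] {S : Subgroup Ω} [Finite S] (p : ℕ) [Fact p.Prime] (hS : IsPGroup p S) (F : Cfsg.FusionSystem S) (hne : F.core ≠ ⊥) : ∃ Q : Subgroup Ω, Q ≠ ⊥ ∧ IsMulCommutative Q ∧ F.StronglyClosed Q := by
  have hO := core_isNormal F
  have hOS : F.core ≤ S := hO.1
  haveI : Finite F.core := finite_of_le hOS
  haveI : Nontrivial F.core := (Subgroup.nontrivial_iff_ne_bot _).mpr hne
  have hOp : IsPGroup p F.core := hS.to_le hOS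
  have hZ : Nontrivial (Subgroup.center F.core) := hOp.center_nontrivial
  have hle : (Subgroup.center F.core).map F.core.subtype ≤ F.core := Subgroup.map_subtype_le _
  have hchar : (((Subgroup.center F.core).map F.core.subtype).subgroupOf F.core).Characteristic := by
    have e : ((Subgroup.center F.core).map F.core.subtype).subgroupOf F.core = Subgroup.center F.core :=
      Subgroup.comap_map_eq_self_of_injective F.core.subtype_injective _
    rw [e]
    infer_instance
  have hn := Cfsg.Agent.S5085.result F F.core _ hO hle hchar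
  refine ⟨(Subgroup.center F.core).map F.core.subtype, ?_, ?_, sc_of_normal F hn⟩
  · intro h
    obtain ⟨z, hz⟩ := exists_ne (1 : Subgroup.center F.core)
    apply hz
    have h1 : ((z : F.core) : Ω) ∈ (Subgroup.center F.core).map F.core.subtype := ⟨z, z.2, rfl⟩
    rw [h, Subgroup.mem_bot] at h1
    exact Subtype.ext (Subtype.ext h1)
  · rw [isMulCommutative_iff]
    rintro ⟨_, a, ha, rfl⟩ ⟨_, b, hb, rfl⟩
    apply Subtype.ext
    show ((a : Ω) * (b : Ω)) = (b : Ω) * (a : Ω)
    have h1 := Subgroup.mem_center_iff.mp ha b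
    exact (congrArg Subtype.val h1).symm

/-- A saturated fusion system over a finite p-group has a nontrivial subgroup that is normal in the system (O_p(F) ≠ 1) if and only if some nontrivial abelian subgroup is strongly closed in the system. -/
theorem result {Ω : Type*} [Group Ω] {S : Subgroup Ω} [Finite S] (p : ℕ) [Fact p.Prime] (hS : IsPGroup p S) (F : Cfsg.FusionSystem S) (hF : F.IsSaturated p) : F.core ≠ ⊥ ↔ ∃ Q : Subgroup Ω, Q ≠ ⊥ ∧ IsMulCommutative Q ∧ F.StronglyClosed Q := by
  constructor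
  · intro hne
    exact aux2 p hS F hne
  · rintro ⟨Q, hQ, hc, hsc⟩ hcore
    have hn := aux1 p hS F hF Q hc hsc
    have hle : Q ≤ F.core := le_sSup hn
    rw [hcore] at hle
    exact hQ (le_bot_iff.mp hle)

end Cfsg.Agent.S5089
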