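import Cfsg.Statements.S5092
import Cfsg.Agent.Lib.Helper8.Hyp

set_option autoImplicit false
open Cfsg

namespace Cfsg.Agent.S5092

/-- For a saturated fusion system over a finite p-group S, the focal subgroup is the product of the hyperfocal subgroup and the derived subgroup of S. -/
theorem result {Ω : Type*} [Group Ω] {S : Subgroup Ω} [Finite S] (p : ℕ) [Fact p.Prime] (hS : IsPGroup p S) (F : Cfsg.FusionSystem S) (hF : F.IsSaturated p) : F.focalSubgroup = F.hyperfocalSubgroup p ⊔ ⁅(S : Subgroup Ω), (S : Subgroup Ω)⁆ := by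
  open Cfsg.Agent.Lib.Helper8 in
  apply le_antisymm
  · unfold FusionSystem.focalSubgroup
    rw [Subgroup.closure_le]
    rintro y ⟨P, φ, x, hφ, rfl⟩
    obtain ⟨s, hs, h⟩ := exists_conj_mod_hyp hS F hF hφ
    have hxS : (x : Ω) ∈ S := (F.le_of_mem hφ).1 x.2
    have hc := Subgroup.commutator_mem_commutator (S.inv_mem hxS) hs
    rw [commutatorElement_def] at hc
    have e : (x : Ω)⁻¹ * φ x = ((x : Ω)⁻¹ * s * (x : Ω)⁻¹⁻¹ * s⁻¹) * ((s * (x : Ω) * s⁻¹)⁻¹ * φ x) := by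
      group
    show (x : Ω)⁻¹ * φ x ∈ _
    rw [e]
    exact Subgroup.mul_mem _ (Subgroup.mem_sup_right hc) (Subgroup.mem_sup_left (h x))
  · refine sup_le ?_ ?_
    · unfold FusionSystem.hyperfocalSubgroup FusionSystem.focalSubgroup
      apply Subgroup.closure_mono
      rintro y ⟨P, α, x, hP, -, rfl⟩
      exact ⟨P, P.subtype.comp (α : MulAut P).toMonoidHom, x, (mem_autGroup_iff F hP _).mp α.2, rfl⟩
    · rw [Subgroup.commutator_le]
      intro g₁ hg₁ g₂ hg₂
      apply Subgroup.subset_closure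
      refine ⟨S, conjHom S g₂, ⟨g₁⁻¹, S.inv_mem hg₁⟩, F.conj_mem le_rfl hg₂, ?_⟩
      rw [commutatorElement_def]
      show g₁ * g₂ * g₁⁻¹ * g₂⁻¹ = (g₁⁻¹)⁻¹ * (g₂ * g₁⁻¹ * g₂⁻¹)
      group

end Cfsg.Agent.S5092
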