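import Cfsg.Statements.S5093
import Cfsg.Agent.Lib.Helper8.Hyp
import Cfsg.Agent.Lib.Helper3.Nilp
import Cfsg.Agent.S5076

set_option autoImplicit false
open Cfsg

namespace Cfsg.Agent.S5093

open Cfsg.Agent.Lib.Helper8 in
theorem gen_mem {G : Type*} [Group G] [Finite G] (p : ℕ) [Fact p.Prime] (S : Subgroup G)
    (P : Subgroup G) (hP : P ≤ S)
    (α : (Cfsg.groupFusionSystem S).autGroup P) (hα : Nat.Coprime (orderOf α) p) (x : P) :
    (x : G)⁻¹ * (((α : MulAut P) x : P) : G) ∈ Cfsg.pResidual p G := by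
  haveI : Finite (MulAut P) := finite_mulAut P
  have h1 := (mem_autGroup_iff (Cfsg.groupFusionSystem S) hP (α : MulAut P)).mp α.2
  obtain ⟨-, -, g, hg⟩ := h1
  have hpow : ∀ k : ℕ, ∀ z : P, ((((α ^ k : (Cfsg.groupFusionSystem S).autGroup P) : MulAut P) z
      : P) : G) = g ^ k * z * (g ^ k)⁻¹ := by
    intro k
    induction k with
    | zero => intro z; simp
    | succ k ih =>
      intro z
      have h2 : ((((α : MulAut P) (((α ^ k : (Cfsg.groupFusionSystem S).autGroup P) : MulAut P) z))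
          : P) : G) = g * (((((α ^ k : (Cfsg.groupFusionSystem S).autGroup P) : MulAut P) z : P))
            : G) * g⁻¹ := hg _
      rw [pow_succ', Subgroup.coe_mul, MulAut.mul_apply, h2, ih z, pow_succ']
      group
  obtain ⟨a, m', hm', ho⟩ := Nat.exists_eq_pow_mul_and_not_dvd (orderOf_pos g).ne' p
    (Nat.Prime.ne_one Fact.out)
  have hcop' : m'.Coprime p := by
    rw [Nat.coprime_comm]
    exact (Nat.Prime.coprime_iff_not_dvd Fact.out).mpr hm'
  by_cases h1m : orderOf α = 1
  · have h3 : α = 1 := orderOf_eq_one_iff.mp h1m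
    rw [h3]
    simp
  · have hlt : 1 < orderOf α := by
      have := orderOf_pos α
      omega
    obtain ⟨j, -, hj⟩ := Nat.exists_mul_mod_eq_one_of_coprime (Nat.Coprime.pow_left a hα.symm) hlt
    have hα' : α ^ (p ^ a * j) = α := by
      rw [← pow_mod_orderOf, hj, pow_one]
    have hh : (g ^ (p ^ a * j)) ∈ Cfsg.pResidual p G := by
      apply mem_pResidual_of_pow_eq_one _ m' hcop'
      rw [← pow_mul, mul_right_comm, ← ho, pow_mul, pow_orderOf_eq_one, one_pow]
    have h4 := hpow (p ^ a * j) x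
    rw [hα'] at h4
    rw [h4]
    have hn := pResidual_normal p G
    have e : (x : G)⁻¹ * (g ^ (p ^ a * j) * x * (g ^ (p ^ a * j))⁻¹) =
        ((x : G)⁻¹ * g ^ (p ^ a * j) * (x : G)⁻¹⁻¹) * (g ^ (p ^ a * j))⁻¹ := by group
    rw [e]
    exact Subgroup.mul_mem _ (hn.conj_mem _ hh _) (Subgroup.inv_mem _ hh)

open Cfsg.Agent.Lib.Helper8 in
theorem hyp_le_res {G : Type*} [Group G] [Finite G] (p : ℕ) [Fact p.Prime] (S : Subgroup G) :
    (Cfsg.groupFusionSystem S).hyperfocalSubgroup p ≤ Cfsg.pResidual p G := by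
  unfold FusionSystem.hyperfocalSubgroup
  rw [Subgroup.closure_le]
  rintro y ⟨P, α, x, hP, hα, rfl⟩
  revert x
  have hα' : α ∈ Subgroup.closure {g : (Cfsg.groupFusionSystem S).autGroup P |
    Nat.Coprime (orderOf g) p} := hα
  induction hα' using Subgroup.closure_induction with
  | mem β hβ => intro x; exact gen_mem p S P hP β hβ x
  | one =>
    intro x
    have : (x : G)⁻¹ * ((((1 : (Cfsg.groupFusionSystem S).autGroup P) : MulAut P) x : P) : G) = 1 := by
      simp
    show (x : G)⁻¹ * ((((1 : (Cfsg.groupFusionSystem S).autGroup P) : MulAut P) x : P) : G) ∈ _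
    rw [this]
    exact Subgroup.one_mem _
  | mul β γ hβ' hγ' hβ hγ =>
    intro x
    have e : (x : G)⁻¹ * ((((β * γ : (Cfsg.groupFusionSystem S).autGroup P) : MulAut P) x : P) : G)
        = ((x : G)⁻¹ * (((γ : MulAut P) x : P) : G)) * ((((γ : MulAut P) x : P) : G)⁻¹ *
          (((β : MulAut P) ((γ : MulAut P) x) : P) : G)) := by
      rw [Subgroup.coe_mul, MulAut.mul_apply]
      group
    show (x : G)⁻¹ * ((((β * γ : (Cfsg.groupFusionSystem S).autGroup P) : MulAut P) x : P) : G) ∈ _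
    rw [e]
    exact Subgroup.mul_mem _ (hγ hγ' x) (hβ hβ' _)
  | inv β hβ' hβ =>
    intro x
    have h := hβ hβ' ((β : MulAut P)⁻¹ x)
    rw [MulAut.apply_inv_self] at h
    have e : (x : G)⁻¹ * ((((β⁻¹ : (Cfsg.groupFusionSystem S).autGroup P) : MulAut P) x : P) : G)
        = (((((β : MulAut P)⁻¹ x : P) : G))⁻¹ * (x : G))⁻¹ := by
      rw [Subgroup.coe_inv]
      group
    show (x : G)⁻¹ * ((((β⁻¹ : (Cfsg.groupFusionSystem S).autGroup P) : MulAut P) x : P) : G) ∈ _
    rw [e]
    exact Subgroup.inv_mem _ h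

theorem le_commutator_of_pResidual {G : Type*} [Group G] [Finite G] (p : ℕ) [Fact p.Prime]
    (R : Subgroup (Cfsg.pResidual p G)) (hR : IsPGroup p R) :
    R ≤ commutator (Cfsg.pResidual p G) := by
  set N := Nat.card (Cfsg.pResidual p G) / p ^ (Nat.card (Cfsg.pResidual p G)).factorization p with hN
  have hcard : p ^ (Nat.card (Cfsg.pResidual p G)).factorization p * N =
      Nat.card (Cfsg.pResidual p G) := Nat.ordProj_mul_ordCompl_eq_self _ p
  have hNcop : Nat.Coprime p N := Nat.coprime_ordCompl Fact.out Nat.card_pos.ne'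
  let f : (Cfsg.pResidual p G) →* Abelianization (Cfsg.pResidual p G) :=
    (powMonoidHom N).comp Abelianization.of
  have hgen : Subgroup.closure (((↑) : Cfsg.pResidual p G → G) ⁻¹'
      {g : G | Nat.Coprime (orderOf g) p}) = ⊤ :=
    Subgroup.closure_closure_coe_preimage (k := {g : G | Nat.Coprime (orderOf g) p})
  have hall : ∀ k : Cfsg.pResidual p G, f k = 1 := by
    intro k
    have hk : k ∈ (⊤ : Subgroup (Cfsg.pResidual p G)) := Subgroup.mem_top k
    have hk' : k ∈ Subgroup.closure (((↑) : Cfsg.pResidual p G → G) ⁻¹'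
      {g : G | Nat.Coprime (orderOf g) p}) := by
      rw [hgen]
      exact hk
    induction hk' using Subgroup.closure_induction with
    | mem z hz =>
      have hz' : Nat.Coprime (orderOf z) p := by
        have h0 : Nat.Coprime (orderOf (z : G)) p := hz
        rwa [Subgroup.orderOf_coe] at h0
      have hd : orderOf z ∣ N := by
        have h1 : orderOf z ∣ p ^ (Nat.card (Cfsg.pResidual p G)).factorization p * N := by
          rw [hcard]
          exact orderOf_dvd_natCard z
        exact (Nat.Coprime.pow_right _ hz').dvd_of_dvd_mul_left h1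
      show (Abelianization.of z) ^ N = 1
      rw [← map_pow, orderOf_dvd_iff_pow_eq_one.mp hd, map_one]
    | one => exact map_one f
    | mul a b _ _ ha hb => rw [map_mul, ha (Subgroup.mem_top _), hb (Subgroup.mem_top _), one_mul]
    | inv a _ ha => rw [map_inv, ha (Subgroup.mem_top _), inv_one]
  intro r hr
  rw [← Abelianization.ker_of (Cfsg.pResidual p G), MonoidHom.mem_ker]
  obtain ⟨b, hb⟩ := hR ⟨r, hr⟩
  have hb' : r ^ p ^ b = 1 := congrArg Subtype.val hb
  have h1 : (Abelianization.of r) ^ N = 1 := hall r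
  have h2 : (Abelianization.of r) ^ p ^ b = 1 := by rw [← map_pow, hb', map_one]
  have d1 := orderOf_dvd_of_pow_eq_one h1
  have d2 := orderOf_dvd_of_pow_eq_one h2
  have d3 := Nat.dvd_gcd d1 d2
  have hc : Nat.Coprime N (p ^ b) := Nat.Coprime.pow_right b hNcop.symm
  rw [hc] at d3
  exact orderOf_eq_one_iff.mp (Nat.dvd_one.mp d3)

open Cfsg.Agent.Lib.Helper8 in
theorem aux {G : Type*} [Group G] [Finite G] (p : ℕ) [Fact p.Prime] (S : Sylow p G) :
    (S : Subgroup G) ⊓ Cfsg.pResidual p G ≤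
      (Cfsg.groupFusionSystem (S : Subgroup G)).hyperfocalSubgroup p := by
  have hsat : (Cfsg.groupFusionSystem (S : Subgroup G)).IsSaturated p := Cfsg.Agent.S5076.result p S
  have hSp : IsPGroup p (S : Subgroup G) := S.isPGroup'
  have hKn : (Cfsg.pResidual p G).Normal := pResidual_normal p G
  have hsyl : SylIn p ((S : Subgroup G) ⊓ Cfsg.pResidual p G) (Cfsg.pResidual p G) := by
    have h0 : SylIn p (S : Subgroup G) ⊤ := sylIn_top S
    exact h0.inf_of_normal le_top (by rw [Subgroup.normalizer_eq_top])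
  obtain ⟨R, hR⟩ := (sylIn_iff inf_le_right).mp hsyl
  have hfoc := Subgroup.commutator_inf_eq_focalSubgroup R
  have hRc : (R : Subgroup (Cfsg.pResidual p G)) ≤ commutator (Cfsg.pResidual p G) :=
    le_commutator_of_pResidual p _ R.isPGroup'
  have hReq : (R : Subgroup (Cfsg.pResidual p G)) =
      Subgroup.focalSubgroup (R : Subgroup (Cfsg.pResidual p G)) := by
    rw [← hfoc]
    exact (inf_eq_right.mpr hRc).symm
  have hCn : (((Cfsg.groupFusionSystem (S : Subgroup G)).hyperfocalSubgroup p).subgroupOf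
      (S : Subgroup G)).Normal := by
    constructor
    intro n hn g
    exact hyp_conj_mem (Cfsg.groupFusionSystem (S : Subgroup G)) p g g.2 n hn
  have hTle : (S : Subgroup G) ⊓ Cfsg.pResidual p G ≤
      (⁅((S : Subgroup G) ⊓ Cfsg.pResidual p G).subgroupOf (S : Subgroup G),
        (⊤ : Subgroup (S : Subgroup G))⁆ ⊔
        ((Cfsg.groupFusionSystem (S : Subgroup G)).hyperfocalSubgroup p).subgroupOf
          (S : Subgroup G)).map (S : Subgroup G).subtype := by
    have hT' : (S : Subgroup G) ⊓ Cfsg.pResidual p G =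
        (Subgroup.focalSubgroup (R : Subgroup (Cfsg.pResidual p G))).map
          (Cfsg.pResidual p G).subtype := by
      rw [← hReq, hR, Subgroup.map_subgroupOf_eq_of_le inf_le_right]
    refine hT'.le.trans ?_
    rw [Subgroup.focalSubgroup_def, MonoidHom.map_closure, Subgroup.closure_le]
    rintro _ ⟨g, ⟨hgR, x, hxR, u, rfl⟩, rfl⟩
    rw [commutatorElement_def] at hgR ⊢
    have hxT : (x : G) ∈ (S : Subgroup G) ⊓ Cfsg.pResidual p G := by
      have h1 := hxR
      rw [hR] at h1
      exact h1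
    have hgT : ((x * u * x⁻¹ * u⁻¹ : Cfsg.pResidual p G) : G) ∈
        (S : Subgroup G) ⊓ Cfsg.pResidual p G := by
      have h1 := hgR
      rw [hR] at h1
      exact h1
    have hxS : (x : G) ∈ (S : Subgroup G) := hxT.1
    have huS : (u : G) * (x : G)⁻¹ * (u : G)⁻¹ ∈ (S : Subgroup G) := by
      have e : (u : G) * (x : G)⁻¹ * (u : G)⁻¹ = (x : G)⁻¹ * ((x : G) * u * (x : G)⁻¹ * (u : G)⁻¹) := by
        group
      rw [e]
      exact Subgroup.mul_mem _ (Subgroup.inv_mem _ hxS) hgT.1
    have hzle : Subgroup.zpowers (x : G)⁻¹ ≤ (S : Subgroup G) :=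
      (Subgroup.zpowers_le).mpr (Subgroup.inv_mem _ hxS)
    have hzle' : Subgroup.zpowers (x : G)⁻¹ ≤
        (S : Subgroup G).comap (MulAut.conj (u : G)).toMonoidHom :=
      (Subgroup.zpowers_le).mpr huS
    have hφ : conjHom (Subgroup.zpowers (x : G)⁻¹) (u : G) ∈
        (Cfsg.groupFusionSystem (S : Subgroup G)).Hom (Subgroup.zpowers (x : G)⁻¹) :=
      ⟨hzle, fun z => hzle' z.2, (u : G), fun z => rfl⟩
    obtain ⟨s, hs, hmod⟩ := exists_conj_mod_hyp hSp _ hsat hφ
    have hmod' : (s * (x : G)⁻¹ * s⁻¹)⁻¹ * ((u : G) * (x : G)⁻¹ * (u : G)⁻¹) ∈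
        (Cfsg.groupFusionSystem (S : Subgroup G)).hyperfocalSubgroup p :=
      hmod ⟨(x : G)⁻¹, Subgroup.mem_zpowers _⟩
    have hxE : (⟨x, hxS⟩ : (S : Subgroup G)) ∈
        ((S : Subgroup G) ⊓ Cfsg.pResidual p G).subgroupOf (S : Subgroup G) := hxT
    have hc := Subgroup.commutator_mem_commutator hxE
      (Subgroup.mem_top (⟨s, hs⟩ : (S : Subgroup G)))
    rw [commutatorElement_def] at hc
    have hm2 : (⟨_, hyp_le _ p hmod'⟩ : (S : Subgroup G)) ∈
        ((Cfsg.groupFusionSystem (S : Subgroup G)).hyperfocalSubgroup p).subgroupOf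
          (S : Subgroup G) := hmod'
    refine ⟨_, Subgroup.mul_mem _ (Subgroup.mem_sup_left hc) (Subgroup.mem_sup_right hm2), ?_⟩
    show (x : G) * s * (x : G)⁻¹ * s⁻¹ * ((s * (x : G)⁻¹ * s⁻¹)⁻¹ * ((u : G) * (x : G)⁻¹ * (u : G)⁻¹))
      = (x : G) * u * (x : G)⁻¹ * (u : G)⁻¹
    group
  have hE : ((S : Subgroup G) ⊓ Cfsg.pResidual p G).subgroupOf (S : Subgroup G) ≤
      ⁅((S : Subgroup G) ⊓ Cfsg.pResidual p G).subgroupOf (S : Subgroup G),
        (⊤ : Subgroup (S : Subgroup G))⁆ ⊔
        ((Cfsg.groupFusionSystem (S : Subgroup G)).hyperfocalSubgroup p).subgroupOf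
          (S : Subgroup G) := by
    intro e he
    obtain ⟨z, hz, hze⟩ := hTle he
    have h1 : z = e := Subtype.ext hze
    rwa [← h1]
  haveI : Group.IsNilpotent (S : Subgroup G) := hSp.isNilpotent
  have hEC := Cfsg.Agent.Lib.Helper3.le_of_le_commutator_sup _ _ hE
  intro x hx
  exact hEC (show (⟨x, hx.1⟩ : (S : Subgroup G)) ∈
    ((S : Subgroup G) ⊓ Cfsg.pResidual p G).subgroupOf (S : Subgroup G) from hx)

/-- Hyperfocal subgroup Theorem: for a finite group G with Sylow p-subgroup S, the hyperfocal subgroup of the fusion system of G on S equals S ∩ O^p(G), where O^p(G) is the subgroup generated by the elements of order prime to p. -/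
theorem result {G : Type*} [Group G] [Finite G] (p : ℕ) [Fact p.Prime] (S : Sylow p G) : (Cfsg.groupFusionSystem (S : Subgroup G)).hyperfocalSubgroup p = (S : Subgroup G) ⊓ Cfsg.pResidual p G := by
  open Cfsg.Agent.Lib.Helper8 in
  exact le_antisymm (le_inf (hyp_le _ p) (hyp_le_res p _)) (aux p S)

end Cfsg.Agent.S5093
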