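import Cfsg.Statements.S5102

set_option autoImplicit false
open Cfsg

namespace Cfsg.Agent.S5102

/-- A normal p-subgroup of a finite group G is normal in the fusion system of G on a Sylow p-subgroup. -/
theorem result {G : Type*} [Group G] [Finite G] (p : ℕ) [Fact p.Prime] (S : Sylow p G) (R : Subgroup G) [R.Normal] (hR : IsPGroup p R) : (Cfsg.groupFusionSystem (S : Subgroup G)).IsNormal R := by
  have hRS : R ≤ (S : Subgroup G) := hR.le_sylow_of_normal S
  refine ⟨hRS, ?_⟩
  rintro P φ ⟨hPS, hφS, g, hg⟩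
  have hsup : P ⊔ R ≤ (S : Subgroup G) := sup_le hPS hRS
  have hval : ∀ x : ↥(P ⊔ R), conjHom (P ⊔ R) g x ∈ (S : Subgroup G) := by
    intro x
    have hx : (x : G) ∈ ((P ⊔ R : Subgroup G) : Set G) := x.2
    rw [Subgroup.mul_normal] at hx
    obtain ⟨a, ha, b, hb, hab⟩ := Set.mem_mul.mp hx
    show g * (x : G) * g⁻¹ ∈ (S : Subgroup G)
    have h1 : g * (x : G) * g⁻¹ = (g * a * g⁻¹) * (g * b * g⁻¹) := by
      rw [← hab]; group
    rw [h1]
    refine Subgroup.mul_mem _ ?_ ?_
    · have := hφS ⟨a, ha⟩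
      rw [hg] at this
      exact this
    · exact hRS (Subgroup.Normal.conj_mem inferInstance b hb g)
  refine ⟨conjHom (P ⊔ R) g, ⟨hsup, hval, g, fun x => rfl⟩, ?_, ?_⟩
  · intro x
    rw [hg]
    rfl
  · ext y
    constructor
    · rintro ⟨z, hz, rfl⟩
      have hz' : (z : G) ∈ R := hz
      exact Subgroup.Normal.conj_mem inferInstance (z : G) hz' g
    · intro hy
      have h1 : g⁻¹ * y * g ∈ R := by
        have := Subgroup.Normal.conj_mem (inferInstance : R.Normal) y hy g⁻¹
        rwa [inv_inv] at this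
      refine ⟨⟨g⁻¹ * y * g, Subgroup.mem_sup_right h1⟩, h1, ?_⟩
      show g * (g⁻¹ * y * g) * g⁻¹ = y
      group

end Cfsg.Agent.S5102
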