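import Cfsg.Statements.S5107
import Cfsg.Agent.Lib.Helper8.Series
import Cfsg.Agent.S5076

set_option autoImplicit false
open Cfsg

namespace Cfsg.Agent.S5107

/-- If a Sylow p-subgroup S of a finite group G has nilpotency class at most two and its centre is strongly closed in S with respect to G, then every map of the fusion system of G on S is conjugation by an element of N_G(S), and S is the largest subgroup normal in that fusion system. -/
theorem result {G : Type*} [Group G] [Finite G] (p : ℕ) [Fact p.Prime] (S : Sylow p G) (hcl : ⁅(S : Subgroup G), (S : Subgroup G)⁆ ≤ (S : Subgroup G) ⊓ Subgroup.centralizer ((S : Subgroup G) : Set G)) (hZ : Cfsg.IsStronglyClosed ((S : Subgroup G) ⊓ Subgroup.centralizer ((S : Subgroup G) : Set G)) (S : Subgroup G)) : (∀ (P : Subgroup G) (φ : P →* G), φ ∈ (Cfsg.groupFusionSystem (S : Subgroup G)).Hom P → ∃ g ∈ Subgroup.normalizer ((S : Subgroup G) : Set G), ∀ x : P, φ x = g * (x : G) * g⁻¹) ∧ (Cfsg.groupFusionSystem (S : Subgroup G)).core = S := by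
  open Cfsg.Agent.Lib.Helper8 in
  have hsat : (Cfsg.groupFusionSystem (S : Subgroup G)).IsSaturated p := Cfsg.Agent.S5076.result p S
  have hSp : IsPGroup p (S : Subgroup G) := S.isPGroup'
  have hscS : (Cfsg.groupFusionSystem (S : Subgroup G)).StronglyClosed (S : Subgroup G) :=
    ⟨le_rfl, fun R _ φ hφ x => ((Cfsg.groupFusionSystem (S : Subgroup G)).le_of_mem hφ).2 x⟩
  have hscZ : (Cfsg.groupFusionSystem (S : Subgroup G)).StronglyClosed
      ((S : Subgroup G) ⊓ Subgroup.centralizer ((S : Subgroup G) : Set G)) := by
    refine ⟨inf_le_left, fun R hR φ hφ x => ?_⟩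
    obtain ⟨-, hφS, g, hg⟩ := hφ
    rw [hg x]
    apply hZ.2 _ (hR x.2) g
    rw [← hg x]
    exact hφS x
  have hnorm : (Cfsg.groupFusionSystem (S : Subgroup G)).IsNormal (S : Subgroup G) := by
    apply normal_of_series hSp _ hsat hscS 2 (fun i => [⊥, (S : Subgroup G) ⊓
      Subgroup.centralizer ((S : Subgroup G) : Set G), (S : Subgroup G)].getD i ⊥)
    · rfl
    · rfl
    · intro i hi
      interval_cases i
      · exact bot_le
      · exact inf_le_left
    · intro i hi
      interval_cases i
      · show ⁅(S : Subgroup G) ⊓ Subgroup.centralizer ((S : Subgroup G) : Set G),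
          (S : Subgroup G)⁆ ≤ ⊥
        rw [Subgroup.commutator_le]
        intro a ha b hb
        rw [Subgroup.mem_bot, commutatorElement_def]
        have h1 := (Subgroup.mem_centralizer_iff.mp ha.2) b hb
        rw [← h1]
        group
      · exact hcl
    · intro i hi
      interval_cases i
      · exact wc_bot _
      · exact wc_of_sc _ hscZ
  constructor
  · intro P φ hφ
    obtain ⟨ψ, hψ, he, hm⟩ := hnorm.2 P φ hφ
    obtain ⟨-, hψS, g, hg⟩ := hψ
    refine ⟨g, ?_, fun x => ?_⟩
    · rw [Subgroup.mem_normalizer_iff]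
      intro x
      constructor
      · intro hx
        have h1 := map_subgroupOf_mem hm ⟨x, Subgroup.mem_sup_right hx⟩ hx
        rwa [hg] at h1
      · intro hx
        obtain ⟨y, hy, hyx⟩ := map_subgroupOf_surj hm _ hx
        rw [hg] at hyx
        have h2 : (y : G) = x := mul_left_cancel (mul_right_cancel hyx)
        rw [← h2]
        exact hy
    · rw [← he, hg]
      rfl
  · apply le_antisymm
    · exact (core_isNormal _).1
    · exact le_sSup hnorm

end Cfsg.Agent.S5107
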