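import Cfsg.Statements.S5111
import Cfsg.Agent.Lib.Helper8.HypGen
import Cfsg.Agent.Lib.Helper8.Abel
import Cfsg.Agent.Lib.Helper8.SatB

set_option autoImplicit false
open Cfsg

namespace Cfsg.Agent.S5111

open Cfsg.Agent.Lib.Helper8 in
theorem exists_ppow_pow {A : Type*} [Group A] [Finite A] {p : ℕ} [Fact p.Prime] (a : A) (j : ℕ) :
    ∃ e k : ℕ, (a ^ e) ^ p ^ k = 1 ∧ e ≡ 1 [MOD p ^ j] := by
  obtain ⟨k, m, hm, hkm⟩ := Nat.exists_eq_pow_mul_and_not_dvd (orderOf_pos a).ne' p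
    (Nat.Prime.ne_one Fact.out)
  have hmc : m.Coprime p := ((Nat.Prime.coprime_iff_not_dvd Fact.out).mpr hm).symm
  have hcop : Nat.Coprime m (p ^ j) := Nat.Coprime.pow_right j hmc
  obtain ⟨e, he0, he1⟩ := Nat.chineseRemainder hcop 0 1
  refine ⟨e, k, ?_, he1⟩
  have hme : m ∣ e := (Nat.modEq_zero_iff_dvd).mp he0
  rw [← pow_mul]
  apply orderOf_dvd_iff_pow_eq_one.mp
  rw [hkm, mul_comm e]
  exact Nat.mul_dvd_mul_left _ hme

theorem res_pow {Ω : Type*} [Group Ω] {Q N : Subgroup Ω} (hQN : Q ≤ N) (γ : MulAut N)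
    (α : MulAut Q)
    (h : ∀ x : Q, γ (Subgroup.inclusion hQN x) = Subgroup.inclusion hQN (α x)) (n : ℕ) :
    ∀ x : Q, (γ ^ n) (Subgroup.inclusion hQN x) = Subgroup.inclusion hQN ((α ^ n) x) := by
  induction n with
  | zero => intro x; rfl
  | succ n ih =>
    intro x
    rw [pow_succ', pow_succ', MulAut.mul_apply, MulAut.mul_apply, ih, h]

open Cfsg.Agent.Lib.Helper8 in
theorem ext_normalizer {Ω : Type*} [Group Ω] {S : Subgroup Ω} [Finite S]
    (F : Cfsg.FusionSystem S) {Q : Subgroup Ω} (hQS : Q ≤ S) (hrec : F.IsReceptive Q)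
    (α : MulAut Q) (hα : α ∈ F.autGroup Q)
    (hnorm : ∀ b ∈ Cfsg.autInducedBy S Q, α * b * α⁻¹ ∈ Cfsg.autInducedBy S Q) :
    ∃ γ ∈ F.autGroup (Cfsg.FusionSystem.normalizerIn S Q),
      ∀ x : Q, γ (Subgroup.inclusion (le_normalizerIn hQS) x) =
        Subgroup.inclusion (le_normalizerIn hQS) (α x) := by
  have hα' := (mem_autGroup_iff F hQS α).mp hα
  have hNle : Cfsg.FusionSystem.normalizerIn S Q ≤
      Cfsg.FusionSystem.extender S Q (Q.subtype.comp α.toMonoidHom) := by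
    intro g hg
    apply Subgroup.subset_closure
    have hb : normConj Q ⟨g, hg.2⟩ ∈ Cfsg.autInducedBy S Q :=
      (mem_autInducedBy_iff S Q _).mpr ⟨g, hg.1, fun x => rfl⟩
    obtain ⟨h, hhS, hh⟩ := (mem_autInducedBy_iff S Q _).mp (hnorm _ hb)
    refine ⟨hg.1, hg.2, h, hhS, fun x hx => ?_⟩
    have h1 := hh (α x)
    rw [MulAut.mul_apply, MulAut.mul_apply, MulAut.inv_apply_self] at h1
    exact h1
  obtain ⟨ψ, hψ, hψe⟩ := hrec.2 Q _ hα' (range_subtype_comp_aut α)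
  have hψ₁ := fs_restrict F hNle hψ
  have hagree : ∀ y : Q, (ψ.comp (Subgroup.inclusion hNle))
      (Subgroup.inclusion (le_normalizerIn hQS) y) = ((α y : Q) : Ω) := by
    intro y
    exact hψe y y.2 (hNle (le_normalizerIn hQS y.2))
  have hmaps : ∀ z : Cfsg.FusionSystem.normalizerIn S Q,
      (ψ.comp (Subgroup.inclusion hNle)) z ∈ Cfsg.FusionSystem.normalizerIn S Q := by
    intro z
    refine ⟨(F.le_of_mem hψ₁).2 z, ?_⟩
    apply mem_normalizer_of_aut (α * normConj Q ⟨z, z.2.2⟩ * α⁻¹)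
    intro x
    rw [MulAut.mul_apply, MulAut.mul_apply]
    have h1 := hagree (normConj Q ⟨z, z.2.2⟩ (α⁻¹ x))
    rw [← h1]
    have e : Subgroup.inclusion (le_normalizerIn hQS) (normConj Q ⟨z, z.2.2⟩ (α⁻¹ x)) =
        z * Subgroup.inclusion (le_normalizerIn hQS) (α⁻¹ x) * z⁻¹ := Subtype.ext rfl
    rw [e, map_mul, map_mul, map_inv, hagree, MulAut.apply_inv_self]
  obtain ⟨γ, hγ, hγψ⟩ := exists_aut_of_hom F hψ₁ hmaps
  refine ⟨γ, hγ, fun x => Subtype.ext ?_⟩
  rw [hγψ]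
  exact hagree x

open Cfsg.Agent.Lib.Helper8 in
theorem inner_of_fa {Ω : Type*} [Group Ω] {S : Subgroup Ω} [Finite S] {p : ℕ} [Fact p.Prime]
    (F : Cfsg.FusionSystem S) {Q : Subgroup Ω}
    (hQ : F.IsFullyNormalized Q) {R : Subgroup Ω}
    (hconj : F.IsConj (Cfsg.FusionSystem.normalizerIn S Q) R) (hR : F.IsFullyAutomized p R)
    (γ : MulAut (Cfsg.FusionSystem.normalizerIn S Q))
    (hγ : γ ∈ F.autGroup (Cfsg.FusionSystem.normalizerIn S Q)) (k : ℕ) (hγp : γ ^ p ^ k = 1)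
    (α : MulAut Q)
    (hγα : ∀ x : Q, γ (Subgroup.inclusion (le_normalizerIn hQ.1) x) =
        Subgroup.inclusion (le_normalizerIn hQ.1) (α x)) :
    ∃ g ∈ Cfsg.FusionSystem.normalizerIn S Q, ∀ z : Cfsg.FusionSystem.normalizerIn S Q,
      ((γ z : Cfsg.FusionSystem.normalizerIn S Q) : Ω) = g * z * g⁻¹ := by
  have hQS := hQ.1
  have hNS : Cfsg.FusionSystem.normalizerIn S Q ≤ S := inf_le_left
  have hQN : Q ≤ Cfsg.FusionSystem.normalizerIn S Q := le_normalizerIn hQS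
  obtain ⟨χ, hχ, hχR⟩ := hconj
  have hRS : R ≤ S := hR.1
  haveI : Finite R := finite_of_le hRS
  haveI : Finite (MulAut R) := finite_mulAut R
  have hγR : MulAut.congr (fsEquiv F hχ hχR) γ ∈ F.autGroup R := congr_mem_autGroup F hχ hχR hγ
  obtain ⟨-, T₀, hT₀⟩ := hR
  have hsyl : SylIn p (Cfsg.autInducedBy S R) (F.autGroup R) :=
    (sylIn_iff (autInducedBy_le_autGroup F hRS)).mpr ⟨T₀, hT₀⟩
  have hXp : IsPGroup p (Subgroup.zpowers (MulAut.congr (fsEquiv F hχ hχR) γ)) := by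
    have h1 : (MulAut.congr (fsEquiv F hχ hχR) γ) ^ p ^ k = 1 := by
      rw [← map_pow, hγp, map_one]
    rintro ⟨x, hx⟩
    obtain ⟨i, rfl⟩ := Subgroup.mem_zpowers_iff.mp hx
    refine ⟨k, Subtype.ext ?_⟩
    show ((MulAut.congr (fsEquiv F hχ hχR) γ) ^ i) ^ p ^ k = 1
    rw [← zpow_natCast, ← zpow_mul, mul_comm, zpow_mul, zpow_natCast, h1, one_zpow]
  obtain ⟨β, hβ, hβle⟩ := hsyl.exists_conj_le hXp (Subgroup.zpowers_le.mpr hγR)
  have hmem : β * MulAut.congr (fsEquiv F hχ hχR) γ * β⁻¹ ∈ Cfsg.autInducedBy S R :=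
    hβle (cj_mem (Subgroup.mem_zpowers _))
  obtain ⟨g, hgS, hg⟩ := (mem_autInducedBy_iff S R _).mp hmem
  have hε : ∀ z : Cfsg.FusionSystem.normalizerIn S Q,
      ((β (fsEquiv F hχ hχR (γ z)) : R) : Ω) =
        g * ((β (fsEquiv F hχ hχR z) : R) : Ω) * g⁻¹ := by
    intro z
    have h1 := hg (β (fsEquiv F hχ hχR z))
    rw [MulAut.mul_apply, MulAut.mul_apply, MulAut.inv_apply_self] at h1
    have e2 : MulAut.congr (fsEquiv F hχ hχR) γ (fsEquiv F hχ hχR z) =
        fsEquiv F hχ hχR (γ z) := by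
      show fsEquiv F hχ hχR (γ ((fsEquiv F hχ hχR).symm (fsEquiv F hχ hχR z))) = _
      rw [MulEquiv.symm_apply_apply]
    rw [e2] at h1
    exact h1
  have hβ' := (mem_autGroup_iff F hRS β).mp hβ
  have hχR' : ∀ x : Cfsg.FusionSystem.normalizerIn S Q, χ x ∈ R := fun x => fs_mem_of_range hχR x
  have hcomp := F.comp_mem hχ hβ' hχR'
  have hζ := fs_restrict F hQN hcomp
  have hζe : ∀ x : Q, (((R.subtype.comp β.toMonoidHom).comp (χ.codRestrict R hχR')).comp
      (Subgroup.inclusion hQN)) x =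
      ((β (fsEquiv F hχ hχR (Subgroup.inclusion hQN x)) : R) : Ω) := fun x => rfl
  have hconjQ : F.IsConj Q (((R.subtype.comp β.toMonoidHom).comp (χ.codRestrict R hχR')).comp
      (Subgroup.inclusion hQN)).range := ⟨_, hζ, rfl⟩
  have hcard := hQ.2 _ hconjQ
  have hγinv : ∀ x : Q, γ⁻¹ (Subgroup.inclusion hQN x) = Subgroup.inclusion hQN (α⁻¹ x) := by
    intro x
    apply γ.injective
    rw [MulAut.apply_inv_self, hγα, MulAut.apply_inv_self]
  have hnormal_aux : ∀ (H : Subgroup Ω) (r : Ω), (∀ y ∈ H, r * y * r⁻¹ ∈ H) →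
      (∀ y ∈ H, r⁻¹ * y * r⁻¹⁻¹ ∈ H) → r ∈ Subgroup.normalizer (H : Set Ω) := by
    intro H r h1 h2
    rw [Subgroup.mem_normalizer_iff]
    intro y
    constructor
    · exact h1 y
    · intro hy
      have h3 := h2 _ hy
      have e : r⁻¹ * (r * y * r⁻¹) * r⁻¹⁻¹ = y := by group
      rwa [e] at h3
  have hconjζ : ∀ (m : Cfsg.FusionSystem.normalizerIn S Q) (x : Q),
      ((β (fsEquiv F hχ hχR m) : R) : Ω) *
        (((R.subtype.comp β.toMonoidHom).comp (χ.codRestrict R hχR')).comp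
          (Subgroup.inclusion hQN)) x * ((β (fsEquiv F hχ hχR m) : R) : Ω)⁻¹ =
        (((R.subtype.comp β.toMonoidHom).comp (χ.codRestrict R hχR')).comp
          (Subgroup.inclusion hQN)) ⟨(m : Ω) * x * (m : Ω)⁻¹,
            conj_mem_of_mem_normalizer m.2.2 x.2⟩ := by
    intro m x
    rw [hζe, hζe]
    have e1 : Subgroup.inclusion hQN ⟨(m : Ω) * x * (m : Ω)⁻¹,
        conj_mem_of_mem_normalizer m.2.2 x.2⟩ = m * Subgroup.inclusion hQN x * m⁻¹ :=
      Subtype.ext rfl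
    rw [e1, map_mul, map_mul, map_inv, map_mul, map_mul, map_inv]
    rfl
  have hRle : R ≤ Cfsg.FusionSystem.normalizerIn S
      (((R.subtype.comp β.toMonoidHom).comp (χ.codRestrict R hχR')).comp
        (Subgroup.inclusion hQN)).range := by
    intro r hr
    refine ⟨hRS hr, ?_⟩
    have hn : β (fsEquiv F hχ hχR ((fsEquiv F hχ hχR).symm (β⁻¹ ⟨r, hr⟩))) = ⟨r, hr⟩ := by
      rw [MulEquiv.apply_symm_apply, MulAut.apply_inv_self]
    have hr' : r = ((β (fsEquiv F hχ hχR ((fsEquiv F hχ hχR).symm (β⁻¹ ⟨r, hr⟩))) : R) : Ω) := by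
      rw [hn]
    have hr'' : r⁻¹ = ((β (fsEquiv F hχ hχR ((fsEquiv F hχ hχR).symm (β⁻¹ ⟨r, hr⟩))⁻¹) : R) : Ω) := by
      rw [map_inv, map_inv, hn]
      rfl
    apply hnormal_aux
    · rintro _ ⟨x, rfl⟩
      rw [hr', hconjζ]
      exact ⟨_, rfl⟩
    · rintro _ ⟨x, rfl⟩
      rw [hr'', hconjζ]
      exact ⟨_, rfl⟩
  have hgnorm : g ∈ Subgroup.normalizer
      ((((R.subtype.comp β.toMonoidHom).comp (χ.codRestrict R hχR')).comp
        (Subgroup.inclusion hQN)).range : Set Ω) := by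
    apply hnormal_aux
    · rintro _ ⟨x, rfl⟩
      rw [hζe, ← hε, hγα, ← hζe]
      exact ⟨_, rfl⟩
    · rintro _ ⟨x, rfl⟩
      have h1 := hε (γ⁻¹ (Subgroup.inclusion hQN x))
      rw [MulAut.apply_inv_self, hγinv, ← hζe, ← hζe] at h1
      rw [h1]
      have e : g⁻¹ * (g * (((R.subtype.comp β.toMonoidHom).comp (χ.codRestrict R hχR')).comp
          (Subgroup.inclusion hQN)) (α⁻¹ x) * g⁻¹) * g⁻¹⁻¹ =
          (((R.subtype.comp β.toMonoidHom).comp (χ.codRestrict R hχR')).comp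
          (Subgroup.inclusion hQN)) (α⁻¹ x) := by group
      rw [e]
      exact ⟨_, rfl⟩
  have hRcard : Nat.card R = Nat.card (Cfsg.FusionSystem.normalizerIn S Q) :=
    fs_isConj_card F ⟨χ, hχ, hχR⟩
  haveI : Finite ↥(Cfsg.FusionSystem.normalizerIn S
      (((R.subtype.comp β.toMonoidHom).comp (χ.codRestrict R hχR')).comp
        (Subgroup.inclusion hQN)).range) := finite_of_le inf_le_left
  have heq := Subgroup.eq_of_le_of_card_ge hRle (by rw [hRcard]; exact hcard)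
  have hgR : g ∈ R := by
    rw [heq]
    exact ⟨hgS, hgnorm⟩
  refine ⟨((fsEquiv F hχ hχR).symm (β⁻¹ ⟨g, hgR⟩) : Cfsg.FusionSystem.normalizerIn S Q),
    ((fsEquiv F hχ hχR).symm (β⁻¹ ⟨g, hgR⟩)).2, fun z => ?_⟩
  have hn : β (fsEquiv F hχ hχR ((fsEquiv F hχ hχR).symm (β⁻¹ ⟨g, hgR⟩))) = ⟨g, hgR⟩ := by
    rw [MulEquiv.apply_symm_apply, MulAut.apply_inv_self]
  have h1 : β (fsEquiv F hχ hχR (γ z)) = β (fsEquiv F hχ hχR
      ((fsEquiv F hχ hχR).symm (β⁻¹ ⟨g, hgR⟩) * z * ((fsEquiv F hχ hχR).symm (β⁻¹ ⟨g, hgR⟩))⁻¹)) := by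
    apply Subtype.ext
    rw [hε z, map_mul, map_mul, map_inv, map_mul, map_mul, map_inv, hn]
    rfl
  have h2 := (fsEquiv F hχ hχR).injective (β.injective h1)
  rw [h2]
  rfl

open Cfsg.Agent.Lib.Helper8 in
theorem fa_of_fn {Ω : Type*} [Group Ω] {S : Subgroup Ω} [Finite S] {p : ℕ} [Fact p.Prime]
    (hS : IsPGroup p S) (F : Cfsg.FusionSystem S) (hSfa : F.IsFullyAutomized p S)
    (hrec : ∀ P : Subgroup Ω, F.IsFullyNormalized P → F.IsReceptive P) :
    ∀ n : ℕ, ∀ Q : Subgroup Ω, F.IsFullyNormalized Q → Nat.card S - Nat.card Q = n →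
      F.IsFullyAutomized p Q := by
  intro n
  induction n using Nat.strong_induction_on with
  | _ n ih =>
    intro Q hQ hn
    have hQS := hQ.1
    haveI : Finite Q := finite_of_le hQS
    haveI : Finite (MulAut Q) := finite_mulAut Q
    by_cases hcard : Nat.card S ≤ Nat.card Q
    · have hQeq : Q = S := Subgroup.eq_of_le_of_card_ge hQS hcard
      rw [hQeq]
      exact hSfa
    · push Not at hcard
      obtain ⟨T₁, hT₁, hBT₁⟩ := exists_sylIn_ge (isPGroup_autInducedBy hS Q)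
        (autInducedBy_le_autGroup F hQS)
      by_cases hle : T₁ ≤ Cfsg.autInducedBy S Q
      · have heq : Cfsg.autInducedBy S Q = T₁ := le_antisymm hBT₁ hle
        rw [← heq] at hT₁
        exact ⟨hQS, (sylIn_iff (autInducedBy_le_autGroup F hQS)).mp hT₁⟩
      · exfalso
        obtain ⟨α, hαT, hαN, hαB⟩ := exists_normalizer_not_mem (S := T₁) hT₁.2.1 hBT₁ le_rfl hle
        have hαA : α ∈ F.autGroup Q := hT₁.1 hαT
        obtain ⟨j, hj⟩ := hT₁.2.1 ⟨α, hαT⟩
        have hαj : α ^ p ^ j = 1 := congrArg Subtype.val hj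
        have hnorm : ∀ b ∈ Cfsg.autInducedBy S Q, α * b * α⁻¹ ∈ Cfsg.autInducedBy S Q := by
          intro b hb
          exact (Subgroup.mem_normalizer_iff.mp hαN b).mp hb
        obtain ⟨γ, hγ, hγα⟩ := ext_normalizer F hQS (hrec Q hQ) α hαA hnorm
        have hNS : Cfsg.FusionSystem.normalizerIn S Q ≤ S := inf_le_left
        haveI : Finite (Cfsg.FusionSystem.normalizerIn S Q) := finite_of_le hNS
        haveI : Finite (MulAut (Cfsg.FusionSystem.normalizerIn S Q)) := finite_mulAut _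
        obtain ⟨e, k, hek, he1⟩ := exists_ppow_pow (p := p) γ j
        have hγe : ∀ x : Q, (γ ^ e) (Subgroup.inclusion (le_normalizerIn hQS) x) =
            Subgroup.inclusion (le_normalizerIn hQS) (α x) := by
          intro x
          rw [res_pow (le_normalizerIn hQS) γ α hγα e x, pow_eq_self_of_modEq hαj he1]
        obtain ⟨R, hconj, hRfn⟩ := exists_fullyNormalized_conj F hNS
        have hRcard := fs_isConj_card F hconj
        have hlt := card_lt_card_normalizerIn hS hQS hcard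
        have hRS := hRfn.1
        have hRfa : F.IsFullyAutomized p R := by
          apply ih (Nat.card S - Nat.card R) _ R hRfn rfl
          have h1 : Nat.card R ≤ Nat.card S := Subgroup.card_le_of_le hRS
          omega
        obtain ⟨g, hgN, hg⟩ := inner_of_fa F hQ hconj hRfa (γ ^ e)
          (Subgroup.pow_mem _ hγ e) k hek α hγe
        apply hαB
        rw [mem_autInducedBy_iff]
        refine ⟨g, hgN.1, fun x => ?_⟩
        have h1 := hg (Subgroup.inclusion (le_normalizerIn hQS) x)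
        rw [hγe] at h1
        exact h1

/-- A fusion system over a finite p-group S is saturated if and only if the inner automorphisms of S form a Sylow p-subgroup of Aut_F(S) and every fully normalized subgroup of S is receptive. -/
theorem result {Ω : Type*} [Group Ω] {S : Subgroup Ω} [Finite S] (p : ℕ) [Fact p.Prime] (hS : IsPGroup p S) (F : Cfsg.FusionSystem S) : F.IsSaturated p ↔ (F.IsFullyAutomized p S ∧ ∀ P : Subgroup Ω, F.IsFullyNormalized P → F.IsReceptive P) := by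
  open Cfsg.Agent.Lib.Helper8 in
  constructor
  · intro hF
    exact ⟨sat_top_fa F hF, fun P hP => sat_fc_receptive hS F hF (sat_fn hS F hF hP).1⟩
  · rintro ⟨hSfa, hrec⟩ P hP
    obtain ⟨R, hconj, hfn⟩ := exists_fullyNormalized_conj F hP
    exact ⟨R, hconj, fa_of_fn hS F hSfa hrec _ R hfn rfl, hrec R hfn⟩

end Cfsg.Agent.S5111
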