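import Cfsg.Statements.S5345
import Cfsg.Agent.Lib.Helper8.Syl

set_option autoImplicit false
open Cfsg

namespace Cfsg.Agent.S5345

theorem comm_of_mem_two_group {G : Type*} [Group G] {D : Set G} (hD : Cfsg.IsThreeTranspositionSet D)
    {K : Subgroup G} (hK : IsPGroup 2 K) {a b : G} (ha : a ∈ D) (hb : b ∈ D) (haK : a ∈ K) (hbK : b ∈ K) :
    a * b = b * a := by
  have ha2 : a * a = 1 := by rw [← pow_two, ← hD.1 a ha, pow_orderOf_eq_one]
  have hb2 : b * b = 1 := by rw [← pow_two, ← hD.1 b hb, pow_orderOf_eq_one]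
  have hainv : a⁻¹ = a := inv_eq_of_mul_eq_one_right ha2
  have hbinv : b⁻¹ = b := inv_eq_of_mul_eq_one_right hb2
  have hsq : (a * b) ^ 2 = 1 := by
    rcases hD.2 a ha b hb with h | h
    · exact h
    · obtain ⟨k, hk⟩ := hK ⟨a * b, K.mul_mem haK hbK⟩
      have hk' : (a * b) ^ 2 ^ k = 1 := by simpa using congrArg Subtype.val hk
      have hdvd : orderOf (a * b) ∣ Nat.gcd (2 ^ k) 3 :=
        Nat.dvd_gcd (orderOf_dvd_of_pow_eq_one hk') (orderOf_dvd_of_pow_eq_one h)
      have hc : Nat.gcd (2 ^ k) 3 = 1 := by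
        apply Nat.Coprime.pow_left
        decide
      rw [hc] at hdvd
      have h1 : a * b = 1 := orderOf_eq_one_iff.mp (Nat.dvd_one.mp hdvd)
      rw [h1, one_pow]
  have h3 : a * b = (a * b)⁻¹ := by
    rw [pow_two] at hsq
    exact eq_inv_of_mul_eq_one_right hsq
  rw [h3, mul_inv_rev, hainv, hbinv]

theorem two_group_of_comm {G : Type*} [Group G] {D : Set G} (hD : Cfsg.IsThreeTranspositionSet D)
    {E : Set G} (hE : E ⊆ D) (hcomm : ∀ a ∈ E, ∀ b ∈ E, Commute a b) : IsPGroup 2 (Subgroup.closure E) := by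
  have hc := Subgroup.isMulCommutative_closure (k := E) (fun x hx y hy => (hcomm x hx y hy).eq)
  have hc' : ∀ x ∈ Subgroup.closure E, ∀ y ∈ Subgroup.closure E, x * y = y * x := by
    intro x hx y hy
    have h1 := (isMulCommutative_iff.mp hc) ⟨x, hx⟩ ⟨y, hy⟩
    exact congrArg Subtype.val h1
  have hsq : ∀ x ∈ Subgroup.closure E, x * x = 1 := by
    intro x hx
    induction hx using Subgroup.closure_induction with
    | mem y hy => rw [← pow_two, ← hD.1 y (hE hy), pow_orderOf_eq_one]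
    | one => rw [one_mul]
    | mul a b ha hb iha ihb =>
      calc a * b * (a * b) = a * (b * a) * b := by group
        _ = a * (a * b) * b := by rw [hc' b hb a ha]
        _ = (a * a) * (b * b) := by group
        _ = 1 := by rw [iha, ihb, one_mul]
    | inv a ha iha =>
      calc a⁻¹ * a⁻¹ = (a * a)⁻¹ := by group
        _ = 1 := by rw [iha, inv_one]
  intro g
  refine ⟨1, ?_⟩
  apply Subtype.ext
  show (g : G) ^ 2 ^ 1 = 1
  rw [pow_one, pow_two]
  exact hsq g g.2

/-- Let D be a conjugation-invariant generating set of 3-transpositions of a finite group G and T a Sylow 2-subgroup of G. Then the members of D lying in T generate an abelian subgroup, and their number is the width of D (the largest number of pairwise commuting members of D). -/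
theorem result {G : Type*} [Group G] [Finite G] {D : Set G} (hD : Cfsg.IsThreeTranspositionGroup D) (T : Sylow 2 G) : IsMulCommutative (Subgroup.closure {d : G | d ∈ D ∧ d ∈ T}) ∧ {d : G | d ∈ D ∧ d ∈ T}.ncard = Cfsg.commutingWidth D := by
  have hDT : ∀ a ∈ {d : G | d ∈ D ∧ d ∈ T}, ∀ b ∈ {d : G | d ∈ D ∧ d ∈ T}, a * b = b * a :=
    fun a ha b hb => comm_of_mem_two_group hD.1 T.isPGroup' ha.1 hb.1 ha.2 hb.2
  refine ⟨Subgroup.isMulCommutative_closure hDT, ?_⟩
  have hfin : {d : G | d ∈ D ∧ d ∈ T}.Finite := Set.toFinite _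
  have hmem : {d : G | d ∈ D ∧ d ∈ T}.ncard ∈ {n : ℕ | ∃ E : Set G, E ⊆ D ∧ E.Finite ∧
      (∀ a ∈ E, ∀ b ∈ E, Commute a b) ∧ E.ncard = n} :=
    ⟨_, fun d hd => hd.1, hfin, hDT, rfl⟩
  have hub : ∀ n ∈ {n : ℕ | ∃ E : Set G, E ⊆ D ∧ E.Finite ∧
      (∀ a ∈ E, ∀ b ∈ E, Commute a b) ∧ E.ncard = n}, n ≤ {d : G | d ∈ D ∧ d ∈ T}.ncard := by
    rintro n ⟨E, hED, hEfin, hEc, rfl⟩
    have hp := two_group_of_comm hD.1 hED hEc
    obtain ⟨g, -, hg⟩ := (Cfsg.Agent.Lib.Helper8.sylIn_top T).exists_conj_le hp le_top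
    apply Set.ncard_le_ncard_of_injOn (fun e => g * e * g⁻¹) ?_ ?_ hfin
    · intro e he
      exact ⟨hD.2.1 g e (hED he), hg (Cfsg.Agent.Lib.Helper8.cj_mem (Subgroup.subset_closure he))⟩
    · intro e₁ _ e₂ _ h12
      exact mul_left_cancel (mul_right_cancel h12)
  unfold Cfsg.commutingWidth
  exact le_antisymm (le_csSup ⟨_, hub⟩ hmem) (csSup_le ⟨_, hmem⟩ hub)

end Cfsg.Agent.S5345
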