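import Cfsg.Statements.S5347

set_option autoImplicit false
open Cfsg

namespace Cfsg.Agent.S5347

/-- Let D be a conjugation-invariant generating set of 3-transpositions of a finite group G, p a prime bigger than 3, and P a p-subgroup of G. If a member d of D normalizes P then d centralizes P. -/
theorem result {G : Type*} [Group G] [Finite G] {D : Set G} (hD : Cfsg.IsThreeTranspositionGroup D) {p : ℕ} (hp : p.Prime) (hp3 : 3 < p) (P : Subgroup G) (hP : IsPGroup p P) {d : G} (hd : d ∈ D) (hnorm : d ∈ Subgroup.normalizer (P : Set G)) : ∀ x ∈ P, Commute d x := by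
  intro x hx
  obtain ⟨⟨hord, hprod⟩, hconj, -⟩ := hD
  have hd2 : d * d = 1 := by
    have := hord d hd
    rw [← pow_two, ← this, pow_orderOf_eq_one]
  have hdinv : d⁻¹ = d := inv_eq_of_mul_eq_one_right hd2
  have he : x * d * x⁻¹ ∈ D := hconj x d hd
  have hmem : d * (x * d * x⁻¹) ∈ P := by
    have h1 : d * x * d⁻¹ ∈ P := (Subgroup.mem_normalizer_iff.mp hnorm x).mp hx
    have h2 : d * (x * d * x⁻¹) = (d * x * d⁻¹) * x⁻¹ := by rw [hdinv]; group
    rw [h2]; exact P.mul_mem h1 (P.inv_mem hx)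
  have hone : d * (x * d * x⁻¹) = 1 := by
    obtain ⟨k, hk⟩ := hP ⟨_, hmem⟩
    have hk' : (d * (x * d * x⁻¹)) ^ p ^ k = 1 := by simpa using congrArg Subtype.val hk
    rcases hprod d hd _ he with h2 | h3
    · have hdvd : orderOf (d * (x * d * x⁻¹)) ∣ Nat.gcd (p ^ k) 2 :=
        Nat.dvd_gcd (orderOf_dvd_of_pow_eq_one hk') (orderOf_dvd_of_pow_eq_one h2)
      have hc : Nat.gcd (p ^ k) 2 = 1 := by
        apply Nat.Coprime.pow_left
        rw [Nat.coprime_primes hp Nat.prime_two]
        omega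
      rw [hc] at hdvd
      exact orderOf_eq_one_iff.mp (Nat.dvd_one.mp hdvd)
    · have hdvd : orderOf (d * (x * d * x⁻¹)) ∣ Nat.gcd (p ^ k) 3 :=
        Nat.dvd_gcd (orderOf_dvd_of_pow_eq_one hk') (orderOf_dvd_of_pow_eq_one h3)
      have hc : Nat.gcd (p ^ k) 3 = 1 := by
        apply Nat.Coprime.pow_left
        rw [Nat.coprime_primes hp Nat.prime_three]
        omega
      rw [hc] at hdvd
      exact orderOf_eq_one_iff.mp (Nat.dvd_one.mp hdvd)
  have hxd : x * d * x⁻¹ = d := by
    have h := eq_inv_of_mul_eq_one_right hone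
    rw [h, hdinv]
  show d * x = x * d
  calc d * x = (x * d * x⁻¹) * x := by rw [hxd]
    _ = x * d := by group

end Cfsg.Agent.S5347
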