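import Cfsg.Statements.S5363

set_option autoImplicit false
open Cfsg

namespace Cfsg.Agent.S5363

theorem sq_one_of_order_two {G : Type*} [Group G] {d : G} (h : orderOf d = 2) : d * d = 1 := by
  rw [← pow_two, ← h, pow_orderOf_eq_one]

theorem fwd {G : Type*} [Group G] {D : Set G} (hinv : ∀ d ∈ D, orderOf d = 2)
    (h : ∀ a ∈ D, ∀ b ∈ D, Odd (orderOf (a * b)) ∨ orderOf (a * b) = 2)
    (a : G) (ha : a ∈ D) (b : G) (hb : b ∈ D) (hba : b ≠ a) (hab : Commute a b)
    (y : G) (hy : y ∈ D) (hcy : Commute (a * b) y) : Commute a y := by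
  have ha2 : a * a = 1 := sq_one_of_order_two (hinv a ha)
  have hb2 : b * b = 1 := sq_one_of_order_two (hinv b hb)
  have hy2 : y * y = 1 := sq_one_of_order_two (hinv y hy)
  have hainv : a⁻¹ = a := inv_eq_of_mul_eq_one_right ha2
  have hyinv : y⁻¹ = y := inv_eq_of_mul_eq_one_right hy2
  rcases h a ha y hy with hodd | h2
  · have ht2 : orderOf (a * b) = 2 := by
      haveI : Fact (Nat.Prime 2) := ⟨Nat.prime_two⟩
      apply orderOf_eq_prime
      · rw [pow_two]
        calc a * b * (a * b) = a * (b * a) * b := by group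
          _ = a * (a * b) * b := by rw [hab.eq]
          _ = (a * a) * (b * b) := by group
          _ = 1 := by rw [ha2, hb2, mul_one]
      · intro h1
        apply hba
        have := eq_inv_of_mul_eq_one_right h1
        rw [this, hainv]
    have hc : Commute (a * b) (a * y) := by
      apply Commute.mul_right _ hcy
      exact (Commute.refl a).mul_left hab.symm
    have hord : orderOf (a * b * (a * y)) = 2 * orderOf (a * y) := by
      rw [hc.orderOf_mul_eq_mul_orderOf_of_coprime, ht2]
      rw [ht2]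
      exact Nat.coprime_two_left.mpr hodd
    have heq : a * b * (a * y) = b * y := by
      calc a * b * (a * y) = b * a * (a * y) := by rw [hab.eq]
        _ = b * (a * a) * y := by group
        _ = b * y := by rw [ha2, mul_one]
    rw [heq] at hord
    rcases h b hb y hy with hodd' | h2'
    · rw [hord] at hodd'
      exact absurd hodd' (by simp)
    · rw [hord] at h2'
      have h1 : orderOf (a * y) = 1 := by omega
      rw [orderOf_eq_one_iff] at h1
      have hya : y = a := by
        have := eq_inv_of_mul_eq_one_right h1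
        rw [this, hainv]
      rw [hya]
  · have hsq : a * y * (a * y) = 1 := sq_one_of_order_two h2
    show a * y = y * a
    have h3 : a * y = (a * y)⁻¹ := eq_inv_of_mul_eq_one_right hsq
    rw [h3, mul_inv_rev, hainv, hyinv]

theorem bwd {G : Type*} [Group G] [Finite G] {D : Set G} (hinv : ∀ d ∈ D, orderOf d = 2)
    (hconj : ∀ g : G, ∀ d ∈ D, g * d * g⁻¹ ∈ D)
    (h : ∀ a ∈ D, ∀ b ∈ D, b ≠ a → Commute a b →
      {y : G | y ∈ D ∧ Commute (a * b) y} = {y : G | y ∈ D ∧ Commute a y} ∩ {y : G | y ∈ D ∧ Commute b y})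
    (a : G) (ha : a ∈ D) (b : G) (hb : b ∈ D) : Odd (orderOf (a * b)) ∨ orderOf (a * b) = 2 := by
  have ha2 : a * a = 1 := sq_one_of_order_two (hinv a ha)
  have hb2 : b * b = 1 := sq_one_of_order_two (hinv b hb)
  have hainv : a⁻¹ = a := inv_eq_of_mul_eq_one_right ha2
  have hbinv : b⁻¹ = b := inv_eq_of_mul_eq_one_right hb2
  by_contra hcon
  push Not at hcon
  obtain ⟨hnodd, hn2⟩ := hcon
  have hpos : 0 < orderOf (a * b) := orderOf_pos (a * b)
  rw [Nat.not_odd_iff_even] at hnodd
  obtain ⟨k, hk⟩ := hnodd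
  have hk2 : 2 ≤ k := by omega
  set c := a * b with hc
  have hcinv : c⁻¹ = b * a := by rw [hc, mul_inv_rev, hainv, hbinv]
  have hac : a * c * a⁻¹ = c⁻¹ := by
    rw [hcinv, hc, hainv]
    calc a * (a * b) * a = (a * a) * b * a := by group
      _ = b * a := by rw [ha2, one_mul]
  have hbc : b * c * b⁻¹ = c⁻¹ := by
    rw [hcinv, hc, hbinv]
    calc b * (a * b) * b = b * a * (b * b) := by group
      _ = b * a := by rw [hb2, mul_one]
  have hu2 : c ^ k * c ^ k = 1 := by
    rw [← pow_add, ← hk, pow_orderOf_eq_one]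
  have huinv : (c ^ k)⁻¹ = c ^ k := inv_eq_of_mul_eq_one_right hu2
  have hu1 : c ^ k ≠ 1 := pow_ne_one_of_lt_orderOf (by omega) (by omega)
  have hau : a * c ^ k * a⁻¹ = c ^ k := by
    rw [← conj_pow, hac, inv_pow, huinv]
  have hbu : b * c ^ k * b⁻¹ = c ^ k := by
    rw [← conj_pow, hbc, inv_pow, huinv]
  have hcomm_au : a * c ^ k = c ^ k * a := by
    calc a * c ^ k = a * c ^ k * a⁻¹ * a := by group
      _ = c ^ k * a := by rw [hau]
  have hcomm_bu : b * c ^ k = c ^ k * b := by
    calc b * c ^ k = b * c ^ k * b⁻¹ * b := by group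
      _ = c ^ k * b := by rw [hbu]
  have hswap : ∀ j : ℕ, (c ^ j)⁻¹ * a = a * c ^ j := by
    intro j
    have h1 : a * c ^ j * a⁻¹ = (c ^ j)⁻¹ := by rw [← conj_pow, hac, inv_pow]
    rw [← h1]
    group
  have hmem : a * c ^ k ∈ D := by
    rcases Nat.even_or_odd' k with ⟨j, hj | hj⟩
    · have h1 : a * c ^ k = (c ^ j)⁻¹ * a * ((c ^ j)⁻¹)⁻¹ := by
        rw [inv_inv, hswap j, mul_assoc, ← pow_add, hj, two_mul]
      rw [h1]
      exact hconj _ a ha
    · have h1 : a * c ^ k = (c ^ j)⁻¹ * b * ((c ^ j)⁻¹)⁻¹ := by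
        have hb' : b = a * c := by rw [hc, ← mul_assoc, ha2, one_mul]
        rw [inv_inv]
        conv_rhs => rw [hb']
        rw [← mul_assoc, hswap j, mul_assoc, mul_assoc, ← pow_succ', ← pow_add, hj]
        congr 2
        omega
      rw [h1]
      exact hconj _ b hb
  have hne : a * c ^ k ≠ a := by
    intro h1
    apply hu1
    exact mul_left_cancel (h1.trans (mul_one a).symm)
  have hcomm : Commute a (a * c ^ k) := by
    show a * (a * c ^ k) = a * c ^ k * a
    rw [mul_assoc, hcomm_au]
  have hset := h a ha (a * c ^ k) hmem hne hcomm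
  have hbmem : b ∈ {y : G | y ∈ D ∧ Commute (a * (a * c ^ k)) y} := by
    refine ⟨hb, ?_⟩
    rw [← mul_assoc, ha2, one_mul]
    exact hcomm_bu.symm
  rw [hset] at hbmem
  have hab : a * b = b * a := hbmem.1.2
  have hc2 : c ^ 2 = 1 := by
    rw [pow_two, hc]
    calc a * b * (a * b) = a * (b * a) * b := by group
      _ = a * (a * b) * b := by rw [hab]
      _ = (a * a) * (b * b) := by group
      _ = 1 := by rw [ha2, hb2, mul_one]
  have hdvd := orderOf_dvd_of_pow_eq_one hc2
  have := Nat.le_of_dvd (by norm_num) hdvd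
  omega

/-- Let D be a conjugation-invariant set of involutions of a finite group G. Then every product of two members of D has odd order or order 2 if and only if, for every a in D and every b in D different from a and commuting with a, the members of D commuting with a b are exactly those commuting with both a and b. -/
theorem result {G : Type*} [Group G] [Finite G] {D : Set G} (hinv : ∀ d ∈ D, orderOf d = 2) (hconj : ∀ g : G, ∀ d ∈ D, g * d * g⁻¹ ∈ D) : (∀ a ∈ D, ∀ b ∈ D, Odd (orderOf (a * b)) ∨ orderOf (a * b) = 2) ↔ ∀ a ∈ D, ∀ b ∈ D, b ≠ a → Commute a b → {y : G | y ∈ D ∧ Commute (a * b) y} = {y : G | y ∈ D ∧ Commute a y} ∩ {y : G | y ∈ D ∧ Commute b y} := by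
  constructor
  · intro h a ha b hb hba hab
    ext y
    constructor
    · rintro ⟨hy, hcy⟩
      have hay : Commute a y := fwd hinv h a ha b hb hba hab y hy hcy
      refine ⟨⟨hy, hay⟩, ⟨hy, ?_⟩⟩
      have ha2 : a * a = 1 := sq_one_of_order_two (hinv a ha)
      have hb' : b = a * (a * b) := by rw [← mul_assoc, ha2, one_mul]
      rw [hb']
      exact hay.mul_left hcy
    · rintro ⟨⟨hy, hay⟩, ⟨-, hby⟩⟩
      exact ⟨hy, hay.mul_left hby⟩
  · intro h a ha b hb
    exact bwd hinv hconj h a ha b hb

end Cfsg.Agent.S5363
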