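import Cfsg.Statements.S5364

set_option autoImplicit false
open Cfsg

namespace Cfsg.Agent.S5364

/-- Let D be a conjugation-invariant set of involutions of a finite group G and t an involution in the centre of G such that d t does not lie in D for any d in D. If the images of the members of D in G modulo the subgroup generated by t satisfy the 3-transposition order conditions (each has order 2 and any two have product of order at most 3), then so do the members of D. -/
theorem result {G : Type*} [Group G] [Finite G] {D : Set G} (hinv : ∀ d ∈ D, orderOf d = 2) (hconj : ∀ g : G, ∀ d ∈ D, g * d * g⁻¹ ∈ D) (t : G) (ht : orderOf t = 2) (htZ : t ∈ Subgroup.center G) (hDt : ∀ d ∈ D, d * t ∉ D) [(Subgroup.zpowers t).Normal] (himg : Cfsg.IsThreeTranspositionSet ((QuotientGroup.mk : G → G ⧸ Subgroup.zpowers t) '' D)) : Cfsg.IsThreeTranspositionSet D := by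
  refine ⟨hinv, ?_⟩
  intro d hd e he
  have hd2 : d * d = 1 := by rw [← pow_two, ← hinv d hd, pow_orderOf_eq_one]
  have he2 : e * e = 1 := by rw [← pow_two, ← hinv e he, pow_orderOf_eq_one]
  have hdinv : d⁻¹ = d := inv_eq_of_mul_eq_one_right hd2
  have heinv : e⁻¹ = e := inv_eq_of_mul_eq_one_right he2
  have hz : ∀ g : G, g ∈ Subgroup.zpowers t → g = 1 ∨ g = t := by
    intro g hg
    obtain ⟨k, rfl⟩ := Subgroup.mem_zpowers_iff.mp hg
    rw [← zpow_mod_orderOf, ht]
    have hk : k % 2 = 0 ∨ k % 2 = 1 := by omega
    simp only [Nat.cast_ofNat]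
    rcases hk with h | h
    · left; rw [h, zpow_zero]
    · right; rw [h, zpow_one]
  have key := himg.2 _ ⟨d, hd, rfl⟩ _ ⟨e, he, rfl⟩
  rcases key with h | h
  · left
    have hmem : ((d * e) ^ 2 : G) ∈ Subgroup.zpowers t := by
      rw [← QuotientGroup.eq_one_iff]
      simpa using h
    rcases hz _ hmem with h1 | h1
    · exact h1
    · exfalso
      have h2 : d * (e * d * e) = t := by rw [← h1, pow_two]; group
      have h3 : e * d * e⁻¹ = d * t := by
        rw [heinv]
        calc e * d * e = d⁻¹ * (d * (e * d * e)) := by group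
          _ = d * t := by rw [h2, hdinv]
      exact hDt d hd (h3 ▸ hconj e d hd)
  · right
    have hmem : ((d * e) ^ 3 : G) ∈ Subgroup.zpowers t := by
      rw [← QuotientGroup.eq_one_iff]
      simpa using h
    rcases hz _ hmem with h1 | h1
    · exact h1
    · exfalso
      have h2 : d * (e * d * e * d * e) = t := by rw [← h1, pow_succ, pow_two]; group
      have h3 : (e * d) * e * (e * d)⁻¹ = d * t := by
        calc (e * d) * e * (e * d)⁻¹ = e * d * e * d⁻¹ * e⁻¹ := by group
          _ = e * d * e * d * e := by rw [hdinv, heinv]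
          _ = d⁻¹ * (d * (e * d * e * d * e)) := by group
          _ = d * t := by rw [h2, hdinv]
      exact hDt d hd (h3 ▸ hconj (e * d) e he)

end Cfsg.Agent.S5364
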