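import Cfsg.Statements.S5395

set_option autoImplicit false
open Cfsg

namespace Cfsg.Agent.S5395

section
open scoped IsMulCommutative

theorem central_mul {E : Type*} [Group E] {c : E} (hc : c ∈ Subgroup.center E) (x : E) : c * x = x * c :=
  (Subgroup.mem_center_iff.mp hc x).symm

theorem comm_mem_center {E : Type*} [Group E] (hcomm : commutator E = Subgroup.center E) (x y : E) :
    x * y * x⁻¹ * y⁻¹ ∈ Subgroup.center E := by
  rw [← hcomm, commutator_def]
  exact Subgroup.commutator_mem_commutator (Subgroup.mem_top x) (Subgroup.mem_top y)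

theorem center_sq {E : Type*} [Group E] (hcard : Nat.card (Subgroup.center E) = 2) {c : E}
    (hc : c ∈ Subgroup.center E) : c * c = 1 := by
  have h1 : (⟨c, hc⟩ : Subgroup.center E) ^ Nat.card (Subgroup.center E) = 1 := pow_card_eq_one'
  rw [hcard, pow_two] at h1
  exact congrArg Subtype.val h1

def kappaFun {E : Type*} [Group E] (hcomm : commutator E = Subgroup.center E) (g : E) :
    E →* Subgroup.center E :=
  MonoidHom.mk' (fun x => ⟨g * x * g⁻¹ * x⁻¹, comm_mem_center hcomm g x⟩) (by
    intro x y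
    apply Subtype.ext
    show g * (x * y) * g⁻¹ * (x * y)⁻¹ = (g * x * g⁻¹ * x⁻¹) * (g * y * g⁻¹ * y⁻¹)
    have hc := central_mul (comm_mem_center hcomm g y) x⁻¹
    calc g * (x * y) * g⁻¹ * (x * y)⁻¹ = g * x * g⁻¹ * ((g * y * g⁻¹ * y⁻¹) * x⁻¹) := by group
      _ = g * x * g⁻¹ * (x⁻¹ * (g * y * g⁻¹ * y⁻¹)) := by rw [hc]
      _ = (g * x * g⁻¹ * x⁻¹) * (g * y * g⁻¹ * y⁻¹) := by group)

def kappa {E : Type*} [Group E] (hcomm : commutator E = Subgroup.center E) :
    E →* (E →* Subgroup.center E) :=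
  MonoidHom.mk' (kappaFun hcomm) (by
    intro g h
    apply MonoidHom.ext
    intro x
    apply Subtype.ext
    show g * h * x * (g * h)⁻¹ * x⁻¹ = (g * x * g⁻¹ * x⁻¹) * (h * x * h⁻¹ * x⁻¹)
    obtain ⟨c, hcdef⟩ : ∃ c, c = h * x * h⁻¹ * x⁻¹ := ⟨_, rfl⟩
    have hc : c ∈ Subgroup.center E := hcdef ▸ comm_mem_center hcomm h x
    have h1 := central_mul hc g
    have h2 := central_mul hc (g * x * g⁻¹ * x⁻¹)
    rw [← hcdef, ← h2]
    calc g * h * x * (g * h)⁻¹ * x⁻¹ = g * (h * x * h⁻¹ * x⁻¹) * (x * g⁻¹ * x⁻¹) := by group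
      _ = g * c * (x * g⁻¹ * x⁻¹) := by rw [hcdef]
      _ = c * g * (x * g⁻¹ * x⁻¹) := by rw [h1]
      _ = c * (g * x * g⁻¹ * x⁻¹) := by group)

theorem kappa_ker {E : Type*} [Group E] (hcomm : commutator E = Subgroup.center E) :
    (kappa hcomm).ker = Subgroup.center E := by
  ext g
  rw [MonoidHom.mem_ker, Subgroup.mem_center_iff]
  constructor
  · intro h x
    have h1 := congrArg (fun f : E →* Subgroup.center E => ((f x : Subgroup.center E) : E)) h
    have h2 : g * x * g⁻¹ * x⁻¹ = 1 := h1
    calc x * g = (g * x * g⁻¹ * x⁻¹)⁻¹ * (g * x) := by group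
      _ = g * x := by rw [h2, inv_one, one_mul]
  · intro h
    apply MonoidHom.ext
    intro x
    apply Subtype.ext
    show g * x * g⁻¹ * x⁻¹ = 1
    rw [← h x]
    group

theorem sq_mem_center {E : Type*} [Group E] (hcomm : commutator E = Subgroup.center E)
    (hcard : Nat.card (Subgroup.center E) = 2) (x : E) : x ^ 2 ∈ Subgroup.center E := by
  rw [Subgroup.mem_center_iff]
  intro y
  obtain ⟨c, hcdef⟩ : ∃ c, c = x * y * x⁻¹ * y⁻¹ := ⟨_, rfl⟩
  have hc : c ∈ Subgroup.center E := hcdef ▸ comm_mem_center hcomm x y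
  have hc2 := center_sq hcard hc
  have h1 : x * y = c * (y * x) := by
    rw [hcdef]
    group
  have h3 := central_mul hc x
  rw [pow_two]
  calc y * (x * x) = (c * c) * (y * (x * x)) := by rw [hc2, one_mul]
    _ = c * ((c * (y * x)) * x) := by group
    _ = c * ((x * y) * x) := by rw [← h1]
    _ = (c * x) * (y * x) := by group
    _ = (x * c) * (y * x) := by rw [h3]
    _ = x * (c * (y * x)) := by group
    _ = x * (x * y) := by rw [← h1]
    _ = x * x * y := by group

theorem card_hom {E : Type*} [Group E] [Finite E] (hcomm : commutator E = Subgroup.center E)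
    (hcard : Nat.card (Subgroup.center E) = 2) :
    2 * Nat.card (E →* Subgroup.center E) = Nat.card E := by
  haveI : Fact (Nat.Prime 2) := ⟨Nat.prime_two⟩
  have hZ : Nat.card ℤˣ = 2 := by rw [Nat.card_eq_fintype_card, Fintype.card_units_int]
  have e1 : Nat.card (E →* Subgroup.center E) = Nat.card (Abelianization E →* Subgroup.center E) :=
    Nat.card_congr (Abelianization.lift (G := E) (A := Subgroup.center E))
  have e2 : Nat.card (Abelianization E →* Subgroup.center E) = Nat.card (Abelianization E →* ℤˣ) :=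
    Nat.card_congr (MulEquiv.monoidHomCongrRight (mulEquivOfPrimeCardEq hcard hZ)).toEquiv
  have hcyc : IsCyclic ℤˣ := isCyclic_of_prime_card hZ
  haveI h2 : HasEnoughRootsOfUnity ℤ 2 :=
    ⟨⟨-1, IsPrimitiveRoot.neg_one 0 (by norm_num)⟩, inferInstance⟩
  have hexp : Monoid.exponent (Abelianization E) ∣ 2 := by
    apply Monoid.exponent_dvd_of_forall_pow_eq_one
    intro a
    obtain ⟨x, rfl⟩ := QuotientGroup.mk_surjective a
    have h3 : x ^ 2 ∈ (Abelianization.of (G := E)).ker := by
      rw [Abelianization.ker_of, hcomm]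
      exact sq_mem_center hcomm hcard x
    have h4 := MonoidHom.mem_ker.mp h3
    rw [map_pow] at h4
    exact h4
  haveI : HasEnoughRootsOfUnity ℤ (Monoid.exponent (Abelianization E)) :=
    HasEnoughRootsOfUnity.of_dvd ℤ hexp
  have e3 : Nat.card (Abelianization E →* ℤˣ) = Nat.card (Abelianization E) :=
    CommGroup.card_monoidHom_of_hasEnoughRootsOfUnity (Abelianization E) ℤ
  have e4 : Nat.card (Abelianization E) = (commutator E).index := (Subgroup.index_eq_card _).symm
  have e5 := Subgroup.card_mul_index (commutator E)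
  rw [hcomm] at e5 e4
  rw [hcard] at e5
  rw [e1, e2, e3, e4]
  exact e5

theorem aux {E : Type*} [Group E] [Finite E] (hE : Cfsg.IsExtraspecial 2 E) (φ : E ≃* E)
    (hφ : ∀ x : E, φ x * x⁻¹ ∈ Subgroup.center E) : ∃ g : E, ∀ x : E, φ x = g * x * g⁻¹ := by
  have hcomm : commutator E = Subgroup.center E := hE.1.2.2
  have hcard : Nat.card (Subgroup.center E) = 2 := hE.2
  have h1 := card_hom hcomm hcard
  have h2 := Subgroup.index_ker (kappa hcomm)
  rw [kappa_ker] at h2
  have h3 := Subgroup.card_mul_index (Subgroup.center E)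
  rw [hcard, h2] at h3
  have h4 : Nat.card (kappa hcomm).range = Nat.card (E →* Subgroup.center E) := by omega
  have hfin : Finite (E →* Subgroup.center E) :=
    Finite.of_injective (fun f : E →* Subgroup.center E => (f : E → Subgroup.center E))
      DFunLike.coe_injective
  have hfin2 : Finite (kappa hcomm).range :=
    Finite.of_injective (fun x : (kappa hcomm).range => (x : E →* Subgroup.center E))
      Subtype.val_injective
  have h5 : (kappa hcomm).range = ⊤ := Subgroup.eq_top_of_card_eq _ h4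
  let ζ : E →* Subgroup.center E := MonoidHom.mk' (fun x => ⟨φ x * x⁻¹, hφ x⟩) (by
    intro x y
    apply Subtype.ext
    show φ (x * y) * (x * y)⁻¹ = (φ x * x⁻¹) * (φ y * y⁻¹)
    have hc := central_mul (hφ y) x⁻¹
    rw [map_mul]
    calc φ x * φ y * (x * y)⁻¹ = φ x * ((φ y * y⁻¹) * x⁻¹) := by group
      _ = φ x * (x⁻¹ * (φ y * y⁻¹)) := by rw [hc]
      _ = (φ x * x⁻¹) * (φ y * y⁻¹) := by group)
  have h6 : ζ ∈ (kappa hcomm).range := by
    rw [h5]
    exact Subgroup.mem_top _
  obtain ⟨g, hg⟩ := h6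
  refine ⟨g, fun x => ?_⟩
  have h7 := congrArg (fun f : E →* Subgroup.center E => ((f x : Subgroup.center E) : E)) hg
  have h8 : g * x * g⁻¹ * x⁻¹ = φ x * x⁻¹ := h7
  exact (mul_right_cancel h8).symm

end

/-- For a finite extraspecial 2-group E, an automorphism of E that induces the identity on E modulo its centre is inner (so these automorphisms form exactly the inner automorphism group, an elementary abelian 2-group of order |E|/2). -/
theorem result {E : Type*} [Group E] [Finite E] (hE : Cfsg.IsExtraspecial 2 E) (φ : E ≃* E) (hφ : ∀ x : E, φ x * x⁻¹ ∈ Subgroup.center E) : ∃ g : E, ∀ x : E, φ x = g * x * g⁻¹ := by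
  exact aux hE φ hφ

end Cfsg.Agent.S5395
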