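import Cfsg.Statements.S5420
import Cfsg.Agent.Lib.Helper9.Basic

set_option autoImplicit false
open Cfsg

namespace Cfsg.Agent.S5420

/-- Let Q be an extraspecial 2-subgroup of the finite group G whose centralizer in G is its centre Z and which is normal in the centralizer of Z. If Z lies in the largest normal 2-subgroup of G, then Q is a large extraspecial 2-subgroup of G: it normalizes no non-trivial subgroup of G of odd order. -/
theorem result {G : Type*} [Group G] [Finite G] (Q : Subgroup G) (hL1 : Cfsg.IsExtraspecial 2 ↥Q) (hL2 : Subgroup.centralizer (Q : Set G) = ((Subgroup.center ↥Q).map Q.subtype)) (hL3 : Subgroup.centralizer (((Subgroup.center ↥Q).map Q.subtype) : Set G) ≤ Subgroup.normalizer (Q : Set G)) (hZ : ((Subgroup.center ↥Q).map Q.subtype) ≤ Cfsg.pCore 2 G) : Cfsg.IsLargeExtraspecial Q := by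
  refine ⟨hL1, hL2, hL3, ?_⟩
  intro K hKodd hQK
  have hQ2 : IsPGroup 2 ↥Q := hL1.1.1
  have hZQ : (Subgroup.center ↥Q).map Q.subtype ≤ Q := Subgroup.map_subtype_le _
  have hOn : (Cfsg.pCore 2 G).Normal := Cfsg.Agent.Lib.Helper9.pCore_normal 2 G
  have hKO : K ⊓ Cfsg.pCore 2 G = ⊥ :=
    Cfsg.Agent.Lib.Helper9.odd_inf_two_group K _ hKodd (Cfsg.Agent.Lib.Helper9.pCore_isPGroup 2 G)
  have hKQ : K ⊓ Q = ⊥ := Cfsg.Agent.Lib.Helper9.odd_inf_two_group K Q hKodd hQ2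
  have hconj : ∀ q ∈ Q, ∀ k ∈ K, q * k * q⁻¹ * k⁻¹ ∈ K := by
    intro q hq k hk
    have h1 : q ∈ Subgroup.normalizer (K : Set G) := hQK hq
    rw [Subgroup.mem_normalizer_iff] at h1
    exact K.mul_mem ((h1 k).mp hk) (K.inv_mem hk)
  have hA : K ≤ Subgroup.centralizer (((Subgroup.center ↥Q).map Q.subtype : Subgroup G) : Set G) := by
    intro k hk
    rw [Subgroup.mem_centralizer_iff]
    intro z hz
    have hzO : z ∈ Cfsg.pCore 2 G := hZ hz
    have h1 : z * k * z⁻¹ * k⁻¹ ∈ K := hconj z (hZQ hz) k hk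
    have h2 : z * k * z⁻¹ * k⁻¹ ∈ Cfsg.pCore 2 G := by
      have : z * k * z⁻¹ * k⁻¹ = z * (k * z⁻¹ * k⁻¹) := by group
      rw [this]
      exact (Cfsg.pCore 2 G).mul_mem hzO (hOn.conj_mem _ ((Cfsg.pCore 2 G).inv_mem hzO) k)
    have h3 : z * k * z⁻¹ * k⁻¹ ∈ K ⊓ Cfsg.pCore 2 G := ⟨h1, h2⟩
    rw [hKO, Subgroup.mem_bot] at h3
    calc z * k = (z * k * z⁻¹ * k⁻¹) * (k * z) := by group
      _ = k * z := by rw [h3, one_mul]
  have hB : K ≤ Subgroup.normalizer (Q : Set G) := le_trans hA hL3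
  have hC : K ≤ Subgroup.centralizer (Q : Set G) := by
    intro k hk
    rw [Subgroup.mem_centralizer_iff]
    intro q hq
    have h1 : q * k * q⁻¹ * k⁻¹ ∈ K := hconj q hq k hk
    have h2 : q * k * q⁻¹ * k⁻¹ ∈ Q := by
      have : q * k * q⁻¹ * k⁻¹ = q * (k * q⁻¹ * k⁻¹) := by group
      rw [this]
      have hk' := hB hk
      rw [Subgroup.mem_normalizer_iff] at hk'
      exact Q.mul_mem hq ((hk' q⁻¹).mp (Q.inv_mem hq))
    have h3 : q * k * q⁻¹ * k⁻¹ ∈ K ⊓ Q := ⟨h1, h2⟩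
    rw [hKQ, Subgroup.mem_bot] at h3
    calc q * k = (q * k * q⁻¹ * k⁻¹) * (k * q) := by group
      _ = k * q := by rw [h3, one_mul]
  rw [eq_bot_iff, ← hKQ]
  refine le_inf le_rfl ?_
  rw [hL2] at hC
  exact le_trans hC hZQ

end Cfsg.Agent.S5420
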