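import Cfsg.Statements.S5421
import Mathlib
import Cfsg.Agent.Lib.Helper9.Basic
import Cfsg.Agent.Lib.Helper9.Fpf
-- import your own Cfsg.Agent.* helpers here

set_option autoImplicit false
open Cfsg

namespace Cfsg.Agent.S5421

/-- Let Q be an extraspecial 2-subgroup of the finite group G whose centralizer in G is its centre Z and which is normal in the centralizer of Z. If some involution b of Q outside Z has Z inside the largest normal 2-subgroup of the centralizer of b, then Q is a large extraspecial 2-subgroup of G. -/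
theorem result {G : Type*} [Group G] [Finite G] (Q : Subgroup G) (hL1 : Cfsg.IsExtraspecial 2 ↥Q) (hL2 : Subgroup.centralizer (Q : Set G) = ((Subgroup.center ↥Q).map Q.subtype)) (hL3 : Subgroup.centralizer (((Subgroup.center ↥Q).map Q.subtype) : Set G) ≤ Subgroup.normalizer (Q : Set G)) (b : G) (hbQ : b ∈ Q) (hbZ : b ∉ ((Subgroup.center ↥Q).map Q.subtype)) (hb : orderOf b = 2) (hZ : ((Subgroup.center ↥Q).map Q.subtype) ≤ (Cfsg.pCore 2 ↥(Subgroup.centralizer ({b} : Set G))).map (Subgroup.centralizer ({b} : Set G)).subtype) : Cfsg.IsLargeExtraspecial Q := by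
  classical
  refine ⟨hL1, hL2, hL3, ?_⟩
  intro K hKodd hQK
  have hQ2 : IsPGroup 2 ↥Q := hL1.1.1
  have hZQ : (Subgroup.center ↥Q).map Q.subtype ≤ Q := Subgroup.map_subtype_le _
  have hKQ : K ⊓ Q = ⊥ := Cfsg.Agent.Lib.Helper9.odd_inf_two_group K Q hKodd hQ2
  have hconj : ∀ q ∈ Q, ∀ k ∈ K, q * k * q⁻¹ ∈ K := by
    intro q hq k hk
    have h1 : q ∈ Subgroup.normalizer (K : Set G) := hQK hq
    rw [Subgroup.mem_normalizer_iff] at h1
    exact (h1 k).mp hk
  -- the centre commutes with `Q`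
  have hZc : ∀ z ∈ (Subgroup.center ↥Q).map Q.subtype, ∀ q ∈ Q, q * z = z * q := by
    intro z hz q hq
    have h1 : z ∈ Subgroup.centralizer (Q : Set G) := by rw [hL2]; exact hz
    exact Subgroup.mem_centralizer_iff.mp h1 q hq
  -- (a) C_K(Z) = 1
  have hA : ∀ k ∈ K, (∀ z ∈ (Subgroup.center ↥Q).map Q.subtype, z * k = k * z) → k = 1 := by
    intro k hk hkz
    have hkN : k ∈ Subgroup.normalizer (Q : Set G) :=
      hL3 (by rw [Subgroup.mem_centralizer_iff]; intro z hz; exact hkz z hz)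
    have hkC : k ∈ Subgroup.centralizer (Q : Set G) := by
      rw [Subgroup.mem_centralizer_iff]
      intro q hq
      have h1 : q * k * q⁻¹ * k⁻¹ ∈ K := K.mul_mem (hconj q hq k hk) (K.inv_mem hk)
      have h2 : q * k * q⁻¹ * k⁻¹ ∈ Q := by
        have e : q * k * q⁻¹ * k⁻¹ = q * (k * q⁻¹ * k⁻¹) := by group
        rw [e]
        rw [Subgroup.mem_normalizer_iff] at hkN
        exact Q.mul_mem hq ((hkN q⁻¹).mp (Q.inv_mem hq))
      have h3 : q * k * q⁻¹ * k⁻¹ ∈ K ⊓ Q := ⟨h1, h2⟩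
      rw [hKQ, Subgroup.mem_bot] at h3
      calc q * k = (q * k * q⁻¹ * k⁻¹) * (k * q) := by group
        _ = k * q := by rw [h3, one_mul]
    rw [hL2] at hkC
    have h4 : k ∈ K ⊓ Q := ⟨hk, hZQ hkC⟩
    rw [hKQ, Subgroup.mem_bot] at h4
    exact h4
  -- (b) a non-commuting element
  obtain ⟨q, hq, hqb⟩ : ∃ q ∈ Q, q * b ≠ b * q := by
    by_contra hcon
    push Not at hcon
    apply hbZ
    refine Subgroup.mem_map.mpr ⟨⟨b, hbQ⟩, ?_, rfl⟩
    rw [Subgroup.mem_center_iff]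
    intro g
    exact Subtype.ext (hcon g g.2)
  obtain ⟨c, hc⟩ : ∃ c, c = q * b * q⁻¹ * b⁻¹ := ⟨_, rfl⟩
  have hcZ : c ∈ (Subgroup.center ↥Q).map Q.subtype := by
    have h1 : (⟨q, hq⟩ : ↥Q) * (⟨b, hbQ⟩ : ↥Q) * (⟨q, hq⟩ : ↥Q)⁻¹ * (⟨b, hbQ⟩ : ↥Q)⁻¹ ∈ commutator ↥Q := by
      rw [commutator_def]
      exact Subgroup.commutator_mem_commutator (Subgroup.mem_top _) (Subgroup.mem_top _)
    rw [hL1.1.2.2] at h1
    refine Subgroup.mem_map.mpr ⟨_, h1, ?_⟩
    rw [hc]
    rfl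
  have hc1 : c ≠ 1 := by
    intro h
    apply hqb
    rw [hc] at h
    calc q * b = (q * b * q⁻¹ * b⁻¹) * (b * q) := by group
      _ = b * q := by rw [h, one_mul]
  have hZ2 : ∀ z ∈ (Subgroup.center ↥Q).map Q.subtype, z = 1 ∨ z = c := by
    intro z hz
    obtain ⟨z', hz', rfl⟩ := Subgroup.mem_map.mp hz
    obtain ⟨c', hc', hcc'⟩ := Subgroup.mem_map.mp hcZ
    obtain ⟨y, hy, hyu⟩ := (Nat.card_eq_two_iff' (1 : Subgroup.center ↥Q)).mp hL1.2
    by_cases hz1 : z' = 1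
    · left; rw [hz1]; rfl
    · right
      have e1 : (⟨z', hz'⟩ : Subgroup.center ↥Q) = y := hyu _ (fun h => hz1 (congrArg Subtype.val h))
      have e2 : (⟨c', hc'⟩ : Subgroup.center ↥Q) = y := hyu _ (fun h => hc1 (by
        rw [← hcc']
        have : c' = 1 := congrArg Subtype.val h
        rw [this]; rfl))
      have e3 : z' = c' := congrArg Subtype.val (e1.trans e2.symm)
      rw [e3, hcc']
  have hcc : c * c = 1 := by
    rcases hZ2 (c * c) (Subgroup.mul_mem _ hcZ hcZ) with h | h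
    · exact h
    · exfalso; apply hc1
      calc c = c⁻¹ * (c * c) := by group
        _ = 1 := by rw [h]; group
  have hcQ : c ∈ Q := hZQ hcZ
  have hCc : ∀ k ∈ K, c * k * c⁻¹ = k → k = 1 := by
    intro k hk h
    apply hA k hk
    intro z hz
    rcases hZ2 z hz with rfl | rfl
    · simp
    · calc z * k = (z * k * z⁻¹) * z := by group
        _ = k * z := by rw [h]
  have hIc := Cfsg.Agent.Lib.Helper9.fpf_conj_inverts K c hcc (hconj c hcQ) hCc
  -- (c) C_K(b) = 1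
  have hCb : ∀ k ∈ K, b * k * b⁻¹ = k → k = 1 := by
    intro k hk hbk
    apply hCc k hk
    have hkC : k ∈ Subgroup.centralizer ({b} : Set G) := by
      rw [Subgroup.mem_centralizer_iff]
      intro x hx
      rw [Set.mem_singleton_iff] at hx
      subst hx
      calc x * k = x * k * x⁻¹ * x := by group
        _ = k * x := by rw [hbk]
    obtain ⟨c', hc'O, hc'⟩ := Subgroup.mem_map.mp (hZ hcZ)
    have hOn := Cfsg.Agent.Lib.Helper9.pCore_normal 2 ↥(Subgroup.centralizer ({b} : Set G))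
    have h1 : c' * ((⟨k, hkC⟩ : ↥(Subgroup.centralizer ({b} : Set G))) * c'⁻¹ * (⟨k, hkC⟩ : ↥(Subgroup.centralizer ({b} : Set G)))⁻¹) ∈
        Cfsg.pCore 2 ↥(Subgroup.centralizer ({b} : Set G)) :=
      Subgroup.mul_mem _ hc'O (hOn.conj_mem _ (Subgroup.inv_mem _ hc'O) _)
    have h2 : c * k * c⁻¹ * k⁻¹ ∈ (Cfsg.pCore 2 ↥(Subgroup.centralizer ({b} : Set G))).map (Subgroup.centralizer ({b} : Set G)).subtype := by
      refine Subgroup.mem_map.mpr ⟨_, h1, ?_⟩
      rw [← hc']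
      simp only [Subgroup.subtype_apply, Subgroup.coe_mul, Subgroup.coe_inv]
      group
    have h3 : c * k * c⁻¹ * k⁻¹ ∈ K := K.mul_mem (hconj c hcQ k hk) (K.inv_mem hk)
    have h4 : K ⊓ (Cfsg.pCore 2 ↥(Subgroup.centralizer ({b} : Set G))).map (Subgroup.centralizer ({b} : Set G)).subtype = ⊥ :=
      Cfsg.Agent.Lib.Helper9.odd_inf_two_group K _ hKodd
        ((Cfsg.Agent.Lib.Helper9.pCore_isPGroup 2 ↥(Subgroup.centralizer ({b} : Set G))).map _)
    have h5 : c * k * c⁻¹ * k⁻¹ = 1 := by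
      have h6 : c * k * c⁻¹ * k⁻¹ ∈ K ⊓ (Cfsg.pCore 2 ↥(Subgroup.centralizer ({b} : Set G))).map (Subgroup.centralizer ({b} : Set G)).subtype := ⟨h3, h2⟩
      rwa [h4, Subgroup.mem_bot] at h6
    calc c * k * c⁻¹ = (c * k * c⁻¹ * k⁻¹) * k := by group
      _ = k := by rw [h5, one_mul]
  have hbb : b * b = 1 := by
    have := pow_orderOf_eq_one b
    rw [hb, pow_two] at this
    exact this
  have hIb := Cfsg.Agent.Lib.Helper9.fpf_conj_inverts K b hbb (hconj b hbQ) hCb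
  -- (d) the conjugate c * b = q b q⁻¹
  have hcb : c * b = q * b * q⁻¹ := by rw [hc]; group
  have hcbQ : c * b ∈ Q := Q.mul_mem hcQ hbQ
  have hcomm : b * c = c * b := hZc c hcZ b hbQ
  have hcbcb : (c * b) * (c * b) = 1 := by
    calc (c * b) * (c * b) = c * (b * c) * b := by group
      _ = c * (c * b) * b := by rw [hcomm]
      _ = (c * c) * (b * b) := by group
      _ = 1 := by rw [hcc, hbb, one_mul]
  have hCcb : ∀ k ∈ K, (c * b) * k * (c * b)⁻¹ = k → k = 1 := by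
    intro k hk h
    rw [hcb] at h
    have hk' : q⁻¹ * k * q ∈ K := by
      have := hconj q⁻¹ (Q.inv_mem hq) k hk
      simpa using this
    have h1 : b * (q⁻¹ * k * q) * b⁻¹ = q⁻¹ * k * q := by
      calc b * (q⁻¹ * k * q) * b⁻¹ = q⁻¹ * ((q * b * q⁻¹) * k * (q * b * q⁻¹)⁻¹) * q := by group
        _ = q⁻¹ * k * q := by rw [h]
    have h2 := hCb _ hk' h1
    calc k = q * (q⁻¹ * k * q) * q⁻¹ := by group
      _ = 1 := by rw [h2]; group
  have hIcb := Cfsg.Agent.Lib.Helper9.fpf_conj_inverts K (c * b) hcbcb (hconj (c * b) hcbQ) hCcb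
  -- conclusion
  rw [Subgroup.eq_bot_iff_forall]
  intro k hk
  have h1 : (c * b) * k * (c * b)⁻¹ = k⁻¹ := hIcb k hk
  have h2 : (c * b) * k * (c * b)⁻¹ = k := by
    calc (c * b) * k * (c * b)⁻¹ = c * (b * k * b⁻¹) * c⁻¹ := by group
      _ = c * k⁻¹ * c⁻¹ := by rw [hIb k hk]
      _ = (k⁻¹)⁻¹ := hIc k⁻¹ (K.inv_mem hk)
      _ = k := inv_inv k
  have h3 : k ^ 2 = 1 := by
    rw [pow_two]
    calc k * k = k * (k⁻¹)⁻¹ := by rw [inv_inv]
      _ = k * ((c * b) * k * (c * b)⁻¹)⁻¹ := by rw [h1]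
      _ = k * k⁻¹ := by rw [h2]
      _ = 1 := mul_inv_cancel k
  have h4 : orderOf k ∣ 2 := orderOf_dvd_of_pow_eq_one h3
  have h5 : orderOf k ∣ Nat.card K := by
    have := orderOf_dvd_natCard (⟨k, hk⟩ : K)
    rwa [← Subgroup.orderOf_coe] at this
  have h6 : orderOf k ∣ Nat.gcd 2 (Nat.card K) := Nat.dvd_gcd h4 h5
  have h7 : Nat.gcd 2 (Nat.card K) = 1 := by
    have := hKodd.coprime_two_left
    exact this
  rw [h7, Nat.dvd_one] at h6
  exact orderOf_eq_one_iff.mp h6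

end Cfsg.Agent.S5421
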