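import Cfsg.Statements.S5433
-- import your own Cfsg.Agent.* helpers here

set_option autoImplicit false
open Cfsg

namespace Cfsg.Agent.S5433

/-- Let Q be a large extraspecial 2-subgroup of the finite group G (extraspecial; centralizer equal to its centre; normal in the centralizer of its centre; normalizing no non-trivial subgroup of odd order), and L a normal subgroup of G containing Q. Then G is the product of L and the normalizer of Q. -/
theorem result {G : Type*} [Group G] [Finite G] (Q : Subgroup G) (hQ : Cfsg.IsLargeExtraspecial Q) (L : Subgroup G) [L.Normal] (hQL : Q ≤ L) : L ⊔ Subgroup.normalizer (Q : Set G) = ⊤ := by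
  classical
  have hp2 : Fact (Nat.Prime 2) := ⟨Nat.prime_two⟩
  obtain ⟨hes, hcent, hnorm, -⟩ := hQ
  have hQ2 : IsPGroup 2 ↥Q := hes.1.1
  have hcardZ : Nat.card (Subgroup.center ↥Q) = 2 := hes.2
  have hZcard : Nat.card ((Subgroup.center ↥Q).map Q.subtype) = 2 := by
    rw [Subgroup.card_map_of_injective (Subgroup.subtype_injective Q)]
    exact hcardZ
  have hQL2 : IsPGroup 2 ↥(Q.subgroupOf L) := hQ2.comap_subtype
  obtain ⟨S, hS⟩ := hQL2.exists_le_sylow
  have hQS' : Q ≤ (S : Subgroup L).map L.subtype := by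
    intro q hq
    exact ⟨⟨q, hQL hq⟩, hS (show (⟨q, hQL hq⟩ : L) ∈ Q.subgroupOf L from hq), rfl⟩
  have hfr : Subgroup.normalizer (((S : Subgroup L).map L.subtype : Subgroup G) : Set G) ⊔ L = ⊤ :=
    Sylow.normalizer_sup_eq_top S
  have hS'2 : IsPGroup 2 ↥((S : Subgroup L).map L.subtype) := S.isPGroup'.map L.subtype
  -- the centre of S', inside G
  have hZsle : ∀ x : G, x ∈ (S : Subgroup L).map L.subtype →
      (∀ s ∈ (S : Subgroup L).map L.subtype, s * x = x * s) → x ∈ (Subgroup.center ↥Q).map Q.subtype := by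
    intro x _ hx2
    rw [← hcent, Subgroup.mem_centralizer_iff]
    intro q hq
    exact hx2 q (hQS' hq)
  -- a non-identity element of the centre of S'
  have hnontriv : Nontrivial ↥((S : Subgroup L).map L.subtype) := by
    have h1 : Nontrivial ↥((Subgroup.center ↥Q).map Q.subtype) := by
      apply (Finite.one_lt_card_iff_nontrivial).mp
      rw [hZcard]
      norm_num
    obtain ⟨⟨a, ha⟩, ⟨b, hb⟩, hab⟩ := h1
    have ha' : a ∈ (S : Subgroup L).map L.subtype := hQS' (Subgroup.map_subtype_le _ ha)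
    have hb' : b ∈ (S : Subgroup L).map L.subtype := hQS' (Subgroup.map_subtype_le _ hb)
    exact ⟨⟨a, ha'⟩, ⟨b, hb'⟩, fun h => hab (by simpa using h)⟩
  have hcn : Nontrivial ↥(Subgroup.center ↥((S : Subgroup L).map L.subtype)) := hS'2.center_nontrivial
  obtain ⟨c, hc⟩ := exists_ne (1 : ↥(Subgroup.center ↥((S : Subgroup L).map L.subtype)))
  have hcS : ((c : ↥((S : Subgroup L).map L.subtype)) : G) ∈ (S : Subgroup L).map L.subtype := (c : ↥((S : Subgroup L).map L.subtype)).2
  have hccomm : ∀ s ∈ (S : Subgroup L).map L.subtype, s * ((c : ↥((S : Subgroup L).map L.subtype)) : G) = ((c : ↥((S : Subgroup L).map L.subtype)) : G) * s := by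
    intro s hs
    have h1 := c.2
    rw [Subgroup.mem_center_iff] at h1
    have h2 := h1 ⟨s, hs⟩
    exact congrArg Subtype.val h2
  have hcZ : ((c : ↥((S : Subgroup L).map L.subtype)) : G) ∈ (Subgroup.center ↥Q).map Q.subtype := hZsle _ hcS hccomm
  have hc1 : ((c : ↥((S : Subgroup L).map L.subtype)) : G) ≠ 1 := by
    intro h
    apply hc
    apply Subtype.ext
    apply Subtype.ext
    simpa using h
  obtain ⟨y, -, hyuniq⟩ := (Nat.card_eq_two_iff' (1 : ↥((Subgroup.center ↥Q).map Q.subtype))).mp hZcard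
  have hZtwo : ∀ z ∈ (Subgroup.center ↥Q).map Q.subtype, z ≠ 1 → z = ((c : ↥((S : Subgroup L).map L.subtype)) : G) := by
    intro z hz hz1
    have h1 := hyuniq ⟨z, hz⟩ (fun h => hz1 (by simpa using congrArg Subtype.val h))
    have h2 := hyuniq ⟨_, hcZ⟩ (fun h => hc1 (by simpa using congrArg Subtype.val h))
    have h3 : (⟨z, hz⟩ : ↥((Subgroup.center ↥Q).map Q.subtype)) = ⟨_, hcZ⟩ := h1.trans h2.symm
    exact congrArg Subtype.val h3
  have hNle : Subgroup.normalizer (((S : Subgroup L).map L.subtype : Subgroup G) : Set G) ≤ Subgroup.normalizer (Q : Set G) := by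
    refine le_trans ?_ hnorm
    intro g hg
    rw [Subgroup.mem_centralizer_iff]
    intro z hz
    by_cases hz1 : z = 1
    · rw [hz1]; group
    · have hzc := hZtwo z hz hz1
      -- w = g⁻¹ c g is a central element of S'
      have hg' : g⁻¹ ∈ Subgroup.normalizer (((S : Subgroup L).map L.subtype : Subgroup G) : Set G) := Subgroup.inv_mem _ hg
      rw [Subgroup.mem_normalizer_iff] at hg hg'
      have hwS : g⁻¹ * z * g⁻¹⁻¹ ∈ (S : Subgroup L).map L.subtype := (hg' z).mp (hzc ▸ hcS)
      have hwcomm : ∀ s ∈ (S : Subgroup L).map L.subtype, s * (g⁻¹ * z * g⁻¹⁻¹) = (g⁻¹ * z * g⁻¹⁻¹) * s := by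
        intro s hs
        have hs' : g * s * g⁻¹ ∈ (S : Subgroup L).map L.subtype := (hg s).mp hs
        have h1 := hccomm _ hs'
        rw [← hzc] at h1
        calc s * (g⁻¹ * z * g⁻¹⁻¹) = g⁻¹ * ((g * s * g⁻¹) * z) * g := by group
          _ = g⁻¹ * (z * (g * s * g⁻¹)) * g := by rw [h1]
          _ = (g⁻¹ * z * g⁻¹⁻¹) * s := by group
      have hwZ := hZsle _ hwS hwcomm
      have hw1 : g⁻¹ * z * g⁻¹⁻¹ ≠ 1 := by
        intro h
        apply hz1
        calc z = g * (g⁻¹ * z * g⁻¹⁻¹) * g⁻¹ := by group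
          _ = 1 := by rw [h]; group
      have hwc := hZtwo _ hwZ hw1
      rw [← hzc] at hwc
      calc z * g = g * (g⁻¹ * z * g⁻¹⁻¹) := by group
        _ = g * z := by rw [hwc]
  rw [eq_top_iff, ← hfr, sup_comm]
  exact sup_le_sup_left hNle L

end Cfsg.Agent.S5433
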