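import Cfsg.Statements.S5437
import Mathlib
-- import your own Cfsg.Agent.* helpers here

set_option autoImplicit false
open Cfsg

namespace Cfsg.Agent.S5437

/-- Let I be a set of involutions of the finite group G closed under conjugation, and H a subgroup of G. The following are equivalent: (1) for every member x of I lying in H, the conjugates of x lying in H form a single H-class and the centralizer of x lies in H; (2) for every g outside H, no member of I lies in both H and g H g⁻¹; (3) every member of I lying in H fixes exactly one coset in the action of G on the cosets of H. -/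
theorem result {G : Type*} [Group G] [Finite G] (I : Set G) (hI : ∀ x ∈ I, orderOf x = 2) (hIc : ∀ g : G, ∀ x ∈ I, g * x * g⁻¹ ∈ I) (H : Subgroup G) : ((∀ x ∈ I, x ∈ H → (∀ g : G, g * x * g⁻¹ ∈ H → ∃ h ∈ H, h * x * h⁻¹ = g * x * g⁻¹) ∧ Subgroup.centralizer ({x} : Set G) ≤ H) ↔ (∀ g : G, g ∉ H → ∀ x ∈ I, ¬ (x ∈ H ∧ x ∈ (H : Subgroup G).map (MulAut.conj g).toMonoidHom))) ∧ ((∀ g : G, g ∉ H → ∀ x ∈ I, ¬ (x ∈ H ∧ x ∈ (H : Subgroup G).map (MulAut.conj g).toMonoidHom)) ↔ ∀ x ∈ I, x ∈ H → ∃! c : G ⧸ H, x • c = c) := by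
  have hmap : ∀ (g x : G), x ∈ (H : Subgroup G).map (MulAut.conj g).toMonoidHom ↔
      g⁻¹ * x * g ∈ H := by
    intro g x
    rw [Subgroup.mem_map]
    constructor
    · rintro ⟨y, hy, rfl⟩
      have : g⁻¹ * ((MulAut.conj g).toMonoidHom y) * g = y := by
        show g⁻¹ * (g * y * g⁻¹) * g = y
        group
      rw [this]
      exact hy
    · intro h
      refine ⟨g⁻¹ * x * g, h, ?_⟩
      show g * (g⁻¹ * x * g) * g⁻¹ = x
      group
  have hfix : ∀ (x g : G), x • (g : G ⧸ H) = (g : G ⧸ H) ↔ g⁻¹ * x * g ∈ H := by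
    intro x g
    rw [MulAction.Quotient.smul_coe, eq_comm, QuotientGroup.eq, smul_eq_mul, mul_assoc]
  refine ⟨⟨?_, ?_⟩, ⟨?_, ?_⟩⟩
  · intro h1 g hg x hx hxx
    obtain ⟨hxH, hxm⟩ := hxx
    rw [hmap] at hxm
    have hyI : g⁻¹ * x * g ∈ I := by
      have := hIc g⁻¹ x hx
      simpa using this
    obtain ⟨hcl, hcen⟩ := h1 _ hyI hxm
    have hgy : g * (g⁻¹ * x * g) * g⁻¹ = x := by group
    obtain ⟨h, hh, he⟩ := hcl g (by rw [hgy]; exact hxH)
    have hmem : h⁻¹ * g ∈ Subgroup.centralizer ({g⁻¹ * x * g} : Set G) := by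
      rw [Subgroup.mem_centralizer_iff]
      intro z hz
      rw [Set.mem_singleton_iff] at hz
      subst hz
      calc g⁻¹ * x * g * (h⁻¹ * g) = h⁻¹ * (h * (g⁻¹ * x * g) * h⁻¹) * g := by group
        _ = h⁻¹ * (g * (g⁻¹ * x * g) * g⁻¹) * g := by rw [he]
        _ = h⁻¹ * g * (g⁻¹ * x * g) := by group
    have h2 := hcen hmem
    apply hg
    have h3 := H.mul_mem hh h2
    simpa using h3
  · intro h2 x hx hxH
    constructor
    · intro g hg
      have hgH : g ∈ H := by
        by_contra hgH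
        apply h2 g hgH (g * x * g⁻¹) (hIc g x hx)
        refine ⟨hg, ?_⟩
        rw [hmap]
        have : g⁻¹ * (g * x * g⁻¹) * g = x := by group
        rw [this]
        exact hxH
      exact ⟨g, hgH, rfl⟩
    · intro g hg
      by_contra hgH
      apply h2 g hgH x hx
      refine ⟨hxH, ?_⟩
      rw [hmap]
      have hc := (Subgroup.mem_centralizer_iff.mp hg) x rfl
      have : g⁻¹ * x * g = x := by
        rw [mul_assoc, hc, ← mul_assoc, inv_mul_cancel, one_mul]
      rw [this]
      exact hxH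
  · intro h2 x hx hxH
    refine ⟨((1 : G) : G ⧸ H), ?_, ?_⟩
    · exact (hfix x 1).mpr (by simpa using hxH)
    · intro c hc
      induction c using QuotientGroup.induction_on with
      | H g =>
        rw [hfix] at hc
        by_contra hne
        have hgH : g ∉ H := by
          intro hg
          apply hne
          rw [QuotientGroup.eq]
          simpa using hg
        exact h2 g hgH x hx ⟨hxH, (hmap g x).mpr hc⟩
  · intro h3 g hg x hx hxx
    obtain ⟨hxH, hxm⟩ := hxx
    obtain ⟨c, hc, huniq⟩ := h3 x hx hxH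
    have e1 := huniq ((1 : G) : G ⧸ H) ((hfix x 1).mpr (by simpa using hxH))
    have e2 := huniq (g : G ⧸ H) ((hfix x g).mpr ((hmap g x).mp hxm))
    have e3 : (g : G ⧸ H) = ((1 : G) : G ⧸ H) := e2.trans e1.symm
    rw [QuotientGroup.eq] at e3
    apply hg
    simpa using e3

end Cfsg.Agent.S5437
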