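import Cfsg.Statements.S5438
import Mathlib
import Cfsg.Agent.Lib.Helper9.SylowConj
-- import your own Cfsg.Agent.* helpers here

set_option autoImplicit false
open Cfsg

namespace Cfsg.Agent.S5438

/-- Let z be a 2-central involution of the finite group G (an involution central in some Sylow 2-subgroup) and H a subgroup containing z such that the coset H is the only coset of H fixed by z (in the action of G on the cosets of H). Then H has odd index in G, and for every 2-element x of H the conjugates of x lying in H form a single H-class. -/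
theorem result {G : Type*} [Group G] [Finite G] (z : G) (hz : Cfsg.IsTwoCentralInvolution z) (H : Subgroup G) (hzH : z ∈ H) (hfix : ∀ g : G, g⁻¹ * z * g ∈ H → g ∈ H) : Odd H.index ∧ ∀ x ∈ H, (∃ k : ℕ, orderOf x = 2 ^ k) → ∀ g : G, g * x * g⁻¹ ∈ H → ∃ h ∈ H, h * x * h⁻¹ = g * x * g⁻¹ := by
  classical
  haveI : Fact (Nat.Prime 2) := ⟨Nat.prime_two⟩
  obtain ⟨hz2, S, hzS, hcen⟩ := hz
  have hSH : (S : Subgroup G) ≤ H := by
    intro s hs
    apply hfix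
    have hsz := hcen s hs
    have e : s⁻¹ * z * s = z := by
      rw [mul_assoc, ← hsz, ← mul_assoc, inv_mul_cancel, one_mul]
    rw [e]
    exact hzH
  have hnd : ¬ 2 ∣ H.index := fun h2 => S.not_dvd_index (h2.trans (Subgroup.index_dvd_of_le hSH))
  have hodd : Odd H.index := by
    rw [← Nat.not_even_iff_odd, even_iff_two_dvd]
    exact hnd
  refine ⟨hodd, ?_⟩
  rintro x hxH ⟨k, hk⟩ g hgx
  have claimA : ∀ w ∈ H, (∃ k : ℕ, orderOf w = 2 ^ k) →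
      ∃ h ∈ H, (h * z * h⁻¹) * w = w * (h * z * h⁻¹) := by
    rintro w hw ⟨k, hk⟩
    have hw' : orderOf (⟨w, hw⟩ : H) = 2 ^ k := by
      rw [← hk]
      exact Subgroup.orderOf_mk w hw
    obtain ⟨c, hc⟩ := Cfsg.Agent.Lib.Helper9.SylowConj.exists_conj_mem_sylow 2 (S.subtype hSH)
      ⟨w, hw⟩ k hw'
    have hcS : (c : G)⁻¹ * w * (c : G) ∈ S := hc
    have hcomm := hcen _ hcS
    refine ⟨c, c.2, ?_⟩
    calc (c : G) * z * (c : G)⁻¹ * w = c * (z * ((c : G)⁻¹ * w * c)) * (c : G)⁻¹ := by group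
      _ = c * (((c : G)⁻¹ * w * c) * z) * (c : G)⁻¹ := by rw [hcomm]
      _ = w * (c * z * (c : G)⁻¹) := by group
  have hyord : orderOf (g * x * g⁻¹) = 2 ^ k := by
    rw [← hk]
    exact (MulAut.conj g).orderOf_eq x
  obtain ⟨h1, hh1, hc1⟩ := claimA (g * x * g⁻¹) hgx ⟨k, hyord⟩
  obtain ⟨h2, hh2, hc2⟩ := claimA x hxH ⟨k, hk⟩
  have hz1C : h1 * z * h1⁻¹ ∈ Subgroup.centralizer ({g * x * g⁻¹} : Set G) := by
    rw [Subgroup.mem_centralizer_iff]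
    intro t ht
    rw [Set.mem_singleton_iff] at ht
    subst ht
    exact hc1.symm
  have hz2C : g * (h2 * z * h2⁻¹) * g⁻¹ ∈ Subgroup.centralizer ({g * x * g⁻¹} : Set G) := by
    rw [Subgroup.mem_centralizer_iff]
    intro t ht
    rw [Set.mem_singleton_iff] at ht
    subst ht
    calc g * x * g⁻¹ * (g * (h2 * z * h2⁻¹) * g⁻¹) = g * (x * (h2 * z * h2⁻¹)) * g⁻¹ := by group
      _ = g * ((h2 * z * h2⁻¹) * x) * g⁻¹ := by rw [hc2]
      _ = g * (h2 * z * h2⁻¹) * g⁻¹ * (g * x * g⁻¹) := by group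
  have ho : ∀ t : G, orderOf (t * z * t⁻¹) = 2 ^ 1 := by
    intro t
    rw [pow_one, ← hz2]
    exact (MulAut.conj t).orderOf_eq z
  obtain ⟨P⟩ : Nonempty (Sylow 2 (Subgroup.centralizer ({g * x * g⁻¹} : Set G))) := inferInstance
  obtain ⟨k1, hk1⟩ := Cfsg.Agent.Lib.Helper9.SylowConj.exists_conj_mem_sylow 2 P
    ⟨_, hz1C⟩ 1 (by rw [Subgroup.orderOf_mk]; exact ho h1)
  obtain ⟨k2, hk2⟩ := Cfsg.Agent.Lib.Helper9.SylowConj.exists_conj_mem_sylow 2 P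
    ⟨_, hz2C⟩ 1 (by
      rw [Subgroup.orderOf_mk]
      have := ho (g * h2)
      have e : g * h2 * z * (g * h2)⁻¹ = g * (h2 * z * h2⁻¹) * g⁻¹ := by group
      rw [e] at this
      exact this)
  have hR : IsPGroup 2 ((P : Subgroup (Subgroup.centralizer ({g * x * g⁻¹} : Set G))).map
      (Subgroup.centralizer ({g * x * g⁻¹} : Set G)).subtype) := P.isPGroup'.map _
  obtain ⟨a, ha⟩ := Cfsg.Agent.Lib.Helper9.SylowConj.exists_fixed_coset 2 H _ hR hnd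
  have hu1 := ha _ (Subgroup.mem_map_of_mem _ hk1)
  have hu2 := ha _ (Subgroup.mem_map_of_mem _ hk2)
  have hk1c := (Subgroup.mem_centralizer_iff.mp k1.2) (g * x * g⁻¹) rfl
  have hk2c := (Subgroup.mem_centralizer_iff.mp k2.2) (g * x * g⁻¹) rfl
  have e1 : h1⁻¹ * (k1 : G) * a ∈ H := by
    apply hfix
    have e : (h1⁻¹ * (k1 : G) * a)⁻¹ * z * (h1⁻¹ * (k1 : G) * a)
        = a⁻¹ * ((k1 : G)⁻¹ * (h1 * z * h1⁻¹) * (k1 : G)) * a := by group
    rw [e]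
    exact hu1
  have e2 : h2⁻¹ * g⁻¹ * (k2 : G) * a ∈ H := by
    apply hfix
    have e : (h2⁻¹ * g⁻¹ * (k2 : G) * a)⁻¹ * z * (h2⁻¹ * g⁻¹ * (k2 : G) * a)
        = a⁻¹ * ((k2 : G)⁻¹ * (g * (h2 * z * h2⁻¹) * g⁻¹) * (k2 : G)) * a := by group
    rw [e]
    exact hu2
  have e3 : (k1 : G) * (k2 : G)⁻¹ * g ∈ H := by
    have h3 := H.mul_mem (H.mul_mem hh1 e1) (H.inv_mem (H.mul_mem hh2 e2))
    have e : h1 * (h1⁻¹ * (k1 : G) * a) * (h2 * (h2⁻¹ * g⁻¹ * (k2 : G) * a))⁻¹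
        = (k1 : G) * (k2 : G)⁻¹ * g := by group
    rw [e] at h3
    exact h3
  refine ⟨(k1 : G) * (k2 : G)⁻¹ * g, e3, ?_⟩
  have f2 : (k2 : G)⁻¹ * (g * x * g⁻¹) * (k2 : G) = g * x * g⁻¹ := by
    rw [mul_assoc, hk2c, ← mul_assoc, inv_mul_cancel, one_mul]
  have f1 : (k1 : G) * (g * x * g⁻¹) * (k1 : G)⁻¹ = g * x * g⁻¹ := by
    rw [← hk1c, mul_assoc, mul_inv_cancel, mul_one]
  calc (k1 : G) * (k2 : G)⁻¹ * g * x * ((k1 : G) * (k2 : G)⁻¹ * g)⁻¹
      = (k1 : G) * ((k2 : G)⁻¹ * (g * x * g⁻¹) * (k2 : G)) * (k1 : G)⁻¹ := by group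
    _ = g * x * g⁻¹ := by rw [f2, f1]

end Cfsg.Agent.S5438
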