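import Cfsg.Statements.S5439
import Mathlib
import Cfsg.Agent.Lib.Helper9.SylowConj
-- import your own Cfsg.Agent.* helpers here

set_option autoImplicit false
open Cfsg

namespace Cfsg.Agent.S5439

/-- Let I and J be two different conjugacy classes of involutions of the finite group G and H a subgroup such that every member of I ∪ J fixes exactly one coset in the action on the cosets of H, and such that for every a in I ∩ H and every b in (I ∪ J) ∩ H different from a and commuting with it, the centralizer of a b lies in H. Then H = G. -/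
theorem result {G : Type*} [Group G] [Finite G] (I J : Set G) (a₀ b₀ : G) (ha₀ : orderOf a₀ = 2) (hb₀ : orderOf b₀ = 2) (hI : I = {x | IsConj a₀ x}) (hJ : J = {x | IsConj b₀ x}) (hIJ : I ≠ J) (H : Subgroup G) (hfix : ∀ x ∈ I ∪ J, ∃! c : G ⧸ H, x • c = c) (hcent : ∀ a ∈ I, a ∈ H → ∀ b ∈ I ∪ J, b ∈ H → a ≠ b → a * b = b * a → Subgroup.centralizer ({a * b} : Set G) ≤ H) : H = ⊤ := by
  classical
  subst hI hJ
  have hIc : ∀ (g x : G), IsConj a₀ x → IsConj a₀ (g * x * g⁻¹) :=
    fun g x hx => hx.trans (isConj_iff.mpr ⟨g, rfl⟩)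
  have hJc : ∀ (g x : G), IsConj b₀ x → IsConj b₀ (g * x * g⁻¹) :=
    fun g x hx => hx.trans (isConj_iff.mpr ⟨g, rfl⟩)
  have hordI : ∀ x, IsConj a₀ x → x * x = 1 := by
    intro x hx
    obtain ⟨c, rfl⟩ := isConj_iff.mp hx
    have h2 : orderOf (c * a₀ * c⁻¹) = 2 := by
      rw [← ha₀]
      exact (MulAut.conj c).orderOf_eq a₀
    rw [← pow_two, ← h2]
    exact pow_orderOf_eq_one _
  have hordJ : ∀ x, IsConj b₀ x → x * x = 1 := by
    intro x hx
    obtain ⟨c, rfl⟩ := isConj_iff.mp hx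
    have h2 : orderOf (c * b₀ * c⁻¹) = 2 := by
      rw [← hb₀]
      exact (MulAut.conj c).orderOf_eq b₀
    rw [← pow_two, ← h2]
    exact pow_orderOf_eq_one _
  have hnc : ∀ a b, IsConj a₀ a → IsConj b₀ b → ¬ IsConj a b := by
    intro a b ha hb hab
    apply hIJ
    ext x
    constructor
    · intro hx
      exact hb.trans (hab.symm.trans (ha.symm.trans hx))
    · intro hx
      exact ha.trans (hab.trans (hb.symm.trans hx))
  have hfixiff := Cfsg.Agent.Lib.Helper9.SylowConj.smul_coset_eq_iff H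
  have key : ∀ a b, IsConj a₀ a → IsConj b₀ b → ∀ g : G, g⁻¹ * a * g ∈ H →
      g⁻¹ * b * g ∈ H := by
    intro a b ha hb g hag
    have ha2 : a * a = 1 := hordI a ha
    have hb2 : b * b = 1 := hordJ b hb
    have hainv : a⁻¹ = a := inv_eq_of_mul_eq_one_left ha2
    have hbinv : b⁻¹ = b := inv_eq_of_mul_eq_one_left hb2
    have hrinv : (a * b)⁻¹ = b * a := by rw [mul_inv_rev, hainv, hbinv]
    have D1 : ∀ j : ℕ, (a * b) ^ j * a = a * (b * a) ^ j := by
      intro j
      induction j with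
      | zero => simp
      | succ j ih =>
        rw [pow_succ, mul_assoc, show a * b * a = a * (b * a) from mul_assoc a b a, ← mul_assoc,
          ih, mul_assoc, ← pow_succ]
    have D2 : ∀ j : ℕ, (a * b) ^ j * a * ((a * b) ^ j)⁻¹ = (a * b) ^ (2 * j) * a := by
      intro j
      rw [← inv_pow, hrinv, mul_assoc, ← D1, ← mul_assoc, ← pow_add, two_mul]
    have hnpos : 0 < orderOf (a * b) := orderOf_pos _
    have heven : Even (orderOf (a * b)) := by
      rw [← Nat.not_odd_iff_even]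
      rintro ⟨m, hm⟩
      apply hnc a b ha hb
      rw [isConj_iff]
      refine ⟨a * (a * b) ^ (m + 1), ?_⟩
      have h1 := D2 (m + 1)
      have h2 : (a * b) ^ (2 * (m + 1)) = a * b := by
        have : 2 * (m + 1) = orderOf (a * b) + 1 := by omega
        rw [this, pow_succ, pow_orderOf_eq_one, one_mul]
      rw [h2] at h1
      calc a * (a * b) ^ (m + 1) * a * (a * (a * b) ^ (m + 1))⁻¹
          = a * ((a * b) ^ (m + 1) * a * ((a * b) ^ (m + 1))⁻¹) * a⁻¹ := by group
        _ = a * (a * b * a) * a⁻¹ := by rw [h1]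
        _ = (a * a) * b * (a * a⁻¹) := by group
        _ = b := by rw [ha2, mul_inv_cancel, one_mul, mul_one]
    obtain ⟨m, hm⟩ := heven
    have hm0 : m ≠ 0 := by omega
    have hu1 : (a * b) ^ m ≠ 1 := pow_ne_one_of_lt_orderOf hm0 (by omega)
    have hu2 : (a * b) ^ m * (a * b) ^ m = 1 := by
      rw [← pow_add, ← hm, pow_orderOf_eq_one]
    have huinv : ((a * b) ^ m)⁻¹ = (a * b) ^ m := inv_eq_of_mul_eq_one_left hu2
    have hua : (a * b) ^ m * a = a * (a * b) ^ m := by
      rw [D1, ← hrinv, inv_pow, huinv]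
    have hub : (a * b) ^ m * b = b * (a * b) ^ m := by
      have hbe : b = a * (a * b) := by rw [← mul_assoc, ha2, one_mul]
      have hur : (a * b) ^ m * (a * b) = (a * b) * (a * b) ^ m := by
        rw [← pow_succ, ← pow_succ']
      have hc1 : Commute ((a * b) ^ m) a := hua
      have hc2 : Commute ((a * b) ^ m) (a * b) := hur
      have hc3 : Commute ((a * b) ^ m) (a * (a * b)) := hc1.mul_right hc2
      rw [← hbe] at hc3
      exact hc3
    have huaIJ : IsConj a₀ ((a * b) ^ m * a) ∨ IsConj b₀ ((a * b) ^ m * a) := by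
      rcases Nat.even_or_odd' m with ⟨j, hj | hj⟩
      · left
        rw [hj, ← D2]
        exact hIc _ _ ha
      · right
        have e : (a * b) ^ m * a = (a * b) ^ j * (a * b * a⁻¹) * ((a * b) ^ j)⁻¹ := by
          have e1 : ((a * b) ^ j)⁻¹ = (b * a) ^ j := by rw [← inv_pow, hrinv]
          have e2 : (a * b) ^ j * (a * b * a⁻¹) * ((a * b) ^ j)⁻¹
              = (a * b) ^ j * (a * b) * (a * (b * a) ^ j) := by
            rw [e1, hainv]
            simp only [mul_assoc]
          rw [e2, ← D1, ← pow_succ, ← mul_assoc, ← pow_add, hj]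
          congr 2
          omega
        rw [e]
        exact hJc _ _ (hJc _ _ hb)
    -- u fixes the coset
    have hug : g⁻¹ * (a * b) ^ m * g ∈ H := by
      have h1 : a • (((a * b) ^ m * g : G) : G ⧸ H) = (((a * b) ^ m * g : G) : G ⧸ H) := by
        rw [hfixiff]
        have e : ((a * b) ^ m * g)⁻¹ * a * ((a * b) ^ m * g) = g⁻¹ * a * g := by
          rw [mul_inv_rev, huinv]
          calc g⁻¹ * (a * b) ^ m * a * ((a * b) ^ m * g)
              = g⁻¹ * ((a * b) ^ m * a * (a * b) ^ m) * g := by group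
            _ = g⁻¹ * (a * ((a * b) ^ m * (a * b) ^ m)) * g := by rw [hua]; simp only [mul_assoc]
            _ = g⁻¹ * a * g := by rw [hu2, mul_one]
        rw [e]
        exact hag
      have h2 : a • ((g : G) : G ⧸ H) = ((g : G) : G ⧸ H) := (hfixiff a g).mpr hag
      have h3 := (hfix a (Or.inl ha)).unique h1 h2
      rw [QuotientGroup.eq] at h3
      have e : g⁻¹ * (a * b) ^ m * g = (((a * b) ^ m * g)⁻¹ * g)⁻¹ := by
        simp only [mul_inv_rev, inv_inv, mul_assoc]
      rw [e]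
      exact H.inv_mem h3
    have ha'I : IsConj a₀ (g⁻¹ * a * g) := by
      have := hIc g⁻¹ a ha
      rwa [inv_inv] at this
    have hb'H : g⁻¹ * ((a * b) ^ m * a) * g ∈ H := by
      have := H.mul_mem hug hag
      have e : g⁻¹ * (a * b) ^ m * g * (g⁻¹ * a * g) = g⁻¹ * ((a * b) ^ m * a) * g := by group
      rwa [e] at this
    have hb'IJ : g⁻¹ * ((a * b) ^ m * a) * g ∈ {x | IsConj a₀ x} ∪ {x | IsConj b₀ x} := by
      rcases huaIJ with h | h
      · left
        have := hIc g⁻¹ _ h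
        rwa [inv_inv] at this
      · right
        have := hJc g⁻¹ _ h
        rwa [inv_inv] at this
    have hne : g⁻¹ * a * g ≠ g⁻¹ * ((a * b) ^ m * a) * g := by
      intro h
      apply hu1
      have h1 : a = (a * b) ^ m * a := by
        have := congrArg (fun t => g * t * g⁻¹) h
        have e1 : g * (g⁻¹ * a * g) * g⁻¹ = a := by group
        have e2 : g * (g⁻¹ * ((a * b) ^ m * a) * g) * g⁻¹ = (a * b) ^ m * a := by group
        have this2 : g * (g⁻¹ * a * g) * g⁻¹ = g * (g⁻¹ * ((a * b) ^ m * a) * g) * g⁻¹ := this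
        rw [e1, e2] at this2
        exact this2
      exact (mul_eq_right.mp h1.symm)
    have hprod : g⁻¹ * a * g * (g⁻¹ * ((a * b) ^ m * a) * g) = g⁻¹ * (a * b) ^ m * g := by
      calc g⁻¹ * a * g * (g⁻¹ * ((a * b) ^ m * a) * g)
          = g⁻¹ * (a * (a * b) ^ m * a) * g := by group
        _ = g⁻¹ * ((a * b) ^ m * (a * a)) * g := by rw [← hua]; simp only [mul_assoc]
        _ = g⁻¹ * (a * b) ^ m * g := by rw [ha2, mul_one]
    have hcomm : g⁻¹ * a * g * (g⁻¹ * ((a * b) ^ m * a) * g)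
        = g⁻¹ * ((a * b) ^ m * a) * g * (g⁻¹ * a * g) := by
      rw [hprod]
      calc g⁻¹ * (a * b) ^ m * g = g⁻¹ * ((a * b) ^ m * (a * a)) * g := by rw [ha2, mul_one]
        _ = g⁻¹ * ((a * b) ^ m * a) * g * (g⁻¹ * a * g) := by group
    have hcen := hcent _ ha'I hag _ hb'IJ hb'H hne hcomm
    rw [hprod] at hcen
    apply hcen
    rw [Subgroup.mem_centralizer_iff]
    intro t ht
    rw [Set.mem_singleton_iff] at ht
    subst ht
    calc g⁻¹ * (a * b) ^ m * g * (g⁻¹ * b * g) = g⁻¹ * ((a * b) ^ m * b) * g := by group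
      _ = g⁻¹ * (b * (a * b) ^ m) * g := by rw [hub]
      _ = g⁻¹ * b * g * (g⁻¹ * (a * b) ^ m * g) := by group
  obtain ⟨c0, hc0, hu0⟩ := hfix b₀ (Or.inr (IsConj.refl b₀))
  induction c0 using QuotientGroup.induction_on with
  | H k =>
    have hI0 : ∀ a, IsConj a₀ a → k⁻¹ * a * k ∈ H := by
      intro a ha
      obtain ⟨c, hc, -⟩ := hfix a (Or.inl ha)
      induction c using QuotientGroup.induction_on with
      | H g =>
        rw [hfixiff] at hc
        have hb := key a b₀ ha (IsConj.refl b₀) g hc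
        have hgk : (g : G ⧸ H) = (k : G ⧸ H) := hu0 _ ((hfixiff b₀ g).mpr hb)
        rw [← hfixiff, ← hgk, hfixiff]
        exact hc
    rw [eq_top_iff]
    intro x _
    have h1 := hI0 ((k * x * k⁻¹) * a₀ * (k * x * k⁻¹)⁻¹) (hIc _ a₀ (IsConj.refl a₀))
    have h2 : ((k * x * k⁻¹) * k)⁻¹ * ((k * x * k⁻¹) * a₀ * (k * x * k⁻¹)⁻¹) * ((k * x * k⁻¹) * k)
        ∈ H := by
      have h0 := hI0 a₀ (IsConj.refl a₀)
      have e : ((k * x * k⁻¹) * k)⁻¹ * ((k * x * k⁻¹) * a₀ * (k * x * k⁻¹)⁻¹) * ((k * x * k⁻¹) * k)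
          = k⁻¹ * a₀ * k := by group
      rw [e]
      exact h0
    have hex := hfix ((k * x * k⁻¹) * a₀ * (k * x * k⁻¹)⁻¹) (Or.inl (hIc _ a₀ (IsConj.refl a₀)))
    have e3 := hex.unique ((hfixiff _ ((k * x * k⁻¹) * k)).mpr h2) ((hfixiff _ k).mpr h1)
    rw [QuotientGroup.eq] at e3
    have e : ((k * x * k⁻¹) * k)⁻¹ * k = x⁻¹ := by group
    rw [e] at e3
    exact (H.inv_mem_iff).mp e3

end Cfsg.Agent.S5439
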