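import Cfsg.Statements.S5459
import Mathlib
-- import your own Cfsg.Agent.* helpers here

set_option autoImplicit false
open Cfsg

namespace Cfsg.Agent.S5459

/-- Let G be a finite group with a quasisimple normal subgroup L and an involution d such that G is generated by L and d, the centre of L has odd order, and d inverts every element of the centre of L. If the commuting graph on the conjugacy class of the image of d in G modulo the centre of L is connected, then the commuting graph on the conjugacy class of d is connected. -/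
theorem result {G : Type*} [Group G] [Finite G] (L : Subgroup G) [L.Normal] (hL : Cfsg.IsQuasisimple ↥L) (d : G) (hd : orderOf d = 2) (hgen : L ⊔ Subgroup.zpowers d = ⊤) (hodd : Odd (Nat.card ↥(Subgroup.center ↥L))) (hinv : ∀ c ∈ (Subgroup.center ↥L).map L.subtype, d * c * d⁻¹ = c⁻¹) [hn : ((Subgroup.center ↥L).map L.subtype).Normal] (hconn : (Cfsg.commutingGraph (conjugatesOf (QuotientGroup.mk d : G ⧸ (Subgroup.center ↥L).map L.subtype))).Connected) : (Cfsg.commutingGraph (conjugatesOf d)).Connected := by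
  classical
  obtain ⟨hperf, hsimple⟩ := hL
  have hZdef : ∀ z : G, z ∈ (Subgroup.center ↥L).map L.subtype ↔
      ∃ c : ↥L, c ∈ Subgroup.center ↥L ∧ (c : G) = z := by
    intro z
    rw [Subgroup.mem_map]
    rfl
  generalize hZ : (Subgroup.center ↥L).map L.subtype = Z at *
  have hd2 : d * d = 1 := by rw [← pow_two, ← hd]; exact pow_orderOf_eq_one d
  have hdinv : d⁻¹ = d := inv_eq_of_mul_eq_one_left hd2
  have hZL : Z ≤ L := by
    intro z hz
    obtain ⟨c, -, rfl⟩ := (hZdef z).mp hz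
    exact c.2
  have hZcomm : ∀ z ∈ Z, ∀ l ∈ L, z * l = l * z := by
    intro z hz l hl
    obtain ⟨c, hc, rfl⟩ := (hZdef z).mp hz
    have h1 := Subgroup.mem_center_iff.mp hc ⟨l, hl⟩
    have h2 := congrArg Subtype.val h1
    exact h2.symm
  have hZmem : ∀ l : ↥L, l ∈ Subgroup.center ↥L → (l : G) ∈ Z := by
    intro l hl
    exact (hZdef _).mpr ⟨l, hl, rfl⟩
  -- square roots in Z
  have hsq : ∀ z ∈ Z, ∃ w ∈ Z, w * w = z := by
    intro z hz
    have hcard : Nat.card Z = Nat.card (Subgroup.center ↥L) := by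
      rw [← hZ]
      exact Subgroup.card_map_of_injective L.subtype_injective
    rw [← hcard] at hodd
    obtain ⟨k, hk⟩ := hodd
    have h1 : (⟨z, hz⟩ : Z) ^ Nat.card Z = 1 := pow_card_eq_one'
    have h2 : z ^ Nat.card Z = 1 := by
      have h3 : (((⟨z, hz⟩ : Z) ^ Nat.card Z : Z) : G) = ((1 : Z) : G) := congrArg Subtype.val h1
      rw [Subgroup.coe_pow] at h3
      exact h3
    refine ⟨z ^ (k + 1), Z.pow_mem hz _, ?_⟩
    rw [← pow_add, show k + 1 + (k + 1) = Nat.card Z + 1 by omega, pow_succ, h2, one_mul]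
  -- elements of D
  have hDc : ∀ (g x : G), IsConj d x → IsConj d (g * x * g⁻¹) :=
    fun g x hx => hx.trans (isConj_iff.mpr ⟨g, rfl⟩)
  have hD2 : ∀ a, IsConj d a → a * a = 1 := by
    intro a ha
    obtain ⟨g, rfl⟩ := isConj_iff.mp ha
    calc g * d * g⁻¹ * (g * d * g⁻¹) = g * (d * d) * g⁻¹ := by group
      _ = 1 := by rw [hd2, mul_one, mul_inv_cancel]
  have hDinv : ∀ a, IsConj d a → ∀ z ∈ Z, a * z * a⁻¹ = z⁻¹ := by
    intro a ha z hz
    obtain ⟨g, rfl⟩ := isConj_iff.mp ha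
    have h1 : g⁻¹ * z * g ∈ Z := by
      have := hn.conj_mem z hz g⁻¹
      rwa [inv_inv] at this
    have h2 := hinv _ h1
    calc g * d * g⁻¹ * z * (g * d * g⁻¹)⁻¹ = g * (d * (g⁻¹ * z * g) * d⁻¹) * g⁻¹ := by group
      _ = g * (g⁻¹ * z * g)⁻¹ * g⁻¹ := by rw [h2]
      _ = z⁻¹ := by group
  have hDZ : ∀ a, IsConj d a → ∀ z ∈ Z, IsConj d (a * z) := by
    intro a ha z hz
    obtain ⟨w, hw, rfl⟩ := hsq z hz
    have h1 := hDinv a ha w hw
    have h2 : a * w = w⁻¹ * a := by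
      rw [← h1]; group
    have h3 : a * (w * w) = w⁻¹ * a * w⁻¹⁻¹ := by
      rw [inv_inv, ← h2, mul_assoc]
    rw [h3]
    exact hDc _ _ ha
  have hlift : ∀ a b, IsConj d a → IsConj d b → a * b * a⁻¹ * b⁻¹ ∈ Z →
      ∃ e ∈ Z, a * (b * e) = b * e * a := by
    intro a b ha hb hz
    obtain ⟨z, hzdef⟩ : ∃ z, z = a * b * a⁻¹ * b⁻¹ := ⟨_, rfl⟩
    rw [← hzdef] at hz
    obtain ⟨e, he, hee⟩ := hsq _ (Z.inv_mem hz)
    refine ⟨e, he, ?_⟩
    have h1 : a * b = z * b * a := by rw [hzdef]; group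
    have h2 : a * e = e⁻¹ * a := by
      rw [← hDinv a ha e he]; group
    have h3 : b * z⁻¹ = z * b := by
      have := hDinv b hb _ (Z.inv_mem hz)
      rw [inv_inv] at this
      calc b * z⁻¹ = (b * z⁻¹ * b⁻¹) * b := by group
        _ = z * b := by rw [this]
    calc a * (b * e) = (a * b) * e := (mul_assoc _ _ _).symm
      _ = z * b * a * e := by rw [h1]
      _ = z * b * (a * e) := by simp only [mul_assoc]
      _ = z * b * (e⁻¹ * a) := by rw [h2]
      _ = (z * b) * e⁻¹ * a := by simp only [mul_assoc]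
      _ = (b * z⁻¹) * e⁻¹ * a := by rw [h3]
      _ = b * (e * e) * e⁻¹ * a := by rw [hee]
      _ = b * e * a := by group
  -- reachability relation on G
  set Γ := Cfsg.commutingGraph (conjugatesOf d) with hΓ
  let Rel : G → G → Prop := fun x y =>
    ∃ (hx : x ∈ conjugatesOf d) (hy : y ∈ conjugatesOf d), Γ.Reachable ⟨x, hx⟩ ⟨y, hy⟩
  have hmemD : ∀ x, x ∈ conjugatesOf d ↔ IsConj d x := fun x => Iff.rfl
  have hmemDb : ∀ x : G ⧸ Z, x ∈ conjugatesOf (QuotientGroup.mk d : G ⧸ Z) ↔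
      IsConj (QuotientGroup.mk d : G ⧸ Z) x := fun x => Iff.rfl
  have Rrefl : ∀ x, IsConj d x → Rel x x := fun x hx =>
    ⟨(hmemD x).mpr hx, (hmemD x).mpr hx, SimpleGraph.Reachable.refl _⟩
  have Rsymm : ∀ x y, Rel x y → Rel y x := fun x y ⟨hx, hy, h⟩ => ⟨hy, hx, h.symm⟩
  have Rtrans : ∀ x y z, Rel x y → Rel y z → Rel x z :=
    fun x y z ⟨hx, hy, h⟩ ⟨_, hz, h'⟩ => ⟨hx, hz, h.trans h'⟩
  have Radj : ∀ x y, IsConj d x → IsConj d y → x ≠ y → x * y = y * x → Rel x y := by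
    intro x y hx hy hne hc
    refine ⟨(hmemD x).mpr hx, (hmemD y).mpr hy, SimpleGraph.Adj.reachable ?_⟩
    rw [hΓ, Cfsg.commutingGraph, SimpleGraph.fromRel_adj]
    refine ⟨fun h => hne (congrArg Subtype.val h), Or.inl hc⟩
  have Rconj : ∀ (g x y : G), Rel x y → Rel (g * x * g⁻¹) (g * y * g⁻¹) := by
    intro g x y ⟨hx, hy, h⟩
    have hc : ∀ t, t ∈ conjugatesOf d → g * t * g⁻¹ ∈ conjugatesOf d :=
      fun t ht => (hmemD _).mpr (hDc g t ((hmemD t).mp ht))
    let f : Γ →g Γ :=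
      { toFun := fun t => ⟨g * t.1 * g⁻¹, hc t.1 t.2⟩
        map_rel' := by
          intro u v huv
          rw [hΓ, Cfsg.commutingGraph, SimpleGraph.fromRel_adj] at huv ⊢
          obtain ⟨hne, hcm⟩ := huv
          refine ⟨?_, ?_⟩
          · intro h
            apply hne
            have h1 : g * u.1 * g⁻¹ = g * v.1 * g⁻¹ := congrArg Subtype.val h
            have h2 : u.1 = v.1 := by
              have := congrArg (fun t => g⁻¹ * t * g) h1
              simpa [mul_assoc] using this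
            exact Subtype.ext h2
          · have hcm' : Commute u.1 v.1 := by
              rcases hcm with h | h
              · exact h
              · exact h.symm
            left
            show Commute (g * u.1 * g⁻¹) (g * v.1 * g⁻¹)
            have e : u.1 * v.1 = v.1 * u.1 := hcm'
            show g * u.1 * g⁻¹ * (g * v.1 * g⁻¹) = g * v.1 * g⁻¹ * (g * u.1 * g⁻¹)
            calc g * u.1 * g⁻¹ * (g * v.1 * g⁻¹) = g * (u.1 * v.1) * g⁻¹ := by group
              _ = g * (v.1 * u.1) * g⁻¹ := by rw [e]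
              _ = g * v.1 * g⁻¹ * (g * u.1 * g⁻¹) := by group }
    exact ⟨hc x hx, hc y hy, h.map f⟩
  -- path lifting
  have hpath : ∀ (u v : ↥(conjugatesOf (QuotientGroup.mk d : G ⧸ Z))),
      (Cfsg.commutingGraph (conjugatesOf (QuotientGroup.mk d : G ⧸ Z))).Reachable u v →
      ∀ a : G, Rel d a → (QuotientGroup.mk a : G ⧸ Z) = u.1 →
        ∃ b : G, Rel d b ∧ (QuotientGroup.mk b : G ⧸ Z) = v.1 := by
    intro u v huv
    obtain ⟨p⟩ := huv
    induction p with
    | nil => intro a ha hau; exact ⟨a, ha, hau⟩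
    | @cons u v w hadj p ih =>
      intro a ha hau
      rw [Cfsg.commutingGraph, SimpleGraph.fromRel_adj] at hadj
      obtain ⟨hne, hcm⟩ := hadj
      have hcm' : u.1 * v.1 = v.1 * u.1 := by
        rcases hcm with h | h
        · exact h
        · exact h.symm
      have hv := v.2
      rw [hmemDb, isConj_iff] at hv
      obtain ⟨gb, hgb⟩ := hv
      obtain ⟨g, rfl⟩ := QuotientGroup.mk_surjective gb
      have hc0 : (QuotientGroup.mk (g * d * g⁻¹) : G ⧸ Z) = v.1 := by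
        rw [← hgb]; rfl
      have haD : IsConj d a := (hmemD a).mp ha.2.1
      have hcD : IsConj d (g * d * g⁻¹) := hDc g d (IsConj.refl d)
      have hzZ : a * (g * d * g⁻¹) * a⁻¹ * (g * d * g⁻¹)⁻¹ ∈ Z := by
        rw [← QuotientGroup.eq_one_iff]
        rw [QuotientGroup.mk_mul, QuotientGroup.mk_mul, QuotientGroup.mk_mul,
          QuotientGroup.mk_inv, QuotientGroup.mk_inv, hc0, hau, hcm']
        group
      obtain ⟨e, he, hcomm⟩ := hlift a _ haD hcD hzZ
      have hce : (QuotientGroup.mk (g * d * g⁻¹ * e) : G ⧸ Z) = v.1 := by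
        rw [QuotientGroup.mk_mul, (QuotientGroup.eq_one_iff e).mpr he, mul_one, hc0]
      refine ih (g * d * g⁻¹ * e) ?_ hce
      refine Rtrans _ _ _ ha (Radj _ _ haD (hDZ _ hcD e he) ?_ hcomm)
      intro h
      apply hne
      apply Subtype.ext
      rw [← hau, ← hce, h]
  -- the subgroup S
  have hdD : IsConj d d := IsConj.refl d
  let S : Subgroup G :=
    { carrier := {g | Rel d (g * d * g⁻¹)}
      mul_mem' := by
        intro g h hg hh
        have h1 := Rconj g _ _ hh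
        have h2 := Rtrans _ _ _ hg h1
        have e : g * (h * d * h⁻¹) * g⁻¹ = g * h * d * (g * h)⁻¹ := by group
        rw [e] at h2
        exact h2
      one_mem' := by
        show Rel d (1 * d * 1⁻¹)
        rw [one_mul, inv_one, mul_one]
        exact Rrefl d hdD
      inv_mem' := by
        intro g hg
        have h1 := Rconj g⁻¹ _ _ hg
        have e : g⁻¹ * (g * d * g⁻¹) * g⁻¹⁻¹ = d := by group
        rw [e] at h1
        exact Rsymm _ _ h1 }
  have hSmem : ∀ g, g ∈ S ↔ Rel d (g * d * g⁻¹) := fun g => Iff.rfl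
  have hS1 : ∀ x, Rel d x → x ∈ S := by
    intro x hx
    rw [hSmem]
    have h1 := Rconj x _ _ hx
    have e : x * x * x⁻¹ = x := by group
    rw [e] at h1
    exact Rtrans _ _ _ hx (Rsymm _ _ h1)
  have hdS : d ∈ S := hS1 d (Rrefl d hdD)
  have hfin : S = ⊤ → Γ.Connected := by
    intro hS
    have : Nonempty ↥(conjugatesOf d) := ⟨⟨d, (hmemD d).mpr hdD⟩⟩
    refine ⟨?_⟩
    have hall : ∀ u : ↥(conjugatesOf d), Γ.Reachable ⟨d, (hmemD d).mpr hdD⟩ u := by
      intro u
      obtain ⟨g, hg⟩ := isConj_iff.mp ((hmemD _).mp u.2)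
      have hgS : g ∈ S := by rw [hS]; trivial
      rw [hSmem, hg] at hgS
      obtain ⟨_, _, h⟩ := hgS
      exact h
    intro u v
    exact (hall u).symm.trans (hall v)
  apply hfin
  -- D ⊆ S * Z
  have hDSZ : ∀ x, IsConj d x → ∃ s ∈ S, ∃ z ∈ Z, x = s * z := by
    intro x hx
    have hxb : (QuotientGroup.mk x : G ⧸ Z) ∈ conjugatesOf (QuotientGroup.mk d : G ⧸ Z) := by
      rw [hmemDb]
      obtain ⟨g, rfl⟩ := isConj_iff.mp hx
      rw [isConj_iff]
      exact ⟨QuotientGroup.mk g, rfl⟩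
    obtain ⟨b, hb, hbx⟩ := hpath ⟨_, mem_conjugatesOf_self⟩ ⟨_, hxb⟩ (hconn.preconnected _ _) d
      (Rrefl d hdD) rfl
    have hbx' : (QuotientGroup.mk b : G ⧸ Z) = QuotientGroup.mk x := hbx
    rw [QuotientGroup.eq] at hbx'
    refine ⟨b, hS1 b hb, b⁻¹ * x, hbx', by group⟩
  let N : Subgroup G := Subgroup.normalClosure ({d} : Set G)
  have hNSZ : ∀ x ∈ N, ∃ s ∈ S, ∃ z ∈ Z, x = s * z := by
    have hle : N ≤ S ⊔ Z := by
      show Subgroup.normalClosure ({d} : Set G) ≤ S ⊔ Z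
      rw [Subgroup.normalClosure, Subgroup.closure_le]
      intro x hx
      obtain ⟨b, hb, hconj⟩ := Group.mem_conjugatesOfSet_iff.mp hx
      rw [Set.mem_singleton_iff] at hb
      subst hb
      obtain ⟨s, hs, z, hz, rfl⟩ := hDSZ x hconj
      exact Subgroup.mul_mem _ (Subgroup.mem_sup_left hs) (Subgroup.mem_sup_right hz)
    intro x hx
    obtain ⟨s, hs, z, hz, h⟩ := Subgroup.mem_sup_of_normal_right.mp (hle hx)
    exact ⟨s, hs, z, hz, h.symm⟩
  have hdN : d ∈ N := Subgroup.subset_normalClosure (Set.mem_singleton d)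
  have hcomL : ∀ (T : Subgroup G), (∀ l1 ∈ L, ∀ l2 ∈ L, l1 * l2 * l1⁻¹ * l2⁻¹ ∈ T) → L ≤ T := by
    intro T hT
    have h1 : commutator ↥L ≤ T.subgroupOf L := by
      rw [commutator_def, Subgroup.commutator_le]
      intro g1 _ g2 _
      rw [Subgroup.mem_subgroupOf]
      exact hT g1 g1.2 g2 g2.2
    rw [hperf.commutator_eq_top] at h1
    intro l hl
    have := h1 (Subgroup.mem_top (⟨l, hl⟩ : ↥L))
    rwa [Subgroup.mem_subgroupOf] at this
  have hMn : ((N.subgroupOf L).map (QuotientGroup.mk' (Subgroup.center ↥L))).Normal :=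
    Subgroup.Normal.map inferInstance _ (QuotientGroup.mk'_surjective _)
  rcases hMn.eq_bot_or_eq_top with hbot | htop
  · -- d centralizes L
    rw [Subgroup.map_eq_bot_iff, QuotientGroup.ker_mk'] at hbot
    have hdl : ∀ l ∈ L, d * l * d⁻¹ * l⁻¹ ∈ Z := by
      intro l hl
      have hlL : d * l * d⁻¹ * l⁻¹ ∈ L :=
        L.mul_mem (‹L.Normal›.conj_mem l hl d) (L.inv_mem hl)
      have hlN : d * l * d⁻¹ * l⁻¹ ∈ N := by
        have h1 : l * d⁻¹ * l⁻¹ ∈ N :=
          (inferInstance : N.Normal).conj_mem _ (N.inv_mem hdN) l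
        have := N.mul_mem hdN h1
        have e : d * (l * d⁻¹ * l⁻¹) = d * l * d⁻¹ * l⁻¹ := by group
        rwa [e] at this
      have := hbot (Subgroup.mem_subgroupOf.mpr (show ((⟨_, hlL⟩ : ↥L) : G) ∈ N from hlN))
      exact hZmem _ this
    have hLc : L ≤ Subgroup.centralizer ({d} : Set G) := by
      apply hcomL
      intro l1 hl1 l2 hl2
      rw [Subgroup.mem_centralizer_iff]
      intro t ht
      rw [Set.mem_singleton_iff] at ht
      subst ht
      have h1 := hdl l1 hl1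
      have h2 := hdl l2 hl2
      have c1 := hZcomm _ h1
      have c2 := hZcomm _ h2
      have e1 : t * l1 = (t * l1 * t⁻¹ * l1⁻¹) * l1 * t := by group
      have e2 : t * l2 = (t * l2 * t⁻¹ * l2⁻¹) * l2 * t := by group
      have e1' : t * l1⁻¹ = l1⁻¹ * (t * l1 * t⁻¹ * l1⁻¹)⁻¹ * t := by group
      have e2' : t * l2⁻¹ = l2⁻¹ * (t * l2 * t⁻¹ * l2⁻¹)⁻¹ * t := by group
      generalize t * l1 * t⁻¹ * l1⁻¹ = z1 at *
      generalize t * l2 * t⁻¹ * l2⁻¹ = z2 at *
      have c1i : ∀ l ∈ L, z1⁻¹ * l = l * z1⁻¹ := hZcomm _ (Z.inv_mem h1)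
      have c2i : ∀ l ∈ L, z2⁻¹ * l = l * z2⁻¹ := hZcomm _ (Z.inv_mem h2)
      have hl1i := L.inv_mem hl1
      have hl2i := L.inv_mem hl2
      calc t * (l1 * l2 * l1⁻¹ * l2⁻¹) = (t * l1) * l2 * l1⁻¹ * l2⁻¹ := by simp only [mul_assoc]
        _ = z1 * l1 * (t * l2) * l1⁻¹ * l2⁻¹ := by rw [e1]; simp only [mul_assoc]
        _ = z1 * l1 * z2 * l2 * (t * l1⁻¹) * l2⁻¹ := by rw [e2]; simp only [mul_assoc]
        _ = z1 * l1 * z2 * l2 * l1⁻¹ * z1⁻¹ * (t * l2⁻¹) := by rw [e1']; simp only [mul_assoc]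
        _ = z1 * l1 * z2 * l2 * l1⁻¹ * z1⁻¹ * l2⁻¹ * z2⁻¹ * t := by rw [e2']; simp only [mul_assoc]
        _ = l1 * l2 * l1⁻¹ * l2⁻¹ * t := by
          rw [c1 l1 hl1, mul_assoc l1 z1 z2, mul_assoc l1 (z1 * z2) l2,
            hZcomm _ (Z.mul_mem h1 h2) l2 hl2]
          rw [mul_assoc _ z1⁻¹ l2⁻¹, c1i l2⁻¹ hl2i]
          have : l1 * (l2 * (z1 * z2)) * l1⁻¹ * (l2⁻¹ * z1⁻¹) * z2⁻¹
              = l1 * l2 * ((z1 * z2) * l1⁻¹) * l2⁻¹ * z1⁻¹ * z2⁻¹ := by simp only [mul_assoc]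
          rw [this, hZcomm _ (Z.mul_mem h1 h2) l1⁻¹ hl1i]
          have : l1 * l2 * (l1⁻¹ * (z1 * z2)) * l2⁻¹ * z1⁻¹ * z2⁻¹
              = l1 * l2 * l1⁻¹ * ((z1 * z2) * l2⁻¹) * z1⁻¹ * z2⁻¹ := by simp only [mul_assoc]
          rw [this, hZcomm _ (Z.mul_mem h1 h2) l2⁻¹ hl2i]
          have hz12 : z1 * z2 = z2 * z1 := hZcomm _ h1 z2 (hZL h2)
          rw [hz12]
          group
    have hall : ∀ g : G, g * d = d * g := by
      intro g
      have hle : L ⊔ Subgroup.zpowers d ≤ Subgroup.centralizer ({d} : Set G) := by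
        apply sup_le hLc
        rw [Subgroup.zpowers_le]
        rw [Subgroup.mem_centralizer_iff]
        intro t ht
        rw [Set.mem_singleton_iff] at ht
        subst ht
        rfl
      rw [hgen] at hle
      have := hle (Subgroup.mem_top g)
      rw [Subgroup.mem_centralizer_iff] at this
      exact (this d (Set.mem_singleton d)).symm
    rw [eq_top_iff]
    intro g _
    rw [hSmem, hall g, mul_assoc, mul_inv_cancel, mul_one]
    exact Rrefl d hdD
  · -- L ≤ N·Z ≤ S·Z, then L ≤ S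
    have hLS : L ≤ S := by
      have hdecomp : ∀ l ∈ L, ∃ s ∈ S, ∃ z ∈ Z, l = s * z := by
        intro l hl
        have h1 : QuotientGroup.mk' (Subgroup.center ↥L) ⟨l, hl⟩ ∈
            (N.subgroupOf L).map (QuotientGroup.mk' (Subgroup.center ↥L)) := by
          rw [htop]; trivial
        obtain ⟨m, hm, hml⟩ := Subgroup.mem_map.mp h1
        have hml' : (QuotientGroup.mk m : ↥L ⧸ Subgroup.center ↥L) = QuotientGroup.mk ⟨l, hl⟩ :=
          hml
        rw [QuotientGroup.eq] at hml'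
        have hzc := hZmem _ hml'
        rw [Subgroup.mem_subgroupOf] at hm
        obtain ⟨s, hs, z, hz, hmsz⟩ := hNSZ _ hm
        refine ⟨s, hs, z * (m⁻¹ * ⟨l, hl⟩ : ↥L), Z.mul_mem hz hzc, ?_⟩
        rw [← mul_assoc, ← hmsz]
        push_cast
        group
      apply hcomL
      intro l1 hl1 l2 hl2
      obtain ⟨s1, hs1, z1, hz1, rfl⟩ := hdecomp l1 hl1
      obtain ⟨s2, hs2, z2, hz2, rfl⟩ := hdecomp l2 hl2
      have hs1L : s1 ∈ L := by
        have := L.mul_mem hl1 (L.inv_mem (hZL hz1))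
        rwa [mul_inv_cancel_right] at this
      have hs2L : s2 ∈ L := by
        have := L.mul_mem hl2 (L.inv_mem (hZL hz2))
        rwa [mul_inv_cancel_right] at this
      have e : s1 * z1 * (s2 * z2) * (s1 * z1)⁻¹ * (s2 * z2)⁻¹ = s1 * s2 * s1⁻¹ * s2⁻¹ := by
        have c1 := hZcomm z1 hz1
        have c2 := hZcomm z2 hz2
        have c1i := hZcomm _ (Z.inv_mem hz1)
        have c2i := hZcomm _ (Z.inv_mem hz2)
        have hs1i := L.inv_mem hs1L
        have hs2i := L.inv_mem hs2L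
        rw [mul_inv_rev, mul_inv_rev]
        calc s1 * z1 * (s2 * z2) * (z1⁻¹ * s1⁻¹) * (z2⁻¹ * s2⁻¹)
            = s1 * (z1 * s2) * z2 * z1⁻¹ * s1⁻¹ * z2⁻¹ * s2⁻¹ := by simp only [mul_assoc]
          _ = s1 * s2 * (z1 * z2 * z1⁻¹) * s1⁻¹ * z2⁻¹ * s2⁻¹ := by
            rw [c1 s2 hs2L]; simp only [mul_assoc]
          _ = s1 * s2 * z2 * s1⁻¹ * z2⁻¹ * s2⁻¹ := by
            rw [c1 z2 (hZL hz2), mul_assoc z2 z1, mul_inv_cancel, mul_one]
          _ = s1 * s2 * (z2 * s1⁻¹) * z2⁻¹ * s2⁻¹ := by simp only [mul_assoc]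
          _ = s1 * s2 * s1⁻¹ * (z2 * z2⁻¹) * s2⁻¹ := by
            rw [c2 _ hs1i]; simp only [mul_assoc]
          _ = s1 * s2 * s1⁻¹ * s2⁻¹ := by rw [mul_inv_cancel, mul_one]
      rw [e]
      exact S.mul_mem (S.mul_mem (S.mul_mem hs1 hs2) (S.inv_mem hs1)) (S.inv_mem hs2)
    rw [eq_top_iff, ← hgen]
    apply sup_le hLS
    rw [Subgroup.zpowers_le]
    exact hdS

end Cfsg.Agent.S5459
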