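import Cfsg.Statements.S5541
import Mathlib
-- import your own Cfsg.Agent.* helpers here

set_option autoImplicit false
open Cfsg

namespace Cfsg.Agent.S5541

/-- Let ρ be a representation of a group H on a finite-dimensional real vector space U whose only ρ-invariant subspaces are the zero subspace and U, and suppose U carries a non-zero ρ-invariant symmetric bilinear form. Then the following are equivalent: (1) there is a non-zero ρ-equivariant commutative bilinear product on U of which every ρ-equivariant bilinear product is a scalar multiple; (2) there is a non-zero ρ-invariant trilinear form on U that is symmetric under all permutations of its arguments and of which every ρ-invariant trilinear form is a scalar multiple. -/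
theorem result {H : Type*} [Group H] {U : Type*} [AddCommGroup U] [Module ℝ U] [FiniteDimensional ℝ U] (ρ : Representation ℝ H U) (hirr : ∀ W : Submodule ℝ U, (∀ g : H, W.map (ρ g) ≤ W) → W = ⊥ ∨ W = ⊤) (B : LinearMap.BilinForm ℝ U) (hB0 : B ≠ 0) (hBs : ∀ u v, B u v = B v u) (hBi : ∀ (g : H) (u v : U), B (ρ g u) (ρ g v) = B u v) : (∃ m : U →ₗ[ℝ] U →ₗ[ℝ] U, m ≠ 0 ∧ (∀ u v, m u v = m v u) ∧ (∀ (g : H) (u v : U), m (ρ g u) (ρ g v) = ρ g (m u v)) ∧ ∀ m' : U →ₗ[ℝ] U →ₗ[ℝ] U, (∀ (g : H) (u v : U), m' (ρ g u) (ρ g v) = ρ g (m' u v)) → ∃ c : ℝ, m' = c • m) ↔ (∃ t : U →ₗ[ℝ] U →ₗ[ℝ] U →ₗ[ℝ] ℝ, t ≠ 0 ∧ (∀ u v w, t u v w = t v u w ∧ t u v w = t u w v) ∧ (∀ (g : H) (u v w : U), t (ρ g u) (ρ g v) (ρ g w) = t u v w) ∧ ∀ t' : U →ₗ[ℝ] U →ₗ[ℝ] U →ₗ[ℝ] ℝ, (∀ (g : H) (u v w : U), t' (ρ g u) (ρ g v) (ρ g w) = t' u v w) → ∃ c : ℝ, t' = c • t) := by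
  classical
  -- B is nondegenerate: its kernel is an invariant subspace
  have hρinv : ∀ (g : H) (v : U), ρ g (ρ g⁻¹ v) = v := by
    intro g v
    have : (ρ g * ρ g⁻¹) v = v := by rw [← map_mul, mul_inv_cancel, map_one]; rfl
    exact this
  have hker : LinearMap.ker B = ⊥ := by
    have hinv : ∀ g : H, (LinearMap.ker B).map (ρ g) ≤ LinearMap.ker B := by
      intro g
      rintro _ ⟨u, hu, rfl⟩
      have hu' : B u = 0 := LinearMap.mem_ker.mp hu
      rw [LinearMap.mem_ker]
      ext v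
      have h1 := hBi g u (ρ g⁻¹ v)
      rw [hρinv] at h1
      rw [h1, hu']
      rfl
    rcases hirr (LinearMap.ker B) hinv with h | h
    · exact h
    · exfalso
      apply hB0
      ext u v
      have : u ∈ LinearMap.ker B := by rw [h]; trivial
      rw [LinearMap.mem_ker] at this
      rw [this]
      rfl
  have hinj : Function.Injective B := LinearMap.ker_eq_bot.mp hker
  let e : U ≃ₗ[ℝ] Module.Dual ℝ U :=
    LinearMap.linearEquivOfInjective B hinj Subspace.dual_finrank_eq.symm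
  have he : ∀ φ : Module.Dual ℝ U, ∀ w, B (e.symm φ) w = φ w := by
    intro φ w
    have : e (e.symm φ) = φ := e.apply_symm_apply φ
    have h2 : B (e.symm φ) = φ := this
    rw [h2]
  have K1 : ∀ x y : U, (∀ w, B x w = B y w) → x = y := by
    intro x y h
    apply hinj
    ext w
    exact h w
  -- from trilinear to product
  have toM : ∀ t : U →ₗ[ℝ] U →ₗ[ℝ] U →ₗ[ℝ] ℝ,
      (∀ (g : H) (u v w : U), t (ρ g u) (ρ g v) (ρ g w) = t u v w) →
      ∃ m : U →ₗ[ℝ] U →ₗ[ℝ] U, (∀ u v w, B (m u v) w = t u v w) ∧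
        (∀ (g : H) (u v : U), m (ρ g u) (ρ g v) = ρ g (m u v)) := by
    intro t ht
    have hm : ∀ u v w, B ((t.compr₂ e.symm.toLinearMap) u v) w = t u v w := by
      intro u v w
      rw [LinearMap.compr₂_apply]
      exact he _ w
    refine ⟨t.compr₂ e.symm.toLinearMap, hm, ?_⟩
    intro g u v
    apply K1
    intro w
    rw [hm]
    have h1 := hBi g ((t.compr₂ e.symm.toLinearMap) u v) (ρ g⁻¹ w)
    rw [hρinv] at h1
    rw [h1, hm]
    have h2 := ht g u v (ρ g⁻¹ w)
    rw [hρinv] at h2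
    exact h2
  have toT : ∀ m : U →ₗ[ℝ] U →ₗ[ℝ] U,
      (∀ (g : H) (u v : U), m (ρ g u) (ρ g v) = ρ g (m u v)) →
      ∃ t : U →ₗ[ℝ] U →ₗ[ℝ] U →ₗ[ℝ] ℝ, (∀ u v w, t u v w = B (m u v) w) ∧
        (∀ (g : H) (u v w : U), t (ρ g u) (ρ g v) (ρ g w) = t u v w) := by
    intro m hm
    refine ⟨m.compr₂ B, fun u v w => rfl, ?_⟩
    intro g u v w
    show B (m (ρ g u) (ρ g v)) (ρ g w) = B (m u v) w
    rw [hm, hBi]
  constructor
  · rintro ⟨m, hm0, hmc, hme, hmu⟩
    obtain ⟨t, htm, hti⟩ := toT m hme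
    have ht0 : t ≠ 0 := by
      intro h
      apply hm0
      ext u v
      apply K1
      intro w
      rw [← htm, h]
      simp
    have htu : ∀ t' : U →ₗ[ℝ] U →ₗ[ℝ] U →ₗ[ℝ] ℝ,
        (∀ (g : H) (u v w : U), t' (ρ g u) (ρ g v) (ρ g w) = t' u v w) → ∃ c : ℝ, t' = c • t := by
      intro t' ht'
      obtain ⟨m', hm't, hm'e⟩ := toM t' ht'
      obtain ⟨c, hc⟩ := hmu m' hm'e
      refine ⟨c, ?_⟩
      ext u v w
      rw [← hm't, hc]
      simp only [LinearMap.smul_apply, map_smul, htm]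
    have hs1 : ∀ u v w, t u v w = t v u w := by
      intro u v w
      rw [htm, htm, hmc]
    -- second symmetry
    obtain ⟨c, hc⟩ := htu ((LinearMap.lflip (R₀ := ℝ)).toLinearMap.comp t) (by
      intro g u v w
      show t (ρ g u) (ρ g w) (ρ g v) = t u w v
      exact hti g u w v)
    have hc' : ∀ u v w, t u w v = c * t u v w := by
      intro u v w
      have := congrArg (fun f => f u v w) hc
      exact this
    have hex : ∃ u v w, t u v w ≠ 0 := by
      by_contra hcon
      push Not at hcon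
      apply ht0
      ext u v w
      exact hcon u v w
    obtain ⟨u0, v0, w0, h0⟩ := hex
    have hcc : c * c = 1 := by
      have h1 := hc' u0 v0 w0
      have h2 := hc' u0 w0 v0
      rw [h1] at h2
      have h3 : (c * c - 1) * t u0 v0 w0 = 0 := by linarith
      rcases mul_eq_zero.mp h3 with h | h
      · linarith
      · exact absurd h h0
    have hc1 : c = 1 := by
      have h4 : (c - 1) * (c + 1) = 0 := by ring_nf; linarith
      rcases mul_eq_zero.mp h4 with h | h
      · linarith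
      · exfalso
        have hcm : c = -1 := by linarith
        have a1 : ∀ u v w, t u w v = - t u v w := by
          intro u v w
          rw [hc', hcm]; ring
        have e1 : t u0 v0 w0 = - t u0 w0 v0 := by rw [a1 u0 v0 w0]; ring
        have e2 : t u0 w0 v0 = t w0 u0 v0 := hs1 _ _ _
        have e3 : t w0 u0 v0 = - t w0 v0 u0 := by rw [a1 w0 u0 v0]; ring
        have e4 : t w0 v0 u0 = t v0 w0 u0 := hs1 _ _ _
        have e5 : t v0 w0 u0 = - t v0 u0 w0 := by rw [a1 v0 w0 u0]; ring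
        have e6 : t v0 u0 w0 = t u0 v0 w0 := hs1 _ _ _
        apply h0
        linarith
    refine ⟨t, ht0, ?_, hti, htu⟩
    intro u v w
    refine ⟨hs1 u v w, ?_⟩
    rw [hc' u v w, hc1, one_mul]
  · rintro ⟨t, ht0, hts, hti, htu⟩
    obtain ⟨m, hmt, hme⟩ := toM t hti
    refine ⟨m, ?_, ?_, hme, ?_⟩
    · intro h
      apply ht0
      ext u v w
      rw [← hmt, h]
      simp
    · intro u v
      apply K1
      intro w
      rw [hmt, hmt]
      exact (hts u v w).1
    · intro m' hm'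
      obtain ⟨t', ht'm, ht'i⟩ := toT m' hm'
      obtain ⟨c, hc⟩ := htu t' ht'i
      refine ⟨c, ?_⟩
      ext u v
      apply K1
      intro w
      rw [← ht'm, hc]
      simp only [LinearMap.smul_apply, map_smul, hmt]

end Cfsg.Agent.S5541
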