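import Cfsg.Statements.S5543
import Mathlib
import Cfsg.Agent.Lib.Helper9.Majorana
-- import your own Cfsg.Agent.* helpers here

set_option autoImplicit false
open Cfsg

namespace Cfsg.Agent.S5543

/-- Let V be a finite-dimensional real vector space with a commutative bilinear product and a positive-definite symmetric bilinear form that associates with the product and satisfies the Norton inequality (the Majorana setting of the definitions). Let X be a group of linear automorphisms of V in which every element squares to the identity, and suppose every non-identity element x of X is a Majorana involution with an axial vector a(x) of squared length 1, such that for any two distinct non-identity x, y the product a(x) ∘ a(y) equals (1/8)(a(x) + a(y) − a(xy)) (the dihedral subalgebra of type 2A whose third axis belongs to the involution xy). Then X has order at most 4. -/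
theorem result {V : Type*} [AddCommGroup V] [Module ℝ V] [FiniteDimensional ℝ V] (mul : V →ₗ[ℝ] V →ₗ[ℝ] V) (B : LinearMap.BilinForm ℝ V) (hV : Cfsg.Axial.IsMajoranaAmbient mul B) (X : Subgroup (V ≃ₗ[ℝ] V)) (hX : ∀ x ∈ X, x * x = 1) (ax : (V ≃ₗ[ℝ] V) → V) (hax : ∀ x ∈ X, x ≠ 1 → Cfsg.Axial.IsMajoranaPair mul B x (ax x)) (h1 : ∀ x ∈ X, x ≠ 1 → B (ax x) (ax x) = 1) (h2A : ∀ x ∈ X, ∀ y ∈ X, x ≠ 1 → y ≠ 1 → x ≠ y → mul (ax x) (ax y) = (1 / 8 : ℝ) • (ax x + ax y - ax (x * y))) : Nat.card ↥X ≤ 4 := by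
  classical
  by_contra hcard
  push Not at hcard
  -- elements outside small finsets
  have hout : ∀ S : Finset (V ≃ₗ[ℝ] V), S.card ≤ 4 → ∃ w ∈ X, w ∉ S := by
    intro S hS
    by_contra hcon
    push Not at hcon
    have hsub : (X : Set (V ≃ₗ[ℝ] V)) ⊆ (S : Set (V ≃ₗ[ℝ] V)) := fun w hw => hcon w hw
    have h1 : (X : Set (V ≃ₗ[ℝ] V)).ncard ≤ (S : Set (V ≃ₗ[ℝ] V)).ncard :=
      Set.ncard_le_ncard hsub (Finset.finite_toSet S)
    rw [Set.ncard_coe_finset] at h1
    have h2 : Nat.card ↥X = (X : Set (V ≃ₗ[ℝ] V)).ncard := rfl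
    omega
  have hinv : ∀ u ∈ X, u⁻¹ = u := fun u hu => inv_eq_of_mul_eq_one_left (hX u hu)
  have hcomm : ∀ u ∈ X, ∀ v ∈ X, u * v = v * u := by
    intro u hu v hv
    have h1 := hX (u * v) (X.mul_mem hu hv)
    have h2 : u * v = (u * v)⁻¹ := (hinv _ (X.mul_mem hu hv)).symm
    rw [h2, mul_inv_rev, hinv u hu, hinv v hv]
  obtain ⟨x, hxX, hx⟩ := hout {1} (by simp)
  obtain ⟨y, hyX, hy⟩ := hout {1, x} (le_trans (Finset.card_le_two) (by norm_num))
  obtain ⟨w, hwX, hw⟩ := hout {1, x, y, x * y} Finset.card_le_four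
  simp only [Finset.mem_singleton, Finset.mem_insert, not_or] at hx hy hw
  obtain ⟨hy1, hyx⟩ := hy
  obtain ⟨hw1, hwx, hwy, hwxy⟩ := hw
  have hxx : x * x = 1 := hX x hxX
  -- (1) the 1/4-eigenvectors
  have hq : ∀ p ∈ X, ∀ q ∈ X, p ≠ 1 → q ≠ 1 → q ≠ p →
      mul (ax p) (ax q - ax (p * q)) = (1 / 4 : ℝ) • (ax q - ax (p * q)) := by
    intro p hp q hq hp1 hq1 hqp
    have e1 := h2A p hp q hq hp1 hq1 (Ne.symm hqp)
    have hpq1 : p * q ≠ 1 := by
      intro h
      apply hqp
      have : q = p⁻¹ := eq_inv_of_mul_eq_one_right h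
      rw [this, hinv p hp]
    have hppq : p ≠ p * q := by
      intro h
      apply hq1
      have : p * 1 = p * q := by rw [mul_one]; exact h
      exact (mul_left_cancel this).symm
    have e2 := h2A p hp (p * q) (X.mul_mem hp hq) hp1 hpq1 hppq
    have e3 : p * (p * q) = q := by rw [← mul_assoc, hX p hp, one_mul]
    rw [e3] at e2
    rw [map_sub, e1, e2]
    module
  have hyw1 : y * w ≠ 1 := by
    intro h
    apply hwy
    have : w = y⁻¹ := eq_inv_of_mul_eq_one_right h
    rw [this, hinv y hyX]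
  have hywx : y * w ≠ x := by
    intro h
    apply hwxy
    have : w = y⁻¹ * x := by rw [← h]; group
    rw [this, hinv y hyX, hcomm y hyX x hxX]
  have hywX : y * w ∈ X := X.mul_mem hyX hwX
  have hu := hq x hxX y hyX hx hy1 hyx
  have hv := hq x hxX w hwX hx hw1 hwx
  have hd := hq x hxX (y * w) hywX hx hyw1 hywx
  -- (3) the product
  have hxw1 : x * w ≠ 1 := by
    intro h
    apply hwx
    have : w = x⁻¹ := eq_inv_of_mul_eq_one_right h
    rw [this, hinv x hxX]
  have hxy1 : x * y ≠ 1 := by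
    intro h
    apply hyx
    have : y = x⁻¹ := eq_inv_of_mul_eq_one_right h
    rw [this, hinv x hxX]
  have hxwX : x * w ∈ X := X.mul_mem hxX hwX
  have hxyX : x * y ∈ X := X.mul_mem hxX hyX
  have p1 := h2A y hyX w hwX hy1 hw1 (Ne.symm hwy)
  have p2 := h2A y hyX (x * w) hxwX hy1 hxw1 (by
    intro h
    apply hwxy
    have : w = x⁻¹ * y := by rw [h]; group
    rw [this, hinv x hxX])
  have p3 := h2A (x * y) hxyX w hwX hxy1 hw1 (Ne.symm hwxy)
  have p4 := h2A (x * y) hxyX (x * w) hxwX hxy1 hxw1 (by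
    intro h
    exact hwy (mul_left_cancel h).symm)
  have c2 : y * (x * w) = x * (y * w) := by
    rw [← mul_assoc, hcomm y hyX x hxX, mul_assoc]
  have c3 : x * y * w = x * (y * w) := mul_assoc x y w
  have c4 : x * y * (x * w) = y * w := by
    rw [hcomm x hxX y hyX, mul_assoc, ← mul_assoc x x w, hxx, one_mul]
  rw [c2] at p2
  rw [c3] at p3
  rw [c4] at p4
  have hprod : mul (ax y - ax (x * y)) (ax w - ax (x * w))
      = (-(1 / 4) : ℝ) • (ax (y * w) - ax (x * (y * w))) := by
    simp only [map_sub, LinearMap.sub_apply, p1, p2, p3, p4]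
    module
  -- (4) fusion
  have hpair := hax x hxX hx
  obtain ⟨_, _, ⟨⟨_, _, _, hfus⟩, _⟩, _, _⟩ := hpair
  have hqS : (1 / 4 : ℝ) ∈ Cfsg.Axial.majoranaSpectrum := by simp [Cfsg.Axial.majoranaSpectrum]
  have lawqq : Cfsg.Axial.monsterLaw (1 / 4) (1 / 32) (1 / 4 : ℝ) (1 / 4) = {1, 0} := by
    norm_num [Cfsg.Axial.monsterLaw]
  have hmem := hfus (1 / 4) hqS (1 / 4) hqS _
    ((Cfsg.Agent.Lib.Helper9.mem_eigen mul (ax x) (1 / 4) _).mpr hu) _
    ((Cfsg.Agent.Lib.Helper9.mem_eigen mul (ax x) (1 / 4) _).mpr hv)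
  rw [lawqq, Cfsg.Agent.Lib.Helper9.eigenSum_pair, hprod] at hmem
  obtain ⟨e1, he1, e0, he0, hsum⟩ := Submodule.mem_sup.mp hmem
  have he1' := (Cfsg.Agent.Lib.Helper9.mem_eigen mul (ax x) 1 e1).mp he1
  have he0' := (Cfsg.Agent.Lib.Helper9.mem_eigen mul (ax x) 0 e0).mp he0
  rw [one_smul] at he1'
  rw [zero_smul] at he0'
  have hsep := Cfsg.Agent.Lib.Helper9.eigen_sep mul (ax x) e1 e0
    ((1 / 4 : ℝ) • (ax (y * w) - ax (x * (y * w)))) he1' he0'
    (by rw [map_smul, hd])
    (by rw [hsum]; module)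
  have hd0 : ax (y * w) - ax (x * (y * w)) = 0 := by
    rcases smul_eq_zero.mp hsep.2.2 with h | h
    · norm_num at h
    · exact h
  have haxeq : ax (y * w) = ax (x * (y * w)) := sub_eq_zero.mp hd0
  -- (5) uniqueness of the involution
  have hxyw1 : x * (y * w) ≠ 1 := by
    intro h
    apply hywx
    have : y * w = x⁻¹ := eq_inv_of_mul_eq_one_right h
    rw [this, hinv x hxX]
  have hP1 := hax (y * w) hywX hyw1
  have hP2 := hax (x * (y * w)) (X.mul_mem hxX hywX) hxyw1
  rw [← haxeq] at hP2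
  have := Cfsg.Agent.Lib.Helper9.majorana_involution_unique mul B _ _ _ hP1 hP2
  apply hx
  have h3 : 1 * (y * w) = x * (y * w) := by rw [one_mul]; exact this
  exact (mul_right_cancel h3).symm

end Cfsg.Agent.S5543
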