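import Cfsg.Statements.S5545
import Mathlib
import Cfsg.Agent.Lib.Helper9.Majorana
-- import your own Cfsg.Agent.* helpers here

set_option autoImplicit false
open Cfsg

namespace Cfsg.Agent.S5545

/-- Let V be a finite-dimensional real vector space with a commutative bilinear product and a positive-definite symmetric bilinear form that associates with the product and satisfies the Norton inequality (the Majorana setting of the definitions). Let μ₀, μ₁ be commuting Majorana involutions with distinct axial vectors a₀ ≠ a₁ of squared length 1, each involution having no other axial vector. Then either a₀ and a₁ are orthogonal with a₀ ∘ a₁ = 0 (type 2B), or their inner product is 1/8 and, with a₂ = a₀ + a₁ − 8 a₀ ∘ a₁, the vector a₂ is an idempotent and a₀ ∘ a₂ = (1/8)(a₀ + a₂ − a₁), a₁ ∘ a₂ = (1/8)(a₁ + a₂ − a₀) (type 2A: the three idempotents span a subalgebra with aᵢ ∘ aⱼ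 = (1/8)(aᵢ + aⱼ − aₖ)). -/
theorem result {V : Type*} [AddCommGroup V] [Module ℝ V] [FiniteDimensional ℝ V] (mul : V →ₗ[ℝ] V →ₗ[ℝ] V) (B : LinearMap.BilinForm ℝ V) (hV : Cfsg.Axial.IsMajoranaAmbient mul B) (μ₀ μ₁ : V ≃ₗ[ℝ] V) (a₀ a₁ : V) (h₀ : Cfsg.Axial.IsMajoranaPair mul B μ₀ a₀) (h₁ : Cfsg.Axial.IsMajoranaPair mul B μ₁ a₁) (hu₀ : ∀ a : V, Cfsg.Axial.IsMajoranaPair mul B μ₀ a → a = a₀) (hu₁ : ∀ a : V, Cfsg.Axial.IsMajoranaPair mul B μ₁ a → a = a₁) (hn₀ : B a₀ a₀ = 1) (hn₁ : B a₁ a₁ = 1) (hc : μ₀ * μ₁ = μ₁ * μ₀) (hne : a₀ ≠ a₁) : (B a₀ a₁ = 0 ∧ mul a₀ a₁ = 0) ∨ (B a₀ a₁ = 1 / 8 ∧ mul (a₀ + a₁ - (8 : ℝ) • mul a₀ a₁) (a₀ + a₁ - (8 : ℝ) • mul a₀ a₁) = a₀ + a₁ - (8 : ℝ) • mul a₀ a₁ ∧ mul a₀ (a₀ + a₁ - (8 : ℝ) • mul a₀ a₁) = (1 / 8 : ℝ) • (a₀ + (a₀ + a₁ - (8 : ℝ) • mul a₀ a₁) - a₁) ∧ mul a₁ (a₀ + a₁ - (8 : ℝ) • mul a₀ a₁) = (1 / 8 : ℝ) • (a₁ + (a₀ + a₁ - (8 : ℝ) • mul a₀ a₁)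 - a₀)) := by
  classical
  have h₀' := h₀
  have h₁' := h₁
  obtain ⟨hm₀, _, ⟨⟨_, hidem₀, _, _⟩, _⟩, _, _⟩ := h₀'
  obtain ⟨hm₁, _, ⟨⟨_, hidem₁, _, _⟩, _⟩, _, _⟩ := h₁'
  have hc01 : ∀ v, μ₁ (μ₀ v) = μ₀ (μ₁ v) := fun v => by
    have := congrArg (fun f : V ≃ₗ[ℝ] V => f v) hc
    simpa [LinearEquiv.mul_apply] using this.symm
  have hμ₀a₁ : μ₀ a₁ = a₁ :=
    hu₁ _ (Cfsg.Agent.Lib.Helper9.majorana_transport mul B μ₁ μ₀ a₁ h₁ hm₀ hc01)
  have hμ₁a₀ : μ₁ a₀ = a₀ :=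
    hu₀ _ (Cfsg.Agent.Lib.Helper9.majorana_transport mul B μ₀ μ₁ a₀ h₀ hm₁ (fun v => (hc01 v).symm))
  obtain ⟨i1, j1⟩ := Cfsg.Agent.Lib.Helper9.majorana_key mul B hV μ₀ a₀ h₀ hn₀ a₁ hidem₁ hμ₀a₁
  obtain ⟨i2, j2⟩ := Cfsg.Agent.Lib.Helper9.majorana_key mul B hV μ₁ a₁ h₁ hn₁ a₀ hidem₀ hμ₁a₀
  obtain ⟨hcomm, hsymm, hpos, hassoc, hnorton⟩ := hV
  rw [hsymm a₁ a₀, hcomm a₁ a₀] at i2 j2
  have hnort := hnorton a₀ a₁
  rw [hidem₀, hidem₁] at hnort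
  obtain ⟨l, hl⟩ : ∃ l, l = B a₀ a₁ := ⟨_, rfl⟩
  obtain ⟨c, hcdef⟩ : ∃ c, c = mul a₀ a₁ := ⟨_, rfl⟩
  rw [← hl, ← hcdef] at i1 j1 i2 j2 hnort ⊢
  have hba : mul a₁ a₀ = c := by rw [hcomm, hcdef]
  have hca : mul c a₀ = (1 / 4 : ℝ) • (c + (3 * l) • a₀) := by rw [hcomm, i1]
  have hcb : mul c a₁ = (1 / 4 : ℝ) • (c + (3 * l) • a₁) := by rw [hcomm, i2]
  have r1 : (32 : ℝ) • mul c c = (6 * l) • a₁ + (4 * l + 16 * l ^ 2) • a₀ + (8 * l - 2) • c := by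
    have e : (32 : ℝ) • mul c c - ((6 * l) • a₁ + (4 * l + 16 * l ^ 2) • a₀ + (8 * l - 2) • c)
        = (mul (a₁ + (3 * l) • a₀ - (4 : ℝ) • c) (a₁ + (3 * l) • a₀ - (4 : ℝ) • c)
          + mul ((4 : ℝ) • (c - l • a₀)) ((4 : ℝ) • (c - l • a₀))
          - (l - l ^ 2) • a₀) - (a₁ + (3 * l) • a₀ - (4 : ℝ) • c) := by
      simp only [map_add, map_sub, map_smul, LinearMap.add_apply, LinearMap.sub_apply,
        LinearMap.smul_apply, hidem₀, hidem₁, ← hcdef, hba, i1, hca, i2, hcb]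
      module
    rw [j1, sub_self] at e
    exact sub_eq_zero.mp e
  have r2 : (32 : ℝ) • mul c c = (6 * l) • a₀ + (4 * l + 16 * l ^ 2) • a₁ + (8 * l - 2) • c := by
    have e : (32 : ℝ) • mul c c - ((6 * l) • a₀ + (4 * l + 16 * l ^ 2) • a₁ + (8 * l - 2) • c)
        = (mul (a₀ + (3 * l) • a₁ - (4 : ℝ) • c) (a₀ + (3 * l) • a₁ - (4 : ℝ) • c)
          + mul ((4 : ℝ) • (c - l • a₁)) ((4 : ℝ) • (c - l • a₁))
          - (l - l ^ 2) • a₁) - (a₀ + (3 * l) • a₁ - (4 : ℝ) • c) := by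
      simp only [map_add, map_sub, map_smul, LinearMap.add_apply, LinearMap.sub_apply,
        LinearMap.smul_apply, hidem₀, hidem₁, ← hcdef, hba, i1, hca, i2, hcb]
      module
    rw [j2, sub_self] at e
    exact sub_eq_zero.mp e
  have key : (2 * l - 16 * l ^ 2) • (a₁ - a₀) = 0 := by
    have e : (2 * l - 16 * l ^ 2) • (a₁ - a₀)
        = ((6 * l) • a₁ + (4 * l + 16 * l ^ 2) • a₀ + (8 * l - 2) • c)
          - ((6 * l) • a₀ + (4 * l + 16 * l ^ 2) • a₁ + (8 * l - 2) • c) := by module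
    rw [e, ← r1, ← r2, sub_self]
  rcases smul_eq_zero.mp key with h | h
  · have h' : l * (1 - 8 * l) = 0 := by linear_combination h / 2
    rcases mul_eq_zero.mp h' with h0 | h8
    · left
      refine ⟨h0, ?_⟩
      by_contra hc0
      have := hpos c hc0
      rw [h0] at hnort
      linarith
    · right
      have hl8 : l = 1 / 8 := by linarith
      have r1' : mul c c = (1 / 32 : ℝ) • ((6 * l) • a₁ + (4 * l + 16 * l ^ 2) • a₀ + (8 * l - 2) • c) := by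
        rw [← r1]; module
      refine ⟨hl8, ?_, ?_, ?_⟩
      · simp only [map_add, map_sub, map_smul, LinearMap.add_apply, LinearMap.sub_apply,
          LinearMap.smul_apply, hidem₀, hidem₁, ← hcdef, hba, i1, hca, i2, hcb, r1']
        rw [hl8]
        module
      · simp only [map_add, map_sub, map_smul, LinearMap.add_apply, LinearMap.sub_apply,
          LinearMap.smul_apply, hidem₀, hidem₁, ← hcdef, hba, i1, hca, i2, hcb]
        rw [hl8]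
        module
      · simp only [map_add, map_sub, map_smul, LinearMap.add_apply, LinearMap.sub_apply,
          LinearMap.smul_apply, hidem₀, hidem₁, ← hcdef, hba, i1, hca, i2, hcb]
        rw [hl8]
        module
  · exact absurd (sub_eq_zero.mp h).symm hne

end Cfsg.Agent.S5545
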