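import Cfsg.Statements.S5551
import Mathlib
import Cfsg.Agent.Lib.Helper9.Leech
-- import your own Cfsg.Agent.* helpers here

set_option autoImplicit false
open Cfsg

namespace Cfsg.Agent.S5551

/-- In the Leech lattice of the definitions (integer coordinates, minimal squared length 32), let v and w be non-zero lattice vectors of squared length at most 64 that are congruent modulo twice the lattice. Then they have the same squared length, and if that length is less than 64 then w = v or w = −v. (So a class that contains a non-zero vector of squared length at most 64 has a well-defined type 2, 3 or 4, and a class of type 2 or 3 contains no such vector other than v and −v.) -/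
theorem result (v w : Cfsg.GolayPt → ℤ) (hv : v ∈ Cfsg.leechLattice) (hw : w ∈ Cfsg.leechLattice) (hv0 : v ≠ 0) (hw0 : w ≠ 0) (hvn : Cfsg.sqNorm v ≤ 64) (hwn : Cfsg.sqNorm w ≤ 64) (hc : ∃ z ∈ Cfsg.leechLattice, v - w = 2 • z) : Cfsg.sqNorm v = Cfsg.sqNorm w ∧ (Cfsg.sqNorm v < 64 → w = v ∨ w = -v) := by
  obtain ⟨z, hz, hc⟩ := hc
  have hc' : v - w = z + z := by rw [hc, two_nsmul]
  by_cases h1 : v = w
  · subst h1
    exact ⟨rfl, fun _ => Or.inl rfl⟩
  by_cases h2 : v = -w
  · refine ⟨by rw [h2, Cfsg.Agent.Lib.Helper9.Leech.sqNorm_neg], fun _ => Or.inr ?_⟩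
    rw [h2, neg_neg]
  · obtain ⟨e1, e2, -⟩ := Cfsg.Agent.Lib.Helper9.Leech.key hw hz h1 h2 hvn hwn hc'
    exact ⟨by rw [e1, e2], fun h => by rw [e1] at h; exact absurd h (lt_irrefl _)⟩

end Cfsg.Agent.S5551
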