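import Cfsg.Statements.S5609
import Mathlib
import Cfsg.Agent.Lib.Helper9.Octad
-- import your own Cfsg.Agent.* helpers here

set_option autoImplicit false
open scoped Pointwise
open Cfsg

namespace Cfsg.Agent.S5609

/-- In the graph on the 759 octads of the length-24 code in which two octads are adjacent when they are disjoint, the graph is connected (of diameter 3) and two distinct octads are at distance 1, 2 or 3 exactly when they meet in 0, 4 or 2 points respectively. -/
theorem result (o o' : Finset Cfsg.GolayPt) (ho : o ∈ Cfsg.octads) (ho' : o' ∈ Cfsg.octads) (hne : o ≠ o') : (Cfsg.blockGraph Cfsg.octads).Connected ∧ ((Cfsg.blockGraph Cfsg.octads).dist ⟨o, ho⟩ ⟨o', ho'⟩ = 1 ↔ (o ∩ o').card = 0) ∧ ((Cfsg.blockGraph Cfsg.octads).dist ⟨o, ho⟩ ⟨o', ho'⟩ = 2 ↔ (o ∩ o').card = 4) ∧ ((Cfsg.blockGraph Cfsg.octads).dist ⟨o, ho⟩ ⟨o', ho'⟩ = 3 ↔ (o ∩ o').card = 2) := by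
  classical
  have adj_iff : ∀ u v : ↥Cfsg.octads,
      (Cfsg.blockGraph Cfsg.octads).Adj u v ↔ u ≠ v ∧ Disjoint u.1 v.1 := by
    intro u v
    rw [Cfsg.blockGraph, SimpleGraph.fromRel_adj]
    constructor
    · rintro ⟨hne, h | h⟩
      · exact ⟨hne, h⟩
      · exact ⟨hne, h.symm⟩
    · rintro ⟨hne, h⟩
      exact ⟨hne, Or.inl h⟩
  have card8 : ∀ u : ↥Cfsg.octads, u.1.card = 8 :=
    fun u => ((Cfsg.Agent.Lib.Helper9.Octad.mem_octads u.1).mp u.2).2
  have adj_of_disj : ∀ u v : ↥Cfsg.octads, Disjoint u.1 v.1 →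
      (Cfsg.blockGraph Cfsg.octads).Adj u v := by
    intro u v h
    rw [adj_iff]
    refine ⟨?_, h⟩
    intro huv
    rw [huv, disjoint_self, Finset.bot_eq_empty] at h
    have := card8 v
    rw [h, Finset.card_empty] at this
    omega
  have d0 : ∀ u v : ↥Cfsg.octads, (u.1 ∩ v.1).card = 0 →
      (Cfsg.blockGraph Cfsg.octads).Adj u v := by
    intro u v h
    apply adj_of_disj
    rw [Finset.disjoint_iff_inter_eq_empty, ← Finset.card_eq_zero]
    exact h
  have d4 : ∀ u v : ↥Cfsg.octads, (u.1 ∩ v.1).card = 4 →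
      ∃ w, (Cfsg.blockGraph Cfsg.octads).Adj u w ∧ (Cfsg.blockGraph Cfsg.octads).Adj w v := by
    intro u v h
    obtain ⟨q, hq, h1, h2⟩ := Cfsg.Agent.Lib.Helper9.Octad.adj2 u.2 v.2 h
    exact ⟨⟨q, hq⟩, adj_of_disj _ _ h1, adj_of_disj _ _ h2⟩
  have d2 : ∀ u v : ↥Cfsg.octads, (u.1 ∩ v.1).card = 2 →
      ∃ w w', (Cfsg.blockGraph Cfsg.octads).Adj u w ∧ (Cfsg.blockGraph Cfsg.octads).Adj w w' ∧
        (Cfsg.blockGraph Cfsg.octads).Adj w' v := by
    intro u v h
    obtain ⟨q, hq, h4, hd⟩ := Cfsg.Agent.Lib.Helper9.Octad.adj3 u.2 v.2 h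
    obtain ⟨w, hw1, hw2⟩ := d4 u ⟨q, hq⟩ h4
    exact ⟨w, ⟨q, hq⟩, hw1, hw2, adj_of_disj _ _ hd⟩
  have hcases : ∀ u v : ↥Cfsg.octads, u ≠ v →
      (u.1 ∩ v.1).card = 0 ∨ (u.1 ∩ v.1).card = 2 ∨ (u.1 ∩ v.1).card = 4 := by
    intro u v huv
    rcases Cfsg.Agent.Lib.Helper9.Octad.inter_cases u.2 v.2 with h | h | h | h
    · exact Or.inl h
    · exact Or.inr (Or.inl h)
    · exact Or.inr (Or.inr h)
    · exact absurd (Subtype.ext h) huv
  have reach : ∀ u v : ↥Cfsg.octads, (Cfsg.blockGraph Cfsg.octads).Reachable u v := by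
    intro u v
    by_cases huv : u = v
    · rw [huv]
    · rcases hcases u v huv with h | h | h
      · exact (d0 u v h).reachable
      · obtain ⟨w, w', h1, h2, h3⟩ := d2 u v h
        exact h1.reachable.trans (h2.reachable.trans h3.reachable)
      · obtain ⟨w, h1, h2⟩ := d4 u v h
        exact h1.reachable.trans h2.reachable
  have hconn : (Cfsg.blockGraph Cfsg.octads).Connected := by
    have : Nonempty ↥Cfsg.octads := ⟨⟨o, ho⟩⟩
    exact ⟨reach⟩
  have main : ∀ u v : ↥Cfsg.octads, u ≠ v →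
      ((Cfsg.blockGraph Cfsg.octads).dist u v = 1 ↔ (u.1 ∩ v.1).card = 0) ∧
      ((Cfsg.blockGraph Cfsg.octads).dist u v = 2 ↔ (u.1 ∩ v.1).card = 4) ∧
      ((Cfsg.blockGraph Cfsg.octads).dist u v = 3 ↔ (u.1 ∩ v.1).card = 2) := by
    intro u v huv
    have hpos : 0 < (Cfsg.blockGraph Cfsg.octads).dist u v := (reach u v).pos_dist_of_ne huv
    have dist1 : (u.1 ∩ v.1).card = 0 → (Cfsg.blockGraph Cfsg.octads).dist u v = 1 :=
      fun h => SimpleGraph.dist_eq_one_iff_adj.mpr (d0 u v h)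
    have nadj : (u.1 ∩ v.1).card ≠ 0 → ¬ (Cfsg.blockGraph Cfsg.octads).Adj u v := by
      intro h hadj
      rw [adj_iff] at hadj
      apply h
      rw [Finset.card_eq_zero, ← Finset.disjoint_iff_inter_eq_empty]
      exact hadj.2
    have dist2 : (u.1 ∩ v.1).card = 4 → (Cfsg.blockGraph Cfsg.octads).dist u v = 2 := by
      intro h
      obtain ⟨w, h1, h2⟩ := d4 u v h
      have hle : (Cfsg.blockGraph Cfsg.octads).dist u v ≤ 2 :=
        SimpleGraph.dist_le (SimpleGraph.Walk.cons h1 (SimpleGraph.Walk.cons h2 SimpleGraph.Walk.nil))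
      have hn1 : (Cfsg.blockGraph Cfsg.octads).dist u v ≠ 1 :=
        fun h1' => nadj (by omega) (SimpleGraph.dist_eq_one_iff_adj.mp h1')
      omega
    have dist3 : (u.1 ∩ v.1).card = 2 → (Cfsg.blockGraph Cfsg.octads).dist u v = 3 := by
      intro h
      obtain ⟨w, w', h1, h2, h3⟩ := d2 u v h
      have hle : (Cfsg.blockGraph Cfsg.octads).dist u v ≤ 3 :=
        SimpleGraph.dist_le (SimpleGraph.Walk.cons h1 (SimpleGraph.Walk.cons h2
          (SimpleGraph.Walk.cons h3 SimpleGraph.Walk.nil)))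
      have hn1 : (Cfsg.blockGraph Cfsg.octads).dist u v ≠ 1 :=
        fun h1' => nadj (by omega) (SimpleGraph.dist_eq_one_iff_adj.mp h1')
      have hn2 : (Cfsg.blockGraph Cfsg.octads).dist u v ≠ 2 := by
        intro h2'
        obtain ⟨p, hp⟩ := (reach u v).exists_walk_length_eq_dist
        rw [h2'] at hp
        have hmid : ∃ m, (Cfsg.blockGraph Cfsg.octads).Adj u m ∧
            (Cfsg.blockGraph Cfsg.octads).Adj m v := by
          cases p with
          | nil => simp at hp
          | cons ha p' =>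
            cases p' with
            | nil => simp at hp
            | cons hb p'' =>
              cases p'' with
              | nil => exact ⟨_, ha, hb⟩
              | cons hc p''' => simp at hp
        obtain ⟨m, hm1, hm2⟩ := hmid
        rw [adj_iff] at hm1 hm2
        exact Cfsg.Agent.Lib.Helper9.Octad.no_adj2 u.2 v.2 m.2 h hm1.2.symm hm2.2
      omega
    have hc := hcases u v huv
    refine ⟨⟨?_, dist1⟩, ⟨?_, dist2⟩, ⟨?_, dist3⟩⟩
    · intro h
      rcases hc with h' | h' | h'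
      · exact h'
      · have := dist3 h'
        omega
      · have := dist2 h'
        omega
    · intro h
      rcases hc with h' | h' | h'
      · have := dist1 h'
        omega
      · have := dist3 h'
        omega
      · exact h'
    · intro h
      rcases hc with h' | h' | h'
      · have := dist1 h'
        omega
      · exact h'
      · have := dist2 h'
        omega
  exact ⟨hconn, main ⟨o, ho⟩ ⟨o', ho'⟩ (fun h => hne (congrArg Subtype.val h))⟩

end Cfsg.Agent.S5609
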