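import Cfsg.Statements.S5622
import Mathlib
import Cfsg.Agent.Lib.Helper9.Golay
-- import your own Cfsg.Agent.* helpers here

set_option autoImplicit false
open Cfsg

namespace Cfsg.Agent.S5622

/-- Let C be a self-dual binary code of length 24 with minimum weight at least 8 (a 12-dimensional subspace of the 24-dimensional space over the field with two elements, any two of whose words have dot product zero, with no non-zero word of weight below 8 — an abstract extended binary Golay code). Then the minimum weight of C is exactly 8, and the supports of the words of weight 8 (the octads) form a Steiner system S(5, 8, 24) on the 24 coordinates: every 5 coordinates lie in the support of exactly one word of weight 8. -/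
theorem result (C : Submodule (ZMod 2) (Fin 24 → ZMod 2)) (hdim : Module.finrank (ZMod 2) C = 12) (horth : ∀ v ∈ C, ∀ w ∈ C, ∑ i, v i * w i = 0) (hmin : ∀ w ∈ C, w ≠ 0 → 8 ≤ hammingNorm w) : (∃ w ∈ C, hammingNorm w = 8) ∧ Cfsg.IsSteinerSystem 5 8 (Cfsg.wordsOfWeight (C : Set (Fin 24 → ZMod 2)) 8) := by
  classical
  have hα : Fintype.card (Fin 24) = 24 := by simp
  obtain ⟨F0, -, hF0⟩ := Finset.exists_subset_card_eq (s := (Finset.univ : Finset (Fin 24))) (n := 5)
    (by simp)
  refine ⟨?_, ?_, ?_⟩
  · obtain ⟨c, hc, h8, -⟩ := Cfsg.Agent.Lib.Helper9.Golay.exists_octad C hmin hα hdim F0 hF0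
    exact ⟨c, hc, h8⟩
  · intro b hb
    exact hb.2
  · intro s hs
    obtain ⟨c, hc, h8, hsc⟩ := Cfsg.Agent.Lib.Helper9.Golay.exists_octad C hmin hα hdim s hs
    refine ⟨Cfsg.support₂ c, ⟨⟨⟨c, hc, rfl⟩, ?_⟩, hsc⟩, ?_⟩
    · rw [← h8, Cfsg.Agent.Lib.Helper9.Golay.hammingNorm_eq]
      rfl
    · rintro b' ⟨⟨⟨c', hc', rfl⟩, hb'8⟩, hsb'⟩
      have h8' : hammingNorm c' = 8 := by
        rw [Cfsg.Agent.Lib.Helper9.Golay.hammingNorm_eq]
        exact hb'8
      rw [Cfsg.Agent.Lib.Helper9.Golay.octad_unique C hmin hc hc' h8 h8' s hs hsc hsb']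

end Cfsg.Agent.S5622
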