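import Cfsg.Statements.S5628
import Mathlib
import Cfsg.Agent.Lib.Helper9.Plane4
-- import your own Cfsg.Agent.* helpers here

set_option autoImplicit false
open Cfsg

namespace Cfsg.Agent.S5628

/-- In a projective plane of order 4 (a Steiner system S(2, 5, 21)), every permutation of the six points of a hyperoval (a 6-set met by no line in more than two points) is the restriction of exactly one automorphism of the plane. In particular the stabiliser of a hyperoval in the automorphism group is isomorphic to the symmetric group of degree 6 acting faithfully on the hyperoval. -/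
theorem result {α : Type*} [Fintype α] [DecidableEq α] (hα : Fintype.card α = 21) (L : Set (Finset α)) (hL : Cfsg.IsSteinerSystem 2 5 L) (H : Finset α) (hH : (H.card = 6 ∧ ∀ l ∈ L, (l ∩ H).card ≤ 2)) (σ : Equiv.Perm ↥H) : ∃! g : Equiv.Perm α, g ∈ Cfsg.setSystemAut L ∧ ∀ p : ↥H, g p = σ p := by
  have hconv : ∀ g : Equiv.Perm α, g ∈ Cfsg.setSystemAut L ↔ (fun b => b.image g) '' L = L :=
    fun g => Cfsg.Agent.Lib.Helper9.Plane4.mem_aut_iff L g
  obtain ⟨g, ⟨hg1, hg2⟩, hu⟩ := Cfsg.Agent.Lib.Helper9.Plane4.aut_set hα L hL.1 hL.2 H hH.1 hH.2 σ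
  refine ⟨g, ⟨(hconv g).mpr hg1, hg2⟩, ?_⟩
  rintro g' ⟨hg1', hg2'⟩
  exact hu g' ⟨(hconv g').mp hg1', hg2'⟩

end Cfsg.Agent.S5628
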