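import Cfsg.Statements.S5632
import Mathlib
import Cfsg.Agent.Lib.Helper9.Transv
-- import your own Cfsg.Agent.* helpers here

set_option autoImplicit false
open Cfsg

namespace Cfsg.Agent.S5632

/-- For a finite field F and subspaces 0 < W < U of F^n with dim W + dim U = n, the elements of SL_n(F) stabilising both W and U form a subgroup that is not maximal in SL_n(F): some subgroup lies strictly between it and SL_n(F). -/
theorem result {F : Type*} [Field F] [Fintype F] (n : ℕ) (W U : Submodule F (Fin n → F)) (hW0 : W ≠ ⊥) (hWU : W < U) (hdim : Module.finrank F W + Module.finrank F U = n) : ∃ K : Subgroup (Matrix.GeneralLinearGroup (Fin n) F), Cfsg.Geo.subspaceStabilizer W ⊓ Cfsg.Geo.subspaceStabilizer U ⊓ Cfsg.Geo.specialLinear (Fin n) F < K ∧ K < Cfsg.Geo.specialLinear (Fin n) F := by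
  classical
  have hW1 : W ≠ ⊤ := ne_top_of_lt hWU
  have hU1 : U ≠ ⊤ := by
    intro hU
    rw [hU, finrank_top, Module.finrank_fin_fun] at hdim
    have : Module.finrank F W = 0 := by omega
    exact hW0 (Submodule.finrank_eq_zero.mp this)
  obtain ⟨u, huU, huW⟩ := SetLike.exists_of_lt hWU
  obtain ⟨v, hv⟩ : ∃ v, v ∉ U := by
    by_contra hcon
    push Not at hcon
    exact hU1 (eq_top_iff.mpr fun x _ => hcon x)
  refine Cfsg.Agent.Lib.Helper9.Transv.between W U hW0 hW1 u v huU ?_ hv
  rw [Submodule.mem_sup]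
  rintro ⟨w, hw, y, hy, hwy⟩
  rw [Submodule.mem_span_singleton] at hy
  obtain ⟨c, rfl⟩ := hy
  by_cases hc : c = 0
  · rw [hc, zero_smul, add_zero] at hwy
    exact huW (hwy ▸ hw)
  · apply hv
    have : v = c⁻¹ • (u - w) := by
      rw [← hwy, add_sub_cancel_left, smul_smul, inv_mul_cancel₀ hc, one_smul]
    rw [this]
    exact U.smul_mem _ (U.sub_mem huU (hWU.le hw))

end Cfsg.Agent.S5632
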