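import Cfsg.Statements.S5633
import Mathlib
import Cfsg.Agent.Lib.Helper9.Transv
-- import your own Cfsg.Agent.* helpers here

set_option autoImplicit false
open Cfsg

namespace Cfsg.Agent.S5633

/-- For a finite field F and complementary non-zero subspaces W ⊕ U = F^n with dim W < dim U, the elements of SL_n(F) stabilising both W and U form a subgroup that is not maximal in SL_n(F): some subgroup lies strictly between it and SL_n(F). -/
theorem result {F : Type*} [Field F] [Fintype F] (n : ℕ) (W U : Submodule F (Fin n → F)) (hW0 : W ≠ ⊥) (hWU : W ⊓ U = ⊥) (hWU' : W ⊔ U = ⊤) (hdim : Module.finrank F W < Module.finrank F U) : ∃ K : Subgroup (Matrix.GeneralLinearGroup (Fin n) F), Cfsg.Geo.subspaceStabilizer W ⊓ Cfsg.Geo.subspaceStabilizer U ⊓ Cfsg.Geo.specialLinear (Fin n) F < K ∧ K < Cfsg.Geo.specialLinear (Fin n) F := by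
  classical
  have hU0 : U ≠ ⊥ := by
    intro hU
    rw [hU, finrank_bot] at hdim
    omega
  have hW1 : W ≠ ⊤ := by
    intro hW
    rw [hW, top_inf_eq] at hWU
    exact hU0 hWU
  obtain ⟨w, hw, hw0⟩ := Submodule.exists_mem_ne_zero_of_ne_bot hW0
  obtain ⟨u, hu, hu0⟩ := Submodule.exists_mem_ne_zero_of_ne_bot hU0
  refine Cfsg.Agent.Lib.Helper9.Transv.between W U hW0 hW1 u w hu ?_ ?_
  · intro h
    have hle : W ⊔ Submodule.span F {w} ≤ W :=
      sup_le le_rfl ((Submodule.span_singleton_le_iff_mem w W).mpr hw)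
    have : u ∈ W ⊓ U := ⟨hle h, hu⟩
    rw [hWU, Submodule.mem_bot] at this
    exact hu0 this
  · intro h
    have : w ∈ W ⊓ U := ⟨hw, h⟩
    rw [hWU, Submodule.mem_bot] at this
    exact hw0 this

end Cfsg.Agent.S5633
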