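import Cfsg.Statements.S5944
import Mathlib
-- import your own Cfsg.Agent.* helpers here

set_option autoImplicit false
open Cfsg

namespace Cfsg.Agent.S5944

/-- For n ≠ 4, every proper subgroup of the symmetric group S_n other than the alternating group A_n has index at least n. -/
theorem result (n : ℕ) (hn : n ≠ 4) (H : Subgroup (Equiv.Perm (Fin n))) (hH : H ≠ ⊤) (hA : H ≠ alternatingGroup (Fin n)) : n ≤ H.index := by
  classical
  have hidx1 : H.index ≠ 1 := fun h => hH (Subgroup.index_eq_one.mp h)
  have hidx0 : H.index ≠ 0 := Subgroup.index_ne_zero_of_finite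
  have hAle : alternatingGroup (Fin n) ≤ H → H.index = 2 → False := by
    intro hle h2
    apply hA
    by_cases hnt : Nontrivial (Fin n)
    · have hAi : (alternatingGroup (Fin n)).index = 2 := alternatingGroup.index_eq_two
      have hrel := Subgroup.relIndex_mul_index hle
      rw [h2, hAi] at hrel
      have h1 : (alternatingGroup (Fin n)).relIndex H = 1 := by omega
      exact le_antisymm (Subgroup.relIndex_eq_one.mp h1) hle
    · exfalso
      rw [not_nontrivial_iff_subsingleton] at hnt
      have : Subsingleton (Equiv.Perm (Fin n)) := inferInstance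
      exact hH (Subsingleton.elim _ _)
  have hidx2 : H.index ≠ 2 := by
    intro h2
    apply hAle _ h2
    rw [← Equiv.Perm.closure_three_cycles_eq_alternating, Subgroup.closure_le]
    intro c hc
    have h3 : c ^ 3 = 1 := by
      have := hc.orderOf
      rw [← this]; exact pow_orderOf_eq_one c
    have : c = (c ^ 2) ^ 2 := by
      rw [← pow_mul]
      calc c = c ^ 3 * c := by rw [h3, one_mul]
        _ = c ^ (2 * 2) := by group
    rw [SetLike.mem_coe, this]
    exact Subgroup.sq_mem_of_index_two h2 _
  by_cases h5 : 5 ≤ n
  · by_contra hlt
    push Not at hlt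
    by_cases hK : Nontrivial H.normalCore
    · have hle : alternatingGroup (Fin n) ≤ H.normalCore :=
        Equiv.Perm.alternatingGroup_le_of_normal (by simpa using h5) hK
      have hle' : alternatingGroup (Fin n) ≤ H := hle.trans (Subgroup.normalCore_le H)
      have hnt : Nontrivial (Fin n) := Fin.nontrivial_iff_two_le.mpr (by omega)
      have hAi : (alternatingGroup (Fin n)).index = 2 := alternatingGroup.index_eq_two
      have hdvd := Subgroup.index_dvd_of_le hle'
      rw [hAi] at hdvd
      have := Nat.le_of_dvd (by norm_num) hdvd
      have : H.index = 2 := by omega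
      exact hidx2 this
    · rw [not_nontrivial_iff_subsingleton] at hK
      have hbot : H.normalCore = ⊥ := Subgroup.eq_bot_of_subsingleton _
      rw [Subgroup.normalCore_eq_ker] at hbot
      have hinj : Function.Injective (MulAction.toPermHom (Equiv.Perm (Fin n)) (Equiv.Perm (Fin n) ⧸ H)) :=
        (MonoidHom.ker_eq_bot_iff _).mp hbot
      have hcard := Nat.card_le_card_of_injective _ hinj
      rw [Nat.card_perm, Nat.card_perm] at hcard
      have hq : Nat.card (Equiv.Perm (Fin n) ⧸ H) = H.index := rfl
      rw [hq] at hcard
      simp only [Nat.card_eq_fintype_card, Fintype.card_fin] at hcard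
      have : H.index.factorial < n.factorial := (Nat.factorial_lt (by omega)).mpr hlt
      omega
  · have : n ≤ 3 := by omega
    omega

end Cfsg.Agent.S5944
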